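/-
Extraspecial `F*(C(z))` of order `2 ^ 9` (S1763, helper14; port of `X7/Defs`): definitions, linear data.
-/
import Cfsg.Agent.Even.WCU
import Cfsg.Agent.Even.XTr3
import Cfsg.Agent.Cls.OrthSiegel
import Cfsg.Agent.Cls.OrthOmega
import Cfsg.Agent.Cls.OrthIsoGlue

set_option autoImplicit false

namespace CL.N9

open Cfsg Subgroup CL.Even CL.Grp CL.WC CL.Cls QuadraticMap Module
open scoped commutatorElement

abbrev V8 := Fin 8 → ZMod 2

/-! ### linear algebra in characteristic two -/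
section LA
variable {q : QuadraticForm (ZMod 2) V8}

theorem z2 (a : ZMod 2) : a = 0 ∨ a = 1 := by revert a; decide
theorem z2_ne {a : ZMod 2} : a ≠ 0 ↔ a = 1 := by revert a; decide
theorem z2_add (a : ZMod 2) : a + a = 0 := by revert a; decide
theorem oo : (1 + 1 : ZMod 2) = 0 := rfl
theorem aa (x : V8) : x + x = 0 := funext fun i => z2_add (x i)
theorem ng (x : V8) : -x = x := neg_eq_of_add_eq_zero_left (aa x)
theorem sb (x y : V8) : x - y = x + y := by rw [sub_eq_add_neg, ng]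
theorem aac (x y : V8) : x + (x + y) = y := by rw [← add_assoc, aa, zero_add]
theorem aac' (x y : V8) : x + y + y = x := by rw [add_assoc, aa, add_zero]
theorem add_eq_zero2 {x y : V8} : x + y = 0 ↔ x = y := by rw [← sb, sub_eq_zero]
theorem fr8 : finrank (ZMod 2) V8 = 8 := by simp
theorem pp (x : V8) : polar q x x = 0 := by rw [polar_self', show (2 : ZMod 2) = 0 from rfl, zero_mul]
theorem qa (x y : V8) : q (x + y) = q x + q y + polar q x y := map_add' q x y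

theorem eich2 {v u : V8} (hv : q v = 0) (hu : polar q v u = 0) (x : V8) :
    (eich q v u).1 x = x + polar q u x • v + polar q v x • u + (q u * polar q v x) • v := by
  rw [eich_app hv hu, sb, sb]

theorem refl2 {n : V8} (hn : q n = 1) (x : V8) : (refl q n).1 x = x + polar q n x • n := by
  rw [refl_app, sb, hn, inv_one, one_mul]

theorem eich_sq {v u : V8} (hv : q v = 0) (hu : polar q v u = 0) : eich q v u * eich q v u = 1 := by
  rw [eich_mul hv hu hu, aa, eich_zero_right]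

theorem eich_swap2 {u v : V8} (hu : q u = 0) (hv : q v = 0) (h : polar q u v = 0) : eich q v u = eich q u v := by
  rw [eich_swap hu hv h, ng]

theorem eich_add_self {v u : V8} (hv : q v = 0) (hu : polar q v u = 0) : eich q v (u + v) = eich q v u := by
  simpa using eich_add_smul hv hu 1

/-- a totally singular subspace is totally isotropic -/
theorem pol_of_sing {W : Submodule (ZMod 2) V8} (h : ∀ w ∈ W, q w = 0) {x y : V8} (hx : x ∈ W) (hy : y ∈ W) :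
    polar q x y = 0 := by
  have := qa (q := q) x y
  rwa [h _ (add_mem hx hy), h _ hx, h _ hy, zero_add, zero_add, eq_comm] at this

variable (nd : (polarBilin q).Nondegenerate)
include nd

theorem eq_zero_of_pol {x : V8} (h : ∀ y, polar q x y = 0) : x = 0 := nondeg_iff.1 nd x h

/-- an isometry that fixes the perp of a singular vector is trivial -/
theorem eq_one_of_perp {g : OG q} {v : V8} (hv : q v = 0) (h : ∀ x, polar q v x = 0 → g.1 x = x) : g = 1 :=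
  OG.ext' (quad2_eq_of_fix_perp (B := polarBilin q) (q := q) (S := g.1.toLinearMap) qa
    (fun _ => eq_zero_of_pol nd) (OG.map_app g) hv h)

/-- the perp of the perp of a vector -/
theorem perp_perp {v x : V8} (h : ∀ y, polar q v y = 0 → polar q x y = 0) : x = 0 ∨ x = v :=
  (forall_B_eq_zero_or (B := polarBilin q) h).imp (eq_zero_of_pol nd)
    fun k => add_eq_zero2.1 (eq_zero_of_pol nd k)

theorem eich_eq_one {v u : V8} (hv : q v = 0) (h0 : v ≠ 0) (hu : polar q v u = 0) (h : eich q v u = 1) :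
    u = 0 ∨ u = v := perp_perp nd fun y hy => by
  have k := eich2 hv hu y
  rw [h, hy, OG.one_app, zero_smul, mul_zero, zero_smul, add_zero, add_zero, left_eq_add] at k
  exact (smul_eq_zero.1 k).resolve_right h0

/-- the perp of a subspace -/
abbrev prp (q : QuadraticForm (ZMod 2) V8) (W : Submodule (ZMod 2) V8) : Submodule (ZMod 2) V8 :=
  LinearMap.BilinForm.orthogonal (polarBilin q) W

omit nd in
theorem mem_prp {W : Submodule (ZMod 2) V8} {x : V8} : x ∈ prp q W ↔ ∀ w ∈ W, polar q w x = 0 := Iff.rfl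

theorem fr_prp (W : Submodule (ZMod 2) V8) : finrank (ZMod 2) (prp q W) + finrank (ZMod 2) W = 8 := by
  rw [LinearMap.BilinForm.finrank_orthogonal nd W, fr8]
  have := W.finrank_le
  rw [fr8] at this
  omega

theorem fr_le_four {W : Submodule (ZMod 2) V8} (h : ∀ w ∈ W, q w = 0) : finrank (ZMod 2) W ≤ 4 := by
  have := Submodule.finrank_mono (show W ≤ prp q W from fun x hx w hw => pol_of_sing h hw hx)
  have := fr_prp nd W
  omega

/-- a totally singular solid is its own perp -/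
theorem mem_of_perp4 {W : Submodule (ZMod 2) V8} (h : ∀ w ∈ W, q w = 0) (h3 : finrank (ZMod 2) W = 4) {x : V8}
    (hx : ∀ w ∈ W, polar q w x = 0) : x ∈ W := by
  have k : W = prp q W := Submodule.eq_of_le_of_finrank_eq (fun x hx w hw => pol_of_sing h hw hx)
    (by have := fr_prp nd W; omega)
  rw [k]; exact hx

end LA

/-- The linear data: `X` is the image of `C(z)`, `O` the set of images of the conjugates `t ≠ z` of `z` in `Q`,
`E v` the image of `Q ∩ Q_t` and `L v` the image of `C_{Q_t}(z)` (elementary abelian, `≅ v^⊥ / E v`). -/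
structure LD (q : QuadraticForm (ZMod 2) V8) (X : Subgroup (OG q)) (O : Set V8)
    (E : V8 → Submodule (ZMod 2) V8) (L : V8 → Subgroup (OG q)) : Prop where
  nd : (polarBilin q).Nondegenerate
  ne : ∀ v ∈ O, v ≠ 0
  mE : ∀ v ∈ O, v ∈ E v
  sE : ∀ v ∈ O, ∀ e ∈ E v, q e = 0
  LX : ∀ v ∈ O, L v ≤ X
  sq : ∀ v ∈ O, ∀ g ∈ L v, g * g = 1
  fixv : ∀ v ∈ O, ∀ g ∈ L v, g.1 v = v
  actE : ∀ v ∈ O, ∀ g ∈ L v, ∀ e ∈ E v, g.1 e = e ∨ g.1 e = e + v
  perp : ∀ v ∈ O, ∀ g ∈ L v, ∀ x, polar q v x = 0 → x + g.1 x ∈ E v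
  ex : ∀ v ∈ O, ∀ w, polar q v w = 0 → ∃ g ∈ L v, ∀ x, polar q v x = 1 → x + g.1 x + w ∈ E v
  inj : ∀ v ∈ O, ∀ g ∈ L v, ∀ x, polar q v x = 1 → x + g.1 x ∈ E v → g = 1
  aO : ∀ g ∈ X, ∀ v ∈ O, g.1 v ∈ O
  aE : ∀ g ∈ X, ∀ v ∈ O, ∀ e ∈ E v, g.1 e ∈ E (g.1 v)
  aL : ∀ g ∈ X, ∀ v ∈ O, ∀ k ∈ L v, g * k * g⁻¹ ∈ L (g.1 v)
  fix : ∀ n, (∀ g ∈ X, g.1 n = n) → n = 0
  o2 : ∀ K : Subgroup (OG q), K ≤ X → (∀ g ∈ X, ∀ k ∈ K, g * k * g⁻¹ ∈ K) → (∀ k ∈ K, k ^ 4 = 1) → K = ⊥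

/-- `X` acts irreducibly -/
def Irr {q : QuadraticForm (ZMod 2) V8} (X : Subgroup (OG q)) : Prop :=
  ∀ W : Submodule (ZMod 2) V8, (∀ g ∈ X, ∀ w ∈ W, g.1 w ∈ W) → W = ⊥ ∨ W = ⊤

/-- the form of plus type (the `q0` of `Spor/O8D`) -/
def qp : QuadraticForm (ZMod 2) V8 :=
  proj 0 7 + proj 1 6 + proj 2 5 + proj 3 4

theorem qp_app (v : V8) : qp v = v 0 * v 7 + v 1 * v 6 + v 2 * v 5 + v 3 * v 4 := rfl

variable {G : Type*} [Group G]

/-- the standing hypothesis -/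
structure Hy (z : G) : Prop extends XE z (QQ z) where
  card : Nat.card (QQ z) = 512
  res : pResidual 2 G = ⊤

/-- `t` is a conjugate of `z` in `Q_z`, different from `z` -/
structure Nb (z t : G) : Prop where
  ic : IsConj z t
  mem : t ∈ QQ z
  ne : t ≠ z

/-- the orthogonal space `Q / ⟨z⟩` with the action of `C(z)` -/
structure OM (q : QuadraticForm (ZMod 2) V8) (z : G) where
  π : G → V8
  ρ : G → OG q
  π_mul : ∀ {a b}, a ∈ QQ z → b ∈ QQ z → π (a * b) = π a + π b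
  surj : ∀ v, ∃ a ∈ QQ z, π a = v
  π_zero : ∀ {a}, a ∈ QQ z → (π a = 0 ↔ a = 1 ∨ a = z)
  b_zero : ∀ {a b}, a ∈ QQ z → b ∈ QQ z → (polar q (π a) (π b) = 0 ↔ Commute a b)
  q_zero : ∀ {a}, a ∈ QQ z → (q (π a) = 0 ↔ a * a = 1)
  nd : (polarBilin q).Nondegenerate
  π_conj : ∀ {c a}, Commute c z → a ∈ QQ z → π (c * a * c⁻¹) = (ρ c).1 (π a)
  ρ_mul : ∀ {c d}, Commute c z → Commute d z → ρ (c * d) = ρ c * ρ d
  ker : ∀ {c}, Commute c z → (ρ c = 1 ↔ c ∈ QQ z)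

theorem Nb.conj {z t : G} (n : Nb z t) (g : G) : Nb (g * z * g⁻¹) (g * t * g⁻¹) :=
  ⟨ic_conj ((isConj_iff.2 ⟨g, rfl⟩).symm.trans n.ic) g, conj_mem_QQ.2 n.mem, fun e => n.ne (by simpa using e)⟩

namespace Hy
variable [Finite G] {z t : G} (h : Hy z)
include h

theorem xe : XE z (QQ z) := h.toXE

theorem conj (g : G) : Hy (g * z * g⁻¹) :=
  ⟨cj_QQ g z ▸ h.xe.conj g, by rw [← cj_QQ, ← h.card]; exact (Nat.card_congr ((MulAut.conj g).subgroupMap _).toEquiv).symm,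
    h.res⟩

theorem of (hd : IsConj z t) : Hy t := by
  obtain ⟨g, rfl⟩ := isConj_iff.1 hd
  exact h.conj g

theorem nonempty_om : ∃ q, Nonempty (OM q z) := by
  classical
  obtain ⟨M⟩ := h.xe.nonempty_xm (d := 8) h.card
  have q0 : M.q 0 = 0 := by
    have := M.hq 0 0
    rwa [add_zero, map_zero, add_zero, z2_add] at this
  let q : QuadraticForm (ZMod 2) V8 := ⟨M.q, fun a x => by rcases z2 a with rfl | rfl <;> simp [q0], M.B, M.hq⟩
  have hb : ∀ x y, polar q x y = M.B x y := fun x y => by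
    change M.q (x + y) - M.q x - M.q y = _
    rw [M.hq]; ring
  let r : centralizer ({z} : Set G) →* OG q := OG.ofRep q
    ⟨⟨fun c => M.A c, M.A_one⟩, fun c d => M.A_mul c.2 d.2⟩ fun c v => M.q_A c v
  have hr : ∀ {c} (hc : Commute c z) (v), (if hc : Commute c z then r ⟨c, cm_iff.2 hc⟩ else 1).1 v = M.A c v :=
    fun hc v => by rw [dif_pos hc]; rfl
  refine ⟨q, ⟨⟨M.π, fun c => if hc : Commute c z then r ⟨c, cm_iff.2 hc⟩ else 1, M.π_mul, M.surj,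
    fun ha => (M.π_zero ha).trans h.mem_Z, fun ha hb' => by rw [hb]; exact M.B_zero ha hb', M.q_zero,
    nondeg_iff.2 fun x hx => M.nd x fun y => hb x y ▸ hx y, fun {c a} hc ha => ?_, fun hc hd => ?_,
    fun {c} hc => ⟨fun e => M.faith (cm_iff.2 hc) fun v => by rw [← hr hc, e]; rfl, fun hq => OG.ext' fun v => ?_⟩⟩⟩⟩
  · have k := M.π_comm (cm_iff.2 hc) (inv_mem ha)
    rw [show ⁅a⁻¹, c⁆ = a⁻¹ * (c * a * c⁻¹) by rw [commutatorElement_def, inv_inv]; group,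
      M.π_mul (inv_mem ha) (h.xe.cmem hc ha), M.π_inv ha] at k
    rw [hr hc, add_left_cancel k]
  · rw [dif_pos hc, dif_pos hd, dif_pos (hc.mul_left hd), ← map_mul]; rfl
  · obtain ⟨a, ha, rfl⟩ := M.surj v
    have k := M.π_comm (cm_iff.2 hc) ha
    rw [(M.π_zero (h.Z_le (h.comm_mem ha hq))).2 (h.comm_mem ha hq), eq_comm, add_eq_zero2] at k
    rw [hr hc, ← k]; rfl

theorem zz : z * z = 1 := h.mul_self
theorem zQ : z ∈ QQ z := h.mem
theorem cz {x : G} (hx : x ∈ QQ z) : Commute x z := h.xe.cz hx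
theorem cmem {c x : G} (hc : Commute c z) (hx : x ∈ QQ z) : c * x * c⁻¹ ∈ QQ z := h.xe.cmem hc hx

/-- every subgroup of index at most two of `C(z)` contains `Q` -/
theorem le_of_it {K : Subgroup G} (hK : IT z K) : QQ z ≤ K :=
  XE.le_of_it h.res h.xe hK (n := 4) (by norm_num) h.card

variable (n : Nb z t)
include n

theorem nb : Hy t := h.of n.ic
theorem tt : t * t = 1 := (h.nb n).zz
theorem t1 : t ≠ 1 := (h.nb n).ne_one
theorem zt : Commute z t := (h.cz n.mem).symm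

theorem symm : Nb t z := by
  obtain ⟨g, rfl⟩ := isConj_iff.1 n.ic
  exact ⟨n.ic.symm, cj_QQ g z ▸ h.mem_cj_of_conj_mem n.mem, n.ne.symm⟩

/-- an element of `Q` that interchanges `t` and `z t` -/
theorem swap : ∃ x ∈ QQ z, x * t * x⁻¹ = z * t :=
  h.exists_conj_eq_mul n.mem (h.not_mem_cent n.mem (by rw [pow_two, h.tt n]) (h.t1 n) n.ne)

theorem third : Nb z (z * t) := by
  obtain ⟨x, hx, e⟩ := h.swap n
  exact ⟨e ▸ ic_conj n.ic x, mul_mem h.zQ n.mem, fun k => h.t1 n (by simpa using k)⟩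

/-- `Q ∩ Q_t` is normal in `Q` -/
theorem E_conj {x e : G} (hx : x ∈ QQ z) (he : e ∈ QQ z) (he' : e ∈ QQ t) : x * e * x⁻¹ ∈ QQ t := by
  rcases h.xe.cj_cases hx he with c | c
  · rwa [cfix c]
  · exact c ▸ mul_mem (h.symm n).mem he'

theorem E_third {e : G} (he : e ∈ QQ z) (he' : e ∈ QQ t) : e ∈ QQ (z * t) := by
  obtain ⟨x, hx, k⟩ := h.swap n
  have := (conj_mem_QQ (g := x)).2 (h.E_conj n (inv_mem hx) he he')
  rwa [k, show x * (x⁻¹ * e * x⁻¹⁻¹) * x⁻¹ = e by group] at this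

theorem E_third' {e : G} (he : e ∈ QQ t) (he' : e ∈ QQ (z * t)) : e ∈ QQ z := by
  have n' := (h.nb n).third (h.symm n)
  have := (h.nb n).E_third n' he (by rwa [← (h.zt n).eq])
  rwa [← mul_assoc, h.tt n, one_mul] at this

theorem E_sq {e : G} (he : e ∈ QQ z) (he' : e ∈ QQ t) : e * e = 1 :=
  (h.xe.sq_cases he).resolve_right fun k => ((h.nb n).xe.sq_cases he').elim
    (fun k' => h.ne_one (k.symm.trans k')) fun k' => n.ne (k'.symm.trans k)

/-- for `a ∈ C_Q(t)` there is `r ∈ C_{Q_t}(z)` with `a r ∈ Q_{z t}` -/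
theorem exists_r {a : G} (ha : a ∈ QQ z) (c : Commute a t) : ∃ r ∈ QQ t, Commute r z ∧ a * r ∈ QQ (z * t) := by
  obtain ⟨x, hx, e⟩ := (h.nb n).swap (h.symm n)
  have k : x * a * x⁻¹ ∈ QQ (z * t) := by rw [(h.zt n).eq, ← e]; exact conj_mem_QQ.2 ha
  have c1 : Commute (x * a * x⁻¹) t := (((h.nb n).cz hx).mul_left c).mul_left ((h.nb n).cz hx).inv_left
  have c2 : Commute (x * a * x⁻¹) z := by
    have := ((h.of (h.third n).ic).cz k).mul_right c1
    rwa [mul_assoc z, h.tt n, mul_one] at this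
  refine ⟨a⁻¹ * (x * a * x⁻¹), ?_, (h.cz ha).inv_left.mul_left c2, by simpa using k⟩
  have := mul_mem ((h.nb n).cmem c.inv_left hx) (inv_mem hx)
  rwa [show a⁻¹ * x * a⁻¹⁻¹ * x⁻¹ = a⁻¹ * (x * a * x⁻¹) by group] at this

/-- `[C_Q(t), C_{Q_t}(z)] ≤ Q ∩ Q_t` -/
theorem cmt_mem {a r : G} (ha : a ∈ QQ z) (c : Commute a t) (hr : r ∈ QQ t) (c' : Commute r z) :
    a * r * a⁻¹ * r⁻¹ ∈ QQ z ∧ a * r * a⁻¹ * r⁻¹ ∈ QQ t :=
  ⟨h.xe.cmt_mem c' ha, mul_mem ((h.nb n).cmem c hr) (inv_mem hr)⟩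

end Hy

open Classical in
/-- Thompson transfer: a second conjugate `y` of `z` with `s ∈ C(y) - K_y` that is centralised by `R` -/
theorem exists_fixed [Finite G] (hres : pResidual 2 G = ⊤) {z s : G} {K R : Subgroup G} (hK : IT z K)
    (hR : IsPGroup 2 R) (hRz : ∀ r ∈ R, Commute r z) (hRs : ∀ r ∈ R, Commute r s) (hs : Commute s z) (hsK : s ∉ K)
    (h2 : ∃ k, orderOf s = 2 ^ k) (hmin : ∀ t, Commute t z → orderOf t < orderOf s → t ∈ K) :
    ∃ g : G, g * z * g⁻¹ ≠ z ∧ (∀ r ∈ R, Commute r (g * z * g⁻¹)) ∧ Commute s (g * z * g⁻¹) ∧ s ∉ cj g K := by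
  have := Fintype.ofFinite G
  have hev := hK.even_card hres h2 fun t ht => hmin t (cm_iff.1 ht)
  have hc : ∀ r : R, (r : G)⁻¹ * s * r = s := fun r => by
    rw [mul_assoc, ← (hRs r r.2).eq, inv_mul_cancel_left]
  let inst : MulAction R {y // OutK z K s y} :=
    { smul := fun r y => ⟨r * y * (r : G)⁻¹, by
        obtain ⟨g, h1, h2, h3⟩ := y.2
        refine ⟨r * g, by rw [← h1]; group, mem_cent_conj_iff.mpr (by rwa [hc]), fun h4 => h3 ?_⟩
        rwa [cj_mul, mem_cj, hc] at h4⟩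
      one_smul := fun y => Subtype.ext (show ((1 : R) : G) * y * ((1 : R) : G)⁻¹ = y by simp)
      mul_smul := fun r s y => Subtype.ext (show ((r * s : R) : G) * y * ((r * s : R) : G)⁻¹ =
        r * (s * y * (s : G)⁻¹) * (r : G)⁻¹ by simp [mul_assoc]) }
  obtain ⟨⟨y, g, rfl, h1⟩, h2, h3⟩ := hR.exists_fixed_point_of_prime_dvd_card_of_fixed_point
    {y // OutK z K s y} (by rw [Nat.card_eq_fintype_card, Fintype.card_subtype]; exact hev.two_dvd)
    (a := ⟨z, 1, by simp, cm_iff.2 hs, by rwa [cj_one]⟩) fun r => Subtype.ext (cfix (hRz r r.2))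
  exact ⟨g, fun h4 => h3 (Subtype.ext h4.symm), fun r hr =>
    mul_inv_eq_iff_eq_mul.mp (congrArg Subtype.val (h2 ⟨r, hr⟩)), cm_iff.1 h1.1, h1.2⟩

theorem exists_fixed2 [Finite G] (hres : pResidual 2 G = ⊤) {z s : G} {K R : Subgroup G} (hK : IT z K)
    (hR : IsPGroup 2 R) (hRz : ∀ r ∈ R, Commute r z) (hRs : ∀ r ∈ R, Commute r s) (hs : Commute s z) (hsK : s ∉ K)
    (h2 : s * s = 1) :
    ∃ g : G, g * z * g⁻¹ ≠ z ∧ (∀ r ∈ R, Commute r (g * z * g⁻¹)) ∧ Commute s (g * z * g⁻¹) ∧ s ∉ cj g K := by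
  have ho : orderOf s = 2 := ord2 h2 fun e => hsK (e ▸ one_mem _)
  refine exists_fixed hres hK hR hRz hRs hs hsK ⟨1, ho⟩ fun t _ ht => ?_
  rw [orderOf_eq_one_iff.mp (show orderOf t = 1 by have := orderOf_pos t; omega)]
  exact one_mem _

namespace OM
variable {q : QuadraticForm (ZMod 2) V8} {z t : G} (M : OM q z)

theorem π_one : M.π 1 = 0 := (M.π_zero (one_mem _)).2 (Or.inl rfl)
theorem ρ_one : M.ρ 1 = 1 := (M.ker (Commute.one_left z)).2 (one_mem _)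
theorem π_inv {a : G} (ha : a ∈ QQ z) : M.π a⁻¹ = M.π a := by
  rw [← add_eq_zero2, ← M.π_mul (inv_mem ha) ha, inv_mul_cancel, M.π_one]
theorem ρ_inv {c : G} (hc : Commute c z) : M.ρ c⁻¹ = (M.ρ c)⁻¹ :=
  eq_inv_of_mul_eq_one_left (by rw [← M.ρ_mul hc.inv_left hc, inv_mul_cancel, M.ρ_one])
theorem ρ_conj {c d : G} (hc : Commute c z) (hd : Commute d z) : M.ρ (c * d * c⁻¹) = M.ρ c * M.ρ d * (M.ρ c)⁻¹ := by
  rw [M.ρ_mul (hc.mul_left hd) hc.inv_left, M.ρ_mul hc hd, M.ρ_inv hc]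
theorem ρ_eq {c d : G} (hc : Commute c z) (hd : Commute d z) : M.ρ c = M.ρ d ↔ c⁻¹ * d ∈ QQ z := by
  rw [← M.ker (hc.inv_left.mul_left hd), M.ρ_mul hc.inv_left hd, M.ρ_inv hc, inv_mul_eq_one]
theorem π_eq {a b : G} (ha : a ∈ QQ z) (hb : b ∈ QQ z) : M.π a = M.π b ↔ b = a ∨ b = a * z := by
  rw [← add_eq_zero2, ← M.π_inv ha, ← M.π_mul (inv_mem ha) hb, M.π_zero (mul_mem (inv_mem ha) hb),
    inv_mul_eq_one, inv_mul_eq_iff_eq_mul, eq_comm]
theorem b_one {a b : G} (ha : a ∈ QQ z) (hb : b ∈ QQ z) : polar q (M.π a) (M.π b) = 1 ↔ ¬ Commute a b := by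
  rw [← z2_ne, ne_eq, M.b_zero ha hb]
/-- the image of a commutator -/
theorem π_cmt [Finite G] (h : Hy z) {c a : G} (hc : Commute c z) (ha : a ∈ QQ z) :
    M.π (a * c * a⁻¹ * c⁻¹) = M.π a + (M.ρ c).1 (M.π a) := by
  rw [show a * c * a⁻¹ * c⁻¹ = a * (c * a⁻¹ * c⁻¹) by group, M.π_mul ha (h.cmem hc (inv_mem ha)),
    M.π_conj hc (inv_mem ha), M.π_inv ha]

/-- the action as a homomorphism -/
def hom : centralizer ({z} : Set G) →* OG q :=
  ⟨⟨fun c => M.ρ c, M.ρ_one⟩, fun c d => M.ρ_mul (cm_iff.1 c.2) (cm_iff.1 d.2)⟩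

/-- the image of `C(z)` in the orthogonal group -/
def X : Subgroup (OG q) := M.hom.range

theorem mem_X {g : OG q} : g ∈ M.X ↔ ∃ c, Commute c z ∧ M.ρ c = g :=
  ⟨fun ⟨c, e⟩ => ⟨c, cm_iff.1 c.2, e⟩, fun ⟨c, hc, e⟩ => ⟨⟨c, cm_iff.2 hc⟩, e⟩⟩
theorem ρ_mem {c : G} (hc : Commute c z) : M.ρ c ∈ M.X := M.mem_X.2 ⟨c, hc, rfl⟩

theorem ker_hom : M.hom.ker = (QQ z).subgroupOf (centralizer {z}) :=
  Subgroup.ext fun c => M.ker (cm_iff.1 c.2)

/-- `C(z) / Q ≃ X` -/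
theorem quot (N : Subgroup (centralizer ({z} : Set G))) [N.Normal] (hN : N.map (centralizer {z}).subtype = QQ z) :
    Nonempty (centralizer ({z} : Set G) ⧸ N ≃* M.X) := by
  have : N = M.hom.ker := by
    rw [ker_hom, ← hN, subgroupOf, comap_map_eq_self_of_injective (subtype_injective _)]
  exact ⟨(QuotientGroup.quotientMulEquivOfEq this).trans (QuotientGroup.quotientKerEquivRange _)⟩

/-- the subgroup of `C(z)` of elements whose image lies in `L` -/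
def pre (L : Subgroup (OG q)) : Subgroup G := (L.comap M.hom).map (centralizer {z}).subtype

theorem mem_pre {L : Subgroup (OG q)} {c : G} : c ∈ M.pre L ↔ Commute c z ∧ M.ρ c ∈ L :=
  ⟨by rintro ⟨c, hc, rfl⟩; exact ⟨cm_iff.1 c.2, hc⟩, fun ⟨h1, h2⟩ => ⟨⟨c, cm_iff.2 h1⟩, h2, rfl⟩⟩

theorem it_pre {L : Subgroup (OG q)} (hL : ∀ g ∈ M.X, ∀ k ∈ M.X, g * k ∈ L ↔ (g ∈ L ↔ k ∈ L)) :
    IT z (M.pre L) := ⟨fun _ hc => cm_iff.2 (M.mem_pre.1 hc).1, fun a ha b hb => by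
  have ha := cm_iff.1 ha
  have hb := cm_iff.1 hb
  simp only [mem_pre, ha, hb, ha.mul_left hb, true_and, M.ρ_mul ha hb]
  exact hL _ (M.ρ_mem ha) _ (M.ρ_mem hb)⟩

/-- the images of the conjugates of `z` in `Q` -/
def O : Set V8 := {v | ∃ t, Nb z t ∧ M.π t = v}

/-- the image of `Q ∩ Q_t` for `π t = v` -/
def E (v : V8) : Submodule (ZMod 2) V8 where
  carrier := {x | ∀ t, Nb z t → M.π t = v → ∃ e ∈ QQ z, e ∈ QQ t ∧ M.π e = x}
  zero_mem' _ _ _ := ⟨1, one_mem _, one_mem _, M.π_one⟩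
  add_mem' h1 h2 t n e := by
    obtain ⟨a, a1, a2, rfl⟩ := h1 t n e
    obtain ⟨b, b1, b2, rfl⟩ := h2 t n e
    exact ⟨a * b, mul_mem a1 b1, mul_mem a2 b2, M.π_mul a1 b1⟩
  smul_mem' c x h1 t n e := by
    rcases z2 c with rfl | rfl
    exacts [⟨1, one_mem _, one_mem _, by simp [M.π_one]⟩, by simpa using h1 t n e]

/-- the image of `C_{Q_t}(z)` for `π t = v` -/
def L (v : V8) : Subgroup (OG q) where
  carrier := {g | ∀ t, Nb z t → M.π t = v → ∃ r ∈ QQ t, Commute r z ∧ M.ρ r = g}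
  one_mem' _ _ _ := ⟨1, one_mem _, Commute.one_left z, M.ρ_one⟩
  mul_mem' h1 h2 t n e := by
    obtain ⟨a, a1, a2, rfl⟩ := h1 t n e
    obtain ⟨b, b1, b2, rfl⟩ := h2 t n e
    exact ⟨a * b, mul_mem a1 b1, a2.mul_left b2, M.ρ_mul a2 b2⟩
  inv_mem' h1 t n e := by
    obtain ⟨a, a1, a2, rfl⟩ := h1 t n e
    exact ⟨a⁻¹, inv_mem a1, a2.inv_left, M.ρ_inv a2⟩

/-- change of coordinates along an isometry -/
def tr {q' : QuadraticForm (ZMod 2) V8} (e : V8 ≃ₗ[ZMod 2] V8) (he : ∀ v, q' (e v) = q v) : OM q' z where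
  π a := e (M.π a)
  ρ c := OG.congr e he (M.ρ c)
  π_mul ha hb := by rw [M.π_mul ha hb, map_add]
  surj v := by
    obtain ⟨a, ha, k⟩ := M.surj (e.symm v)
    exact ⟨a, ha, by rw [k, e.apply_symm_apply]⟩
  π_zero ha := by rw [e.map_eq_zero_iff, M.π_zero ha]
  b_zero ha hb := by
    rw [← M.b_zero ha hb, polar, polar, ← map_add, he, he, he]
  q_zero ha := by rw [he, M.q_zero ha]
  nd := nondeg_iff.2 fun x hx => by
    obtain ⟨x, rfl⟩ := e.surjective x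
    rw [nondeg_iff.1 M.nd x fun y => by
      have := hx (e y)
      rwa [polar, ← map_add, he, he, he] at this, map_zero]
  π_conj hc ha := by rw [M.π_conj hc ha, OG.congr_app, e.symm_apply_apply]
  ρ_mul hc hd := by rw [M.ρ_mul hc hd, map_mul]
  ker hc := by rw [MulEquiv.map_eq_one_iff, M.ker hc]

section tr
variable {q' : QuadraticForm (ZMod 2) V8} (e : V8 ≃ₗ[ZMod 2] V8) (he : ∀ v, q' (e v) = q v)

theorem tr_π (a : G) : (M.tr e he).π a = e (M.π a) := rfl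
theorem tr_ρ (c : G) : (M.tr e he).ρ c = OG.congr e he (M.ρ c) := rfl

theorem tr_X {g : OG q} : OG.congr e he g ∈ (M.tr e he).X ↔ g ∈ M.X := by
  rw [mem_X, mem_X]
  exact exists_congr fun c => and_congr_right fun _ => (OG.congr e he).injective.eq_iff

theorem tr_O {v : V8} : e v ∈ (M.tr e he).O ↔ v ∈ M.O :=
  exists_congr fun _ => and_congr_right fun _ => e.injective.eq_iff

theorem tr_E {v x : V8} : e x ∈ (M.tr e he).E (e v) ↔ x ∈ M.E v :=
  forall_congr' fun _ => forall_congr' fun _ => imp_congr e.injective.eq_iff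
    (exists_congr fun _ => and_congr_right fun _ => and_congr_right fun _ => e.injective.eq_iff)

theorem tr_L {v : V8} {g : OG q} : OG.congr e he g ∈ (M.tr e he).L (e v) ↔ g ∈ M.L v :=
  forall_congr' fun _ => forall_congr' fun _ => imp_congr e.injective.eq_iff
    (exists_congr fun _ => and_congr_right fun _ => and_congr_right fun _ => (OG.congr e he).injective.eq_iff)

end tr

/-- transport along a conjugation -/
def conj (g : G) : OM q (g * z * g⁻¹) where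
  π a := M.π (g⁻¹ * a * g)
  ρ c := M.ρ (g⁻¹ * c * g)
  π_mul ha hb := by
    rw [← cj_QQ, mem_cj] at ha hb
    rw [← M.π_mul ha hb]; congr 1; group
  surj v := by
    obtain ⟨a, ha, rfl⟩ := M.surj v
    exact ⟨g * a * g⁻¹, conj_mem_QQ.2 ha, by congr 1; group⟩
  π_zero {a} ha := by
    rw [← cj_QQ, mem_cj] at ha
    rw [M.π_zero ha]
    refine or_congr ⟨fun e => by rw [show a = g * (g⁻¹ * a * g) * g⁻¹ by group, e]; group, fun e => by simp [e]⟩ ⟨fun e => by rw [← e]; group, fun e => by rw [e]; group⟩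
  b_zero {a b} ha hb := by
    rw [← cj_QQ, mem_cj] at ha hb
    rw [M.b_zero ha hb]
    exact ⟨fun c => by simpa [mul_assoc] using c.map (MulAut.conj g), fun c => c.map (MulAut.conj g).symm⟩
  q_zero {a} ha := by
    rw [← cj_QQ, mem_cj] at ha
    rw [M.q_zero ha, show g⁻¹ * a * g * (g⁻¹ * a * g) = g⁻¹ * (a * a) * g⁻¹⁻¹ by group, conj_eq_one_iff]
  nd := M.nd
  π_conj hc ha := by
    rw [← cj_QQ, mem_cj] at ha
    rw [← M.π_conj (cm_iff.1 (mem_cent_conj_iff.1 (cm_iff.2 hc))) ha]; congr 1; group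
  ρ_mul hc hd := by
    rw [← M.ρ_mul (cm_iff.1 (mem_cent_conj_iff.1 (cm_iff.2 hc))) (cm_iff.1 (mem_cent_conj_iff.1 (cm_iff.2 hd)))]
    congr 1; group
  ker hc := by rw [M.ker (cm_iff.1 (mem_cent_conj_iff.1 (cm_iff.2 hc))), ← cj_QQ, mem_cj]

theorem conj_X (g : G) : (M.conj g).X = M.X := Subgroup.ext fun k => by
  rw [mem_X, mem_X]
  exact ⟨fun ⟨c, hc, e⟩ => ⟨_, cm_iff.1 (mem_cent_conj_iff.1 (cm_iff.2 hc)), e⟩, fun ⟨c, hc, e⟩ =>
    ⟨g * c * g⁻¹, cm_iff.1 (mem_cent_conj_iff.2 (cm_iff.2 (by simpa [mul_assoc] using hc))), by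
      rw [← e]; exact congrArg M.ρ (by group)⟩⟩

theorem conj_O (g : G) : (M.conj g).O = M.O := Set.ext fun v =>
  ⟨fun ⟨t, n, e⟩ => ⟨g⁻¹ * t * g, by simpa [mul_assoc] using n.conj g⁻¹, e⟩,
    fun ⟨t, n, e⟩ => ⟨g * t * g⁻¹, n.conj g, by rw [← e]; exact congrArg M.π (by group)⟩⟩

theorem conj_pre (g : G) (L : Subgroup (OG q)) : (M.conj g).pre L = cj g (M.pre L) := Subgroup.ext fun c => by
  rw [mem_cj, mem_pre, mem_pre, ← cm_iff, mem_cent_conj_iff, cm_iff]; rfl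

theorem card_cent [Finite G] (h : Hy z) : Nat.card (centralizer ({z} : Set G)) = 512 * Nat.card M.X := by
  rw [card_eq_card_quotient_mul_card_subgroup M.hom.ker, mul_comm,
    Nat.card_congr (QuotientGroup.quotientKerEquivRange M.hom).toEquiv, M.ker_hom,
    Nat.card_congr (subgroupOfEquivOfLe fun x hx => cm_iff.2 (h.cz hx)).toEquiv, h.card]
  rfl

variable [Finite G] (h : Hy z)
include h

theorem π_z : M.π z = 0 := (M.π_zero h.zQ).2 (Or.inr rfl)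
theorem π_zmul {a : G} (ha : a ∈ QQ z) : M.π (z * a) = M.π a := by rw [M.π_mul h.zQ ha, M.π_z h, zero_add]
theorem ρ_Q {a : G} (ha : a ∈ QQ z) : M.ρ a = 1 := (M.ker (h.cz ha)).2 ha

/-- no nonzero vector is fixed -/
theorem fix {n : V8} (hn : ∀ g ∈ M.X, g.1 n = n) : n = 0 := by
  obtain ⟨a, ha, rfl⟩ := M.surj n
  have k : ∀ c, Commute c z → Commute c a ∨ c * a * c⁻¹ = a * z := fun c hc =>
    ((M.π_eq ha (h.cmem hc ha)).1 (by rw [M.π_conj hc ha, hn _ (M.ρ_mem hc)])).imp_left mul_inv_eq_iff_eq_mul.1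
  have nc : ∀ {c}, c * a * c⁻¹ = a * z → ¬ Commute c a := fun e c => h.ne_one (by rwa [cfix c, left_eq_mul] at e)
  have hK : IT z (centralizer {z} ⊓ centralizer {a}) := ⟨inf_le_left, fun c hc d hd => by
    simp only [mem_inf, hc, hd, mul_mem hc hd, true_and, cm_iff]
    rcases k c (cm_iff.1 hc) with c1 | c1 <;> rcases k d (cm_iff.1 hd) with d1 | d1
    · exact iff_of_true (c1.mul_left d1) (iff_of_true c1 d1)
    · refine iff_of_false (fun e => nc d1 (by simpa using c1.inv_left.mul_left e)) fun e => nc d1 (e.1 c1)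
    · refine iff_of_false (fun e => nc c1 (by simpa using e.mul_left d1.inv_left)) fun e => nc c1 (e.2 d1)
    · refine iff_of_true (mul_inv_eq_iff_eq_mul.1 ?_) (iff_of_false (nc c1) (nc d1))
      calc c * d * a * (c * d)⁻¹ = c * (d * a * d⁻¹) * c⁻¹ := by group
        _ = c * a * c⁻¹ * (c * z * c⁻¹) := by rw [d1]; group
        _ = a := by rw [c1, cfix (cm_iff.1 hc), mul_assoc, h.zz, mul_one]⟩
  exact (M.π_zero ha).2 (h.xe.central ha fun y hy => cm_iff.1 (h.le_of_it hK hy).2)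

/-- `O₂(X) = 1` -/
theorem o2 {K : Subgroup (OG q)} (hK : K ≤ M.X) (hn : ∀ g ∈ M.X, ∀ k ∈ K, g * k * g⁻¹ ∈ K)
    (h4 : ∀ k ∈ K, k ^ 4 = 1) : K = ⊥ := by
  have hP : M.pre K ≤ QQ z := le_pCoreOf (fun c hc => cm_iff.2 (M.mem_pre.1 hc).1)
    (fun c hc => mem_normalizer_fintype fun x hx => by
      obtain ⟨h1, h2⟩ := M.mem_pre.1 hx
      have hc := cm_iff.1 hc
      exact M.mem_pre.2 ⟨(hc.mul_left h1).mul_left hc.inv_left, M.ρ_conj hc h1 ▸ hn _ (M.ρ_mem hc) _ h2⟩)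
    fun c => by
      obtain ⟨h1, h2⟩ := M.mem_pre.1 c.2
      have k : (c : G) ^ 4 ∈ QQ z := (M.ker (h1.pow_left 4)).1
        ((map_pow M.hom ⟨c, cm_iff.2 h1⟩ 4).trans (h4 _ h2))
      refine ⟨4, Subtype.ext ?_⟩
      have e : (c : G) ^ 2 ^ 4 = (c : G) ^ 4 * c ^ 4 * ((c : G) ^ 4 * c ^ 4) := by
        simp only [← pow_add]; rfl
      rw [coe_pow, e]
      rcases h.xe.sq_cases k with k | k <;> simp [k, h.zz]
  refine (eq_bot_iff_forall _).2 fun k hk => ?_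
  obtain ⟨c, hc, rfl⟩ := M.mem_X.1 (hK hk)
  exact M.ρ_Q h (hP (M.mem_pre.2 ⟨hc, hk⟩))

variable (n : Nb z t)
include n

theorem q_t : q (M.π t) = 0 := (M.q_zero n.mem).2 (h.tt n)
theorem t_ne : M.π t ≠ 0 := fun e => ((M.π_zero n.mem).1 e).elim (h.t1 n) n.ne

theorem nb_cases {s : G} (m : Nb z s) (e : M.π s = M.π t) : s = t ∨ s = z * t :=
  ((M.π_eq n.mem m.mem).1 e.symm).imp_right fun k => k.trans (h.zt n).eq.symm

theorem mem_E {e : G} (he : e ∈ QQ z) : M.π e ∈ M.E (M.π t) ↔ e ∈ QQ t := by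
  refine ⟨fun k => ?_, fun k s m e1 => ⟨e, he, ?_, rfl⟩⟩
  · obtain ⟨a, a1, a2, a3⟩ := k t n rfl
    rcases (M.π_eq a1 he).1 a3 with rfl | rfl
    exacts [a2, mul_mem a2 (h.symm n).mem]
  · rcases M.nb_cases h n m e1 with rfl | rfl
    exacts [k, h.E_third n he k]

theorem mem_L {g : OG q} : g ∈ M.L (M.π t) ↔ ∃ r ∈ QQ t, Commute r z ∧ M.ρ r = g := by
  refine ⟨fun k => k t n rfl, fun ⟨r, r1, r2, r3⟩ s m e1 => ?_⟩
  rcases M.nb_cases h n m e1 with rfl | rfl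
  · exact ⟨r, r1, r2, r3⟩
  · obtain ⟨x, hx, e⟩ := h.swap n
    exact ⟨x * r * x⁻¹, e ▸ conj_mem_QQ.2 r1, ((h.cz hx).mul_left r2).mul_left (h.cz hx).inv_left,
      by rw [M.ρ_conj (h.cz hx) r2, M.ρ_Q h hx, r3, one_mul, inv_one, mul_one]⟩

/-- if `a r ∈ Q_{z t}`, then `[x, r] ≡ a` modulo `Q ∩ Q_t` for `x ∈ Q - C(t)` -/
theorem theta {a r : G} (ha : a ∈ QQ z) (c : Commute a t) (hr : r ∈ QQ t) (c' : Commute r z)
    (k : a * r ∈ QQ (z * t)) {x : V8} (hx : polar q (M.π t) x = 1) :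
    x + (M.ρ r).1 x + M.π a ∈ M.E (M.π t) := by
  obtain ⟨x, xq, rfl⟩ := M.surj x
  have e := h.xe.cj_of_not xq n.mem fun c => (M.b_one n.mem xq).1 hx c.symm
  have e' : x * (z * t) * x⁻¹ = t := by
    rw [show x * (z * t) * x⁻¹ = x * z * x⁻¹ * (x * t * x⁻¹) by group, e, cfix (h.cz xq), ← mul_assoc, h.zz, one_mul]
  have k1 := mul_mem ((conj_mem_QQ (g := x)).2 k) (e'.symm ▸ inv_mem hr)
  rw [e', show x * (a * r) * x⁻¹ * r⁻¹ = x * a * x⁻¹ * (x * r * x⁻¹ * r⁻¹) by group] at k1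
  have m1 := h.cmem (h.cz xq) ha
  have m2 := h.xe.cmt_mem c' xq
  have := (M.mem_E h n (mul_mem m1 m2)).2 k1
  rwa [M.π_mul m1 m2, M.π_cmt h c' xq, M.π_conj (h.cz xq) ha, M.ρ_Q h xq, OG.one_app, add_comm] at this

theorem E_sing {e : V8} (he : e ∈ M.E (M.π t)) : q e = 0 := by
  obtain ⟨a, a1, a2, rfl⟩ := he t n rfl
  exact (M.q_zero a1).2 (h.E_sq n a1 a2)

theorem t_mem : M.π t ∈ M.E (M.π t) := (M.mem_E h n n.mem).2 (h.nb n).zQ

variable {r : G} (hr : r ∈ QQ t) (c : Commute r z)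
include hr c

theorem ρ_sq : M.ρ r * M.ρ r = 1 := by
  rw [← M.ρ_mul c c]
  rcases (h.nb n).xe.sq_cases hr with e | e <;> rw [e]
  exacts [M.ρ_one, M.ρ_Q h n.mem]

theorem ρ_inj {x : V8} (hx : polar q (M.π t) x = 1) (k : x + (M.ρ r).1 x ∈ M.E (M.π t)) : M.ρ r = 1 := by
  obtain ⟨x, xq, rfl⟩ := M.surj x
  have e := h.xe.cj_of_not xq n.mem fun c => (M.b_one n.mem xq).1 hx c.symm
  rw [← M.π_cmt h c xq, M.mem_E h n (h.xe.cmt_mem c xq), mul_mem_cancel_right (inv_mem hr)] at k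
  have := h.cmem (h.cz xq).inv_left (h.E_third' n k (e ▸ conj_mem_QQ.2 hr))
  rw [show x⁻¹ * (x * r * x⁻¹) * x⁻¹⁻¹ = r by group] at this
  exact M.ρ_Q h this

end OM

namespace OM
variable {q : QuadraticForm (ZMod 2) V8} {z t : G} [Finite G] (M : OM q z) (h : Hy z)
include h

theorem ld : LD q M.X M.O M.E M.L := by
  have cn : ∀ {c t}, Commute c z → Nb z t → Nb z (c * t * c⁻¹) := fun {c t} hc n => by
    simpa only [cfix hc] using n.conj c
  refine ⟨M.nd, ?_, ?_, ?_, ?_, ?_, ?_, ?_, ?_, ?_, ?_, ?_, ?_, ?_, fun _ => M.fix h, fun _ => M.o2 h⟩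
  · rintro _ ⟨t, n, rfl⟩; exact M.t_ne h n
  · rintro _ ⟨t, n, rfl⟩; exact M.t_mem h n
  · rintro _ ⟨t, n, rfl⟩ e; exact M.E_sing h n
  · rintro _ ⟨t, n, rfl⟩ g hg
    obtain ⟨r, -, r2, rfl⟩ := (M.mem_L h n).1 hg
    exact M.ρ_mem r2
  · rintro _ ⟨t, n, rfl⟩ g hg
    obtain ⟨r, r1, r2, rfl⟩ := (M.mem_L h n).1 hg
    exact M.ρ_sq h n r1 r2
  · rintro _ ⟨t, n, rfl⟩ g hg
    obtain ⟨r, r1, r2, rfl⟩ := (M.mem_L h n).1 hg
    rw [← M.π_conj r2 n.mem, cfix ((h.nb n).cz r1)]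
  · rintro _ ⟨t, n, rfl⟩ g hg e he
    obtain ⟨r, r1, r2, rfl⟩ := (M.mem_L h n).1 hg
    obtain ⟨a, a1, a2, rfl⟩ := he t n rfl
    rw [← M.π_conj r2 a1]
    rcases (h.nb n).xe.cj_cases r1 a2 with c | c
    · exact .inl (by rw [cfix c])
    · exact .inr (by rw [c, M.π_mul n.mem a1, add_comm])
  · rintro _ ⟨t, n, rfl⟩ g hg y hy
    obtain ⟨r, r1, r2, rfl⟩ := (M.mem_L h n).1 hg
    obtain ⟨a, ha, rfl⟩ := M.surj y
    have k := h.cmt_mem n ha ((M.b_zero n.mem ha).1 hy).symm r1 r2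
    rw [← M.π_cmt h r2 ha, M.mem_E h n k.1]
    exact k.2
  · rintro _ ⟨t, n, rfl⟩ w hw
    obtain ⟨a, ha, rfl⟩ := M.surj w
    have c := ((M.b_zero n.mem ha).1 hw).symm
    obtain ⟨r, r1, r2, r3⟩ := h.exists_r n ha c
    exact ⟨_, (M.mem_L h n).2 ⟨r, r1, r2, rfl⟩, fun x hx => M.theta h n ha c r1 r2 r3 hx⟩
  · rintro _ ⟨t, n, rfl⟩ g hg x hx k
    obtain ⟨r, r1, r2, rfl⟩ := (M.mem_L h n).1 hg
    exact M.ρ_inj h n r1 r2 hx k
  · rintro g hg _ ⟨t, n, rfl⟩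
    obtain ⟨c, hc, rfl⟩ := M.mem_X.1 hg
    exact ⟨_, cn hc n, M.π_conj hc n.mem⟩
  · rintro g hg _ ⟨t, n, rfl⟩ e he
    obtain ⟨c, hc, rfl⟩ := M.mem_X.1 hg
    obtain ⟨a, a1, a2, rfl⟩ := he t n rfl
    rw [← M.π_conj hc a1, ← M.π_conj hc n.mem, M.mem_E h (cn hc n) (h.cmem hc a1)]
    exact conj_mem_QQ.2 a2
  · rintro g hg _ ⟨t, n, rfl⟩ k hk
    obtain ⟨c, hc, rfl⟩ := M.mem_X.1 hg
    obtain ⟨r, r1, r2, rfl⟩ := (M.mem_L h n).1 hk
    rw [← M.π_conj hc n.mem, M.mem_L h (cn hc n)]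
    exact ⟨c * r * c⁻¹, conj_mem_QQ.2 r1, (hc.mul_left r2).mul_left hc.inv_left, M.ρ_conj hc r2⟩

theorem card_E (n : Nb z t) : Nat.card (QQ z ⊓ QQ t : Subgroup G) = 2 * 2 ^ finrank (ZMod 2) (M.E (M.π t)) := by
  let f : (QQ z ⊓ QQ t : Subgroup G) →* Multiplicative (M.E (M.π t)) :=
    ⟨⟨fun e => Multiplicative.ofAdd ⟨M.π e, (M.mem_E h n e.2.1).2 e.2.2⟩, Subtype.ext M.π_one⟩,
      fun a b => Subtype.ext (M.π_mul a.2.1 b.2.1)⟩
  have f1 : f.range = ⊤ := MonoidHom.range_eq_top.2 fun x => by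
    obtain ⟨a, a1, a2, e⟩ := (Multiplicative.toAdd x).2 t n rfl
    exact ⟨⟨a, a1, a2⟩, Subtype.ext e⟩
  have f2 : f.ker = (zpowers z).subgroupOf _ := Subgroup.ext fun e => by
    rw [mem_subgroupOf, h.mem_Z, ← M.π_zero e.2.1]
    exact Subtype.ext_iff
  have k := card_eq_card_quotient_mul_card_subgroup f.ker
  rw [Nat.card_congr (QuotientGroup.quotientKerEquivRange f).toEquiv, f1, f2, card_top,
    Nat.card_congr (subgroupOfEquivOfLe (zpowers_le_of_mem (mem_inf.2 ⟨h.zQ, (h.symm n).mem⟩))).toEquiv,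
    Nat.card_zpowers, h.ord, Nat.card_congr Multiplicative.toAdd, Module.natCard_eq_pow_finrank (K := ZMod 2) (V := M.E (M.π t)),
    Nat.card_zmod] at k
  rw [k, mul_comm]

end OM

end CL.N9
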