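/-
Extraspecial `F*(C(z))` of order `2 ^ 9` (S1763, helper14): the statements of the cases.
-/
import Cfsg.Agent.N9.Defs
import Cfsg.Statements.S1763

set_option autoImplicit false

namespace CL.N9

open Cfsg Subgroup CL.Even CL.Grp CL.WC CL.Cls QuadraticMap Module

universe u

/-- the conclusion of S1763 -/
def Concl (G : Type u) [Group G] : Prop :=
    (∃ (F : Type) (_ : Field F) (_ : Fintype F), Fintype.card F = 2 ∧ (Nonempty (G ≃* Matrix.ProjectiveSpecialLinearGroup (Fin 6) F) ∨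
        Nonempty (G ≃* Cfsg.POmega F (Cfsg.quadFormPlus 4 F)) ∨
        (∃ a b : F, (∀ z₁ z₂ : F, z₁ ^ 2 + a * z₁ * z₂ + b * z₂ ^ 2 = 0 → z₁ = 0 ∧ z₂ = 0) ∧
          Nonempty (G ≃* Cfsg.POmega F (Cfsg.quadFormMinus 3 F a b))))) ∨
      (∃ (F : Type) (_ : Field F) (_ : Fintype F), Fintype.card F = 4 ∧ Nonempty (G ≃* Cfsg.PSU 6 F 2)) ∨
      (∃ (K : Type) (_ : Field K) (_ : Fintype K), Fintype.card K = 8 ∧ Nonempty (G ≃* ↥(Cfsg.Lie.twistedD4 K 2))) ∨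
      (∃ (F : Type) (_ : Field F) (_ : Fintype F), Fintype.card F = 3 ∧ Nonempty (G ≃* Cfsg.POmega F (Cfsg.quadFormPlus 4 F))) ∨
      Cfsg.Spor.IsoCo1 G ∨ Cfsg.Spor.IsoCo2 G ∨ Cfsg.Spor.IsoTh G ∨ Cfsg.Spor.IsoHN G

/-- an isometry of `qp` from a matrix and its inverse; the three hypotheses are proved by `decide +kernel` -/
def mkO (m m' : Matrix (Fin 8) (Fin 8) (ZMod 2)) (h : m * m' = 1) (h' : m' * m = 1)
    (hq : ∀ v : V8, (m.mulVec v) 0 * (m.mulVec v) 7 + (m.mulVec v) 1 * (m.mulVec v) 6 +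
      (m.mulVec v) 2 * (m.mulVec v) 5 + (m.mulVec v) 3 * (m.mulVec v) 4 =
      v 0 * v 7 + v 1 * v 6 + v 2 * v 5 + v 3 * v 4) : OG qp :=
  ⟨LinearEquiv.ofLinear (Matrix.toLin' m) (Matrix.toLin' m') (by rw [← Matrix.toLin'_mul, h, Matrix.toLin'_one])
    (by rw [← Matrix.toLin'_mul, h', Matrix.toLin'_one]), hq⟩

theorem mkO_app (m m' : Matrix (Fin 8) (Fin 8) (ZMod 2)) (h h' hq) (v : V8) :
    (mkO m m' h h' hq).1 v = m.mulVec v := rfl

/-- The data of a configuration: the points `P`, generators `gH` of the group generated by all `L v`, generators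
`gN` of the stabiliser of the labelled configuration, a base point `v0` with `E v0` and `L v0`. -/
structure Dat where
  P : List V8
  gH : List (OG qp)
  gN : List (OG qp)
  v0 : V8
  E0 : List V8
  l : List (OG qp)

/-- the linear data form the configuration `D` -/
structure Cfg (D : Dat) (X : Subgroup (OG qp)) (O : Set V8) (E : V8 → Submodule (ZMod 2) V8)
    (L : V8 → Subgroup (OG qp)) : Prop where
  O_iff : ∀ v, v ∈ O ↔ v ∈ D.P
  H_le : ∀ g ∈ D.gH, g ∈ X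
  le_N : X ≤ closure {g | g ∈ D.gN}
  v0 : D.v0 ∈ D.P
  E_eq : E D.v0 = Submodule.span (ZMod 2) {x | x ∈ D.E0}
  L_eq : L D.v0 = closure {g | g ∈ D.l}

/-- the group-theoretic statement of a configuration -/
def Case (D : Dat) : Prop := ∀ (G : Type u) [Group G] [Finite G] [IsSimpleGroup G], ¬ IsMulCommutative G →
  ∀ (z : G), Hy z → ∀ M : OM qp z, Cfg D M.X M.O M.E M.L → Concl G

/-- `L v` acts trivially on `v^⊥ / v` -/
def T0 {q : QuadraticForm (ZMod 2) V8} (L : V8 → Subgroup (OG q)) (v : V8) : Prop :=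
  ∀ g ∈ L v, ∀ x, polar q v x = 0 → g.1 x = x ∨ g.1 x = x + v

/-- transport of the data along an isometry -/
def trX {q q' : QuadraticForm (ZMod 2) V8} (e : V8 ≃ₗ[ZMod 2] V8) (he : ∀ v, q' (e v) = q v)
    (X : Subgroup (OG q)) : Subgroup (OG q') := X.map (OG.congr e he).toMonoidHom

/-- The linear classification when some `L v` acts non-trivially on `v^⊥ / v`. -/
def LinDet (Ds : List Dat) : Prop := ∀ (q : QuadraticForm (ZMod 2) V8) (X : Subgroup (OG q)) (O : Set V8)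
  (E : V8 → Submodule (ZMod 2) V8) (L : V8 → Subgroup (OG q)), LD q X O E L → Irr X → ∀ v ∈ O, ¬ T0 L v →
  ∃ (e : V8 ≃ₗ[ZMod 2] V8) (he : ∀ v, qp (e v) = q v), ∃ D ∈ Ds,
    Cfg D (trX e he X) (e '' O) (fun w => (E (e.symm w)).map e.toLinearMap) (fun w => trX e he (L (e.symm w)))

/-- the orthogonal case -/
structure Orth (q : QuadraticForm (ZMod 2) V8) (X : Subgroup (OG q)) (O : Set V8)
    (E : V8 → Submodule (ZMod 2) V8) (L : V8 → Subgroup (OG q)) : Prop where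
  O_iff : ∀ v, v ∈ O ↔ q v = 0 ∧ v ≠ 0
  E_eq : ∀ v ∈ O, ∀ e ∈ E v, e = 0 ∨ e = v
  L_iff : ∀ v ∈ O, ∀ g, g ∈ L v ↔ ∃ u, polar q v u = 0 ∧ g = eich q v u

/-- two totally singular solids that are interchanged -/
structure CC (q : QuadraticForm (ZMod 2) V8) (X : Subgroup (OG q)) (O : Set V8)
    (E : V8 → Submodule (ZMod 2) V8) (L : V8 → Subgroup (OG q)) (W₁ W₂ : Submodule (ZMod 2) V8) : Prop where
  s₁ : ∀ w ∈ W₁, q w = 0
  s₂ : ∀ w ∈ W₂, q w = 0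
  r₁ : finrank (ZMod 2) W₁ = 4
  r₂ : finrank (ZMod 2) W₂ = 4
  inf : ∀ w ∈ W₁, w ∈ W₂ → w = 0
  sup : ∀ x, ∃ w ∈ W₁, x + w ∈ W₂
  O_iff : ∀ v, v ∈ O ↔ v ≠ 0 ∧ (v ∈ W₁ ∨ v ∈ W₂)
  E₁ : ∀ v ∈ O, v ∈ W₁ → E v = W₁
  E₂ : ∀ v ∈ O, v ∈ W₂ → E v = W₂
  tv : ∀ a ∈ W₁, ∀ f ∈ W₂, polar q a f = 0 → eich q a f ∈ X
  act : ∀ g ∈ X, ((∀ w ∈ W₁, g.1 w ∈ W₁) ∧ ∀ w ∈ W₂, g.1 w ∈ W₂) ∨ ((∀ w ∈ W₁, g.1 w ∈ W₂) ∧ ∀ w ∈ W₂, g.1 w ∈ W₁)
  out : ∃ s ∈ X, ∀ w ∈ W₁, s.1 w ∈ W₂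

/-- The linear classification when every `L v` acts trivially on `v^⊥ / v`. -/
def Lin0 : Prop := ∀ (q : QuadraticForm (ZMod 2) V8) (X : Subgroup (OG q)) (O : Set V8)
  (E : V8 → Submodule (ZMod 2) V8) (L : V8 → Subgroup (OG q)), LD q X O E L → Irr X → O.Nonempty →
  (∀ v ∈ O, T0 L v) → Orth q X O E L ∨ ∃ W₁ W₂, CC q X O E L W₁ W₂

def CaseWC : Prop := ∀ (G : Type u) [Group G] [Finite G] [IsSimpleGroup G], ¬ IsMulCommutative G →
  ∀ (z : G), Hy z → (∀ t, ¬ Nb z t) → Concl G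

def CaseOrth : Prop := ∀ (G : Type u) [Group G] [Finite G] [IsSimpleGroup G], ¬ IsMulCommutative G →
  ∀ (z : G), Hy z → ∀ (q : QuadraticForm (ZMod 2) V8) (M : OM q z), Orth q M.X M.O M.E M.L → Concl G

def CaseCC : Prop := ∀ (G : Type u) [Group G] [Finite G] (z : G), Hy z →
  ∀ (q : QuadraticForm (ZMod 2) V8) (M : OM q z) (W₁ W₂ : Submodule (ZMod 2) V8), ¬ CC q M.X M.O M.E M.L W₁ W₂

section
variable {G : Type u} [Group G] {z : G} {q q' : QuadraticForm (ZMod 2) V8} (M : OM q z)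
  (e : V8 ≃ₗ[ZMod 2] V8) (he : ∀ v, q' (e v) = q v)

theorem mem_trX {X : Subgroup (OG q)} {g : OG q} : OG.congr e he g ∈ trX e he X ↔ g ∈ X :=
  mem_map_iff_mem (f := (OG.congr e he).toMonoidHom) (OG.congr e he).injective

theorem OM.tr_X' : (M.tr e he).X = trX e he M.X := Subgroup.ext fun g => by
  obtain ⟨g, rfl⟩ := (OG.congr e he).surjective g
  rw [M.tr_X, mem_trX]

theorem OM.tr_O' : (M.tr e he).O = e '' M.O := Set.ext fun v => by
  obtain ⟨v, rfl⟩ := e.surjective v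
  rw [M.tr_O, e.injective.mem_set_image]

theorem OM.tr_E' : (M.tr e he).E = fun w => (M.E (e.symm w)).map e.toLinearMap := funext fun w => by
  obtain ⟨w, rfl⟩ := e.surjective w
  refine Submodule.ext fun x => ?_
  obtain ⟨x, rfl⟩ := e.surjective x
  rw [M.tr_E, e.symm_apply_apply]
  exact ⟨fun h => ⟨x, h, rfl⟩, fun ⟨y, h, k⟩ => e.injective k ▸ h⟩

theorem OM.tr_L' : (M.tr e he).L = fun w => trX e he (M.L (e.symm w)) := funext fun w => by
  obtain ⟨w, rfl⟩ := e.surjective w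
  refine Subgroup.ext fun g => ?_
  obtain ⟨g, rfl⟩ := (OG.congr e he).surjective g
  rw [M.tr_L, e.symm_apply_apply, mem_trX]

end

end CL.N9
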