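/-
Extraspecial `F*(C(z))` of order `2 ^ 9`: if `Q_z ∩ Q_t = ⟨z, t⟩` then `Q` has plus type (helper14).
-/
import Cfsg.Agent.N9.Top
import Cfsg.Agent.Cls.QuadClass

set_option autoImplicit false

namespace CL.N9

open Cfsg Subgroup CL.Even CL.Grp CL.WC CL.Cls QuadraticMap Module

namespace AP

section LA
variable {q : QuadraticForm (ZMod 2) V8}

theorem adj {g : OG q} (hg : g * g = 1) (x y : V8) : polar q x (y + g.1 y) = polar q (x + g.1 x) y := by
  rw [polar_add_right, polar_add_left, OG.polar_app_left, inv_eq_of_mul_eq_one_right hg]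

theorem pol_N (g : OG q) (x : V8) : polar q x (x + g.1 x) = q (x + g.1 x) := by
  rw [qa, polar_add_right, pp, OG.map_app, z2_add]

theorem NN {g : OG q} (hg : g * g = 1) (x : V8) : x + g.1 x + g.1 (x + g.1 x) = 0 := by
  rw [map_add, ← OG.mul_app, hg, OG.one_app, add_comm (g.1 x), aa]

/-- the totally singular line through `v₁` and `v₂` -/
def L4 (v₁ v₂ x : V8) : Prop := x = 0 ∨ x = v₁ ∨ x = v₂ ∨ x = v₁ + v₂

/-- two distinct perpendicular singular vectors -/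
structure Ln (q : QuadraticForm (ZMod 2) V8) (v₁ v₂ : V8) : Prop where
  nd : (polarBilin q).Nondegenerate
  q1 : q v₁ = 0
  q2 : q v₂ = 0
  n1 : v₁ ≠ 0
  n2 : v₂ ≠ 0
  ne : v₂ ≠ v₁
  b : polar q v₁ v₂ = 0

theorem sgl (nd : (polarBilin q).Nondegenerate) {g : OG q} (hg : g * g = 1) {v : V8} (hv : q v = 0)
    (hgv : g.1 v = v) (hN : ∀ y, polar q v y = 0 → y + g.1 y = 0 ∨ y + g.1 y = v) {x : V8} (hx : polar q v x = 1) :
    g = eich q v (x + g.1 x) := by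
  have hu : polar q v (x + g.1 x) = 0 := by rw [adj hg, hgv, aa, polar_zero_left]
  rw [← mul_inv_eq_one, inv_eq_of_mul_eq_one_right (eich_sq hv hu)]
  refine eq_one_of_perp nd hv fun y hy => ?_
  rw [OG.mul_app, eich2 hv hu, hy, ← adj hg]
  rcases hN y hy with e | e
  · rw [e]; simp [← add_eq_zero2.1 e]
  · rw [e, polar_comm, hx]
    simp only [zero_smul, mul_zero, add_zero, one_smul, map_add, hgv]
    rw [← e, add_comm y, aac]

namespace Ln
variable {v₁ v₂ : V8} (l : Ln q v₁ v₂)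
include l

theorem dual : ∃ x, polar q v₁ x = 0 ∧ polar q v₂ x = 1 := by
  by_contra c
  rcases perp_perp l.nd (v := v₁) (x := v₂) fun y hy => (z2 _).resolve_right fun e => c ⟨y, hy, e⟩ with e | e
  exacts [l.n2 e, l.ne e]

theorem pp2 {x : V8} (h : ∀ y, polar q v₁ y = 0 → polar q v₂ y = 0 → polar q x y = 0) : L4 v₁ v₂ x := by
  obtain ⟨u, u1, u2⟩ := l.dual
  have k := perp_perp l.nd (v := v₁) (x := x + polar q x u • v₂) fun y hy => by
    have := h (y + polar q v₂ y • u) (by simp [polar_add_right, polar_smul_right, hy, u1])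
      (by simp [polar_add_right, polar_smul_right, u2, z2_add])
    rw [polar_add_right, polar_smul_right, smul_eq_mul, mul_comm] at this
    rwa [polar_add_left, polar_smul_left, smul_eq_mul]
  rcases z2 (polar q x u) with e | e <;> rw [e] at k
  · rw [zero_smul, add_zero] at k
    exact k.imp_right Or.inl
  · rw [one_smul, add_eq_zero2] at k
    exact Or.inr (Or.inr (k.imp_right fun k => by rw [← k, aac']))

theorem sing {x : V8} (h : L4 v₁ v₂ x) : q x = 0 := by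
  rcases h with rfl | rfl | rfl | rfl
  exacts [map_zero _, l.q1, l.q2, by rw [qa, l.q1, l.q2, l.b, add_zero, add_zero]]

omit l in
theorem perp {x y : V8} (h : L4 v₁ v₂ x) (h1 : polar q v₁ y = 0) (h2 : polar q v₂ y = 0) : polar q x y = 0 := by
  rcases h with rfl | rfl | rfl | rfl
  exacts [polar_zero_left _ _, h1, h2, by rw [polar_add_left, h1, h2, add_zero]]

theorem l1a {g : OG q} (h : ∀ y, polar q v₁ y = 0 → polar q v₂ y = 0 → g.1 y = y) {u : V8}
    (u1 : polar q v₁ u = 0) (u2 : polar q v₂ u = 1) (e : g.1 u = u) : g = 1 :=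
  eq_one_of_perp l.nd l.q1 fun y hy => by
    rcases z2 (polar q v₂ y) with k | k
    · exact h y hy k
    · have := h (y + u) (by rw [polar_add_right, hy, u1, add_zero]) (by rw [polar_add_right, k, u2, oo])
      rwa [map_add, e, add_left_inj] at this

theorem l1b {g : OG q} (h : ∀ y, polar q v₁ y = 0 → polar q v₂ y = 0 → g.1 y = y) {u : V8}
    (u2 : polar q v₂ u = 1) (u1 : polar q v₁ u = 0) : u + g.1 u = 0 ∨ u + g.1 u = v₁ := by
  have k : L4 v₁ v₂ (u + g.1 u) := l.pp2 fun y h1 h2 => by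
    rw [polar_add_left]
    nth_rw 2 [← h y h1 h2]
    rw [OG.polar_app, z2_add]
  have k2 := pol_N g u
  rw [l.sing k] at k2
  rcases k with k | k | k | k
  · exact Or.inl k
  · exact Or.inr k
  · rw [k, polar_comm, u2] at k2; exact absurd k2 one_ne_zero
  · rw [k, polar_comm, polar_add_left, u1, u2, zero_add] at k2; exact absurd k2 one_ne_zero

theorem l1 {g k : OG q} (h : ∀ y, polar q v₁ y = 0 → polar q v₂ y = 0 → g.1 y = y)
    (h' : ∀ y, polar q v₁ y = 0 → polar q v₂ y = 0 → k.1 y = y) (g1 : g ≠ 1) (k1 : k ≠ 1) : g = k := by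
  obtain ⟨u, u1, u2⟩ := l.dual
  have e1 := (l.l1b h u2 u1).resolve_left fun e => g1 (l.l1a h u1 u2 (add_eq_zero2.1 e).symm)
  have e2 := (l.l1b h' u2 u1).resolve_left fun e => k1 (l.l1a h' u1 u2 (add_eq_zero2.1 e).symm)
  rw [← inv_mul_eq_one]
  refine l.l1a (fun y h1 h2 => ?_) u1 u2 ?_
  · rw [OG.mul_app, h' y h1 h2]
    nth_rw 1 [← h y h1 h2]
    rw [OG.inv_app_app]
  · rw [OG.mul_app, ← add_left_cancel (e1.trans e2.symm), OG.inv_app_app]

/-- commuting Eichler maps -/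
theorem ecm {u u' : V8} (a1 : polar q v₁ u = 0) (a2 : polar q v₂ u = 0) (b1 : polar q v₁ u' = 0)
    (b2 : polar q v₂ u' = 0) :
    eich q v₁ u * eich q v₂ u' * (eich q v₁ u)⁻¹ * (eich q v₂ u')⁻¹ = 1 ↔ polar q u u' = 0 := by
  have e1 : (eich q v₁ u).1 v₂ = v₂ := by rw [eich2 l.q1 a1, polar_comm q u, a2, l.b]; simp
  have e2 : (eich q v₁ u).1 u' = u' + polar q u u' • v₁ := by rw [eich2 l.q1 a1, b1]; simp
  have b3 : polar q v₂ v₁ = 0 := by rw [polar_comm, l.b]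
  rw [eich_conj, e1, e2]
  rcases z2 (polar q u u') with e | e <;> rw [e]
  · simp
  · rw [one_smul, add_comm, ← eich_mul l.q2 b3 b2, mul_inv_cancel_right]
    exact iff_of_false (fun k => (eich_eq_one l.nd l.q2 l.n2 b3 k).elim l.n1 l.ne.symm) one_ne_zero

theorem eeq {u : V8} (a1 : polar q v₁ u = 0) (e : eich q v₁ u = 1 ∨ eich q v₁ u = eich q v₁ v₂) : L4 v₁ v₂ u := by
  rcases e with e | e
  · exact (eich_eq_one l.nd l.q1 l.n1 a1 e).imp_right Or.inl
  · have k := eich_mul l.q1 a1 l.b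
    rw [e, eich_sq l.q1 l.b] at k
    rcases eich_eq_one l.nd l.q1 l.n1 (by rw [polar_add_right, a1, l.b, add_zero]) k.symm with k | k
    · exact .inr (.inr (.inl (add_eq_zero2.1 k)))
    · exact .inr (.inr (.inr (by rw [← k, aac'])))

theorem symm : Ln q v₂ v₁ := ⟨l.nd, l.q2, l.q1, l.n2, l.n1, l.ne.symm, by rw [polar_comm, l.b]⟩

omit l in
theorem L4s {x : V8} (h : L4 v₁ v₂ x) : L4 v₂ v₁ x := by
  rcases h with h | h | h | h
  exacts [.inl h, .inr (.inr (.inl h)), .inr (.inl h), .inr (.inr (.inr (h.trans (add_comm _ _))))]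

omit l in
theorem L4a {x y : V8} (h : L4 v₁ v₂ x) (k : L4 v₁ v₂ y) : L4 v₁ v₂ (x + y) := by
  unfold L4 at *
  rcases h with rfl | rfl | rfl | rfl <;> rcases k with rfl | rfl | rfl | rfl <;>
    simp [aa, aac, aac', add_comm, add_left_comm, add_assoc]

/-- a totally singular solid -/
theorem solid {a b : V8} (qa' : q a = 0) (qb : q b = 0) (ab : polar q a b = 0) (a1 : polar q v₁ a = 0)
    (a2 : polar q v₂ a = 0) (b1 : polar q v₁ b = 0) (b2 : polar q v₂ b = 0) (na : ¬ L4 v₁ v₂ a) (nb : ¬ L4 v₁ v₂ b)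
    (nab : ¬ L4 v₁ v₂ (a + b)) : ∃ X : Submodule (ZMod 2) V8, finrank (ZMod 2) X = 4 ∧ ∀ x ∈ X, q x = 0 := by
  have hl : ∀ r s : ZMod 2, L4 v₁ v₂ (r • v₁ + s • v₂) := fun r s => by
    rcases z2 r with rfl | rfl <;> rcases z2 s with rfl | rfl <;> simp [L4]
  have li : LinearIndependent (ZMod 2) ![v₁, v₂, a, b] := by
    rw [Fintype.linearIndependent_iff]
    intro c hc
    rw [Fin.sum_univ_four] at hc
    simp only [Matrix.cons_val_zero, Matrix.cons_val_one, Matrix.cons_val] at hc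
    have k := hl (c 0) (c 1)
    rw [add_assoc, add_eq_zero2] at hc
    rw [hc] at k
    have k2 : c 2 = 0 ∧ c 3 = 0 := by
      rcases z2 (c 2) with e | e <;> rcases z2 (c 3) with e' | e' <;> rw [e, e'] at k <;> simp_all
    rw [k2.1, k2.2, zero_smul, zero_smul, add_zero] at hc
    have k3 : c 0 = 0 ∧ c 1 = 0 := by
      have := l.n1; have := l.n2; have := l.ne.symm
      rcases z2 (c 0) with e | e <;> rcases z2 (c 1) with e' | e' <;> rw [e, e'] at hc <;> simp_all [add_eq_zero2]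
    intro i
    fin_cases i
    exacts [k3.1, k3.2, k2.1, k2.2]
  refine ⟨Submodule.span (ZMod 2) (Set.range ![v₁, v₂, a, b]), by simpa using finrank_span_eq_card li, fun x hx => ?_⟩
  obtain ⟨c, rfl⟩ := (Submodule.mem_span_range_iff_exists_fun _).1 hx
  rw [Fin.sum_univ_four]
  simp [qa, polar_add_left, polar_smul_left, polar_smul_right, QuadraticMap.map_smul, l.q1, l.q2, l.b, qa', qb, ab,
    a1, a2, b1, b2]

end Ln
end LA

variable {G : Type*} [Group G] {q : QuadraticForm (ZMod 2) V8}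

/-- the four-group generated by `y` and `s` -/
def F4 (y s e : G) : Prop := e = 1 ∨ e = y ∨ e = s ∨ e = y * s

/-- the hypothesis of this case -/
structure K2 (y : G) : Prop extends Hy y where
  nb : ∀ s ∈ QQ y, s * s = 1 → s ≠ 1 → s ≠ y → Nb y s
  inf : ∀ s, Nb y s → ∀ e ∈ QQ y, e ∈ QQ s → F4 y s e

theorem F4.cm {y s e x : G} (h : F4 y s e) (h1 : Commute x y) (h2 : Commute x s) : Commute x e := by
  rcases h with rfl | rfl | rfl | rfl
  exacts [Commute.one_right _, h1, h2, h1.mul_right h2]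

theorem F4.mem {y s e : G} (h : F4 y s e) {K : Subgroup G} (h1 : y ∈ K) (h2 : s ∈ K) : e ∈ K := by
  rcases h with rfl | rfl | rfl | rfl
  exacts [one_mem _, h1, h2, mul_mem h1 h2]

variable [Finite G] {z t : G}

theorem f4_iff (M : OM q z) (h : Hy z) {e : G} (ht : t ∈ QQ z) (he : e ∈ QQ z) :
    F4 z t e ↔ M.π e = 0 ∨ M.π e = M.π t := by
  rw [M.π_zero he, eq_comm (a := M.π e), M.π_eq ht he, (h.cz ht).eq, F4, or_assoc]

theorem ln (M : OM q z) (h : Hy z) {s : G} (n : Nb z t) (m : Nb z s) (c : Commute t s) (d : s ≠ t)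
    (d' : s ≠ z * t) : Ln q (M.π t) (M.π s) :=
  ⟨M.nd, M.q_t h n, M.q_t h m, M.t_ne h n, M.t_ne h m, fun e => (M.nb_cases h n m e).elim d d',
    (M.b_zero n.mem m.mem).2 c⟩

theorem cmt_iff (M : OM q z) (h : Hy z) {a c : G} (hc : Commute c z) (ha : a ∈ QQ z) :
    (a * c * a⁻¹ * c⁻¹ = 1 ∨ a * c * a⁻¹ * c⁻¹ = z) ↔ (M.ρ c).1 (M.π a) = M.π a := by
  rw [← M.π_zero (h.xe.cmt_mem hc ha), M.π_cmt h hc ha, add_eq_zero2, eq_comm]

theorem l1g (h : Hy z) {s : G} (n : Nb z t) (m : Nb z s) (c : Commute t s) (d : s ≠ t) (d' : s ≠ z * t) {a b : G}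
    (a1 : Commute a z) (b1 : Commute b z) (a2 : a ∉ QQ z) (b2 : b ∉ QQ z)
    (a3 : ∀ x ∈ QQ z, Commute x t → Commute x s → x * a * x⁻¹ * a⁻¹ = 1 ∨ x * a * x⁻¹ * a⁻¹ = z)
    (b3 : ∀ x ∈ QQ z, Commute x t → Commute x s → x * b * x⁻¹ * b⁻¹ = 1 ∨ x * b * x⁻¹ * b⁻¹ = z) :
    a⁻¹ * b ∈ QQ z := by
  obtain ⟨q, ⟨M⟩⟩ := h.nonempty_om
  refine (M.ρ_eq a1 b1).1 ((ln M h n m c d d').l1 (fun y h1 h2 => ?_) (fun y h1 h2 => ?_)
    (mt (M.ker a1).1 a2) (mt (M.ker b1).1 b2)) <;> obtain ⟨x, hx, rfl⟩ := M.surj y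
  · exact (cmt_iff M h a1 hx).1 (a3 x hx ((M.b_zero n.mem hx).1 h1).symm ((M.b_zero m.mem hx).1 h2).symm)
  · exact (cmt_iff M h b1 hx).1 (b3 x hx ((M.b_zero n.mem hx).1 h1).symm ((M.b_zero m.mem hx).1 h2).symm)

omit [Finite G] in
theorem cm1 {x c : G} (h : Commute x c) : x * c * x⁻¹ * c⁻¹ = 1 := by rw [cfix h, mul_inv_cancel]

namespace K2
variable (k : K2 z)
include k

omit [Finite G] in
theorem hy : Hy z := k.toHy

theorem conj (g : G) : K2 (g * z * g⁻¹) := by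
  have e : ∀ s : G, ∃ u, g * u * g⁻¹ = s := fun s => ⟨g⁻¹ * s * g, by group⟩
  refine ⟨k.hy.conj g, fun s hs h1 h2 h3 => ?_, fun s n a a1 a2 => ?_⟩
  · obtain ⟨s, rfl⟩ := e s
    refine (k.nb s (conj_mem_QQ.1 hs) ?_ (fun e => h2 (by simp [e])) fun e => h3 (by rw [e])).conj g
    rwa [conj_mul, conj_eq_one_iff] at h1
  · obtain ⟨s, rfl⟩ := e s
    obtain ⟨a, rfl⟩ := e a
    have n' : Nb z s := by simpa [mul_assoc] using n.conj g⁻¹
    rcases k.inf s n' a (conj_mem_QQ.1 a1) (conj_mem_QQ.1 a2) with rfl | rfl | rfl | rfl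
    exacts [Or.inl (by simp), Or.inr (Or.inl rfl), Or.inr (Or.inr (Or.inl rfl)),
      Or.inr (Or.inr (Or.inr conj_mul.symm))]

theorem of (n : Nb z t) : K2 t := by
  obtain ⟨g, rfl⟩ := isConj_iff.1 n.ic
  exact k.conj g

theorem rho (M : OM q z) (n : Nb z t) {a r : G} (ha : a ∈ QQ z) (c : Commute a t) (hr : r ∈ QQ t)
    (c' : Commute r z) (e : a * r ∈ QQ (z * t)) : M.ρ r = eich q (M.π t) (M.π a) := by
  obtain ⟨x, hx⟩ := exists_polar_eq_one M.nd (M.t_ne k.hy n)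
  obtain ⟨u, u1, u2, u3⟩ := M.theta k.hy n ha c hr c' e hx t n rfl
  have pa := (M.b_zero n.mem ha).2 c.symm
  have k0 := sgl M.nd (M.ρ_sq k.hy n hr c') (M.q_t k.hy n)
    (by rw [← M.π_conj c' n.mem, cfix ((k.hy.nb n).cz hr)]) (fun y hy => by
      obtain ⟨a, ha, rfl⟩ := M.surj y
      have k1 := k.hy.cmt_mem n ha ((M.b_zero n.mem ha).1 hy).symm hr c'
      rw [← M.π_cmt k.hy c' ha]
      exact (f4_iff M k.hy n.mem k1.1).1 (k.inf t n _ k1.1 k1.2)) hx
  rw [k0, ← aac' (x + _) (M.π a), ← u3]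
  rcases (f4_iff M k.hy n.mem u1).1 (k.inf t n u u1 u2) with e | e <;> rw [e]
  · rw [zero_add]
  · rw [add_comm, eich_add_self (M.q_t k.hy n) pa]

theorem d4 (n : Nb z t) {a r : G} (ha : a ∈ QQ z) (c : Commute a t) (hr : r ∈ QQ t) (c' : Commute r z)
    (e : a * r ∈ QQ (z * t)) {x : G} (hx : x ∈ QQ z) (cx : Commute x t) :
    (x * r * x⁻¹ * r⁻¹ = 1 ∨ x * r * x⁻¹ * r⁻¹ = z) ↔ Commute a x := by
  obtain ⟨q, ⟨M⟩⟩ := k.hy.nonempty_om
  rw [cmt_iff M k.hy c' hx, k.rho M n ha c hr c' e, eich2 (M.q_t k.hy n) ((M.b_zero n.mem ha).2 c.symm),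
    (M.b_zero n.mem hx).2 cx.symm, zero_smul, mul_zero, zero_smul, add_zero, add_zero, add_eq_left, smul_eq_zero,
    or_iff_left (M.t_ne k.hy n), M.b_zero ha hx]

theorem d5 (n : Nb z t) {a r : G} (ha : a ∈ QQ z) (c : Commute a t) (hr : r ∈ QQ t) (c' : Commute r z)
    (e : a * r ∈ QQ (z * t)) {x : G} (hx : x ∈ QQ z) (cx : Commute x t) (xa : Commute x a) : Commute x r := by
  have h := k.hy
  obtain ⟨s, hs, cs, es⟩ := h.exists_r n hx cx
  have d : ∀ {a r : G}, a ∈ QQ z → Commute a t → r ∈ QQ t → Commute r z → a * r ∈ QQ (z * t) → ∀ s ∈ QQ t,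
      Commute s z → ((s * a⁻¹ * s⁻¹ * a⁻¹⁻¹ = 1 ∨ s * a⁻¹ * s⁻¹ * a⁻¹⁻¹ = t) ↔ Commute r⁻¹ s) :=
    fun ha c hr c' e s hs cs => (k.of n).d4 (h.symm n) (inv_mem hr) c'.inv_left (inv_mem ha) c.inv_left
      (by rw [← mul_inv_rev, ← (h.zt n).eq]; exact inv_mem e) hs cs
  by_contra nc
  have e1 := ((k.d4 n ha c hr c' e hx cx).2 xa.symm).resolve_left fun e =>
    nc (commutatorElement_eq_one_iff_commute.1 e)
  have e2 : ¬ Commute s r := fun cc => by
    have := (d hx cx hs cs es r hr c').2 cc.inv_left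
    rw [show r * x⁻¹ * r⁻¹ * x⁻¹⁻¹ = x⁻¹ * (x * r * x⁻¹ * r⁻¹) * x⁻¹⁻¹ by group, e1, cfix (h.cz hx).inv_left] at this
    exact this.elim h.ne_one n.ne.symm
  have e3 := ((k.d4 n hx cx hs cs es ha c).2 xa).resolve_left fun e' => e2 (by
    have := (d ha c hr c' e s hs cs).1 (Or.inl (cm1 (commutatorElement_eq_one_iff_commute.1 e').symm.inv_right))
    simpa using this.symm)
  have e4 : x * s * (a * r) * (x * s)⁻¹ = t * (a * r) := by
    calc x * s * (a * r) * (x * s)⁻¹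
        = x * (a * s * a⁻¹ * s⁻¹)⁻¹ * x⁻¹ * (x * a * x⁻¹) * (x * (s * r * s⁻¹) * x⁻¹) := by group
      _ = z * a * (x * t * x⁻¹ * (x * r * x⁻¹ * r⁻¹) * r) := by
        rw [e3, inv_eq' h.zz, cfix (h.cz hx), cfix xa, (h.nb n).xe.cj_of_not hs hr e2]; group
      _ = t * (a * r) := by
        rw [e1, cfix cx, ← (h.zt n).eq, ← (h.cz ha).eq, mul_assoc a, ← mul_assoc z, ← mul_assoc z, h.zz, one_mul,
          ← mul_assoc, c.eq, mul_assoc]
  rcases (h.nb (h.third n)).xe.cj_cases es e with e5 | e5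
  · rw [cfix e5, right_eq_mul] at e4
    exact h.t1 n e4
  · rw [e4, mul_left_inj, right_eq_mul] at e5
    exact h.ne_one e5

variable {s : G} (n : Nb z t) (m : Nb z s) (c : Commute t s) (d : s ≠ t) (d' : s ≠ z * t)
include n m c d d'

omit c in
theorem nmem : s ∉ QQ t := fun e => by
  rcases k.inf t n s m.mem e with e | e | e | e
  exacts [k.hy.t1 m e, m.ne e, d e, d' e]

theorem cmt2 {a : G} (a1 : a ∈ QQ t) (a2 : a ∈ QQ s) (a3 : Commute a z) (x : G) (hx : x ∈ QQ z) (x1 : Commute x t)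
    (x2 : Commute x s) : x * a * x⁻¹ * a⁻¹ = 1 ∨ x * a * x⁻¹ * a⁻¹ = z := by
  obtain ⟨q, ⟨M⟩⟩ := k.hy.nonempty_om
  have k1 := k.hy.cmt_mem n hx x1 a1 a3
  have e1 := (f4_iff M k.hy n.mem k1.1).1 (k.inf t n _ k1.1 k1.2)
  have e2 := (f4_iff M k.hy m.mem k1.1).1 (k.inf s m _ k1.1 (k.hy.cmt_mem m hx x2 a2 a3).2)
  exact (M.π_zero k1.1).1 (e1.elim id fun e1 => e2.resolve_right fun e2 =>
    (ln M k.hy n m c d d').ne (e2.symm.trans e1))

theorem mm : ∃ r ∈ QQ t, r * r = 1 ∧ r ∉ QQ z ∧ ∀ x ∈ QQ z, Commute x t → Commute x s → Commute x r := by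
  have h := k.hy
  obtain ⟨r, r1, r2, r3⟩ := h.exists_r n m.mem c.symm
  have r4 := fun x hx x1 x2 => k.d5 n m.mem c.symm r1 r2 r3 (x := x) hx x1 x2
  refine ⟨r, r1, ((h.nb n).xe.sq_cases r1).resolve_right fun e => ?_, fun e => ?_, r4⟩
  · have := (h.nb (h.third n)).xe.sq_cases r3
    rw [(r4 s m.mem c.symm (Commute.refl s)).symm.mul_mul_mul_comm, h.tt m, one_mul, e, right_eq_mul] at this
    exact this.elim (h.t1 n) h.ne_one
  · refine k.nmem (h.third n) m d' (by rwa [← mul_assoc, h.zz, one_mul]) ?_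
    simpa using mul_mem r3 (inv_mem (h.E_third n e r1))

theorem gg {a : G} (a1 : a ∈ QQ t) (a2 : a ∈ QQ s) (a3 : Commute a z) (a4 : a ∉ QQ z) {x : G} (hx : x ∈ QQ z)
    (x1 : Commute x t) (x2 : Commute x s) : Commute x a := by
  have h := k.hy
  obtain ⟨r, r1, -, r3, r4⟩ := k.mm n m c d d'
  have e := l1g h n m c d d' (r4 z h.zQ (h.zt n) (h.zt m)).symm a3 r3 a4 (fun x hx x1 x2 => Or.inl (cm1 (r4 x hx x1 x2)))
    (k.cmt2 n m c d d' a1 a2 a3)
  simpa using (r4 x hx x1 x2).mul_right ((k.inf t n _ e (mul_mem (inv_mem r1) a1)).cm (h.cz hx) x1)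

theorem zz : ∃ w ∈ QQ t, w ∈ QQ s ∧ w * w = 1 ∧ w ∉ QQ z ∧ ∀ x ∈ QQ z, Commute x t → Commute x s → Commute x w := by
  have h := k.hy
  obtain ⟨q, ⟨M⟩⟩ := h.nonempty_om
  obtain ⟨a, a1, -, a3, a4⟩ := k.mm n m c d d'
  obtain ⟨b, b1, b2, b3, b4⟩ := k.mm m n c.symm d.symm fun e => d' (by rw [e, ← mul_assoc, h.zz, one_mul])
  have e := l1g h n m c d d' (a4 z h.zQ (h.zt n) (h.zt m)).symm (b4 z h.zQ (h.zt m) (h.zt n)).symm a3 b3
    (fun x hx x1 x2 => Or.inl (cm1 (a4 x hx x1 x2))) fun x hx x1 x2 => Or.inl (cm1 (b4 x hx x2 x1))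
  have e2 : L4 (M.π t) (M.π s) (M.π (a⁻¹ * b)) := (ln M h n m c d d').pp2 fun y y1 y2 => by
    obtain ⟨x, hx, rfl⟩ := M.surj y
    have x1 := ((M.b_zero n.mem hx).1 y1).symm
    have x2 := ((M.b_zero m.mem hx).1 y2).symm
    exact (M.b_zero e hx).2 ((a4 x hx x1 x2).inv_right.mul_right (b4 x hx x2 x1)).symm
  have key : ∀ {u}, u ∈ QQ z → F4 z t (a⁻¹ * b * u) → b * u ∈ QQ t := fun hu f => by
    simpa [mul_assoc] using mul_mem a1 (f.mem (h.symm n).mem (h.nb n).zQ)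
  by_cases e3 : M.π (a⁻¹ * b) = 0 ∨ M.π (a⁻¹ * b) = M.π t
  · exact ⟨b, by simpa using key (one_mem _) (by rw [mul_one]; exact (f4_iff M h n.mem e).2 e3), b1, b2, b3,
      fun x hx x1 x2 => b4 x hx x2 x1⟩
  · refine ⟨b * s, key m.mem ((f4_iff M h n.mem (mul_mem e m.mem)).2 ?_), mul_mem b1 (h.nb m).zQ, ?_,
      fun e => b3 (by simpa using mul_mem e (inv_mem m.mem)), fun x hx x1 x2 => (b4 x hx x2 x1).mul_right x2⟩
    · rw [M.π_mul e m.mem]
      rcases e2 with e2 | e2 | e2 | e2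
      exacts [absurd (Or.inl e2) e3, absurd (Or.inr e2) e3, Or.inl (by rw [e2, aa]), Or.inr (by rw [e2, aac'])]
    · rw [(b4 s m.mem (Commute.refl s) c.symm).mul_mul_mul_comm, b2, h.tt m, one_mul]

end K2

end AP

end CL.N9
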