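/-
Extraspecial `F*(C(z))` of order `2 ^ 9`: in the orthogonal case `Q` has plus type (helper14).
-/
import Cfsg.Agent.N9.OMa

set_option autoImplicit false

namespace CL.N9

open Cfsg Subgroup CL.Even CL.Grp CL.WC CL.Cls QuadraticMap Module

namespace AP

variable {G : Type*} [Group G] [Finite G]

theorem K2.sq1 {z t a r : G} (k : K2 z) (n : Nb z t) (ha : a ∈ QQ z) (c : Commute a t) (hr : r ∈ QQ t)
    (c' : Commute r z) (e : a * r ∈ QQ (z * t)) (aa : a * a = 1) : Commute a r ∧ r * r = 1 := by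
  have h := k.hy
  have ar := k.d5 n ha c hr c' e ha c (Commute.refl a)
  refine ⟨ar, ((h.nb n).xe.sq_cases hr).resolve_right fun e' => ?_⟩
  have := (h.nb (h.third n)).xe.sq_cases e
  rw [ar.symm.mul_mul_mul_comm, aa, one_mul, e', right_eq_mul] at this
  exact this.elim (h.t1 n) h.ne_one

theorem K2.eta {v z w ξ y : G} (k : K2 v) (nz : Nb v z) (nw : Nb v w) (zw : Commute z w) (d : w ≠ z)
    (d' : w ≠ v * z) (ξ1 : ξ ∈ QQ z) (ξξ : ξ * ξ = 1) (ξv : Commute ξ v) (ξw : Commute ξ w) (y1 : y ∈ QQ z)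
    (y2 : y ∈ QQ w) (y3 : Commute y v) (y4 : y ∉ QQ v) (ξ2 : ξ ∉ QQ v) (ξ3 : y⁻¹ * ξ ∉ QQ v) :
    ∃ a ∈ QQ w, a * a = 1 ∧ Commute a v ∧ Commute a z ∧
      (∀ η ∈ QQ w, Commute η v → Commute η z → (ξ * η * ξ⁻¹ * η⁻¹ ∈ QQ v ↔ Commute a η)) ∧
      ∃ η ∈ QQ w, Commute η v ∧ Commute η z ∧ ¬ Commute a η := by
  have h := k.hy
  obtain ⟨q, ⟨M⟩⟩ := h.nonempty_om
  have l := ln M h nz nw zw d d'
  obtain ⟨r, r1, r2, r3⟩ := (h.nb nz).exists_r (h.symm nz) ξ1 ξv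
  obtain ⟨ξr, rr⟩ := (k.of nz).sq1 (h.symm nz) ξ1 ξv r1 r2 r3 ξξ
  have e1 : M.ρ ξ = eich q (M.π z) (M.π r) := k.rho M nz r1 r2 ξ1 ξv (by rwa [← ξr.eq, (h.zt nz).eq])
  have b1 : polar q (M.π z) (M.π r) = 0 := (M.b_zero nz.mem r1).2 r2.symm
  have act : ∀ x, polar q (M.π z) x = 0 → ((M.ρ ξ).1 x = x ↔ polar q (M.π r) x = 0) := fun x hx => by
    rw [e1, eich2 l.q1 b1, hx, zero_smul, mul_zero, zero_smul, add_zero, add_zero, add_eq_left, smul_eq_zero,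
      or_iff_left l.n1]
  have b2 : polar q (M.π r) (M.π w) = 0 := (act _ l.b).1 (by rw [← M.π_conj ξv nw.mem, cfix ξw])
  have rw' : Commute r w := (M.b_zero r1 nw.mem).1 b2
  obtain ⟨a, a1, a2, a3⟩ := h.exists_r nw r1 rw'
  obtain ⟨ra, aa'⟩ := k.sq1 nw r1 rw' a1 a2 a3 rr
  have key : ∀ η ∈ QQ w, ∀ x ∈ QQ v, Commute η v → Commute x w → Commute x z → x * η ∈ QQ (v * w) →
      (ξ * η * ξ⁻¹ * η⁻¹ ∈ QQ v ↔ Commute r x) ∧ (Commute a η ↔ Commute r x) := fun η η1 x x1 η2 x2 x3 e => by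
    constructor
    · rw [← M.ker (((ξv.mul_left η2).mul_left ξv.inv_left).mul_left η2.inv_left),
        M.ρ_mul ((ξv.mul_left η2).mul_left ξv.inv_left) η2.inv_left, M.ρ_conj ξv η2, M.ρ_inv η2, e1,
        k.rho M nw x1 x2 η1 η2 e, l.ecm b1 (by rw [polar_comm, b2]) ((M.b_zero nz.mem x1).2 x3.symm)
          ((M.b_zero nw.mem x1).2 x2.symm), M.b_zero r1 x1]
    have e' : η⁻¹ * x⁻¹ ∈ QQ (w * v) := by rw [← mul_inv_rev, ← (h.zt nw).eq]; exact inv_mem e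
    constructor
    · intro c
      have := (k.of nw).d5 (h.symm nw) (inv_mem η1) η2.inv_left (inv_mem x1) x2.inv_left e' a1 a2 c.inv_right
      exact (k.d4 nw r1 rw' a1 a2 a3 x1 x2).1 (.inl (cm1 (by simpa using this.symm)))
    · intro c
      have := k.d5 nw r1 rw' a1 a2 a3 x1 x2 c.symm
      have := ((k.of nw).d4 (h.symm nw) (inv_mem η1) η2.inv_left (inv_mem x1) x2.inv_left e' a1 a2).1
        (.inl (cm1 this.symm.inv_right))
      simpa using this.symm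
  refine ⟨a, a1, aa', a2, (k.d5 nw r1 rw' a1 a2 a3 nz.mem zw r2.symm).symm, fun η η1 η2 η3 => ?_, ?_⟩
  · obtain ⟨x, x1, x2, x3⟩ := (h.nb nw).exists_r (h.symm nw) (inv_mem η1) η2.inv_left
    have e : x⁻¹ * η ∈ QQ (v * w) := by
      have := inv_mem x3
      rwa [mul_inv_rev, inv_inv, ← (h.zt nw).eq] at this
    have e2 := k.rho M nw (inv_mem x1) x2.inv_left η1 η2 e
    have xz : Commute x⁻¹ z := by
      have k1 : (M.ρ η).1 (M.π z) = M.π z := by rw [← M.π_conj η2 nz.mem, cfix η3]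
      rw [e2, eich2 l.q2 ((M.b_zero nw.mem (inv_mem x1)).2 x2.inv_left.symm), l.symm.b, zero_smul, mul_zero,
        zero_smul, add_zero, add_zero, add_eq_left, smul_eq_zero, or_iff_left l.n2] at k1
      exact (M.b_zero (inv_mem x1) nz.mem).1 k1
    obtain ⟨k1, k2⟩ := key η η1 x⁻¹ (inv_mem x1) η2 x2.inv_left xz e
    exact k1.trans k2.symm
  · obtain ⟨x, x1, x2, x3, x4⟩ : ∃ x ∈ QQ v, Commute x z ∧ Commute x w ∧
        ¬ (x * ξ * x⁻¹ * ξ⁻¹ = 1 ∨ x * ξ * x⁻¹ * ξ⁻¹ = v) := by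
      by_contra c
      push Not at c
      exact ξ3 (l1g h nz nw zw d d' y3 ξv y4 ξ2 (k.cmt2 nz nw zw d d' y1 y2 y3) c)
    obtain ⟨η, η1, η2, η3⟩ := h.exists_r nw x1 x3
    refine ⟨η, η1, η2, (k.d5 nw x1 x3 η1 η2 η3 nz.mem zw x2.symm).symm, fun c => x4 ?_⟩
    rw [cmt_iff M h ξv x1, act _ ((M.b_zero nz.mem x1).2 x2.symm), M.b_zero r1 x1]
    exact (key η η1 x x1 η2 x3 x2 η3).2.1 c

theorem K2.solid {z t s ξ : G} {q : QuadraticForm (ZMod 2) V8} (M₀ : OM q z) (k : K2 z) (n : Nb z t) (m : Nb z s)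
    (c : Commute t s) (d : s ≠ t) (d' : s ≠ z * t) (ξ1 : ξ ∈ QQ z) (ξξ : ξ * ξ = 1) (ξt : Commute ξ t)
    (ξs : Commute ξ s) {K : Subgroup G} (zK : z ∈ K) (tK : t ∈ K) (sK : s ∈ K) (ξK : ξ ∉ K) :
    ∃ X : Submodule (ZMod 2) V8, finrank (ZMod 2) X = 4 ∧ ∀ x ∈ X, q x = 0 := by
  have h := k.hy
  obtain ⟨w, w1, w2, ww, w3, w4⟩ := k.zz n m c d d'
  have w0 : w ≠ 1 := fun e => w3 (e ▸ one_mem _)
  have nt : Nb t w := (k.of n).nb w w1 ww w0 fun e => w3 (e ▸ n.mem)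
  have n' : Nb w t := (h.nb n).symm nt
  have m' : Nb w s := (h.nb m).symm ((k.of m).nb w w2 ww w0 fun e => w3 (e ▸ m.mem))
  have k' : K2 w := (k.of n).of nt
  have h' := k'.hy
  have zw : Commute z w := w4 z h.zQ (h.zt n) (h.zt m)
  have zw1 : z ≠ w := fun e => w3 (e ▸ h.zQ)
  have zw2 : ∀ {y}, y ∈ QQ z → z ≠ y * w := fun hy e => w3 (by
    have := mul_mem (inv_mem hy) h.zQ
    nth_rw 2 [e] at this
    simpa using this)
  have z3 : z ∉ QQ w := fun e => w3 (h'.symm ⟨nt.ic.symm.trans n.ic.symm, e, zw1⟩).mem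
  have d2 : s ≠ w * t := fun e => w3 (by simpa [e] using mul_mem m.mem (inv_mem n.mem))
  obtain ⟨M⟩ : Nonempty (OM q w) := by
    obtain ⟨g, rfl⟩ := isConj_iff.1 (n.ic.trans nt.ic)
    exact ⟨M₀.conj g⟩
  have l := ln M h' n' m' c d d2
  have F : ∀ x ∈ QQ w, x ∈ QQ z → L4 (M.π t) (M.π s) (M.π x) := fun x x1 x2 => by
    have xt : Commute x t := (h'.xe.cj_cases x1 n'.mem).elim id fun e1 => (h.xe.cj_cases x2 n.mem).elim id fun e2 =>
      absurd (mul_right_cancel (e2.symm.trans e1)) zw1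
    by_cases x3 : x ∈ QQ t
    · exact ((f4_iff M h' n'.mem x1).1 (k'.inf t n' x x1 x3)).imp_right Or.inl
    have e := l1g (h.nb n) nt (h.symm n) zw.symm zw1 (zw2 n.mem) c.symm xt (k.nmem n m d d') x3
      ((k.of n).cmt2 nt (h.symm n) zw.symm zw1 (zw2 n.mem) m'.mem m.mem c.symm)
      ((k.of n).cmt2 nt (h.symm n) zw.symm zw1 (zw2 n.mem) x1 x2 xt)
    have e1 := mul_mem (inv_mem m'.mem) x1
    have e2 := (f4_iff M h' n'.mem e1).1 (k'.inf t n' _ e1 e)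
    rw [M.π_mul (inv_mem m'.mem) x1, M.π_inv m'.mem, add_eq_zero2] at e2
    exact Or.inr (Or.inr (e2.imp Eq.symm fun e2 => by rw [← e2, add_comm, aac]))
  have ξw : Commute ξ w := w4 ξ ξ1 ξt ξs
  have cz : ∀ η ∈ QQ w, Commute η t → Commute η s → Commute η z := fun η η1 η2 η3 =>
    k'.gg n' m' c d d2 (h.symm n).mem (h.symm m).mem zw z3 η1 η2 η3
  have cy : ∀ η ∈ QQ w, Commute η z → ∀ y ∈ QQ w, y ∈ QQ z → Commute η y := fun η η1 η2 y y1 y2 =>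
    (h'.xe.cj_cases η1 y1).resolve_right fun e => w3 (by
      have := mul_mem (h.cmem η2 y2) (inv_mem y2)
      rwa [e, mul_inv_cancel_right] at this)
  have key : ∀ v y, v ∈ QQ w → v ∈ QQ z → v * v = 1 → M.π v ≠ 0 → v ∈ K → Nb w y → y ∈ QQ z → M.π y ≠ M.π v →
      y ∈ K → Commute y v → Commute ξ v → (∀ η ∈ QQ w, Commute η t → Commute η s → Commute η v) →
      ∃ a, q a = 0 ∧ polar q (M.π t) a = 0 ∧ polar q (M.π s) a = 0 ∧ ¬ L4 (M.π t) (M.π s) a ∧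
        ∀ x, polar q (M.π t) x = 0 → polar q (M.π s) x = 0 →
          (polar q a x = 0 ↔ x + (M.ρ ξ).1 x = 0 ∨ x + (M.ρ ξ).1 x = M.π v) :=
    fun v y v1 v2 vv v0 vK u1 u2 u4 uK u3 ξv hv => by
    have v3 : v ≠ 1 := fun e => v0 (e ▸ M.π_one)
    have n1 : Nb w v := k'.nb v v1 vv v3 fun e => w3 (e ▸ v2)
    have n2 : Nb z v := k.nb v v2 vv v3 fun e => z3 (e ▸ v1)
    obtain ⟨a, a1, a2, -, a4, a5, η, η1, -, η3, η4⟩ := (k.of n2).eta (h.symm n2) (h'.symm n1) zw zw1.symm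
      (fun e => w3 (e ▸ mul_mem v2 h.zQ)) ξ1 ξξ ξv ξw u2 u1.mem u3 (fun e =>
        ((f4_iff M h' v1 u1.mem).1 (k'.inf v n1 _ u1.mem e)).elim (M.t_ne h' u1) u4)
      (fun e => ξK ((k.inf v n2 _ ξ1 e).mem zK vK)) fun e => ξK (by
        simpa using mul_mem uK ((k.inf v n2 _ (mul_mem (inv_mem u2) ξ1) e).mem zK vK))
    refine ⟨M.π a, (M.q_zero a1).2 a2, (M.b_zero n'.mem a1).2 (cy a a1 a4 t n'.mem n.mem).symm,
      (M.b_zero m'.mem a1).2 (cy a a1 a4 s m'.mem m.mem).symm, fun e => η4 ((M.b_zero a1 η1).1 (Ln.perp e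
        ((M.b_zero n'.mem η1).2 (cy η η1 η3 t n'.mem n.mem).symm)
        ((M.b_zero m'.mem η1).2 (cy η η1 η3 s m'.mem m.mem).symm))), fun x x1 x2 => ?_⟩
    obtain ⟨x, hx, rfl⟩ := M.surj x
    have xt := ((M.b_zero n'.mem hx).1 x1).symm
    have xs := ((M.b_zero m'.mem hx).1 x2).symm
    have k1 := h'.xe.cmt_mem ξw hx
    rw [M.b_zero a1 hx, ← a5 x hx (hv x hx xt xs) (cz x hx xt xs), ← M.π_cmt h' ξw hx, ← f4_iff M h' v1 k1,
      ← inv_mem_iff, show (ξ * x * ξ⁻¹ * x⁻¹)⁻¹ = x * ξ * x⁻¹ * ξ⁻¹ by group]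
    exact ⟨k'.inf v n1 _ k1, fun e => e.mem (h'.symm n1).mem (h'.nb n1).zQ⟩
  have e := M.π_mul n'.mem m'.mem
  obtain ⟨a, qa', a1, a2, na, ha⟩ := key t s n'.mem n.mem (h.tt n) l.n1 tK m' m.mem l.ne sK c.symm ξt fun _ _ x _ => x
  obtain ⟨b, qb, b1, b2, nb, hb⟩ := key s t m'.mem m.mem (h.tt m) l.n2 sK n' n.mem l.ne.symm tK c ξs fun _ _ _ x => x
  obtain ⟨u, qu, u1, u2, nu, hu⟩ := key (t * s) t (mul_mem n'.mem m'.mem) (mul_mem n.mem m.mem)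
    (by rw [c.symm.mul_mul_mul_comm, h.tt n, h.tt m, one_mul]) (by rw [e, ne_eq, add_eq_zero2]; exact l.ne.symm)
    (mul_mem tK sK) n' n.mem (by rw [e, ne_eq, left_eq_add]; exact l.n2) tK ((Commute.refl t).mul_right c)
    (ξt.mul_right ξs) fun _ _ x y => x.mul_right y
  rw [e] at hu
  have k3 : L4 (M.π t) (M.π s) (a + b + u) := l.pp2 fun x x1 x2 => by
    have k1 := ha x x1 x2
    have k2 := hb x x1 x2
    have k3 := hu x x1 x2
    have k4 : L4 (M.π t) (M.π s) (x + (M.ρ ξ).1 x) := by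
      obtain ⟨x, hx, rfl⟩ := M.surj x
      rw [← M.π_cmt h' ξw hx]
      exact F _ (h'.xe.cmt_mem ξw hx) (mul_mem (h.cmem (cz x hx ((M.b_zero n'.mem hx).1 x1).symm
        ((M.b_zero m'.mem hx).1 x2).symm) ξ1) (inv_mem ξ1))
    have p1 := l.n1
    have p2 := l.n2
    have p3 := l.ne
    have p4 := l.ne.symm
    have p5 : M.π t + M.π s ≠ 0 := fun e => p4 (add_eq_zero2.1 e)
    rw [polar_add_left, polar_add_left]
    rcases k4 with k4 | k4 | k4 | k4 <;> rw [k4] at k1 k2 k3 <;> simp only [p1, p2, p3, p4, p5, left_eq_add,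
      right_eq_add, add_eq_left, add_eq_right, or_true, true_or, or_false, iff_true, iff_false, ← ne_eq, z2_ne] at k1 k2 k3 <;>
      rw [k1, k2, k3] <;> rfl
  have k4 : a + b = u + (a + b + u) := by rw [add_comm (a + b), aac]
  have k5 : q (a + b) = 0 := by
    rw [k4, qa, qu, l.sing k3, polar_comm, Ln.perp k3 u1 u2]; rfl
  rw [qa, qa', qb, zero_add, zero_add] at k5
  exact l.solid qa' qb k5 a1 a2 b1 b2 na nb fun k6 => nu (by simpa [aac] using Ln.L4a k6 k3)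

end AP

open AP

variable {G : Type*} [Group G] [Finite G] {q : QuadraticForm (ZMod 2) V8} {z : G}

theorem OM.k2 (M : OM q z) (h : Hy z) (o : Orth q M.X M.O M.E M.L) : K2 z := by
  refine ⟨h, fun s hs ss s1 sz => ?_, fun s n e e1 e2 => (f4_iff M h n.mem e1).2
    (o.E_eq _ ⟨s, n, rfl⟩ _ ((M.mem_E h n e1).2 e2))⟩
  obtain ⟨t, n, e⟩ := (o.O_iff _).2 ⟨(M.q_zero hs).2 ss, fun e => ((M.π_zero hs).1 e).elim s1 sz⟩
  rcases (M.π_eq n.mem hs).1 e with rfl | rfl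
  exacts [n, (h.zt n).eq ▸ h.third n]

/-- in the orthogonal case there is a totally singular solid -/
theorem OM.solid (M : OM q z) (h : Hy z) (o : Orth q M.X M.O M.E M.L) :
    ∃ X : Submodule (ZMod 2) V8, finrank (ZMod 2) X = 4 ∧ ∀ x ∈ X, q x = 0 := by
  have k := M.k2 h o
  by_contra hX
  obtain ⟨e, he⟩ := exists_equiv_qfMinus M.nd (m := 3) fr8 hX (a := 1) (b := 1) (by decide)
  let f : Fin 3 → V8 := fun i => e.symm (Pi.single (.inl (.inl i)) 1)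
  have f0 : ∀ c : Fin 3 → ZMod 2, q (c 0 • f 0 + c 1 • f 1 + c 2 • f 2) = 0 := fun c => by
    rw [← he]
    simp [f, qfMinus_apply, Fin.sum_univ_three]
  have f1 : ∀ c : Fin 3 → ZMod 2, c 0 • f 0 + c 1 • f 1 + c 2 • f 2 = 0 → ∀ i, c i = 0 := fun c hc i => by
    have := congrFun (congrArg e hc) (.inl (.inl i))
    fin_cases i <;> simpa [f] using this
  choose g g1 g2 using fun i => M.surj (f i)
  have q0 : q (f 0) = 0 := by simpa using f0 ![1, 0, 0]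
  have q1 : q (f 1) = 0 := by simpa using f0 ![0, 1, 0]
  have q2 : q (f 2) = 0 := by simpa using f0 ![0, 0, 1]
  have p01 : polar q (f 0) (f 1) = 0 := by simpa [qa, q0, q1] using f0 ![1, 1, 0]
  have p02 : polar q (f 0) (f 2) = 0 := by simpa [qa, q0, q2] using f0 ![1, 0, 1]
  have p12 : polar q (f 1) (f 2) = 0 := by simpa [qa, q1, q2] using f0 ![0, 1, 1]
  have nb : ∀ i, q (f i) = 0 → f i ≠ 0 → Nb z (g i) := fun i a b =>
    k.nb _ (g1 i) ((M.q_zero (g1 i)).1 (g2 i ▸ a)) (fun e => b (by rw [← g2, e, M.π_one]))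
      fun e => b (by rw [← g2, e, M.π_z h])
  have cm : ∀ i j, polar q (f i) (f j) = 0 → Commute (g i) (g j) := fun i j a =>
    (M.b_zero (g1 i) (g1 j)).1 (by rwa [g2, g2])
  have n0 : f 0 ≠ 0 := fun e => by simpa using f1 ![1, 0, 0] (by simpa using e) 0
  have n1 : f 1 ≠ 0 := fun e => by simpa using f1 ![0, 1, 0] (by simpa using e) 1
  have n01 : f 1 ≠ f 0 := fun e => by simpa using f1 ![1, 1, 0] (by simp [e, aa]) 1
  let K : Subgroup G :=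
    { carrier := {a | a ∈ QQ z ∧ L4 (f 0) (f 1) (M.π a)}
      mul_mem' := fun a b => ⟨mul_mem a.1 b.1, M.π_mul a.1 b.1 ▸ Ln.L4a a.2 b.2⟩
      one_mem' := ⟨one_mem _, .inl M.π_one⟩
      inv_mem' := fun a => ⟨inv_mem a.1, (M.π_inv a.1).symm ▸ a.2⟩ }
  refine hX (k.solid M (nb 0 q0 n0) (nb 1 q1 n1) (cm 0 1 p01) (fun e => n01 (by rw [← g2, ← g2, e]))
    (fun e => n01 (by rw [← g2, ← g2, e, M.π_zmul h (g1 0)])) (g1 2) ((M.q_zero (g1 2)).1 (g2 2 ▸ q2))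
    (cm 0 2 p02).symm (cm 1 2 p12).symm (K := K) ⟨h.zQ, .inl (M.π_z h)⟩ ⟨g1 0, .inr (.inl (g2 0))⟩
    ⟨g1 1, .inr (.inr (.inl (g2 1)))⟩ fun e => ?_)
  have e2 := e.2
  rw [g2] at e2
  rcases e2 with e2 | e2 | e2 | e2
  · simpa using f1 ![0, 0, 1] (by simpa using e2) 2
  · simpa using f1 ![1, 0, 1] (by simp [e2, aa]) 2
  · simpa using f1 ![0, 1, 1] (by simp [e2, aa]) 2
  · simpa using f1 ![1, 1, 1] (by simp [e2, aa]) 2

/-- in the orthogonal case the form has plus type -/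
theorem OM.plus (M : OM q z) (h : Hy z) (o : Orth q M.X M.O M.E M.L) :
    ∃ e : V8 ≃ₗ[ZMod 2] (Fin 4 ⊕ Fin 4 → ZMod 2), ∀ v, qfPlus 4 (ZMod 2) (e v) = q v :=
  exists_equiv_qfPlus M.nd (by rw [fr8]) (M.solid h o)

end CL.N9
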