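/-
Extraspecial `F*(C(z))` of order `2 ^ 9` (S1763; port of `X7/AM`): no reflections are induced on `Q / ⟨z⟩`, and
the orthogonal case.
-/
import Cfsg.Agent.N9.OMb
import Cfsg.Agent.Spor.Co1RMain
import Cfsg.Agent.Cls.QuadClass

set_option autoImplicit false

namespace CL.N9

open Cfsg Subgroup CL.Even CL.Grp CL.WC CL.Cls QuadraticMap Module

universe u

variable {G : Type*} [Group G] [Finite G] {q : QuadraticForm (ZMod 2) V8} {z : G}

theorem am_ne {n : V8} (hn : q n = 1) : n ≠ 0 := fun e => by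
  rw [e, map_zero] at hn; exact zero_ne_one hn

theorem am_fix {n : V8} (hn : q n = 1) {x : V8} : (refl q n).1 x = x ↔ polar q n x = 0 := by
  rw [refl2 hn, add_eq_left, smul_eq_zero, or_iff_left (am_ne hn)]

/-- `s` induces the reflection in `π m` and inverts `m` -/
structure RS (M : OM q z) (m s : G) : Prop where
  mQ : m ∈ QQ z
  hn : q (M.π m) = 1
  sz : Commute s z
  ρs : M.ρ s = refl q (M.π m)
  sm : ¬ Commute s m

namespace RS
variable {M : OM q z} {m s : G} (r : RS M m s) (h : Hy z)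
include r h

theorem f0 {c : G} (hc : c ∈ QQ z) (k : Commute m c) : Commute s c ∨ s * c * s⁻¹ = c * z :=
  ((M.π_eq hc (h.cmem r.sz hc)).1 (by
    rw [M.π_conj r.sz hc, r.ρs, (am_fix r.hn).2 ((M.b_zero r.mQ hc).2 k)])).imp_left mul_inv_eq_iff_eq_mul.1

theorem fa {c : G} (hc : c ∈ QQ z) (k : Commute m c) : Commute s c ∨ Commute s (c * m) :=
  (r.f0 h hc k).imp_right fun e => mul_inv_eq_iff_eq_mul.1 <| by
    rw [show s * (c * m) * s⁻¹ = s * c * s⁻¹ * (s * m * s⁻¹) by group, e,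
      (r.f0 h r.mQ (Commute.refl m)).resolve_left r.sm, mul_assoc, ← mul_assoc z, ← (h.cz r.mQ).eq, mul_assoc m, h.zz,
      mul_one]

omit h [Finite G] in
theorem fb {x : G} (hx : x ∈ QQ z) (k : Commute s x) : Commute m x :=
  (M.b_zero r.mQ hx).1 ((am_fix r.hn).1 (by rw [← r.ρs, ← M.π_conj r.sz hx, cfix k]))

theorem fc {x : G} (hx : x ∈ QQ z) (k : Commute s x) (k' : ∀ c ∈ QQ z, Commute s c → Commute c x) :
    x = 1 ∨ x = z := by
  refine (h.xe.cm_or r.mQ hx fun y hy e => (r.fa h hy e.symm).elim (k' y hy) fun e' => ?_).resolve_right ?_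
  · simpa using (k' _ (mul_mem hy r.mQ) e').mul_left (r.fb hx k).inv_left
  · rintro (rfl | rfl)
    · exact r.sm k
    · exact r.sm (by simpa using r.sz.inv_right.mul_right k)

theorem fd : ∃ c ∈ QQ z, Commute s c ∧ c * c = z := by
  by_contra! k
  have k1 : ∀ c ∈ QQ z, Commute s c → c * c = 1 := fun c hc e => (h.xe.sq_cases hc).resolve_right (k c hc e)
  have k2 : ∀ c ∈ QQ z, Commute s c → M.π c = 0 := fun c hc e => (M.π_zero hc).2 (r.fc h hc e fun d hd e' => by
    have := inv_eq' (k1 _ (mul_mem hd hc) (e'.mul_right e))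
    rw [mul_inv_rev, inv_eq' (k1 c hc e), inv_eq' (k1 d hd e')] at this
    exact this.symm)
  have k3 : prp q (Submodule.span (ZMod 2) {M.π m}) ≤ Submodule.span (ZMod 2) {M.π m} := fun v hv => by
    obtain ⟨c, hc, rfl⟩ := M.surj v
    rcases r.fa h hc ((M.b_zero r.mQ hc).1 (hv _ (Submodule.mem_span_singleton_self _))) with e | e
    · exact k2 c hc e ▸ zero_mem _
    · have := k2 _ (mul_mem hc r.mQ) e
      rw [M.π_mul hc r.mQ, add_eq_zero2] at this
      exact this ▸ Submodule.mem_span_singleton_self _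
  have := Submodule.finrank_mono k3
  have := fr_prp M.nd (Submodule.span (ZMod 2) {M.π m})
  have := finrank_span_singleton (K := ZMod 2) (am_ne r.hn)
  omega

theorem ss : s * s = 1 ∨ s * s = z :=
  r.fc h ((M.ker (r.sz.mul_left r.sz)).1 (by rw [M.ρ_mul r.sz r.sz, r.ρs, refl_mul_self]))
    ((Commute.refl s).mul_right (Commute.refl s)) fun _ _ e => e.symm.mul_right e.symm

theorem inv : ∃ s, RS M m s ∧ s * s = 1 := by
  rcases r.ss h with e | e
  · exact ⟨s, r, e⟩
  obtain ⟨c, hc, k, cc⟩ := r.fd h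
  refine ⟨s * c, ⟨r.mQ, r.hn, r.sz.mul_left (h.cz hc), by rw [M.ρ_mul r.sz (h.cz hc), M.ρ_Q h hc, mul_one, r.ρs],
    fun e' => r.sm (by simpa using e'.mul_left (r.fb hc k).symm.inv_left)⟩, ?_⟩
  rw [mul_assoc, ← mul_assoc c, ← k.eq, mul_assoc s, cc, ← mul_assoc, e, h.zz]

theorem false (ss : s * s = 1) : False := by
  have hK : IT z (M.pre (dickson M.nd).ker) := M.it_pre fun g _ k _ => by
    simp only [MonoidHom.mem_ker, map_mul]
    rcases Int.units_eq_one_or (dickson M.nd g) with a | a <;> rcases Int.units_eq_one_or (dickson M.nd k) with b | b <;>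
      rw [a, b] <;> decide
  obtain ⟨g, yz, yR, sy, sK⟩ := exists_fixed2 h.res hK (h.isPGroup.to_le (inf_le_left (b := centralizer {s})))
    (fun c hc => h.cz hc.1) (fun c hc => cm_iff.1 hc.2) r.sz (fun e => by
      have := MonoidHom.mem_ker.1 (M.mem_pre.1 e).2
      rw [r.ρs, dickson_refl M.nd (r.hn ▸ one_ne_zero)] at this
      exact absurd this (by decide)) ss
  have yK : g * z * g⁻¹ ∈ cj g (M.pre (dickson M.nd).ker) := by
    rw [mem_cj, show g⁻¹ * (g * z * g⁻¹) * g = z by group, M.mem_pre, M.ρ_Q h h.zQ]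
    exact ⟨Commute.refl z, one_mem _⟩
  have y1 : g * z * g⁻¹ ≠ 1 := fun e => h.ne_one (conj_eq_one_iff.1 e)
  have hK' := hK.conj g
  generalize g * z * g⁻¹ = y at *
  replace yR : ∀ c ∈ QQ z, Commute s c → Commute c y := fun c hc e => yR c ⟨hc, cm_iff.2 e.symm⟩
  have cy : Commute y z := (yR z h.zQ r.sz).symm
  obtain ⟨x, hx⟩ : ∃ x, polar q (M.π m) x = 1 := by
    by_contra! k
    exact am_ne r.hn (eq_zero_of_pol M.nd fun x => (z2 _).resolve_right (k x))
  have f1 : (M.ρ y).1 (M.π m) = M.π m := by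
    have e := M.ρ_conj cy r.sz
    rw [cfix sy.symm, r.ρs, refl_conj] at e
    have e' := refl2 ((OG.map_app (M.ρ y) _).trans r.hn) x
    rw [← e, refl2 r.hn, hx, one_smul, add_right_inj] at e'
    rcases z2 (polar q ((M.ρ y).1 (M.π m)) x) with k | k <;> rw [k] at e'
    exacts [absurd (e'.trans (zero_smul _ _)) (am_ne r.hn), by rw [one_smul] at e'; exact e'.symm]
  have f2 : ∀ c ∈ QQ z, Commute s c → (M.ρ y).1 (M.π c) = M.π c := fun c hc e => by
    rw [← M.π_conj cy hc, cfix (yR c hc e).symm]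
  have f3 : ∀ w, polar q (M.π m) w = 0 → (M.ρ y).1 w = w := fun w hw => by
    obtain ⟨c, hc, rfl⟩ := M.surj w
    rcases r.fa h hc ((M.b_zero r.mQ hc).1 hw) with e | e
    · exact f2 c hc e
    · have := f2 _ (mul_mem hc r.mQ) e
      rwa [M.π_mul hc r.mQ, map_add, f1, add_left_inj] at this
  have ext : ∀ τ : OG q, (∀ w, polar q (M.π m) w = 0 → τ.1 w = w) → (M.ρ y).1 x = τ.1 x → M.ρ y = τ :=
    fun τ k1 k2 => OG.ext' fun w => by
      rcases z2 (polar q (M.π m) w) with k | k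
      · rw [k1 w k, f3 w k]
      · have : polar q (M.π m) (w + x) = 0 := by rw [polar_add_right, k, hx, oo]
        rw [← aac' w x, map_add, map_add τ.1, k1 _ this, f3 _ this, k2]
  rcases perp_perp M.nd (v := M.π m) (x := x + (M.ρ y).1 x) (fun w hw => by
    rw [polar_add_left]; nth_rewrite 2 [← f3 w hw]; rw [OG.polar_app, z2_add]) with e | e
  · exact (r.fc h ((M.ker cy).1 (ext 1 (fun _ _ => rfl) (add_eq_zero2.1 e).symm)) sy yR).elim y1 yz
  · have e' := ext _ (fun w => (am_fix r.hn).2) (by rw [refl2 r.hn, hx, one_smul, ← e, aac])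
    obtain ⟨c, hc, k, cc⟩ := r.fd h
    refine sK ((mul_mem_cancel_left yK).1 ?_)
    rcases r.fc h ((M.ker (cy.mul_left r.sz)).1 (by rw [M.ρ_mul cy r.sz, e', r.ρs, refl_mul_self]))
      (sy.mul_right (Commute.refl s)) fun c hc e => (yR c hc e).mul_right e.symm with k' | k' <;> rw [k']
    exacts [one_mem _, cc ▸ hK'.sq_mem (cm_iff.2 (yR c hc k))]

end RS

theorem OM.no_refl (M : OM q z) (h : Hy z) {n : V8} (hn : q n = 1) : refl q n ∉ M.X := fun hX => by
  obtain ⟨m, mQ, rfl⟩ := M.surj n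
  obtain ⟨s, sz, e⟩ := M.mem_X.1 hX
  obtain ⟨s, r⟩ : ∃ s, RS M m s := by
    by_cases k : Commute s m
    · obtain ⟨x, hx, k'⟩ : ∃ x ∈ QQ z, ¬ Commute x m := by
        by_contra! k'
        exact am_ne hn ((M.π_zero mQ).2 (h.xe.central mQ k'))
      exact ⟨s * x, mQ, hn, sz.mul_left (h.cz hx), by rw [M.ρ_mul sz (h.cz hx), M.ρ_Q h hx, mul_one, e],
        fun e' => k' (by simpa using k.inv_left.mul_left e')⟩
    · exact ⟨s, mQ, hn, sz, e, k⟩
  obtain ⟨s, r, ss⟩ := r.inv h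
  exact r.false h ss

/-- `F*(C(z))`, said inside `C(z)` -/
theorem Hy.fstar (h : Hy z) :
    generalizedFittingSubgroup (centralizer ({z} : Set G)) = pCore 2 (centralizer ({z} : Set G)) :=
  CL.Loc.fstar_eq_pCore_iff_inf.2 fun c hc => h.stab c hc.1 fun x hx => by
    rw [commutatorElement_eq_one_iff_commute.2 (show Commute c x from (hc.2 x hx).symm)]
    exact one_mem _

theorem Hy.map_core (z : G) :
    (pCore 2 (centralizer ({z} : Set G))).map (centralizer ({z} : Set G)).subtype = QQ z := rfl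

theorem Hy.extra_core (h : Hy z) : IsExtraspecial 2 (pCore 2 (centralizer ({z} : Set G))) :=
  extra_of_mulEquiv h.extra (Subgroup.equivMapOfInjective _ _ (subtype_injective _)).symm

theorem Hy.card_core (h : Hy z) : Nat.card (pCore 2 (centralizer ({z} : Set G))) = 2 ^ 9 := by
  rw [← card_map_of_injective (subtype_injective _), Hy.map_core, h.card]; rfl

theorem OM.X_eq (M : OM q z) (h : Hy z) (hc : commutator (OG q) ≤ M.X) : M.X = commutator (OG q) :=
  le_antisymm (fun g hg => by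
    by_contra k
    obtain ⟨v, hv⟩ := exists_map_eq M.nd (by rw [fr8]; omega) 1
    refine M.no_refl h hv (by_contra fun k' => k' ((mul_mem_cancel_right hg).1 (hc ?_)))
    exact (mul_mem_iff_of_index_two (index_commutator_OG_even M.nd rfl (Or.inr (by rw [fr8]; omega))
      (by rw [fr8]; omega))).2 (iff_of_false (fun e => k' (hc e)) k)) hc

theorem caseOrth : CaseOrth.{u} := by
  intro G _ _ _ _ z h q M o
  obtain ⟨e, he⟩ := M.plus h o
  obtain ⟨W, h1, h2⟩ := M.solid h o
  obtain ⟨v, v1, v0⟩ : ∃ v ∈ W, v ≠ 0 := Submodule.exists_mem_ne_zero_of_ne_bot fun k => by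
    rw [k, finrank_bot] at h1; omega
  obtain ⟨f, hf⟩ := exists_hyp M.nd v0 (h2 v v1)
  have k : ∀ w, q w = 0 → w ≠ 0 → ∀ u, eich q w u ∈ M.X := fun w w1 w2 u => by
    by_cases hu : polar q w u = 0
    · have hw := (o.O_iff w).2 ⟨w1, w2⟩
      exact (M.ld h).LX w hw ((o.L_iff w hw _).2 ⟨u, hu, rfl⟩)
    · rw [eich_of_not (by simp [hu])]; exact one_mem _
  have hX := M.X_eq h (commutator_le_of_pair M.nd (by simp) hf (k v hf.left v0) (k f hf.right fun e => by
    have := hf.polar_eq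
    rw [e, polar_zero_right] at this
    exact zero_ne_one this))
  obtain ⟨t, n, -⟩ := (o.O_iff v).2 ⟨hf.left, v0⟩
  obtain ⟨φ⟩ := M.quot _ (Hy.map_core z)
  obtain ⟨g, rfl⟩ := isConj_iff.1 n.ic
  obtain ⟨a, ha, e'⟩ := (Hy.map_core z) ▸ n.mem
  obtain ⟨ψ, -⟩ := CL.CoR.rec1 z h.ord _ h.fstar h.extra_core h.card_core
    (((φ.trans (MulEquiv.subgroupCongr hX)).trans (commutatorCongr (OG.congr e he))).trans
      (omegaEquiv (qfPlus 4 _)).symm) ⟨g, ⟨e' ▸ a.2, by simp only [← e']; exact ha⟩, n.ne⟩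
  exact .inr (.inr (.inr (.inr (.inl ⟨ψ⟩))))

end CL.N9
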