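/-
S1763 (project N9), helper91: an involution `s ∈ L v` with totally singular commutator space inside `O`
that is centralised by two suitable elements of order three cannot occur.
-/
import Cfsg.Agent.N9.Top

set_option autoImplicit false

namespace CL.N9.Kill

open Cfsg Subgroup CL.Even CL.Grp CL.WC CL.Cls QuadraticMap Module

/-- the linear data that are contradictory -/
structure KD {q : QuadraticForm (ZMod 2) V8} (X : Subgroup (OG q)) (O : Set V8)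
    (E : V8 → Submodule (ZMod 2) V8) (L : V8 → Subgroup (OG q)) (s g₁ g₂ : OG q) (v w x₀ x₁ x : V8) : Prop where
  vO : v ∈ O
  wO : w ∈ O
  sv : s ∈ L v
  sw : s ∈ L w
  p0 : polar q v x₀ = 1
  e0 : w = x₀ + s.1 x₀
  p1 : polar q w x₁ = 1
  e1 : v = x₁ + s.1 x₁
  fx : ∀ y, s.1 y = y → ∃ a, y = a + s.1 a
  sing : ∀ a, q (a + s.1 a) = 0
  Lfix : ∀ g ∈ L v, g.1 w = w → g = 1 ∨ g = s
  Efix : ∀ e ∈ E v, polar q e w = 0 → s.1 e = e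
  m1 : g₁ ∈ X
  m2 : g₂ ∈ X
  c1 : g₁ * s = s * g₁
  c2 : g₂ * s = s * g₂
  f1 : x + (g₁ * g₁).1 x = (g₁ * g₁).1 ((g₁ * g₁).1 x)
  f2 : x + (g₂ * g₂).1 x = (g₂ * g₂).1 ((g₂ * g₂).1 x)
  b1 : polar q x ((g₁ * g₁).1 x + s.1 ((g₁ * g₁).1 x)) = 0
  b2 : polar q x ((g₂ * g₂).1 x + s.1 ((g₂ * g₂).1 x)) = 1

variable {G : Type*} [Group G] [Finite G] {q : QuadraticForm (ZMod 2) V8} {z : G} (M : OM q z) (h : Hy z)
include h

/-- an element interchanging `z` and `t` carries `u` to an involution acting as `s` -/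
theorem lift {t u : G} (n : Nb z t) (hu : u ∈ QQ z) (u2 : u * u = 1) {s : OG q} (hs : s ∈ M.L (M.π t))
    {x : V8} (hx : polar q (M.π t) x = 1) (e : M.π u = x + s.1 x) :
    ∃ σ : G, σ * z * σ⁻¹ = t ∧ σ * t * σ⁻¹ = z ∧ Commute u t ∧ M.ρ (σ * u * σ⁻¹) = s := by
  have ld := M.ld h
  have vO : M.π t ∈ M.O := ⟨t, n, rfl⟩
  have sv : s.1 (M.π t) = M.π t := ld.fixv _ vO s hs
  have ss : s * s = 1 := ld.sq _ vO s hs
  have hx' : polar q (M.π t) (s.1 x) = 1 := by rw [← sv, OG.polar_app, hx]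
  have cu : Commute u t := ((M.b_zero n.mem hu).1 (by rw [e, polar_add_right, hx, hx', oo])).symm
  have n3 := h.third n
  have h3 := h.nb n3
  obtain ⟨σ, hσ, e1⟩ := h3.swap (h.symm n3)
  have e1' : σ * z * σ⁻¹ = t := by rw [e1, mul_assoc, ← (h.zt n).eq, ← mul_assoc, h.zz, one_mul]
  have e2 : σ * t * σ⁻¹ = z := by
    have k := cfix (h3.cz hσ)
    calc σ * t * σ⁻¹ = σ * z * σ⁻¹ * (σ * (z * t) * σ⁻¹) := by
          rw [show σ * z * σ⁻¹ * (σ * (z * t) * σ⁻¹) = σ * (z * z * t) * σ⁻¹ by group, h.zz, one_mul]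
      _ = z := by rw [e1', k, (h.zt n).eq, ← mul_assoc, h.tt n, one_mul]
  have ui : u⁻¹ = u := inv_eq_of_mul_eq_one_right u2
  have r1 : σ * u * σ⁻¹ ∈ QQ t := e1' ▸ conj_mem_QQ.2 hu
  have r2 : Commute (σ * u * σ⁻¹) z := by
    have := cu.map (MulAut.conj σ)
    rwa [MulAut.conj_apply, MulAut.conj_apply, e2] at this
  have r3 : u * (σ * u * σ⁻¹) ∈ QQ (z * t) := by
    have := mul_mem (h3.cmem ((h.cz hu).mul_right cu) hσ) (inv_mem hσ)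
    rwa [ui, show u * σ * u * σ⁻¹ = u * (σ * u * σ⁻¹) by group] at this
  have th := M.theta h n hu cu r1 r2 r3 hx
  have rL : M.ρ (σ * u * σ⁻¹) ∈ M.L (M.π t) := (M.mem_L h n).2 ⟨_, r1, r2, rfl⟩
  have k := ld.inj _ vO _ (mul_mem rL hs) (s.1 x) hx' (by
    rw [OG.mul_app, ← OG.mul_app s s, ss, OG.one_app]
    rwa [e, show x + (M.ρ (σ * u * σ⁻¹)).1 x + (x + s.1 x) = x + (x + (s.1 x + (M.ρ (σ * u * σ⁻¹)).1 x)) by abel,
      aac] at th)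
  exact ⟨σ, e1', e2, cu, by rw [eq_inv_of_mul_eq_one_left k, inv_eq_of_mul_eq_one_right ss]⟩

section
variable {r : G} {s : OG q} (rz : Commute r z) (r2 : r * r = 1) (rs : M.ρ r = s)
  (sing : ∀ a, q (a + s.1 a) = 0) (fx : ∀ y, s.1 y = y → ∃ a, y = a + s.1 a)
include rz rs

theorem π_phi {a : G} (ha : a ∈ QQ z) : M.π (a * r * a⁻¹ * r⁻¹) = M.π a + s.1 (M.π a) := by
  rw [M.π_cmt h rz ha, rs]

include r2 sing

theorem c_phi {a : G} (ha : a ∈ QQ z) : Commute (a * r * a⁻¹ * r⁻¹) r := by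
  have k := (M.q_zero (h.xe.cmt_mem rz ha)).1 (by rw [π_phi M h rz rs ha, sing])
  have ri : r⁻¹ = r := inv_eq_of_mul_eq_one_right r2
  have k2 : a * r * a⁻¹ * r⁻¹ = r * a * r⁻¹ * a⁻¹ := by
    rw [← inv_eq_of_mul_eq_one_right k]; group
  change _ * r = r * _
  conv_rhs => rw [k2]
  rw [inv_mul_cancel_right, ← mul_assoc, ← mul_assoc, ← mul_assoc, r2, one_mul, ri]

include fx

theorem c_fix {e : G} (he : e ∈ QQ z) (k : s.1 (M.π e) = M.π e) : Commute e r := by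
  obtain ⟨x, hx⟩ := fx _ k
  obtain ⟨a, ha, rfl⟩ := M.surj x
  have c := c_phi M h rz r2 rs sing ha
  rcases (M.π_eq (h.xe.cmt_mem rz ha) he).1 (by rw [π_phi M h rz rs ha, hx]) with rfl | rfl
  exacts [c, c.mul_left rz.symm]

/-- elements commuting with `s` lift, after squaring, to the centraliser of `r` -/
theorem exists_c {g : OG q} (hg : g ∈ M.X) (c : g * s = s * g) :
    ∃ c : G, Commute c z ∧ Commute c r ∧ M.ρ c = g * g := by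
  obtain ⟨b, hb, rfl⟩ := M.mem_X.1 hg
  have ri : r⁻¹ = r := inv_eq_of_mul_eq_one_right r2
  have c1 : Commute (b * r * b⁻¹) z := (hb.mul_left rz).mul_left hb.inv_left
  have eQ : r⁻¹ * (b * r * b⁻¹) ∈ QQ z := (M.ρ_eq rz c1).1 (by rw [M.ρ_conj hb rz, rs, c, mul_inv_cancel_right])
  have e1 : r * (r⁻¹ * (b * r * b⁻¹)) * r⁻¹ = (r⁻¹ * (b * r * b⁻¹))⁻¹ := by
    rw [mul_inv_cancel_left, mul_inv_rev, inv_inv, show (b * r * b⁻¹)⁻¹ = b * r⁻¹ * b⁻¹ by group, ri]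
  have e2 : s.1 (M.π (r⁻¹ * (b * r * b⁻¹))) = M.π (r⁻¹ * (b * r * b⁻¹)) := by
    rw [← rs, ← M.π_conj rz eQ, e1, M.π_inv eQ]
  obtain ⟨x, hx⟩ := fx _ e2
  obtain ⟨a, ha, rfl⟩ := M.surj x
  have cp := c_phi M h rz r2 rs sing ha
  have ar : r * (a * r * a⁻¹ * r⁻¹) = a * r * a⁻¹ := by rw [← cp.eq, inv_mul_cancel_right]
  have az := h.cz ha
  have cz' : Commute (a⁻¹ * b) z := az.inv_left.mul_left hb
  have hρ : M.ρ (a⁻¹ * b * (a⁻¹ * b)) = M.ρ b * M.ρ b := by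
    rw [M.ρ_mul cz' cz', M.ρ_mul az.inv_left hb, M.ρ_Q h (inv_mem ha), one_mul]
  refine ⟨a⁻¹ * b * (a⁻¹ * b), cz'.mul_left cz', ?_, hρ⟩
  have key : a⁻¹ * b * r * (a⁻¹ * b)⁻¹ = r ∨ a⁻¹ * b * r * (a⁻¹ * b)⁻¹ = r * z := by
    have e3 : a⁻¹ * b * r * (a⁻¹ * b)⁻¹ = a⁻¹ * (r * (r⁻¹ * (b * r * b⁻¹))) * a := by group
    rcases (M.π_eq (h.xe.cmt_mem rz ha) eQ).1 (by rw [π_phi M h rz rs ha, hx]) with k | k
    · exact .inl (by rw [e3, k, ar]; group)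
    · refine .inr ?_
      rw [e3, k, ← mul_assoc r, ar, mul_assoc, mul_assoc _ z, ← az.eq]; group
  rcases key with k | k
  · have := mul_inv_eq_iff_eq_mul.1 k
    exact Commute.mul_left this this
  · refine mul_inv_eq_iff_eq_mul.1 ?_
    calc a⁻¹ * b * (a⁻¹ * b) * r * (a⁻¹ * b * (a⁻¹ * b))⁻¹
        = a⁻¹ * b * (a⁻¹ * b * r * (a⁻¹ * b)⁻¹) * (a⁻¹ * b)⁻¹ := by group
      _ = a⁻¹ * b * (r * z) * (a⁻¹ * b)⁻¹ := by rw [k]
      _ = a⁻¹ * b * r * (a⁻¹ * b)⁻¹ * (a⁻¹ * b * z * (a⁻¹ * b)⁻¹) := by group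
      _ = r := by rw [k, cfix cz', mul_assoc, h.zz, mul_one]

omit fx r2 sing in
/-- the parity argument -/
theorem parity (hz : z ∉ QQ r)
    (hB : ∀ a ∈ QQ z, a * r * a⁻¹ * r⁻¹ ∈ QQ r ∨ a * r * a⁻¹ * r⁻¹ * z ∈ QQ r)
    {c a : G} (cz : Commute c z) (cr : Commute c r) (ha : a ∈ QQ z)
    (f : M.π a + (M.ρ c).1 (M.π a) = (M.ρ c).1 ((M.ρ c).1 (M.π a))) :
    a * r * a⁻¹ * r⁻¹ ∈ QQ r ↔ polar q (M.π a) ((M.ρ c).1 (M.π a) + s.1 ((M.ρ c).1 (M.π a))) = 0 := by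
  have inv : ∀ b : G, (c * b * c⁻¹) * r * (c * b * c⁻¹)⁻¹ * r⁻¹ ∈ QQ r ↔ b * r * b⁻¹ * r⁻¹ ∈ QQ r := fun b => by
    have k := conj_mem_QQ (g := c) (d := r) (x := b * r * b⁻¹ * r⁻¹)
    rw [cfix cr] at k
    rw [← k]
    refine iff_of_eq (congrArg (· ∈ QQ r) ?_)
    conv_lhs => rw [← cfix cr]
    group
  have h1 := h.cmem cz ha
  have h2 := h.cmem cz h1
  set a1 := c * a * c⁻¹ with ha1
  set a2 := c * a1 * c⁻¹ with ha2
  have i1 : a1 * r * a1⁻¹ * r⁻¹ ∈ QQ r ↔ a * r * a⁻¹ * r⁻¹ ∈ QQ r := inv a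
  have i2 : a2 * r * a2⁻¹ * r⁻¹ ∈ QQ r ↔ a1 * r * a1⁻¹ * r⁻¹ ∈ QQ r := inv a1
  have p1 : M.π a1 = (M.ρ c).1 (M.π a) := M.π_conj cz ha
  have p2 : M.π a2 = M.π (a * a1) := by rw [M.π_mul ha h1, ha2, M.π_conj cz h1, p1, f]
  have e3 : a2 * r * a2⁻¹ * r⁻¹ = a * (a1 * r * a1⁻¹ * r⁻¹) * a⁻¹ * (a * r * a⁻¹ * r⁻¹) := by
    rcases (M.π_eq (mul_mem ha h1) h2).1 p2.symm with k | k
    · rw [k]; group
    · rw [k, show a * a1 * z * r * (a * a1 * z)⁻¹ = a * a1 * (z * r * z⁻¹) * (a * a1)⁻¹ by group, cfix rz.symm]; group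
  have m0 := h.xe.cmt_mem rz ha
  have m1 := h.xe.cmt_mem rz h1
  have prod : a1 * r * a1⁻¹ * r⁻¹ * (a * r * a⁻¹ * r⁻¹) ∈ QQ r := by
    by_cases k : a * r * a⁻¹ * r⁻¹ ∈ QQ r
    · exact mul_mem (i1.2 k) k
    · have := mul_mem ((hB _ h1).resolve_left fun k' => k (i1.1 k')) ((hB _ ha).resolve_left k)
      rwa [mul_assoc _ z, ← mul_assoc z, ← (h.cz m0).eq, mul_assoc _ z z, h.zz, mul_one] at this
  rw [← p1, ← π_phi M h rz rs h1, M.b_zero ha m1, ← i1, ← i2, e3]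
  rcases h.xe.cj_cases ha m1 with k | k
  · exact iff_of_true (by rwa [cfix k]) k
  · refine iff_of_false (fun k' => hz ?_) (h.xe.not_cm k)
    rwa [k, mul_assoc z, mul_mem_cancel_right prod] at k'

end

theorem kill {s g₁ g₂ : OG q} {v w x₀ x₁ x : V8} (D : KD M.X M.O M.E M.L s g₁ g₂ v w x₀ x₁ x) : False := by
  have ld := M.ld h
  obtain ⟨t, n, rfl⟩ := D.vO
  obtain ⟨u, m, rfl⟩ := D.wO
  have ss : s * s = 1 := ld.sq _ D.vO s D.sv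
  have ss' : ∀ a, s.1 (a + s.1 a) = a + s.1 a := fun a => by
    rw [map_add, ← OG.mul_app s s, ss, OG.one_app, add_comm]
  have sw : s.1 (M.π u) = M.π u := ld.fixv _ D.wO s D.sw
  obtain ⟨σ, σ1, σ2, cut, hr⟩ := lift M h n m.mem (h.tt m) D.sv D.p0 D.e0
  obtain ⟨τ, τ1, τ2, -, hr'⟩ := lift M h m n.mem (h.tt n) D.sw D.p1 D.e1
  have cjj : ∀ {a b : G} (g : G), Commute a b → Commute (g * a * g⁻¹) (g * b * g⁻¹) := fun g c =>
    c.map (MulAut.conj g)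
  have sq : ∀ {a : G} (g : G), a * a = 1 → g * a * g⁻¹ * (g * a * g⁻¹) = 1 := fun {a} g c => by
    rw [show g * a * g⁻¹ * (g * a * g⁻¹) = g * (a * a) * g⁻¹ by group, c]; group
  set r := σ * u * σ⁻¹ with hrd
  set r' := τ * t * τ⁻¹ with hrd'
  have rz : Commute r z := σ2 ▸ cjj σ cut
  have rz' : Commute r' z := τ2 ▸ cjj τ cut.symm
  have r2 : r * r = 1 := sq σ (h.tt m)
  have r2' : r' * r' = 1 := sq τ (h.tt n)
  have rt : r ∈ QQ t := σ1 ▸ conj_mem_QQ.2 m.mem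
  have ru' : r' ∈ QQ u := τ1 ▸ conj_mem_QQ.2 n.mem
  have ur : Commute u r := c_fix M h rz r2 hr D.sing D.fx m.mem sw
  -- fixed vectors of `s` modulo `v` lie in `E w`
  have A : ∀ e ∈ QQ z, s.1 (M.π e) = M.π e → e ∈ QQ u ∨ e * t ∈ QQ u := fun e he k => by
    obtain ⟨y, hy⟩ := D.fx _ k
    rcases z2 (polar q (M.π u) y) with p | p
    · exact .inl ((M.mem_E h m he).1 (hy ▸ ld.perp _ D.wO s D.sw y p))
    · refine .inr ((M.mem_E h m (mul_mem he n.mem)).1 ?_)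
      have := ld.perp _ D.wO s D.sw (y + x₁) (by rw [polar_add_right, p, D.p1, oo])
      rwa [map_add, add_add_add_comm, ← hy, ← D.e1, ← M.π_mul he n.mem] at this
  have B0 : ∀ b ∈ QQ t, b ∈ QQ z → Commute b u → s.1 (M.π b) = M.π b := fun b hb hb' c =>
    D.Efix _ ((M.mem_E h n hb').2 hb) ((M.b_zero hb' m.mem).2 c)
  have B : ∀ b ∈ QQ t, Commute b z → Commute b u → b ∈ QQ u ∨ b * t ∈ QQ u := fun b hb bz bu => by
    rcases D.Lfix _ ((M.mem_L h n).2 ⟨b, hb, bz, rfl⟩) (by rw [← M.π_conj bz m.mem, cfix bu]) with k | k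
    · exact A b ((M.ker bz).1 k) (B0 b hb ((M.ker bz).1 k) bu)
    · have q1 : r⁻¹ * b ∈ QQ z := (M.ρ_eq rz bz).1 (hr.trans k.symm)
      have f1 := B0 _ (mul_mem (inv_mem rt) hb) q1 (ur.symm.inv_left.mul_left bu)
      have q2 : r'⁻¹ * r ∈ QQ z := (M.ρ_eq rz' rz).1 (hr'.trans hr.symm)
      have f2 : s.1 (M.π (r'⁻¹ * r)) = M.π (r'⁻¹ * r) := by
        rw [← hr, ← M.π_conj rz q2, ← M.π_inv q2]
        congr 1
        have i1 : r⁻¹ = r := inv_eq_of_mul_eq_one_right r2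
        have i2 : r'⁻¹ = r' := inv_eq_of_mul_eq_one_right r2'
        clear_value r r'
        rw [mul_inv_rev, inv_inv, mul_assoc r, mul_inv_cancel_right, i1, i2]
      have e : b = r' * (r'⁻¹ * r * (r⁻¹ * b)) := by group
      rcases A _ (mul_mem q2 q1) (by rw [M.π_mul q2 q1, map_add, f1, f2]) with k' | k'
      · exact .inl (e ▸ mul_mem ru' k')
      · exact .inr (by rw [e, mul_assoc]; exact mul_mem ru' k')
  have σ3 : σ⁻¹ * z * σ⁻¹⁻¹ = t := by rw [← σ2]; group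
  have σ4 : σ⁻¹ * t * σ⁻¹⁻¹ = z := by rw [← σ1]; group
  have σ5 : σ⁻¹ * r * σ⁻¹⁻¹ = u := by rw [hrd]; group
  have hB : ∀ a ∈ QQ z, a * r * a⁻¹ * r⁻¹ ∈ QQ r ∨ a * r * a⁻¹ * r⁻¹ * z ∈ QQ r := fun a ha => by
    have m0 := h.xe.cmt_mem rz ha
    have c0 := c_phi M h rz r2 hr D.sing ha
    have ct : Commute (a * r * a⁻¹ * r⁻¹) t := (M.b_zero m0 n.mem).1 (by
      have := qa (q := q) (M.π a + s.1 (M.π a)) (x₁ + s.1 x₁)
      rw [add_add_add_comm, ← map_add, D.sing, D.sing, D.sing, zero_add, zero_add] at this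
      rw [π_phi M h rz hr ha, D.e1, ← this])
    generalize a * r * a⁻¹ * r⁻¹ = e at m0 c0 ct
    rcases B (σ⁻¹ * e * σ⁻¹⁻¹) (σ3 ▸ conj_mem_QQ.2 m0) (σ4 ▸ cjj σ⁻¹ ct) (σ5 ▸ cjj σ⁻¹ c0) with k | k
    · exact .inl (conj_mem_QQ.1 (σ5.symm ▸ k))
    · refine .inr ((conj_mem_QQ (g := σ⁻¹)).1 (σ5.symm ▸ ?_))
      rwa [← σ3, show σ⁻¹ * e * σ⁻¹⁻¹ * (σ⁻¹ * z * σ⁻¹⁻¹) = σ⁻¹ * (e * z) * σ⁻¹⁻¹ by group] at k
  have rQ : r ∉ QQ z := fun k => M.t_ne h m (by rw [D.e0, ← hr, M.ρ_Q h k, OG.one_app, aa])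
  have ic : IsConj z r := ic_conj m.ic σ
  have hz : z ∉ QQ r := fun k =>
    rQ ((h.of ic).symm ⟨ic.symm, k, fun e => rQ (e ▸ h.zQ)⟩).mem
  obtain ⟨c₁, z1, s1, e1⟩ := exists_c M h rz r2 hr D.sing D.fx D.m1 D.c1
  obtain ⟨c₂, z2', s2, e2⟩ := exists_c M h rz r2 hr D.sing D.fx D.m2 D.c2
  obtain ⟨a, ha, rfl⟩ := M.surj x
  have k1 := parity M h rz hr hz hB z1 s1 ha (e1 ▸ D.f1)
  have k2 := parity M h rz hr hz hB z2' s2 ha (e2 ▸ D.f2)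
  rw [e1] at k1
  rw [e2, D.b2] at k2
  exact one_ne_zero (k2.1 (k1.2 D.b1))

end CL.N9.Kill
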