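/-
Extraspecial `F*(C(z))` of order `2 ^ 9`, the case `S₃ × A₅` (helper12): the model and the steps.
-/
import Cfsg.Agent.N9.Top

set_option autoImplicit false
set_option linter.unusedSectionVars false

namespace CL.N9.M8

open Cfsg Subgroup CL.Even CL.Grp CL.WC CL.Cls QuadraticMap Module Equiv

universe u

abbrev X : Type := Perm (Fin 3) × Perm (Fin 5)

instance instDecEqX : DecidableEq X := inferInstance
instance instFintypeX : Fintype X := inferInstance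

/-- the non-zero vectors of the plane -/
def nv (a : Fin 3) (b : Fin 2) : ZMod 2 := if a.val = 2 ∨ a.val = b.val then 1 else 0
/-- a basis of the even weight vectors of length five -/
def wb : Fin 4 → Fin 5 → ZMod 2 := ![![1, 1, 1, 0, 1], ![0, 1, 1, 0, 0], ![1, 0, 1, 0, 0], ![1, 1, 1, 1, 0]]
/-- the coordinates of an even weight vector -/
def wc (y : Fin 5 → ZMod 2) : Fin 4 → ZMod 2 := ![y 4, y 1 + y 3 + y 4, y 0 + y 3 + y 4, y 3]
def lo (k : Fin 8) : Fin 2 := ⟨k.val % 2, Nat.mod_lt _ (by norm_num)⟩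
def hi (k : Fin 8) : Fin 4 := ⟨k.val / 2, by omega⟩
def wm (σ : Perm (Fin 5)) (k l : Fin 4) : ZMod 2 := wc (fun i => wb l (σ⁻¹ i)) k
/-- the matrix of the tensor product -/
def mat (w : X) (k l : Fin 8) : ZMod 2 := nv (w.1 (lo l).castSucc) (lo k) * wm w.2 (hi k) (hi l)
/-- the action on the tensor product -/
def act (w : X) (v : V8) : V8 := fun k => mat w k 0 * v 0 + mat w k 1 * v 1 + mat w k 2 * v 2 + mat w k 3 * v 3 +
  mat w k 4 * v 4 + mat w k 5 * v 5 + mat w k 6 * v 6 + mat w k 7 * v 7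
def e (k : Fin 8) : V8 := fun l => if l = k then 1 else 0
/-- the fifteen points -/
def pt (a : Fin 3) (i : Fin 5) : V8 := fun k => nv a (lo k) * wc (fun j => if j = i then 0 else 1) (hi k)

def s0 : X := (swap 0 2, 1)
def ν0 : X := (swap 0 1, 1)
def ρ0 : X := s0 * ν0
def hh : X := (1, swap 0 2 * swap 0 1)
def aa : X := (1, swap 0 3 * swap 1 2)
def nn : X := (1, swap 3 4 * swap 1 2)
def ss : X := (1, swap 3 4)
/-- the standard Sylow 2-subgroup of `S₃ × A₅` -/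
def InA (w : X) : Prop := (w.1 = 1 ∨ w.1 = swap 0 2) ∧
  (w.2 = 1 ∨ w.2 = swap 0 3 * swap 1 2 ∨ w.2 = swap 1 3 * swap 0 2 ∨ w.2 = swap 2 3 * swap 0 1)
instance (w : X) : Decidable (InA w) := by unfold InA; infer_instance

theorem pol_app (v w : V8) : polar qp v w = v 0 * w 7 + v 1 * w 6 + v 2 * w 5 + v 3 * w 4 + v 4 * w 3 + v 5 * w 2 +
    v 6 * w 1 + v 7 * w 0 := by
  simp only [polar, qp_app, Pi.add_apply]; ring

theorem act_add (w : X) (u v : V8) : act w (u + v) = act w u + act w v := by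
  funext k; simp only [act, Pi.add_apply]; ring

theorem act_s0 (v : V8) : act s0 v = ![v 0, v 0 + v 1, v 2, v 2 + v 3, v 4, v 4 + v 5, v 6, v 6 + v 7] := by
  revert v; decide +kernel
theorem act_ν0 (v : V8) : act ν0 v = ![v 1, v 0, v 3, v 2, v 5, v 4, v 7, v 6] := by revert v; decide +kernel
theorem act_ρ0 (v : V8) : act ρ0 v = ![v 1, v 0 + v 1, v 3, v 2 + v 3, v 5, v 4 + v 5, v 7, v 6 + v 7] := by
  revert v; decide +kernel
theorem act_hh (v : V8) : act hh v = ![v 0, v 1, v 4, v 5, v 2 + v 4, v 3 + v 5, v 6, v 7] := by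
  revert v; decide +kernel
theorem act_aa (v : V8) : act aa v = ![v 0, v 1, v 0 + v 2, v 1 + v 3, v 4, v 5, v 0 + v 4 + v 6, v 1 + v 5 + v 7] := by
  revert v; decide +kernel
theorem act_nn (v : V8) : act nn v = ![v 6, v 7, v 2 + v 4, v 3 + v 5, v 4, v 5, v 0, v 1] := by
  revert v; decide +kernel
theorem act_ss (v : V8) : act ss v = ![v 6, v 7, v 2, v 3, v 4, v 5, v 0, v 1] := by revert v; decide +kernel
theorem act_one (v : V8) : act 1 v = v := by revert v; decide +kernel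

theorem act_mul (w w' : X) (v : V8) : act (w * w') v = act w (act w' v) := by
  have h : ∀ (a b : Perm (Fin 3)) (k l : Fin 2), nv ((a * b) l.castSucc) k =
      nv (a (0 : Fin 2).castSucc) k * nv (b l.castSucc) 0 + nv (a (1 : Fin 2).castSucc) k * nv (b l.castSucc) 1 := by
    decide +kernel
  have h1 : ∀ y : Fin 5 → ZMod 2, y 0 + y 1 + y 2 + y 3 + y 4 = 0 → ∀ i,
      y i = wb 0 i * wc y 0 + wb 1 i * wc y 1 + wb 2 i * wc y 2 + wb 3 i * wc y 3 := by decide +kernel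
  have h2 : ∀ (b : Perm (Fin 5)) (l : Fin 4),
      wb l (b⁻¹ 0) + wb l (b⁻¹ 1) + wb l (b⁻¹ 2) + wb l (b⁻¹ 3) + wb l (b⁻¹ 4) = 0 := by decide +kernel
  have h3 : ∀ (a b : Perm (Fin 5)) (k l : Fin 4), wm (a * b) k l =
      wm a k 0 * wm b 0 l + wm a k 1 * wm b 1 l + wm a k 2 * wm b 2 l + wm a k 3 * wm b 3 l := fun a b k l => by
    have k1 := h1 (fun i => wb l (b⁻¹ i)) (h2 b l)
    have k2 : wm (a * b) k l = wc (fun i => wb 0 (a⁻¹ i) * wm b 0 l + wb 1 (a⁻¹ i) * wm b 1 l +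
        wb 2 (a⁻¹ i) * wm b 2 l + wb 3 (a⁻¹ i) * wm b 3 l) k := congrArg (wc · k) (funext fun i => k1 (a⁻¹ i))
    rw [k2]
    generalize wm b 0 l = p, wm b 1 l = q, wm b 2 l = s, wm b 3 l = t
    fin_cases k <;> simp [wm, wc] <;> ring
  have h4 : ∀ k l, mat (w * w') k l = mat w k 0 * mat w' 0 l + mat w k 1 * mat w' 1 l + mat w k 2 * mat w' 2 l +
      mat w k 3 * mat w' 3 l + mat w k 4 * mat w' 4 l + mat w k 5 * mat w' 5 l + mat w k 6 * mat w' 6 l +
      mat w k 7 * mat w' 7 l := fun k l => by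
    simp only [mat, Prod.fst_mul, Prod.snd_mul, h, h3, show lo 0 = 0 from rfl, show lo 1 = 1 from rfl,
      show lo 2 = 0 from rfl, show lo 3 = 1 from rfl, show lo 4 = 0 from rfl, show lo 5 = 1 from rfl,
      show lo 6 = 0 from rfl, show lo 7 = 1 from rfl, show hi 0 = 0 from rfl, show hi 1 = 0 from rfl,
      show hi 2 = 1 from rfl, show hi 3 = 1 from rfl, show hi 4 = 2 from rfl, show hi 5 = 2 from rfl,
      show hi 6 = 3 from rfl, show hi 7 = 3 from rfl]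
    ring
  funext k
  simp only [act, h4]
  ring

variable {G : Type u} [Group G]

/-- The setting: `C(z) / Q` lies between `S₃ × A₅` and `S₃ × S₅`. -/
structure St (z x : G) (M : OM qp z) (r : G → X) : Prop where
  hy : Hy z
  nb : Nb z x
  πx : M.π x = e 7
  act_eq : ∀ {c}, Commute c z → ∀ v, (M.ρ c).1 v = act (r c) v
  r_mul : ∀ {a b}, Commute a z → Commute b z → r (a * b) = r a * r b
  r_ker : ∀ {c}, Commute c z → (r c = 1 ↔ c ∈ QQ z)
  sur : ∀ w : X, Perm.sign w.2 = 1 → ∃ c, Commute c z ∧ r c = w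
  O_iff : ∀ v, v ∈ M.O ↔ ∃ a i, v = pt a i
  E_iff : ∀ {y}, y ∈ QQ z → (y ∈ QQ x ↔ M.π y 0 = 0 ∧ M.π y 1 = 0 ∧ M.π y 2 = 0 ∧ M.π y 4 = 0)
  L_in : ∀ {y}, y ∈ QQ x → Commute y z → InA (r y)

/-- `C(z) / Q = S₃ × A₅` -/
def Ev (z : G) (r : G → X) : Prop := ∀ c, Commute c z → Perm.sign (r c).2 = 1

namespace St
variable [Finite G] {z x : G} {M : OM qp z} {r : G → X} (S : St z x M r)
include S

theorem r_Q {a : G} (ha : a ∈ QQ z) : r a = 1 := (S.r_ker (S.hy.cz ha)).mpr ha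
theorem r_one : r 1 = 1 := S.r_Q (one_mem _)
theorem r_inv {a : G} (ha : Commute a z) : r a⁻¹ = (r a)⁻¹ :=
  eq_inv_of_mul_eq_one_left (by rw [← S.r_mul ha.inv_left ha, inv_mul_cancel, S.r_one])
theorem r_conj {a b : G} (ha : Commute a z) (hb : Commute b z) : r (a * b * a⁻¹) = r a * r b * (r a)⁻¹ := by
  rw [S.r_mul (ha.mul_left hb) ha.inv_left, S.r_mul ha hb, S.r_inv ha]
theorem r_pow {a : G} (ha : Commute a z) (n : ℕ) : r (a ^ n) = r a ^ n := by
  induction n with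
  | zero => rw [pow_zero, pow_zero, S.r_one]
  | succ n ih => rw [pow_succ, S.r_mul (ha.pow_left n) ha, ih, pow_succ]
theorem r_eq {a b : G} (ha : Commute a z) (hb : Commute b z) : r a = r b ↔ a * b⁻¹ ∈ QQ z := by
  rw [← S.r_ker (ha.mul_left hb.inv_left), S.r_mul ha hb.inv_left, S.r_inv hb, mul_inv_eq_one]
theorem π_conj {c a : G} (hc : Commute c z) (ha : a ∈ QQ z) : M.π (c * a * c⁻¹) = act (r c) (M.π a) := by
  rw [M.π_conj hc ha, S.act_eq hc]
theorem z1 : z ≠ 1 := S.hy.ne_one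
theorem zz : z * z = 1 := S.hy.zz
theorem xx : x * x = 1 := S.hy.tt S.nb
theorem xz : Commute x z := S.hy.cz S.nb.mem
/-- two elements of `Q` whose images are not perpendicular -/
theorem conj_eq {a b : G} (ha : a ∈ QQ z) (hb : b ∈ QQ z) (h : polar qp (M.π a) (M.π b) = 1) :
    a * b * a⁻¹ = b * z := by
  have k := (M.π_eq hb (S.hy.cmem (S.hy.cz ha) hb)).1 (by rw [S.π_conj (S.hy.cz ha) hb, S.r_Q ha, act_one])
  exact k.resolve_left fun k => (M.b_one ha hb).1 h (mul_inv_eq_iff_eq_mul.1 k)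
/-- an element of order three centralises the preimage of a fixed vector -/
theorem fix3 {t a : G} (ht : Commute t z) (h3 : t ^ 3 = 1) (ha : a ∈ QQ z) (h : act (r t) (M.π a) = M.π a) :
    Commute t a := by
  rcases (M.π_eq ha (S.hy.cmem ht ha)).1 (by rw [S.π_conj ht ha, h]) with k | k
  · exact mul_inv_eq_iff_eq_mul.1 k
  · have k1 : t * z * t⁻¹ = z := by rw [ht.eq, mul_inv_cancel_right]
    have k2 : t ^ 3 * a * (t ^ 3)⁻¹ = t * (t * (t * a * t⁻¹) * t⁻¹) * t⁻¹ := by rw [pow_three]; group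
    have k3 : t * (a * z) * t⁻¹ = a := by rw [← conj_mul, k, k1, mul_assoc a, S.zz, mul_one]
    rw [h3, k, k3, k] at k2
    exact absurd (by simpa using k2) S.z1
/-- a lift of order three -/
theorem lift3 {w : X} (hw : Perm.sign w.2 = 1) (h3 : w ^ 3 = 1) : ∃ t, Commute t z ∧ r t = w ∧ t ^ 3 = 1 := by
  obtain ⟨c, hc, rfl⟩ := S.sur w hw
  refine ⟨c ^ 4, hc.pow_left 4, by rw [S.r_pow hc, pow_succ, h3, one_mul], ?_⟩
  rw [← pow_mul, show 4 * 3 = 3 * 2 * 2 by rfl, pow_mul, pow_mul, pow_two (c ^ 3)]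
  rcases S.hy.xe.sq_cases ((S.r_ker (hc.pow_left 3)).1 (by rw [S.r_pow hc, h3])) with k | k <;> rw [k]
  exacts [one_pow 2, (pow_two z).trans S.zz]

end St

/-- the torus and the central node -/
structure B0 (z x : G) (M : OM qp z) (r : G → X) (h b m : G) : Prop where
  hz : Commute h z
  rh : r h = hh
  h3 : h ^ 3 = 1
  bQ : b ∈ QQ z
  πb : M.π b = e 0
  msq : m * m = 1
  bm : (b * m) ^ 3 = 1
  mz : m * z * m = x
  hm : Commute h m

namespace B0
variable [Finite G] {z x : G} {M : OM qp z} {r : G → X} {h b m : G} (B : B0 z x M r h b m) (S : St z x M r)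
include B

theorem minv : m⁻¹ = m := inv_eq_of_mul_eq_one_right B.msq
theorem mm (g : G) : m * (m * g * m) * m = g := by
  rw [← mul_assoc, ← mul_assoc, B.msq, one_mul, mul_assoc, B.msq, mul_one]
theorem mx : m * x * m = z := by rw [← B.mz, B.mm]
theorem mQ {g : G} : m * g * m ∈ QQ x ↔ g ∈ QQ z := by
  have := conj_mem_QQ (g := m) (d := z) (x := g)
  rwa [B.minv, B.mz] at this
theorem mQ' {g : G} : m * g * m ∈ QQ z ↔ g ∈ QQ x := by rw [← B.mQ, B.mm]
theorem mcm {g k : G} (c : Commute g k) : Commute (m * g * m) (m * k * m) := by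
  simpa [B.minv] using c.map (MulAut.conj m)
theorem mmul (g k : G) : m * (g * k) * m = m * g * m * (m * k * m) := by
  rw [mul_assoc (m * g), ← mul_assoc m (m * k), ← mul_assoc m m, B.msq, one_mul]; group
include S
theorem bsq : b * b = 1 := (M.q_zero B.bQ).1 (by rw [B.πb]; decide +kernel)
/-- `h` centralises the preimages of the vectors with vanishing middle coordinates -/
theorem hfix {a : G} (ha : a ∈ QQ z) (h2 : M.π a 2 = 0) (h3 : M.π a 3 = 0) (h4 : M.π a 4 = 0) (h5 : M.π a 5 = 0) :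
    Commute h a := S.fix3 B.hz B.h3 ha (by
  rw [B.rh, act_hh]; funext k; fin_cases k <;> simp [h2, h3, h4, h5])
theorem hb : Commute h b := by
  refine B.hfix S B.bQ ?_ ?_ ?_ ?_ <;> rw [B.πb] <;> rfl
theorem br : m * b * m = b * m * b := by
  rw [← mul_left_inj (m * b * m), ← B.mmul, B.bsq S, mul_one, B.msq, ← B.bm, pow_three]; group
end B0

/-- the root elements; `a₀ = m y m`, `a = m f m` -/
structure RA (z x : G) (M : OM qp z) (r : G → X) (h b m y c f a₀ a : G) : Prop extends B0 z x M r h b m where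
  yQ : y ∈ QQ z
  πy : M.π y = e 1
  cQ : c ∈ QQ z
  πc : M.π c = e 6
  fQ : f ∈ QQ z
  πf : M.π f = e 2
  ha₀ : a₀ = m * y * m
  ha : a = m * f * m
  a₀z : Commute a₀ z
  az : Commute a z
  ra₀ : r a₀ = s0
  ra : r a = aa
  com₀ : a₀ * b * a₀ * b = y
  com : a * b * a * b = f * c
  mc : m * c * m = c
  fh : (f * h) ^ 3 = 1
  mg : ∀ g ∈ QQ z, g ∈ QQ x → (g * h) ^ 3 = 1 → m * g * m = g

/-- an element of order three that is normalised by the root elements -/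
structure TT (z : G) (r : G → X) (h a₀ a t : G) : Prop where
  tz : Commute t z
  rt : r t = ρ0
  t3 : t ^ 3 = 1
  a₀t : a₀ * t * a₀ = t⁻¹
  ta : Commute t a
  th : Commute t h

/-- a Levi complement -/
structure LV (z : G) (r : G → X) (h b y a₀ a n₀ n : G) : Prop where
  n₀sq : n₀ * n₀ = 1
  nsq : n * n = 1
  n₀z : Commute n₀ z
  nz : Commute n z
  rn₀ : r n₀ = ν0
  rn : r n = nn
  ord₀ : (a₀ * n₀) ^ 3 = 1
  ord : (a * n) ^ 3 = 1
  nh : (n * h) ^ 2 = 1
  a₀n : Commute a₀ n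
  n₀a : Commute n₀ a
  n₀h : Commute n₀ h
  n₀n : Commute n₀ n
  nb : n₀ * b * n₀ = y

/-- the defining relations of `Ω₈⁻(2)` -/
structure CT (b m a₀ n₀ a h n : G) : Prop where
  bsq : b * b = 1
  msq : m * m = 1
  a₀sq : a₀ * a₀ = 1
  n₀sq : n₀ * n₀ = 1
  asq : a * a = 1
  nsq : n * n = 1
  h3 : h ^ 3 = 1
  bm : (b * m) ^ 3 = 1
  ord₀ : (a₀ * n₀) ^ 3 = 1
  ord : (a * n) ^ 3 = 1
  ah : (a * h) ^ 3 = 1
  nh : (n * h) ^ 2 = 1
  a₀a : Commute a₀ a
  a₀h : Commute a₀ h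
  a₀n : Commute a₀ n
  n₀a : Commute n₀ a
  n₀h : Commute n₀ h
  n₀n : Commute n₀ n
  hb : Commute h b
  hm : Commute h m
  nb : n₀ * b * n₀ = a₀ * b * a₀ * b
  ma₀ : m * a₀ * m = a₀ * b * a₀ * b
  mc : Commute m (n * b * n)
  ma : m * a * m = a * b * a * b * (n * b * n)
  br₀ : (m * n₀) ^ 3 = 1
  br : (m * n) ^ 4 = 1

def gen (b m a₀ n₀ a h n : G) : Subgroup G := closure {b, m, a₀, n₀, a, h, n}

abbrev Om : Type := POmega (ZMod 2) (quadFormMinus 3 (ZMod 2) 1 1)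

/-- quantification over the setting -/
abbrev AllS (p : ∀ (G : Type u) [Group G] [Finite G] (z x : G) (M : OM qp z) (r : G → X), Prop) : Prop :=
  ∀ (G : Type u) [Group G] [Finite G] (z x : G) (M : OM qp z) (r : G → X), St z x M r → p G z x M r

/-- the conclusion of the transfer -/
structure YY (z : G) (M : OM qp z) (y : G) : Prop where
  ic : IsConj z y
  ne : y ≠ z
  yz : Commute y z
  cm : ∀ a ∈ QQ z, M.π a 0 = M.π a 6 → M.π a 1 = M.π a 7 → M.π a 2 = M.π a 5 → Commute y a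

def KA : Prop := AllS.{u} fun _ _ _ z _ M r => ¬ Ev z r → ∃ y, YY z M y
def KB : Prop := ∀ (G : Type u) [Group G] [Finite G] (z y : G), Hy z → IsConj z y → Commute y z →
  16 ≤ Nat.card (QQ y ⊓ centralizer ({z} : Set G) : Subgroup G)
def KC : Prop := AllS.{u} fun _ _ _ z _ M _ => ∀ y, ¬ YY z M y
def R0 : Prop := AllS.{u} fun _ _ _ z x M r => ∃ h b m, B0 z x M r h b m
def R1 : Prop := AllS.{u} fun _ _ _ z x M r => ∀ h b m, B0 z x M r h b m → ∃ y c f a₀ a, RA z x M r h b m y c f a₀ a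
def R2a : Prop := AllS.{u} fun _ _ _ z x M r => ∀ h b m y c f a₀ a, RA z x M r h b m y c f a₀ a →
  ∃ t, TT z r h a₀ a t
def R2b : Prop := AllS.{u} fun _ _ _ z x M r => ∀ h b m y c f a₀ a t, RA z x M r h b m y c f a₀ a →
  TT z r h a₀ a t → ∃ n₀ n, LV z r h b y a₀ a n₀ n
def R3a : Prop := AllS.{u} fun _ _ _ z x M r => ∀ h b m y c f a₀ a n₀ n, RA z x M r h b m y c f a₀ a →
  LV z r h b y a₀ a n₀ n → n * y * n = x ∧ n₀ * c * n₀ = x ∧ n * b * n = c ∧ n * f * n = f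
def R3b : Prop := AllS.{u} fun _ _ _ z x M r => ∀ h b m y c f a₀ a n₀ n, RA z x M r h b m y c f a₀ a →
  LV z r h b y a₀ a n₀ n → n₀ * c * n₀ = x → (m * n₀) ^ 3 = 1
def R3c : Prop := AllS.{u} fun _ _ _ z x M r => ∀ h b m y c f a₀ a n₀ n, RA z x M r h b m y c f a₀ a →
  LV z r h b y a₀ a n₀ n → n * y * n = x → n * f * n = f → (m * n) ^ 4 = 1
def F1 : Prop := AllS.{u} fun _ _ _ z x M r => Ev z r → ∀ h b m y c f a₀ a n₀ n, RA z x M r h b m y c f a₀ a →
  LV z r h b y a₀ a n₀ n → ∀ k, Commute k z → k ∈ gen b m a₀ n₀ a h n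
def F2 : Prop := AllS.{u} fun G _ _ z x M r => Ev z r → ∀ h b m y c f a₀ a, RA z x M r h b m y c f a₀ a →
  ∀ K : Subgroup G, (∀ k, Commute k z → k ∈ K) → m ∈ K →
  (∀ g, Commute (g * z * g⁻¹) z → ∃ k ∈ K, k * z * k⁻¹ = g * z * g⁻¹) ∧ ∃ t, orderOf t = 2 ∧ ¬ IsConj z t
def F3 : Prop := AllS.{u} fun G _ _ z _ _ r => Ev z r → IsSimpleGroup G → ¬ IsMulCommutative G →
  ∀ K : Subgroup G, (∀ k, Commute k z → k ∈ K) →
  (∀ g, Commute (g * z * g⁻¹) z → ∃ k ∈ K, k * z * k⁻¹ = g * z * g⁻¹) → (∃ t, orderOf t = 2 ∧ ¬ IsConj z t) → K = ⊤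
def CTU : Prop := ∀ (G : Type u) [Group G] (b m a₀ n₀ a h n : G), CT b m a₀ n₀ a h n →
  Finite (gen b m a₀ n₀ a h n) ∧ Nat.card (gen b m a₀ n₀ a h n) ≤ 197406720
def CTO : Prop := IsSimpleGroup Om ∧ Nat.card Om = 197406720
def CTM : Prop := ∃ b m a₀ n₀ a h n : Om, CT b m a₀ n₀ a h n ∧ 197406720 ≤ Nat.card (gen b m a₀ n₀ a h n)

end CL.N9.M8
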