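/-
Project N9 (S1763), case `O₈⁻(2)`, job KB: an involution fixes at least sixteen elements of `2^{1+8}`.
-/
import Cfsg.Agent.N9.M8D

set_option autoImplicit false
set_option linter.unusedSectionVars false

namespace CL.N9.M8

open Cfsg Subgroup CL.Even CL.Grp CL.WC CL.Cls QuadraticMap Module Equiv

universe u

namespace KBx

variable {G : Type*} [Group G] [Finite G]

theorem card_le {B : Subgroup G} {I : Type*} {g : I → G} (hg : Function.Injective g) {i₀ : G}
    (h : ∀ a, g a ∈ B ∨ g a * i₀ ∈ B) : Nat.card I ≤ 2 * Nat.card B := by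
  classical
  let f : I → B ⊕ B := fun a => if k : g a ∈ B then .inl ⟨g a, k⟩ else .inr ⟨g a * i₀, (h a).resolve_left k⟩
  have hf : Function.Injective f := fun a b e => by
    by_cases ka : g a ∈ B <;> by_cases kb : g b ∈ B <;> simp only [f, ka, kb, dite_true, dite_false] at e
    · exact hg (by simpa using e)
    · simp at e
    · simp at e
    · exact hg (by simpa using e)
  rw [two_mul, ← Nat.card_sum]
  exact Nat.card_le_card_of_injective f hf

end KBx

theorem kb : KB.{u} := by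
  intro G _ _ z y hz ic c
  have hy := hz.of ic
  have zz := hz.zz
  have zi : z⁻¹ = z := inv_eq_of_mul_eq_one_right zz
  set B : Subgroup G := QQ y ⊓ centralizer ({z} : Set G) with hB
  have mB : ∀ {p}, p ∈ QQ y → z * p * z⁻¹ = p → p ∈ B := fun hp e =>
    ⟨hp, mem_centralizer_singleton_iff.2 (mul_inv_eq_iff_eq_mul.1 e).symm⟩
  let g : QQ y ⧸ B.subgroupOf (QQ y) → G := fun a => a.out * (z * (a.out : G)⁻¹ * z⁻¹)
  have hg : Function.Injective g := fun a b e => by
    rw [← a.out_eq, ← b.out_eq]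
    refine QuotientGroup.eq.2 (mB (mul_mem (inv_mem a.out.2) b.out.2) ?_)
    change z * ((a.out : G)⁻¹ * b.out) * z⁻¹ = (a.out : G)⁻¹ * b.out
    calc _ = (a.out : G)⁻¹ * g a * (z * b.out * z⁻¹) := by simp only [g]; group
      _ = _ := by rw [e]; simp only [g]; group
  have gQ : ∀ a, g a ∈ QQ y := fun a => mul_mem a.out.2 (hy.cmem c.symm (inv_mem a.out.2))
  have gz : ∀ a, z * g a * z⁻¹ = g a ∨ z * g a * z⁻¹ = g a * y := fun a => by
    have e : z * g a * z⁻¹ = (g a)⁻¹ := by
      calc _ = z * a.out * z * (a.out : G)⁻¹ * (z * z)⁻¹ := by simp only [g]; group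
        _ = z * a.out * z⁻¹ * (a.out : G)⁻¹ := by rw [zz, zi, inv_one, mul_one]
        _ = _ := by simp only [g]; group
    rw [e]
    refine (hy.xe.sq_cases (gQ a)).imp inv_eq_of_mul_eq_one_right fun k => inv_eq_of_mul_eq_one_right ?_
    rw [← mul_assoc, k, hy.zz]
  obtain ⟨i₀, h₀⟩ : ∃ i₀, ∀ a, g a ∈ B ∨ g a * i₀ ∈ B := by
    by_cases k : ∀ a, z * g a * z⁻¹ = g a
    · exact ⟨1, fun a => .inl (mB (gQ a) (k a))⟩
    obtain ⟨b, hb⟩ := not_forall.1 k
    refine ⟨g b, fun a => (gz a).imp (mB (gQ a)) fun e => mB (mul_mem (gQ a) (gQ b)) ?_⟩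
    rw [← conj_mul, e, (gz b).resolve_left hb, mul_assoc, ← mul_assoc y, ← (hy.cz (gQ b)).eq, mul_assoc (g b),
      hy.zz, mul_one]
  have h1 := KBx.card_le hg h₀
  have h2 := card_eq_card_quotient_mul_card_subgroup (B.subgroupOf (QQ y))
  rw [hy.card, Nat.card_congr (subgroupOfEquivOfLe (inf_le_left : B ≤ QQ y)).toEquiv] at h2
  by_contra hlt
  have h3 : Nat.card B ≤ 15 := by omega
  nlinarith [Nat.mul_le_mul h1 h3]

end CL.N9.M8
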