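/-
S1763 (project N9), helper91: two interchanged totally singular solids are impossible; the transfer argument.
-/
import Cfsg.Agent.N9.Kill
import Cfsg.Agent.N9.M8KB

set_option autoImplicit false
set_option linter.unusedSectionVars false

namespace CL.N9.CC0

open Cfsg Subgroup CL.Even CL.Grp CL.WC CL.Cls QuadraticMap Module

universe u

section LA
variable {q : QuadraticForm (ZMod 2) V8} {X : Subgroup (OG q)} {O : Set V8} {E : V8 → Submodule (ZMod 2) V8}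
  {L : V8 → Subgroup (OG q)} {W₁ W₂ : Submodule (ZMod 2) V8} {σ : OG q}

theorem ker_two {W : Submodule (ZMod 2) V8} (h3 : finrank (ZMod 2) W = 4) (f g : V8 → ZMod 2)
    (hf : ∀ x y, f (x + y) = f x + f y) (hg : ∀ x y, g (x + y) = g x + g y) :
    ∃ c ∈ W, c ≠ 0 ∧ f c = 0 ∧ g c = 0 := by
  have : ¬ Function.Injective fun x : W => (f x, g x) := fun k => by
    have := Nat.card_le_card_of_injective _ k
    rw [Module.natCard_eq_pow_finrank (K := ZMod 2), h3, Nat.card_prod, Nat.card_zmod] at this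
    omega
  obtain ⟨x, y, e, ne⟩ := Function.not_injective_iff.1 this
  simp only [Prod.mk.injEq] at e
  exact ⟨x + y, add_mem x.2 y.2, fun k => ne (Subtype.ext (add_eq_zero2.1 k)),
    by rw [hf, e.1, z2_add], by rw [hg, e.2, z2_add]⟩

/-- the stabiliser of a subspace -/
def stb (q : QuadraticForm (ZMod 2) V8) (W : Submodule (ZMod 2) V8) : Subgroup (OG q) where
  carrier := {g | ∀ w ∈ W, g.1 w ∈ W}
  one_mem' _ h := h
  mul_mem' ha hb w h := ha _ (hb w h)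
  inv_mem' {g} hg w h := by
    obtain ⟨x, e⟩ := (Finite.injective_iff_surjective (f := fun x : W => (⟨g.1 x, hg x x.2⟩ : W))).1
      (fun x y e => Subtype.ext (g.1.injective (congrArg Subtype.val e))) ⟨w, h⟩
    rw [← show g.1 x = w from congrArg Subtype.val e, OG.inv_app_app]; exact x.2

/-- a symplectic polarity -/
structure SW (q : QuadraticForm (ZMod 2) V8) (W₁ W₂ : Submodule (ZMod 2) V8) (σ : OG q) : Prop where
  sq : σ * σ = 1
  m₁ : ∀ w ∈ W₁, σ.1 w ∈ W₂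
  m₂ : ∀ w ∈ W₂, σ.1 w ∈ W₁
  alt : ∀ w ∈ W₁, polar q w (σ.1 w) = 0

theorem cm_app {k : OG q} (c : k * σ = σ * k) (x : V8) : k.1 (σ.1 x) = σ.1 (k.1 x) := by
  rw [← OG.mul_app, c, OG.mul_app]

variable (c : CC q X O E L W₁ W₂)
include c

theorem not_stb {g : OG q} (k : ∀ w ∈ W₁, g.1 w ∈ W₂) : g ∉ stb q W₁ := fun e => by
  obtain ⟨w, hw, w0, -⟩ := ker_two c.r₁ 0 0 (by simp) (by simp)
  exact OG.app_ne_zero g w0 (c.inf _ (e w hw) (k w hw))

theorem sep {a b d e : V8} (ha : a ∈ W₁) (hb : b ∈ W₂) (hc : d ∈ W₁) (hd : e ∈ W₂) (k : a + b = d + e) : a = d :=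
  add_eq_zero2.1 (c.inf _ (add_mem ha hc) (by
    rw [show a + d = b + e from add_eq_zero2.1 (by rw [add_add_add_comm, k, aa])]
    exact add_mem hb hd))

variable (h : SW q W₁ W₂ σ)
include h

omit c in
theorem ss (x : V8) : σ.1 (σ.1 x) = x := by rw [← OG.mul_app, h.sq, OG.one_app]

omit c in
theorem symm (x y : V8) : polar q x (σ.1 y) = polar q y (σ.1 x) := by
  rw [← OG.polar_app σ, ss h, polar_comm]

theorem fix1 {x : V8} (e : σ.1 x = x) : ∃ w ∈ W₁, x = w + σ.1 w := by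
  obtain ⟨w, hw, k⟩ := c.sup x
  have := sep c hw k (h.m₂ _ k) (h.m₁ _ hw) (by rw [← map_add, aac', e, add_comm x, aac])
  refine ⟨w, hw, ?_⟩
  rw [map_add, e] at this
  rw [← aac' x (σ.1 w), ← this]

omit c in
theorem fixed (a : V8) : σ.1 (a + σ.1 a) = a + σ.1 a := by rw [map_add, ss h, add_comm]

theorem sing (a : V8) : q (a + σ.1 a) = 0 := by
  obtain ⟨w, hw, e⟩ := fix1 c h (fixed h a)
  rw [e, qa, c.s₁ _ hw, c.s₂ _ (h.m₁ _ hw), h.alt _ hw, add_zero, add_zero]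

theorem ex_one (nd : (polarBilin q).Nondegenerate) {w : V8} (hw : w ∈ W₁) (h0 : w ≠ 0) :
    ∃ u ∈ W₁, polar q w (σ.1 u) = 1 := by
  by_contra k
  refine h0 (eq_zero_of_pol nd fun y => ?_)
  obtain ⟨u, hu, k'⟩ := c.sup y
  have := (z2 _).resolve_right fun e => k ⟨_, h.m₂ _ k', e⟩
  rwa [ss h, polar_add_right, pol_of_sing c.s₁ hw hu, add_zero] at this

theorem eq_one {k : OG q} (k1 : ∀ w ∈ W₁, k.1 w ∈ W₁) (cm : k * σ = σ * k)
    (f : ∀ w ∈ W₁, k.1 (w + σ.1 w) = w + σ.1 w) : k = 1 := by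
  have f1 : ∀ w ∈ W₁, k.1 w = w := fun w hw =>
    sep c (k1 w hw) (h.m₁ _ (k1 w hw)) hw (h.m₁ _ hw) (by rw [← cm_app cm, ← map_add, f w hw])
  refine OG.ext' fun x => ?_
  obtain ⟨w, hw, k2⟩ := c.sup x
  have := cm_app cm (σ.1 (x + w))
  rwa [f1 _ (h.m₂ _ k2), ss h, map_add, f1 w hw, add_left_inj] at this

theorem fixU {k : OG q} (hk : k ∈ X) (cm : k * σ = σ * k) (f : ∀ w ∈ W₁, k.1 (w + σ.1 w) = w + σ.1 w) :
    k = 1 ∨ k = σ := by
  refine (c.act k hk).imp (fun a => eq_one c h a.1 cm f) fun a => ?_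
  have := eq_one c h (k := k * σ) (fun w hw => a.2 _ (h.m₁ w hw)) (by rw [← mul_assoc, cm])
    fun w hw => by rw [OG.mul_app, fixed h, f w hw]
  rw [eq_inv_of_mul_eq_one_left this, inv_eq_of_mul_eq_one_right h.sq]

theorem T_app {a w : V8} (ha : a ∈ W₁) (hw : w ∈ W₁) :
    (eich q a (σ.1 a)).1 w = w + polar q w (σ.1 a) • a := by
  rw [eich2 (c.s₁ a ha) (h.alt a ha), pol_of_sing c.s₁ ha hw, polar_comm]; simp

theorem T_comm {a : V8} (ha : a ∈ W₁) : eich q a (σ.1 a) * σ = σ * eich q a (σ.1 a) := OG.ext' fun x => by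
  rw [OG.mul_app, OG.mul_app, eich2 (c.s₁ a ha) (h.alt a ha), eich2 (c.s₁ a ha) (h.alt a ha), c.s₂ _ (h.m₁ a ha),
    OG.polar_app, symm h a x, polar_comm _ x]
  simp only [zero_mul, zero_smul, add_zero, map_add, map_smul, ss h]
  abel

theorem T_mem {a : V8} (ha : a ∈ W₁) : eich q a (σ.1 a) ∈ X := c.tv a ha _ (h.m₁ a ha) (h.alt a ha)

/-- the product of two symplectic transvections -/
theorem ex_g {a b : V8} (ha : a ∈ W₁) (hb : b ∈ W₁) (e : polar q a (σ.1 b) = 1) :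
    ∃ g ∈ X, g * σ = σ * g ∧ (g * g).1 a = a + b ∧ (g * g).1 b = a := by
  have e' : polar q b (σ.1 a) = 1 := by rw [symm h, e]
  have g1 : (eich q a (σ.1 a) * eich q b (σ.1 b)).1 a = b := by
    rw [OG.mul_app, T_app c h hb ha, e, one_smul, map_add, T_app c h ha ha, T_app c h ha hb, e', h.alt a ha,
      zero_smul, add_zero, one_smul, add_comm b, aac]
  have g2 : (eich q a (σ.1 a) * eich q b (σ.1 b)).1 b = a + b := by
    rw [OG.mul_app, T_app c h hb hb, h.alt b hb, zero_smul, add_zero, T_app c h ha hb, e', one_smul, add_comm]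
  exact ⟨_, mul_mem (T_mem c h ha) (T_mem c h hb), by
    rw [mul_assoc, T_comm c h hb, ← mul_assoc, T_comm c h ha, mul_assoc], by rw [OG.mul_app, g1, g2],
    by rw [OG.mul_app, g2, map_add, g1, g2, add_comm a, aac]⟩

end LA

variable {G : Type u} [Group G] [Finite G] {q : QuadraticForm (ZMod 2) V8} {z : G} {M : OM q z} (h : Hy z)
  {W₁ W₂ : Submodule (ZMod 2) V8} (c : CC q M.X M.O M.E M.L W₁ W₂)
include h c

omit h in
theorem it : IT z (M.pre (stb q W₁)) := by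
  refine M.it_pre fun g hg k hk => ?_
  rcases c.act g hg with ⟨a1, a2⟩ | ⟨a1, a2⟩ <;> rcases c.act k hk with ⟨b1, b2⟩ | ⟨b1, b2⟩
  · exact iff_of_true (fun w hw => a1 _ (b1 w hw)) (iff_of_true a1 b1)
  · exact iff_of_false (not_stb c fun w hw => a2 _ (b1 w hw)) fun e => not_stb c b1 (e.1 a1)
  · exact iff_of_false (not_stb c fun w hw => a1 _ (b1 w hw)) fun e => not_stb c a1 (e.2 b1)
  · exact iff_of_true (fun w hw => a2 _ (b1 w hw)) (iff_of_false (not_stb c a1) (not_stb c b1))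

/-- no conjugate of `z` induces a symplectic polarity -/
theorem core {y : G} (ic : IsConj z y) (yz : Commute y z) (S : SW q W₁ W₂ (M.ρ y)) : False := by
  have hy := h.of ic
  have yy := hy.zz
  have sg := sing c S
  have fx : ∀ x, (M.ρ y).1 x = x → ∃ a, x = a + (M.ρ y).1 a := fun x e => let ⟨w, _, k⟩ := fix1 c S e; ⟨w, k⟩
  have yQ : y ∉ QQ z := fun k => not_stb c S.m₁ (M.ρ_Q h k ▸ one_mem _)
  have hz : z ∉ QQ y := fun k => yQ (hy.symm ⟨ic.symm, k, fun e => yQ (e ▸ h.zQ)⟩).mem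
  let P : V8 → Prop := fun w => ∃ e ∈ QQ z, e ∈ QQ y ∧ M.π e = w + (M.ρ y).1 w
  by_cases k : ∃ w ∈ W₁, w ≠ 0 ∧ P w
  · obtain ⟨w, hw, w0, pw⟩ := k
    have add : ∀ a b, P a → P b → P (a + b) := fun a b ⟨e, e1, e2, e3⟩ ⟨f, f1, f2, f3⟩ =>
      ⟨e * f, mul_mem e1 f1, mul_mem e2 f2, by rw [M.π_mul e1 f1, e3, f3, map_add, add_add_add_comm]⟩
    have p1 : ∀ a ∈ W₁, polar q w ((M.ρ y).1 a) = 1 → P a := fun a ha e => by
      obtain ⟨g, hg, gc, g1, -⟩ := ex_g c S hw ha e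
      obtain ⟨d, dz, dy, dg⟩ := Kill.exists_c M h yz yy rfl sg fx hg gc
      obtain ⟨e, e1, e2, e3⟩ := pw
      have : P (w + a) := ⟨_, h.cmem dz e1, hy.cmem dy e2, by
        rw [M.π_conj dz e1, e3, map_add, cm_app (by rw [← M.ρ_mul dz yz, dy.eq, M.ρ_mul yz dz]), dg, g1]⟩
      simpa only [aac] using add _ _ ⟨e, e1, e2, e3⟩ this
    have p2 : ∀ a ∈ W₁, P a := fun a ha => by
      rcases z2 (polar q w ((M.ρ y).1 a)) with e | e
      · obtain ⟨b, hb, e'⟩ := ex_one c S M.nd hw w0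
        simpa only [aac] using add _ _ (p1 b hb e') (p1 (b + a) (add_mem hb ha)
          (by rw [map_add, polar_add_right, e, e', add_zero]))
      · exact p1 a ha e
    have hB : ∀ a ∈ QQ z, a * y * a⁻¹ * y⁻¹ ∈ QQ y ∨ a * y * a⁻¹ * y⁻¹ * z ∈ QQ y := fun a ha => by
      obtain ⟨v, hv, e⟩ := fix1 c S (fixed S (M.π a))
      obtain ⟨f, f1, f2, f3⟩ := p2 v hv
      rcases (M.π_eq (h.xe.cmt_mem yz ha) f1).1 (by rw [M.π_cmt h yz ha, e, f3]) with k | k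
      exacts [.inl (k ▸ f2), .inr (k ▸ f2)]
    have out : ∀ a ∈ QQ z, M.π a ∈ W₁ → M.π a ≠ 0 → a * y * a⁻¹ * y⁻¹ ∉ QQ y := fun a ha a1 a0 k => by
      obtain ⟨b, hb, e⟩ := ex_one c S M.nd a1 a0
      obtain ⟨g, hg, gc, g1, g2⟩ := ex_g c S a1 hb e
      obtain ⟨d, dz, dy, dg⟩ := Kill.exists_c M h yz yy rfl sg fx hg gc
      have := (Kill.parity M h yz rfl hz hB dz dy ha (by rw [dg, g1, map_add, g1, g2, aac, add_comm, aac])).1 k
      rw [dg, g1, polar_add_right, pol_of_sing c.s₁ a1 (add_mem a1 hb), map_add, polar_add_right, S.alt _ a1, e] at this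
      simp at this
    obtain ⟨b, hb, e⟩ := ex_one c S M.nd hw w0
    obtain ⟨v, hv, v0, e1, e2⟩ := ker_two c.r₁ (fun x => polar q w ((M.ρ y).1 x)) (fun x => polar q x ((M.ρ y).1 b))
      (fun _ _ => by rw [map_add, polar_add_right]) fun _ _ => polar_add_left ..
    obtain ⟨a, ha, rfl⟩ := M.surj w
    obtain ⟨a', ha', rfl⟩ := M.surj v
    have m0 := h.xe.cmt_mem yz ha
    have m1 := h.xe.cmt_mem yz ha'
    have cm : Commute a (a' * y * a'⁻¹ * y⁻¹) := (M.b_zero ha m1).1 (by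
      rw [M.π_cmt h yz ha', polar_add_right, pol_of_sing c.s₁ hw hv, e1, add_zero])
    refine out (a * a') (mul_mem ha ha') (M.π_mul ha ha' ▸ add_mem hw hv) (fun k => ?_) ?_
    · rw [M.π_mul ha ha', add_eq_zero2] at k
      rw [← k, e] at e2
      exact one_ne_zero e2
    · have := mul_mem ((hB _ ha').resolve_left (out _ ha' hv v0)) ((hB _ ha).resolve_left (out _ ha hw w0))
      rw [mul_assoc _ z, ← mul_assoc z, ← (h.cz m0).eq, mul_assoc _ z z, h.zz, mul_one, ← cfix cm] at this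
      rwa [show a * a' * y * (a * a')⁻¹ * y⁻¹ = a * (a' * y * a'⁻¹ * y⁻¹) * a⁻¹ * (a * y * a⁻¹ * y⁻¹) by group]
  · have D0 : ∀ e ∈ QQ z, e ∈ QQ y → M.π e = 0 := fun e e1 e2 => by
      obtain ⟨w, hw, e3⟩ := fix1 c S (x := M.π e) (by rw [← M.π_conj yz e1, cfix (hy.cz e2).symm])
      have : w = 0 := by_contra fun w0 => k ⟨w, hw, w0, e, e1, e2, e3⟩
      rw [e3, this, map_zero, add_zero]
    have D1 : ∀ e ∈ QQ z, e ∈ QQ y → e = 1 := fun e e1 e2 =>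
      ((M.π_zero e1).1 (D0 e e1 e2)).resolve_right fun k => hz (k ▸ e2)
    have hle : QQ y ⊓ centralizer {z} ≤ zpowers y := fun b hb => by
      have bz := cm_iff.1 hb.2
      have by' := hy.cz hb.1
      rcases fixU c S (M.ρ_mem bz) (by rw [← M.ρ_mul bz yz, by'.eq, M.ρ_mul yz bz]) (fun w hw => by
        obtain ⟨e, he, e1⟩ := M.surj (w + (M.ρ y).1 w)
        have ce := Kill.c_fix M h yz yy rfl sg fx he (by rw [e1, fixed S])
        have := D0 _ (h.xe.cmt_mem bz he) (mul_mem (hy.cmem ce hb.1) (inv_mem hb.1))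
        rw [M.π_cmt h bz he, add_eq_zero2, e1] at this
        exact this.symm) with e | e
      · exact D1 b ((M.ker bz).1 e) hb.1 ▸ one_mem _
      · have := D1 _ ((M.ρ_eq yz bz).1 e.symm) (mul_mem (inv_mem hy.zQ) hb.1)
        exact inv_mul_eq_one.1 this ▸ mem_zpowers y
    have := (M8.kb G z y h ic yz).trans (card_le_of_le hle)
    rw [Nat.card_zpowers, hy.ord] at this
    omega

/-- the transfer -/
theorem fin {s : G} (sz : Commute s z) (S : SW q W₁ W₂ (M.ρ s)) (sq : s * s = 1 ∨ s * s = z)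
    (hm : s * s = 1 ∨ ∀ t, Commute t z → t * t = 1 → t ∈ M.pre (stb q W₁)) : False := by
  have out : s ∉ M.pre (stb q W₁) := fun k => not_stb c S.m₁ (M.mem_pre.1 k).2
  have hR : IsPGroup 2 (QQ z ⊓ centralizer {s} : Subgroup G) := (pCoreOf_isPGroup 2 _).to_le inf_le_left
  obtain ⟨g, yz, ya, sy, -⟩ : ∃ g : G, g * z * g⁻¹ ≠ z ∧ (∀ a ∈ QQ z ⊓ centralizer {s}, Commute a (g * z * g⁻¹)) ∧
      Commute s (g * z * g⁻¹) ∧ s ∉ cj g (M.pre (stb q W₁)) := by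
    by_cases ss : s * s = 1
    · exact exists_fixed2 h.res (it c) hR (fun r hr => h.cz hr.1) (fun r hr => cm_iff.1 hr.2) sz out ss
    have hm := hm.resolve_left ss
    have ho : orderOf s = 2 ^ 2 := orderOf_eq_prime_pow (p := 2) (n := 1) (by rwa [pow_one, pow_two]) (by
      rw [show s ^ 2 ^ (1 + 1) = s * s * (s * s) by simp only [← pow_two, ← pow_mul], sq.resolve_left ss, h.zz])
    refine exists_fixed h.res (it c) hR (fun r hr => h.cz hr.1) (fun r hr => cm_iff.1 hr.2) sz out ⟨2, ho⟩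
      fun t ht lt => ?_
    have h0 := orderOf_pos t
    have h1 := pow_orderOf_eq_one t
    obtain k | k | k : orderOf t = 1 ∨ orderOf t = 2 ∨ orderOf t = 3 := by omega
    all_goals rw [k] at h1
    · exact hm t ht (by rw [pow_one] at h1; rw [h1, mul_one])
    · exact hm t ht (by rwa [pow_two] at h1)
    · have := (it c).sq_mem (cm_iff.2 (ht.mul_left ht))
      rwa [show t * t * (t * t) = t ^ 3 * t by simp only [pow_succ, pow_zero, one_mul, mul_assoc], h1, one_mul] at this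
  have ic : IsConj z (g * z * g⁻¹) := isConj_iff.2 ⟨g, rfl⟩
  generalize g * z * g⁻¹ = y at *
  have cyz : Commute y z := (ya z ⟨h.zQ, cm_iff.2 sz.symm⟩).symm
  have cp : ∀ a ∈ QQ z, Commute (a * s * a⁻¹ * s⁻¹) s := fun a ha => by
    have k := (M.q_zero (h.xe.cmt_mem sz ha)).1 (by rw [M.π_cmt h sz ha, sing c S])
    have k1 : Commute (s * s) a⁻¹ := by
      rcases sq with e | e <;> rw [e]
      exacts [Commute.one_left _, (h.cz ha).inv_left.symm]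
    refine (mul_inv_eq_iff_eq_mul.1 ?_ : Commute s _).symm
    calc s * (a * s * a⁻¹ * s⁻¹) * s⁻¹ = s * a * s⁻¹ * (s * s * a⁻¹ * (s * s)⁻¹) := by group
      _ = (a * s * a⁻¹ * s⁻¹)⁻¹ := by rw [cfix k1]; group
      _ = _ := inv_eq_of_mul_eq_one_right k
  rcases fixU c S (M.ρ_mem cyz) (by rw [← M.ρ_mul cyz sz, ← sy.eq, M.ρ_mul sz cyz]) (fun w hw => by
    obtain ⟨a, ha, rfl⟩ := M.surj w
    have m := h.xe.cmt_mem sz ha
    rw [← M.π_cmt h sz ha, ← M.π_conj cyz m, cfix (ya _ ⟨m, cm_iff.2 (cp a ha)⟩).symm]) with e | e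
  · have n : Nb z y := ⟨ic, (M.ker cyz).1 e, yz⟩
    have f : (M.ρ s).1 (M.π y) = M.π y := by rw [← M.π_conj sz n.mem, cfix sy]
    obtain ⟨y0, k | k⟩ := (c.O_iff _).1 ⟨y, n, rfl⟩
    exacts [y0 (c.inf _ k (f ▸ S.m₁ _ k)), y0 (c.inf _ (f ▸ S.m₂ _ k) k)]
  · exact core h c ic cyz (e ▸ S)

theorem main (gen : ∀ g : OG q, (∀ w ∈ W₁, g.1 w ∈ W₁) → (∀ w ∈ W₂, g.1 w ∈ W₂) → g ∈ M.X)
    (sym : ∃ σ : OG q, σ * σ = 1 ∧ (∀ w ∈ W₁, σ.1 w ∈ W₂) ∧ (∀ w ∈ W₂, σ.1 w ∈ W₁) ∧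
      ∀ w ∈ W₁, polar q w (σ.1 w) = 0)
    (alt : ∀ s : G, Commute s z → s * s = 1 → (∀ w ∈ W₁, (M.ρ s).1 w ∈ W₂) → (∀ w ∈ W₂, (M.ρ s).1 w ∈ W₁) →
      ∃ s' : G, Commute s' z ∧ s' * s' = 1 ∧ (∀ w ∈ W₁, (M.ρ s').1 w ∈ W₂) ∧ (∀ w ∈ W₂, (M.ρ s').1 w ∈ W₁) ∧
        ∀ w ∈ W₁, polar q w ((M.ρ s').1 w) = 0) : False := by
  by_cases k : ∀ t, Commute t z → t * t = 1 → t ∈ M.pre (stb q W₁)
  swap
  · push Not at k
    obtain ⟨s, s1, s2, s3⟩ := k
    have a := (c.act _ (M.ρ_mem s1)).resolve_left fun a => s3 (M.mem_pre.2 ⟨s1, a.1⟩)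
    obtain ⟨s, t1, t2, t3, t4, t5⟩ := alt s s1 s2 a.1 a.2
    exact fin h c t1 ⟨by rw [← M.ρ_mul t1 t1, t2, M.ρ_one], t3, t4, t5⟩ (.inl t2) (.inl t2)
  obtain ⟨σ, σσ, m1, m2, al⟩ := sym
  obtain ⟨τ, hτ, n1⟩ := c.out
  have a := (c.act τ hτ).resolve_left fun a => not_stb c n1 a.1
  have hx : σ ∈ M.X := by
    have := mul_mem (gen (σ * τ) (fun w hw => m2 _ (a.1 w hw)) fun w hw => m1 _ (a.2 w hw)) (inv_mem hτ)
    rwa [mul_inv_cancel_right] at this
  obtain ⟨s, hs, rfl⟩ := M.mem_X.1 hx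
  have S : SW q W₁ W₂ (M.ρ s) := ⟨σσ, m1, m2, al⟩
  have sQ : s * s ∈ QQ z := (M.ker (hs.mul_left hs)).1 (by rw [M.ρ_mul hs hs, σσ])
  obtain ⟨u, -, e⟩ := fix1 c S (x := M.π (s * s)) (by rw [← M.π_conj hs sQ]; congr 1; group)
  obtain ⟨a, ha, rfl⟩ := M.surj u
  have e2 : s * a * (s * a) = s * a * s⁻¹ * (s * s * a) := by group
  have m := h.cmem hs ha
  have e3 : M.ρ (s * a) = M.ρ s := by rw [M.ρ_mul hs (h.cz ha), M.ρ_Q h ha, mul_one]
  refine fin h c (hs.mul_left (h.cz ha)) (e3 ▸ S) ?_ (.inr k)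
  rw [e2, ← M.π_zero (mul_mem m (mul_mem sQ ha)), M.π_mul m (mul_mem sQ ha), M.π_mul sQ ha, e, M.π_conj hs ha,
    add_comm (M.π a), aac', aa]

end CL.N9.CC0
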