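/-
S1763 (project N9), case `CC`: an involution that interchanges the two solids may be chosen alternating.
-/
import Cfsg.Agent.N9.Kill

set_option autoImplicit false
set_option linter.unusedSectionVars false

namespace CL.N9

open Cfsg Subgroup CL.Even CL.Grp CL.WC CL.Cls QuadraticMap Module

namespace CCA

variable {q : QuadraticForm (ZMod 2) V8} {W₁ W₂ : Submodule (ZMod 2) V8}

theorem ker3 {W : Submodule (ZMod 2) V8} (h4 : finrank (ZMod 2) W = 4) (a b c : V8) :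
    ∃ x ∈ W, x ≠ 0 ∧ polar q x a = 0 ∧ polar q x b = 0 ∧ polar q x c = 0 := by
  have : ¬ Function.Injective fun x : W => (polar q x a, polar q x b, polar q x c) := fun k => by
    have := Nat.card_le_card_of_injective _ k
    rw [Module.natCard_eq_pow_finrank (K := ZMod 2) (V := W), h4, Nat.card_prod, Nat.card_prod, Nat.card_zmod] at this
    omega
  obtain ⟨x, y, e, ne⟩ := Function.not_injective_iff.1 this
  simp only [Prod.mk.injEq] at e
  exact ⟨x + y, add_mem x.2 y.2, fun k => ne (Subtype.ext (add_eq_zero2.1 k)), by rw [polar_add_left, e.1, z2_add],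
    by rw [polar_add_left, e.2.1, z2_add], by rw [polar_add_left, e.2.2, z2_add]⟩

variable {X : Subgroup (OG q)} {O : Set V8} {E : V8 → Submodule (ZMod 2) V8} {L : V8 → Subgroup (OG q)}
  (c : CC q X O E L W₁ W₂)
include c

theorem swap (o : ∃ s ∈ X, ∀ w ∈ W₂, s.1 w ∈ W₁) : CC q X O E L W₂ W₁ :=
  ⟨c.s₂, c.s₁, c.r₂, c.r₁, fun w a b => c.inf w b a, fun x => (c.sup x).elim fun w k => ⟨x + w, k.2, by rw [aac]; exact k.1⟩,
    fun v => (c.O_iff v).trans (and_congr_right fun _ => or_comm), c.E₂, c.E₁, fun a ha f hf k => by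
      rw [eich_swap2 (c.s₁ f hf) (c.s₂ a ha) (by rwa [polar_comm])]
      exact c.tv f hf a ha (by rwa [polar_comm]), fun g hg => (c.act g hg).imp And.symm And.symm, o⟩

variable (nd : (polarBilin q).Nondegenerate)
include nd

theorem rad {x : V8} (hx : x ∈ W₁) (k : ∀ y ∈ W₂, polar q x y = 0) : x = 0 := eq_zero_of_pol nd fun y => by
  obtain ⟨w, hw, e⟩ := c.sup y
  have := k _ e
  rwa [polar_add_right, pol_of_sing c.s₁ hx hw, add_zero] at this

theorem dual {x : V8} (hx : x ∈ W₁) (x0 : x ≠ 0) : ∃ y ∈ W₂, polar q x y = 1 := by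
  by_contra k
  exact x0 (rad c nd hx fun y hy => (z2 _).resolve_right fun e => k ⟨y, hy, e⟩)

/-- the vector that represents the diagonal of the form -/
theorem ex_u {σ : OG q} (ss : σ * σ = 1) (m1 : ∀ w ∈ W₁, σ.1 w ∈ W₂) (m2 : ∀ w ∈ W₂, σ.1 w ∈ W₁) :
    ∃ u ∈ W₁, (∀ w ∈ W₁, polar q w (σ.1 w) = polar q w (σ.1 u)) ∧ polar q u (σ.1 u) = 0 := by
  have s2 : ∀ x, σ.1 (σ.1 x) = x := fun x => by rw [← OG.mul_app, ss, OG.one_app]
  have sy : ∀ x y, polar q x (σ.1 y) = polar q y (σ.1 x) := fun x y => by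
    rw [← OG.polar_app σ x, s2, polar_comm]
  let φ : Module.Dual (ZMod 2) V8 :=
    { toFun := fun x => polar q x (σ.1 x)
      map_add' := fun x y => by
        rw [map_add, polar_add_left, polar_add_right, polar_add_right, sy y x, add_assoc, ← add_assoc (polar q x (σ.1 y)),
          z2_add, zero_add]
      map_smul' := fun a x => by rcases z2 a with rfl | rfl <;> simp }
  obtain ⟨n, hn⟩ := (LinearMap.BilinForm.toDual (polarBilin q) nd).surjective φ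
  obtain ⟨a, ha, hb⟩ := c.sup n
  have hu := m2 _ hb
  have k : ∀ w ∈ W₁, polar q w (σ.1 w) = polar q w (σ.1 (σ.1 (n + a))) := fun w hw => by
    rw [s2, polar_add_right, pol_of_sing c.s₁ hw ha, add_zero, polar_comm _ w n]
    exact (DFunLike.congr_fun hn w).symm
  refine ⟨_, hu, k, (z2 _).resolve_right fun u1 => ?_⟩
  generalize σ.1 (n + a) = u at hu k u1
  have one : ∀ x ∈ W₁, x ≠ 0 → ∃ y ∈ W₁, polar q x (σ.1 y) = 1 := fun x hx x0 =>
    (dual c nd hx x0).elim fun y hy => ⟨_, m2 _ hy.1, by rw [s2, hy.2]⟩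
  obtain ⟨a, ha, a0, au, -⟩ := ker3 (q := q) c.r₁ (σ.1 u) 0 0
  obtain ⟨b, hb, ab, bu⟩ : ∃ b ∈ W₁, polar q a (σ.1 b) = 1 ∧ polar q b (σ.1 u) = 0 := by
    obtain ⟨b, hb, ab⟩ := one a ha a0
    rcases z2 (polar q b (σ.1 u)) with e | e
    · exact ⟨b, hb, ab, e⟩
    · exact ⟨b + u, add_mem hb hu, by rw [map_add, polar_add_right, ab, au, add_zero], by rw [polar_add_left, e, u1, oo]⟩
  obtain ⟨d, hd, d0, du, da, db⟩ := ker3 (q := q) c.r₁ (σ.1 u) (σ.1 a) (σ.1 b)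
  obtain ⟨e, he, de⟩ := one d hd d0
  obtain ⟨g, hg, i, hi⟩ := Fintype.not_linearIndependent_iff.1 fun k : LinearIndependent (ZMod 2)
      (![⟨a, ha⟩, ⟨b, hb⟩, ⟨d, hd⟩, ⟨e, he⟩, ⟨u, hu⟩] : Fin 5 → W₁) => by
    have := k.fintype_card_le_finrank
    rw [c.r₁, Fintype.card_fin] at this
    omega
  have hg' : g 0 • a + g 1 • b + g 2 • d + g 3 • e + g 4 • u = 0 := by
    simpa [Fin.sum_univ_five] using congrArg Subtype.val hg
  have p : ∀ x, g 0 * polar q a (σ.1 x) + g 1 * polar q b (σ.1 x) + g 2 * polar q d (σ.1 x) + g 3 * polar q e (σ.1 x) +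
      g 4 * polar q u (σ.1 x) = 0 := fun x => by
    simpa only [polar_add_left, polar_smul_left, smul_eq_mul, polar_zero_left] using congrArg (polar q · (σ.1 x)) hg'
  have e3 := p d
  have e4 := p u
  have e1 := p a
  have e0 := p b
  have e2 := p e
  rw [sy a, sy b, sy e, sy u, k d hd, da, db, du, de] at e3
  simp only [mul_zero, mul_one, zero_add, add_zero] at e3
  rw [au, bu, du, u1, e3] at e4
  rw [k a ha, sy b, sy u, au, ab, da, e3] at e1
  rw [k b hb, sy u, bu, ab, db, e3] at e0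
  simp only [mul_zero, mul_one, zero_add, add_zero, zero_mul] at e4 e1 e0
  rw [e0, e1, e3, e4, de] at e2
  simp only [mul_one, zero_add, add_zero, zero_mul] at e2
  fin_cases i <;> contradiction

variable {u f : V8} (hu : u ∈ W₁) (hf : f ∈ W₂) (uf : polar q u f = 0)
include hu hf uf

omit nd in
theorem tau1 {w : V8} (hw : w ∈ W₁) : (eich q u f).1 w = w + polar q f w • u := by
  rw [eich2 (c.s₁ u hu) uf, pol_of_sing c.s₁ hu hw]; simp

omit nd in
theorem tau2 {y : V8} (hy : y ∈ W₂) : (eich q u f).1 y = y + polar q u y • f := by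
  rw [eich2 (c.s₁ u hu) uf, pol_of_sing c.s₂ hf hy, c.s₂ f hf]; simp

omit nd in
theorem tauL (ld : LD q X O E L) (uO : u ∈ O) : eich q u f ∈ L u := by
  have u0 := ld.ne u uO
  obtain ⟨g, hg, k⟩ := ld.ex u uO f uf
  rw [c.E₁ u uO hu] at k
  obtain ⟨g1, g2⟩ := (c.act g (ld.LX u uO hg)).resolve_right fun e => u0 (c.inf u hu (ld.fixv u uO g hg ▸ e.1 u hu))
  have k1 : ∀ y ∈ W₂, polar q u y = 1 → g.1 y = (eich q u f).1 y := fun y hy e => by
    have := c.inf _ (k y e) (add_mem (add_mem hy (g2 y hy)) hf)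
    rw [tau2 c hu hf uf hy, e, one_smul, ← add_eq_zero2, ← this]; abel
  obtain ⟨y0, h0, e0⟩ := dual c ld.nd hu u0
  have k2 : ∀ y ∈ W₂, g.1 y = (eich q u f).1 y := fun y hy => (z2 _).elim (fun e => by
    have := k1 _ (add_mem hy h0) (by rw [polar_add_right, e, e0, zero_add])
    rwa [map_add, map_add, k1 y0 h0 e0, add_left_inj] at this) (k1 y hy)
  have tt : ∀ y, (eich q u f).1 ((eich q u f).1 y) = y := fun y => by
    rw [← OG.mul_app, eich_sq (c.s₁ u hu) uf, OG.one_app]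
  have k3 : ∀ w ∈ W₁, g.1 w = (eich q u f).1 w := fun w hw => add_eq_zero2.1 (rad c ld.nd (add_mem (g1 w hw)
    (by rw [tau1 c hu hf uf hw]; exact add_mem hw (W₁.smul_mem _ hu))) fun y hy => by
      have m : (eich q u f).1 y ∈ W₂ := by rw [tau2 c hu hf uf hy]; exact add_mem hy (W₂.smul_mem _ hf)
      rw [polar_add_left, ← tt y, OG.polar_app, ← k2 _ m, OG.polar_app, z2_add])
  refine (OG.ext' fun x => ?_ : g = eich q u f) ▸ hg
  obtain ⟨w, hw, e⟩ := c.sup x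
  have := k2 _ e
  rwa [map_add, map_add, k3 w hw, add_left_inj] at this

end CCA

variable {G : Type*} [Group G] [Finite G] {q : QuadraticForm (ZMod 2) V8} {z : G} (M : OM q z) (h : Hy z)
  {W₁ W₂ : Submodule (ZMod 2) V8} (c : CC q M.X M.O M.E M.L W₁ W₂)
include h c

theorem CCA.lemR {t t' : G} (n : Nb z t) (n' : Nb z t') (hu : M.π t ∈ W₁) (hf : M.π t' ∈ W₂)
    (uf : polar q (M.π t) (M.π t') = 0) : ∃ r ∈ QQ t, Commute r z ∧ r * r = 1 ∧ M.ρ r = eich q (M.π t) (M.π t') ∧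
      (IsConj z r ∧ ¬ IsConj z (r * z)) ∧ (IsConj z (r * t) ∧ ¬ IsConj z (r * t * z)) ∧
      ∀ a ∈ QQ z, polar q (M.π t) (M.π a) = 0 → polar q (M.π t') (M.π a) = 0 → Commute a r := by
  obtain ⟨y, hy, e⟩ := CCA.dual c M.nd hu (M.t_ne h n)
  obtain ⟨σ, σ1, σ2, cut, hr⟩ := Kill.lift M h n n'.mem (h.tt n') (CCA.tauL c hu hf uf (M.ld h) ⟨t, n, rfl⟩) e
    (by rw [CCA.tau2 c hu hf uf hy, e, one_smul, aac])
  have nc : ∀ a ∈ QQ z, M.π a = M.π t' + M.π t → ¬ IsConj z (σ * a * σ⁻¹) := fun a ha pa k => by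
    have k1 : M.π a ∉ W₁ := fun m => M.t_ne h n' (c.inf _ (by simpa [pa, aac'] using add_mem m hu) hf)
    have k2 : M.π a ∉ W₂ := fun m => M.t_ne h n (c.inf _ hu (by simpa [pa, aac] using add_mem hf m))
    exact ((c.O_iff _).1 ⟨a, ⟨k.trans (isConj_iff.2 ⟨σ, rfl⟩).symm, ha, fun e => k1 (by
      rw [e, M.π_z h]; exact zero_mem _)⟩, rfl⟩).2.elim k1 k2
  have rz : Commute (σ * t' * σ⁻¹) z := σ2 ▸ cut.map (MulAut.conj σ)
  have ic := ic_conj n'.ic σ
  have k1 : ¬ IsConj z (σ * t' * σ⁻¹ * z) := by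
    rw [show σ * t' * σ⁻¹ * z = σ * (t' * t) * σ⁻¹ by rw [← σ2]; group]
    exact nc _ (mul_mem n'.mem n.mem) (M.π_mul n'.mem n.mem)
  have e1 : σ * t' * σ⁻¹ * t = σ * (z * t') * σ⁻¹ := by rw [(h.zt n').eq, ← σ1]; group
  refine ⟨_, σ1 ▸ conj_mem_QQ.2 n'.mem, rz, by rw [conj_mul, h.tt n', mul_one, mul_inv_cancel], hr, ⟨ic, k1⟩,
    ⟨e1 ▸ ic_conj (h.third n').ic σ, ?_⟩, fun a ha p1 p2 => ?_⟩
  · rw [e1, show σ * (z * t') * σ⁻¹ * z = σ * (z * t' * t) * σ⁻¹ by rw [← conj_mul (a := z * t') (c := t), σ2]]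
    exact nc _ (mul_mem (h.third n').mem n.mem) (by rw [M.π_mul (h.third n').mem n.mem, M.π_zmul h n'.mem])
  · generalize σ * t' * σ⁻¹ = r at *
    rcases (M.π_zero (h.xe.cmt_mem rz ha)).1 (by rw [M.π_cmt h rz ha, hr, eich_app_of_polar p1 p2, aa]) with k | k
    · exact commutatorElement_eq_one_iff_commute.1 k
    · exact absurd (by rw [rz.eq, ← mul_inv_eq_iff_eq_mul.1 k]; exact ic_conj ic a) k1

theorem ccAlt {s : G} (sz : Commute s z) (ss : s * s = 1) (m1 : ∀ w ∈ W₁, (M.ρ s).1 w ∈ W₂)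
    (m2 : ∀ w ∈ W₂, (M.ρ s).1 w ∈ W₁) : ∃ s' : G, Commute s' z ∧ s' * s' = 1 ∧ (∀ w ∈ W₁, (M.ρ s').1 w ∈ W₂) ∧
      (∀ w ∈ W₂, (M.ρ s').1 w ∈ W₁) ∧ ∀ w ∈ W₁, polar q w ((M.ρ s').1 w) = 0 := by
  have σσ : M.ρ s * M.ρ s = 1 := by rw [← M.ρ_mul sz sz, ss, M.ρ_one]
  obtain ⟨u, hu, k, uf⟩ := CCA.ex_u c M.nd σσ m1 m2
  by_cases u0 : u = 0
  · exact ⟨s, sz, ss, m1, m2, fun w hw => by rw [k w hw, u0, map_zero, polar_zero_right]⟩
  obtain ⟨t, n, rfl⟩ := (c.O_iff u).2 ⟨u0, .inl hu⟩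
  have n' : Nb z (s * t * s⁻¹) := cfix sz ▸ n.conj s
  have hf := m1 _ hu
  have pf := M.π_conj sz n.mem
  have st : s * (s * t * s⁻¹) * s⁻¹ = t := by
    rw [show s * (s * t * s⁻¹) * s⁻¹ = s * s * t * (s * s)⁻¹ by group, ss]; group
  have sr : ∀ {r}, r ∈ QQ t → s * r * s⁻¹ ∈ QQ (s * t * s⁻¹) := conj_mem_QQ.2
  rw [← pf] at hf k uf
  generalize s * t * s⁻¹ = t' at *
  have fu := (polar_comm _ _ _).trans uf
  have c' := CCA.swap c ⟨_, M.ρ_mem sz, m2⟩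
  have sw := eich_swap2 (c.s₁ _ hu) (c.s₂ _ hf) uf
  have E1 := c.E₁ _ ⟨t, n, rfl⟩ hu
  have E2 := c.E₂ _ ⟨t', n', rfl⟩ hf
  obtain ⟨r, r1, r1', rz, rr, hr, ic, nic⟩ : ∃ r ∈ QQ t, r ∈ QQ t' ∧ Commute r z ∧ r * r = 1 ∧
      M.ρ r = eich q (M.π t) (M.π t') ∧ IsConj z r ∧ ¬ IsConj z (r * z) := by
    obtain ⟨r, r1, rz, rr, hr, i1, i2, ca⟩ := CCA.lemR M h c n n' hu hf uf
    obtain ⟨r', r1', rz', -, hr', -, -, ca'⟩ := CCA.lemR M h c' n' n hf hu fu
    have eQ : r'⁻¹ * r ∈ QQ z := (M.ρ_eq rz' rz).1 (by rw [hr, hr', sw])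
    obtain ⟨y1, h1, e1⟩ := CCA.dual c M.nd hu u0
    obtain ⟨y2, h2, e2⟩ := CCA.dual c' M.nd hf (M.t_ne h n')
    have pe : ∀ y, polar q (M.π t) y = 0 → polar q (M.π t') y = 0 → polar q (M.π (r'⁻¹ * r)) y = 0 := fun y p1 p2 => by
      obtain ⟨a, ha, rfl⟩ := M.surj y
      exact (M.b_zero eQ ha).2 ((ca' a ha p2 p1).inv_right.mul_right (ca a ha p1 p2)).symm
    have pe2 : M.π (r'⁻¹ * r) + polar q (M.π (r'⁻¹ * r)) y1 • M.π t ∈ W₂ := by
      rw [add_eq_zero2.1 (eq_zero_of_pol M.nd (x := M.π (r'⁻¹ * r) + polar q (M.π (r'⁻¹ * r)) y1 • M.π t +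
        polar q (M.π (r'⁻¹ * r)) y2 • M.π t') fun y => ?_)]
      · exact W₂.smul_mem _ hf
      have := pe (y + polar q (M.π t) y • y1 + polar q (M.π t') y • y2)
        (by simp only [polar_add_right, polar_smul_right, e1, pol_of_sing c.s₁ hu h2, smul_eq_mul, mul_one, z2_add,
          mul_zero, add_zero])
        (by simp only [polar_add_right, polar_smul_right, e2, pol_of_sing c.s₂ hf h1, smul_eq_mul, mul_one, z2_add,
          mul_zero, add_zero])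
      simp only [polar_add_right, polar_smul_right, polar_add_left, polar_smul_left, smul_eq_mul] at this ⊢
      linear_combination this
    rw [← E2] at pe2
    rcases z2 (polar q (M.π (r'⁻¹ * r)) y1) with e | e <;> rw [e] at pe2
    · rw [zero_smul, add_zero, M.mem_E h n' eQ] at pe2
      exact ⟨r, r1, by simpa using mul_mem r1' pe2, rz, rr, hr, i1⟩
    · rw [one_smul, ← M.π_mul eQ n.mem, M.mem_E h n' (mul_mem eQ n.mem)] at pe2
      refine ⟨r * t, mul_mem r1 (h.nb n).zQ, by simpa [mul_assoc] using mul_mem r1' pe2, rz.mul_left (h.zt n).symm, ?_,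
        by rw [M.ρ_mul rz (h.zt n).symm, M.ρ_Q h n.mem, mul_one, hr], i2⟩
      rw [((h.nb n).cz r1).symm.mul_mul_mul_comm, rr, h.tt n, one_mul]
  have cz := (sz.mul_left rz).mul_left sz.inv_left
  have eQ : r⁻¹ * (s * r * s⁻¹) ∈ QQ z := (M.ρ_eq rz cz).1 (by
    rw [M.ρ_conj sz rz, hr, eich_conj, ← pf, ← M.π_conj sz n'.mem, st, sw])
  have cs : Commute s r := by
    rcases (M.π_zero eQ).1 (c.inf _ (E1 ▸ (M.mem_E h n eQ).2 (mul_mem (inv_mem r1) (st ▸ conj_mem_QQ.2 r1')))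
      (E2 ▸ (M.mem_E h n' eQ).2 (mul_mem (inv_mem r1') (sr r1)))) with e | e
    · exact mul_inv_eq_iff_eq_mul.1 (inv_mul_eq_one.1 e).symm
    · exact absurd (inv_mul_eq_iff_eq_mul.1 e ▸ ic_conj ic s) nic
  have hρ : ∀ x, (M.ρ (s * r)).1 x = (M.ρ s).1 ((eich q (M.π t) (M.π t')).1 x) := fun x => by
    rw [M.ρ_mul sz rz, hr, OG.mul_app]
  refine ⟨s * r, sz.mul_left rz, by rw [cs.symm.mul_mul_mul_comm, ss, rr, one_mul], fun w hw => ?_, fun w hw => ?_,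
    fun w hw => ?_⟩ <;> rw [hρ]
  · exact m1 _ (by rw [CCA.tau1 c hu hf uf hw]; exact add_mem hw (W₁.smul_mem _ hu))
  · exact m2 _ (by rw [CCA.tau2 c hu hf uf hw]; exact add_mem hw (W₂.smul_mem _ hf))
  · rw [CCA.tau1 c hu hf uf hw, map_add, map_smul, polar_add_right, polar_smul_right, k w hw, ← pf, polar_comm _ w]
    rcases z2 (polar q (M.π t') w) with e | e <;> rw [e] <;> rfl

end CL.N9
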