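/-
S1763 (project N9, job CCG): the stabiliser of two complementary solids is generated by the transvections.
-/
import Cfsg.Agent.N9.Kill

set_option autoImplicit false

namespace CL.N9

open Cfsg Subgroup CL.Even CL.Grp CL.WC CL.Cls QuadraticMap Module

namespace CCGx

variable {q : QuadraticForm (ZMod 2) V8}

theorem sep (nd : (polarBilin q).Nondegenerate) {F : Submodule (ZMod 2) V8} {w : V8} (hw : w ∉ F) :
    ∃ x, (∀ y ∈ F, polar q x y = 0) ∧ polar q x w = 1 := by
  by_contra hn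
  have k : F = prp q (prp q F) := Submodule.eq_of_le_of_finrank_eq
    (fun y hy => mem_prp.2 fun x hx => (polar_comm q x y).trans (mem_prp.1 hx y hy))
    (by have := fr_prp nd F; have := fr_prp nd (prp q F); omega)
  refine hw (k ▸ mem_prp.2 fun x hx => (z2 _).resolve_right fun e => hn ⟨x, fun y hy => ?_, e⟩)
  exact (polar_comm q x y).trans (mem_prp.1 hx y hy)

theorem sep2 (nd : (polarBilin q).Nondegenerate) {F : Submodule (ZMod 2) V8} {w u : V8} (hw : w ∉ F) (hu : u ∉ F) :
    ∃ x, (∀ y ∈ F, polar q x y = 0) ∧ polar q x w = 1 ∧ polar q x u = 1 := by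
  obtain ⟨x1, a1, b1⟩ := sep nd hw
  obtain ⟨x2, a2, b2⟩ := sep nd hu
  rcases z2 (polar q x1 u) with c1 | c1
  · rcases z2 (polar q x2 w) with c2 | c2
    · exact ⟨x1 + x2, fun y hy => by rw [polar_add_left, a1 y hy, a2 y hy, add_zero],
        by rw [polar_add_left, b1, c2, add_zero], by rw [polar_add_left, c1, b2, zero_add]⟩
    · exact ⟨x2, a2, c2, b2⟩
  · exact ⟨x1, a1, b1, c1⟩

theorem pg (g : OG q) (x y : V8) : polar q (g.1 x) (g.1 y) = polar q x y := by
  rw [polar, polar, ← map_add, OG.map_app, OG.map_app, OG.map_app]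

end CCGx

open CCGx in
theorem ccGen {q : QuadraticForm (ZMod 2) V8} {X : Subgroup (OG q)} {O : Set V8}
    {E : V8 → Submodule (ZMod 2) V8} {L : V8 → Subgroup (OG q)} {W₁ W₂ : Submodule (ZMod 2) V8}
    (nd : (polarBilin q).Nondegenerate) (c : CC q X O E L W₁ W₂) (g : OG q) (h1 : ∀ w ∈ W₁, g.1 w ∈ W₁)
    (h2 : ∀ w ∈ W₂, g.1 w ∈ W₂) : g ∈ X := by
  suffices H : ∀ F : Submodule (ZMod 2) V8, F ≤ W₁ → ∀ g : OG q, (∀ w ∈ W₁, g.1 w ∈ W₁) → (∀ w ∈ W₂, g.1 w ∈ W₂) →
      (∀ y ∈ F, g.1 y = y) → g ∈ X from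
    H ⊥ bot_le g h1 h2 fun y hy => by rw [(Submodule.mem_bot _).1 hy, map_zero]
  intro F
  induction F using WellFoundedGT.induction with
  | ind F ih =>
  intro hF g h1 h2 hg
  by_cases ha : ∀ w ∈ W₁, g.1 w = w
  · have k : ∀ f ∈ W₂, g.1 f = f := fun f hf => (add_eq_zero2.1 (eq_zero_of_pol nd fun y => by
      obtain ⟨w, hw, hy⟩ := c.sup y
      have e1 : polar q (f + g.1 f) (y + w) = 0 := pol_of_sing c.s₂ (add_mem hf (h2 f hf)) hy
      have e2 : polar q (f + g.1 f) w = 0 := by
        rw [polar_add_left]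
        nth_rewrite 2 [← ha w hw]
        rw [pg, z2_add]
      rwa [polar_add_right, e2, add_zero] at e1)).symm
    have : g = 1 := OG.ext' fun v => by
      obtain ⟨w, hw, hv⟩ := c.sup v
      have := k _ hv
      rw [map_add, ha w hw] at this
      exact add_right_cancel this
    rw [this]; exact one_mem _
  · push Not at ha
    obtain ⟨w, hw, ne⟩ := ha
    have n1 : w ∉ F := fun k => ne (hg w k)
    have n2 : g.1 w ∉ F := fun k => ne (g.1.injective (hg _ k))
    obtain ⟨x, x1, x2, x3⟩ := sep2 nd n1 n2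
    obtain ⟨w', hw', hf⟩ := c.sup x
    have p : ∀ y ∈ W₁, polar q (x + w') y = polar q x y := fun y hy => by
      rw [polar_add_left, pol_of_sing c.s₁ hw' hy, add_zero]
    have aW : w + g.1 w ∈ W₁ := add_mem hw (h1 w hw)
    have af : polar q (w + g.1 w) (x + w') = 0 := by
      rw [polar_comm, p _ aW, polar_add_right, x2, x3, oo]
    have t1 : ∀ y ∈ W₁, (eich q (w + g.1 w) (x + w')).1 y = y + polar q x y • (w + g.1 w) := fun y hy => by
      rw [eich2 (c.s₁ _ aW) af, pol_of_sing c.s₁ aW hy, p y hy, mul_zero, zero_smul, zero_smul, add_zero, add_zero]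
    have t2 : ∀ y ∈ W₂, (eich q (w + g.1 w) (x + w')).1 y = y + polar q (w + g.1 w) y • (x + w') := fun y hy => by
      rw [eich2 (c.s₁ _ aW) af, pol_of_sing c.s₂ hf hy, c.s₂ _ hf, zero_mul, zero_smul, add_zero, add_zero]
    have lt : F < F ⊔ Submodule.span (ZMod 2) {w} := lt_of_le_of_ne le_sup_left fun e =>
      n1 (e ▸ Submodule.mem_sup_right (Submodule.mem_span_singleton_self w))
    have := ih _ lt (sup_le hF ((Submodule.span_singleton_le_iff_mem w W₁).2 hw))
      (eich q (w + g.1 w) (x + w') * g)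
      (fun y hy => by
        rw [OG.mul_app, t1 _ (h1 y hy)]
        exact add_mem (h1 y hy) (W₁.smul_mem _ aW))
      (fun y hy => by
        rw [OG.mul_app, t2 _ (h2 y hy)]
        exact add_mem (h2 y hy) (W₂.smul_mem _ hf))
      (fun y hy => by
        obtain ⟨a, ha, b, hb, rfl⟩ := Submodule.mem_sup.1 hy
        obtain ⟨r, rfl⟩ := Submodule.mem_span_singleton.1 hb
        rw [map_add, map_smul, OG.mul_app, OG.mul_app, hg a ha, t1 a (hF ha), x1 a ha, zero_smul, add_zero,
          t1 _ (h1 w hw), x3, one_smul, add_comm w, aac])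
    exact (mul_mem_cancel_left (c.tv _ aW _ hf af)).1 this

end CL.N9
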