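/-
S1763 (project N9), case CC: a symmetric involution interchanging two complementary singular solids.
-/
import Cfsg.Agent.N9.Top

set_option autoImplicit false

namespace CL.N9

open Cfsg Subgroup CL.Even CL.Grp CL.WC CL.Cls QuadraticMap Module

namespace CCS

variable {q : QuadraticForm (ZMod 2) V8} {W₁ W₂ : Submodule (ZMod 2) V8}

/-- dual bases of two complementary singular solids -/
theorem dual (nd : (polarBilin q).Nondegenerate) (s₂ : ∀ w ∈ W₂, q w = 0) (r₁ : finrank (ZMod 2) W₁ = 4)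
    (r₂ : finrank (ZMod 2) W₂ = 4) (sup : ∀ x, ∃ w ∈ W₁, x + w ∈ W₂) :
    ∃ b f : Fin 4 → V8, (∀ i, b i ∈ W₁) ∧ (∀ i, f i ∈ W₂) ∧ (∀ i j, polar q (f i) (b j) = if j = i then 1 else 0) ∧
      ∀ w ∈ W₁, ∑ i, polar q (f i) w • b i = w := by
  let b := Module.finBasisOfFinrankEq (ZMod 2) W₁ r₁
  let φ : W₂ →ₗ[ZMod 2] Module.Dual (ZMod 2) W₁ := (polarBilin q).domRestrict₁₂ W₂ W₁
  have hφ : ∀ (f : W₂) (w : W₁), φ f w = polar q f w := fun _ _ => rfl
  have inj : Function.Injective φ := (injective_iff_map_eq_zero φ).2 fun f hf =>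
    Subtype.ext (eq_zero_of_pol nd fun x => by
      obtain ⟨w, hw, hx⟩ := sup x
      rw [← aac' x w, polar_add_right, pol_of_sing s₂ f.2 hx, ← hφ f ⟨w, hw⟩, hf]; rfl)
  have sur := (LinearMap.injective_iff_surjective_of_finrank_eq_finrank
    (by rw [Subspace.dual_finrank_eq, r₁, r₂])).1 inj
  choose f hf using fun i => sur (b.coord i)
  refine ⟨fun i => b i, fun i => f i, fun i => (b i).2, fun i => (f i).2, fun i j => ?_, fun w hw => ?_⟩
  · rw [← hφ, hf, Basis.coord_apply, Basis.repr_self, Finsupp.single_apply]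
  · have k := congrArg Subtype.val (b.sum_repr ⟨w, hw⟩)
    rw [Submodule.coe_sum] at k
    refine Eq.trans (Finset.sum_congr rfl fun i _ => ?_) k
    rw [← hφ (f i) ⟨w, hw⟩, hf]; rfl

/-- the product of two commuting Eichler transformations -/
theorem two {u0 u1 u2 u3 : V8} (q0 : q u0 = 0) (q1 : q u1 = 0) (q2 : q u2 = 0) (q3 : q u3 = 0)
    (p01 : polar q u0 u1 = 0) (p02 : polar q u0 u2 = 0) (p03 : polar q u0 u3 = 0) (p12 : polar q u1 u2 = 0)
    (p13 : polar q u1 u3 = 0) (p23 : polar q u2 u3 = 0) :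
    ∃ σ : OG q, σ * σ = 1 ∧ ∀ x, σ.1 x = x + (polar q u1 x • u0 + polar q u0 x • u1 + polar q u3 x • u2 +
      polar q u2 x • u3) := by
  have k : ∀ x, (eich q u0 u1 * eich q u2 u3).1 x = x + (polar q u1 x • u0 + polar q u0 x • u1 + polar q u3 x • u2 +
      polar q u2 x • u3) := fun x => by
    rw [OG.mul_app, eich2 q0 p01, eich2 q2 p23]
    simp only [polar_add_right, polar_smul_right, p02, p03, p12, p13, q1, q3, zero_mul, zero_smul, smul_zero, add_zero]
    abel
  refine ⟨_, OG.ext' fun x => ?_, k⟩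
  have p10 := (polar_comm q u1 u0).trans p01
  have p20 := (polar_comm q u2 u0).trans p02
  have p30 := (polar_comm q u3 u0).trans p03
  have p21 := (polar_comm q u2 u1).trans p12
  have p31 := (polar_comm q u3 u1).trans p13
  have p32 := (polar_comm q u3 u2).trans p23
  rw [OG.mul_app, k, k, OG.one_app]
  simp only [polar_add_right, polar_smul_right, p01, p02, p03, p12, p13, p23, p10, p20, p30, p21, p31, p32, pp,
    smul_zero, add_zero]
  exact aac' _ _

end CCS

theorem ccSym {q : QuadraticForm (ZMod 2) V8} {X : Subgroup (OG q)} {O : Set V8}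
    {E : V8 → Submodule (ZMod 2) V8} {L : V8 → Subgroup (OG q)} {W₁ W₂ : Submodule (ZMod 2) V8}
    (nd : (polarBilin q).Nondegenerate) (c : CC q X O E L W₁ W₂) :
    ∃ σ : OG q, σ * σ = 1 ∧ (∀ w ∈ W₁, σ.1 w ∈ W₂) ∧ (∀ w ∈ W₂, σ.1 w ∈ W₁) ∧ ∀ w ∈ W₁, polar q w (σ.1 w) = 0 := by
  obtain ⟨b, f, hb, hf, fb, sum⟩ := CCS.dual nd c.s₂ c.r₁ c.r₂ c.sup
  have bb : ∀ i j, polar q (b i) (b j) = 0 := fun i j => pol_of_sing c.s₁ (hb i) (hb j)
  have ff : ∀ i j, polar q (f i) (f j) = 0 := fun i j => pol_of_sing c.s₂ (hf i) (hf j)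
  have bf : ∀ i j, polar q (b j) (f i) = if j = i then 1 else 0 := fun i j => (polar_comm q _ _).trans (fb i j)
  have hq : ∀ i j, i ≠ j → q (b i + f j) = 0 := fun i j h => by
    rw [qa, c.s₁ _ (hb i), c.s₂ _ (hf j), bf, if_neg h, add_zero, add_zero]
  have hp : ∀ i j k l, (i = l ↔ k = j) → polar q (b i + f j) (b k + f l) = 0 := fun i j k l h => by
    rw [polar_add_left, polar_add_right, polar_add_right, bb, ff, bf, fb, zero_add, add_zero]
    simp only [h, z2_add]
  obtain ⟨σ, σ2, hσ⟩ := CCS.two (hq 0 1 (by decide)) (hq 1 0 (by decide)) (hq 2 3 (by decide)) (hq 3 2 (by decide))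
    (hp _ _ _ _ (by decide)) (hp _ _ _ _ (by decide)) (hp _ _ _ _ (by decide)) (hp _ _ _ _ (by decide))
    (hp _ _ _ _ (by decide)) (hp _ _ _ _ (by decide))
  have k : ∀ w ∈ W₁, σ.1 w = polar q (f 0) w • f 1 + polar q (f 1) w • f 0 + polar q (f 2) w • f 3 +
      polar q (f 3) w • f 2 := fun w hw => by
    have bw : ∀ i, polar q (b i) w = 0 := fun i => pol_of_sing c.s₁ (hb i) hw
    have e := sum w hw
    rw [Fin.sum_univ_four] at e
    rw [hσ]
    simp only [polar_add_left, bw, zero_add, smul_add]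
    rw [← aac w (_ + _ + _ + polar q (f 3) w • f 2)]
    congr 1
    nth_rewrite 9 [← e]
    abel
  have k12 : ∀ w ∈ W₁, σ.1 w ∈ W₂ := fun w hw => by
    rw [k w hw]
    exact add_mem (add_mem (add_mem (W₂.smul_mem _ (hf _)) (W₂.smul_mem _ (hf _))) (W₂.smul_mem _ (hf _)))
      (W₂.smul_mem _ (hf _))
  refine ⟨σ, σ2, k12, fun y hy => mem_of_perp4 nd c.s₁ c.r₁ fun w hw => ?_, fun w hw => ?_⟩
  · rw [← OG.polar_app σ, ← OG.mul_app, σ2, OG.one_app]
    exact pol_of_sing c.s₂ (k12 w hw) hy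
  · rw [k w hw, polar_comm]
    simp only [polar_add_left, polar_smul_left, smul_eq_mul]
    rw [mul_comm (polar q (f 1) w), mul_comm (polar q (f 3) w), z2_add, zero_add, z2_add]

end CL.N9
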