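/-
S1763 (project N9), helper91: two interchanged totally singular solids are impossible.
-/
import Cfsg.Agent.N9.CC0
import Cfsg.Agent.N9.CCG
import Cfsg.Agent.N9.CCS
import Cfsg.Agent.N9.CCA

set_option autoImplicit false

namespace CL.N9

universe u

theorem caseCC : CaseCC.{u} := fun _ _ _ _ h _ M _ _ c =>
  CC0.main h c (ccGen M.nd c) (ccSym M.nd c) fun _ sz ss m1 m2 => ccAlt M h c sz ss m1 m2

end CL.N9
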