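/-
S1763 (helper88): coded vectors and matrices, and the ten labelled configurations.
A vector is coded by the number with these binary digits; a matrix by the number whose `j`-th byte is column `j`.
-/
import Cfsg.Agent.N9.Top

set_option autoImplicit false

namespace CL.N9

open Cfsg Subgroup CL.Cls QuadraticMap

/-- the vector with the binary digits of `n` -/
def dec (n : ℕ) : V8 := fun i => if n.testBit i then 1 else 0
def enc (v : V8) : ℕ := (v 0).val + 2 * (v 1).val + 4 * (v 2).val + 8 * (v 3).val + 16 * (v 4).val +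
  32 * (v 5).val + 64 * (v 6).val + 128 * (v 7).val
/-- column `j` of the matrix with code `c` -/
def col (c j : ℕ) : ℕ := (c >>> (8 * j)) % 256
/-- the matrix with code `c` applied to the vector with code `x` -/
def ap (c x : ℕ) : ℕ :=
  (bif x.testBit 0 then col c 0 else 0) ^^^ ((bif x.testBit 1 then col c 1 else 0) ^^^
  ((bif x.testBit 2 then col c 2 else 0) ^^^ ((bif x.testBit 3 then col c 3 else 0) ^^^
  ((bif x.testBit 4 then col c 4 else 0) ^^^ ((bif x.testBit 5 then col c 5 else 0) ^^^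
  ((bif x.testBit 6 then col c 6 else 0) ^^^ (bif x.testBit 7 then col c 7 else 0)))))))
/-- the matrix with code `c` -/
def cm (c : ℕ) : Matrix (Fin 8) (Fin 8) (ZMod 2) := Matrix.of fun i j => dec (col c j) i
/-- the code of the product -/
def mulc (c d : ℕ) : ℕ := ap c (col d 0) + 256 * (ap c (col d 1) + 256 * (ap c (col d 2) + 256 * (ap c (col d 3) +
  256 * (ap c (col d 4) + 256 * (ap c (col d 5) + 256 * (ap c (col d 6) + 256 * ap c (col d 7)))))))
/-- the code of the identity -/
def idc : ℕ := 0x8040201008040201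
/-- the quadratic form on codes -/
def qN (x : ℕ) : Bool := xor (xor (xor (x.testBit 0 && x.testBit 7) (x.testBit 1 && x.testBit 6))
  (x.testBit 2 && x.testBit 5)) (x.testBit 3 && x.testBit 4)
/-- the polar form on codes -/
def bN (x y : ℕ) : Bool := xor (qN (x ^^^ y)) (xor (qN x) (qN y))
/-- the code `c` is an isometry -/
def okc (c : ℕ) : Bool := (List.range 256).all fun x => qN (ap c x) == qN x

theorem dec_enc : ∀ v : V8, dec (enc v) = v := by decide +kernel
theorem enc_lt : ∀ v : V8, enc v < 256 := by decide +kernel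
theorem enc_dec : ∀ x < 256, enc (dec x) = x := by decide +kernel
theorem ex_dec (v : V8) : ∃ x < 256, dec x = v := ⟨enc v, enc_lt v, dec_enc v⟩
theorem dec_inj {x y : ℕ} (hx : x < 256) (hy : y < 256) (h : dec x = dec y) : x = y := by
  rw [← enc_dec x hx, h, enc_dec y hy]
theorem dec_zero : dec 0 = 0 := by decide +kernel
theorem dec_xor (x y : ℕ) : dec (x ^^^ y) = dec x + dec y := funext fun i => by
  simp only [dec, Nat.testBit_xor, Pi.add_apply]
  cases x.testBit i <;> cases y.testBit i <;> rfl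
theorem dec_cond (b : Bool) (x : ℕ) : dec (bif b then x else 0) = (if b then 1 else 0 : ZMod 2) • dec x := by
  cases b <;> simp [dec_zero]
theorem col_lt (c j : ℕ) : col c j < 256 := Nat.mod_lt _ (by norm_num)
theorem ap_lt (c x : ℕ) : ap c x < 256 := by
  have k : ∀ (b : Bool) (j : ℕ), (bif b then col c j else 0) < 2 ^ 8 := fun b j => by
    cases b
    · norm_num
    · exact col_lt c j
  exact Nat.xor_lt_two_pow (k _ _) (Nat.xor_lt_two_pow (k _ _) (Nat.xor_lt_two_pow (k _ _) (Nat.xor_lt_two_pow (k _ _)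
    (Nat.xor_lt_two_pow (k _ _) (Nat.xor_lt_two_pow (k _ _) (Nat.xor_lt_two_pow (k _ _) (k _ _)))))))
theorem cm_dec (c x : ℕ) : (cm c).mulVec (dec x) = dec (ap c x) := by
  simp only [ap, dec_xor, dec_cond]
  funext i
  simp only [Matrix.mulVec, dotProduct, Fin.sum_univ_eight, cm, Matrix.of_apply, Pi.add_apply, Pi.smul_apply,
    smul_eq_mul]
  change dec (col c 0) i * (if x.testBit 0 then 1 else 0) + dec (col c 1) i * (if x.testBit 1 then 1 else 0) +
    dec (col c 2) i * (if x.testBit 2 then 1 else 0) + dec (col c 3) i * (if x.testBit 3 then 1 else 0) +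
    dec (col c 4) i * (if x.testBit 4 then 1 else 0) + dec (col c 5) i * (if x.testBit 5 then 1 else 0) +
    dec (col c 6) i * (if x.testBit 6 then 1 else 0) + dec (col c 7) i * (if x.testBit 7 then 1 else 0) = _
  ring
theorem qp_dec (x : ℕ) : qp (dec x) = if qN x then 1 else 0 := by
  rw [qp_app]
  change (if x.testBit 0 then 1 else 0) * (if x.testBit 7 then 1 else 0) +
    (if x.testBit 1 then 1 else 0) * (if x.testBit 6 then 1 else 0) +
    (if x.testBit 2 then 1 else 0) * (if x.testBit 5 then 1 else 0) +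
    (if x.testBit 3 then 1 else 0) * (if x.testBit 4 then 1 else 0 : ZMod 2) = _
  unfold qN
  generalize x.testBit 0 = a0, x.testBit 1 = a1, x.testBit 2 = a2, x.testBit 3 = a3, x.testBit 4 = a4,
    x.testBit 5 = a5, x.testBit 6 = a6, x.testBit 7 = a7
  revert a0 a1 a2 a3 a4 a5 a6 a7
  decide +kernel
theorem pol_dec (x y : ℕ) : polar qp (dec x) (dec y) = if bN x y then 1 else 0 := by
  rw [polar, ← dec_xor, qp_dec, qp_dec, qp_dec]
  unfold bN
  generalize qN (x ^^^ y) = a, qN x = b, qN y = c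
  revert a b c
  decide +kernel
theorem qp_dec0 {x : ℕ} : qp (dec x) = 0 ↔ qN x = false := by rw [qp_dec]; cases qN x <;> simp
theorem pol_dec0 {x y : ℕ} : polar qp (dec x) (dec y) = 0 ↔ bN x y = false := by rw [pol_dec]; cases bN x y <;> simp
theorem pol_dec1 {x y : ℕ} : polar qp (dec x) (dec y) = 1 ↔ bN x y = true := by rw [pol_dec]; cases bN x y <;> simp
theorem qp_nd : (polarBilin qp).Nondegenerate := nondeg_iff.2 fun v hv => by
  obtain ⟨x, hx, rfl⟩ := ex_dec v
  have k : ∀ x < 256, (∀ j < 8, bN x (2 ^ j) = false) → x = 0 := by decide +kernel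
  rw [k x hx fun j _ => pol_dec0.1 (hv _), dec_zero]

theorem okc_q {c : ℕ} (h : okc c = true) (v : V8) : qp ((cm c).mulVec v) = qp v := by
  obtain ⟨x, hx, rfl⟩ := ex_dec v
  rw [cm_dec, qp_dec, qp_dec, beq_iff_eq.1 (List.all_eq_true.1 h x (List.mem_range.2 hx))]

theorem ex_cO {c : ℕ} (h : okc c = true) : ∃ g : OG qp, ∀ v, g.1 v = (cm c).mulVec v := by
  have hi : Function.Injective (Matrix.toLin' (cm c)) := (injective_iff_map_eq_zero _).2 fun v hv =>
    eq_zero_of_pol qp_nd fun y => by
      have e : (cm c).mulVec v = 0 := hv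
      rw [polar, ← okc_q h (v + y), ← okc_q h v, ← okc_q h y, Matrix.mulVec_add, e, zero_add, map_zero]
      ring
  exact ⟨⟨LinearEquiv.ofInjectiveEndo _ hi, okc_q h⟩, fun _ => rfl⟩

open Classical in
/-- the isometry with code `c` (the identity if `c` is not the code of an isometry) -/
noncomputable def cO (c : ℕ) : OG qp := if h : okc c = true then (ex_cO h).choose else 1

theorem cO_app {c : ℕ} (h : okc c = true) (v : V8) : (cO c).1 v = (cm c).mulVec v := by
  rw [cO, dif_pos h]; exact (ex_cO h).choose_spec v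
theorem cO_dec {c : ℕ} (h : okc c = true) (x : ℕ) : (cO c).1 (dec x) = dec (ap c x) := by rw [cO_app h, cm_dec]

/-- `g` has the code `c` -/
def Is (g : OG qp) (c : ℕ) : Prop := ∀ x, g.1 (dec x) = dec (ap c x)

theorem is_cO {c : ℕ} (h : okc c = true) : Is (cO c) c := cO_dec h
theorem Is.app {g : OG qp} {c : ℕ} (h : Is g c) (v : V8) : g.1 v = (cm c).mulVec v := by
  obtain ⟨x, -, rfl⟩ := ex_dec v
  rw [h, cm_dec]
theorem Is.ext {g k : OG qp} {c : ℕ} (h : Is g c) (h' : Is k c) : g = k := OG.ext' fun v => by rw [h.app, h'.app]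
theorem col_mulc (c d : ℕ) : ∀ j < 8, col (mulc c d) j = ap c (col d j) := by
  have := ap_lt c
  have h0 := this (col d 0); have h1 := this (col d 1); have h2 := this (col d 2); have h3 := this (col d 3)
  have h4 := this (col d 4); have h5 := this (col d 5); have h6 := this (col d 6); have h7 := this (col d 7)
  intro j hj
  rw [col, mulc, Nat.shiftRight_eq_div_pow]
  interval_cases j <;> omega
theorem cm_mulc (c d : ℕ) : cm (mulc c d) = cm c * cm d := by
  ext i j
  have := congrFun (cm_dec c (col d j)) i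
  rw [← col_mulc c d j j.2] at this
  rw [Matrix.mul_apply]
  exact this.symm
theorem Is.mul {g k : OG qp} {c d : ℕ} (h : Is g c) (h' : Is k d) : Is (g * k) (mulc c d) := fun x => by
  rw [← cm_dec, cm_mulc, ← Matrix.mulVec_mulVec, ← h'.app, ← h.app]; rfl
theorem cm_idc : cm idc = 1 := by decide +kernel
theorem is_one : Is 1 idc := fun x => by rw [← cm_dec, cm_idc, Matrix.one_mulVec]; rfl
theorem Is.ok {g : OG qp} {c : ℕ} (h : Is g c) : okc c = true := List.all_eq_true.2 fun x _ => by
  have := OG.map_app g (dec x)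
  rw [h, qp_dec, qp_dec] at this
  revert this
  cases qN (ap c x) <;> cases qN x <;> simp
theorem Is.eq {g : OG qp} {c : ℕ} (h : Is g c) : g = cO c := h.ext (is_cO h.ok)
theorem cO_mul {c d : ℕ} (h : okc c = true) (h' : okc d = true) : cO c * cO d = cO (mulc c d) :=
  ((is_cO h).mul (is_cO h')).eq
theorem cO_one : cO idc = 1 := is_one.eq.symm
theorem Is.inv {g : OG qp} {c d : ℕ} (h : Is g c) (hd : okc d = true) (e : mulc c d = idc) : Is g⁻¹ d := by
  have := (e ▸ h.mul (is_cO hd)).ext is_one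
  rw [← eq_inv_of_mul_eq_one_right this]; exact is_cO hd
/-- every isometry has a code -/
theorem is_of_basis {g : OG qp} {c : ℕ} (h : ∀ j < 8, g.1 (dec (2 ^ j)) = dec (col c j)) : Is g c := fun x => by
  have e : ∀ j : Fin 8, dec (2 ^ j.val) = Pi.single j 1 := by decide +kernel
  have k : g.1.toLinearMap = Matrix.toLin' (cm c) := (Pi.basisFun (ZMod 2) (Fin 8)).ext fun j => by
    rw [Pi.basisFun_apply, Matrix.toLin'_apply, Matrix.mulVec_single_one, ← e]
    exact h j j.2
  rw [← cm_dec]
  exact LinearMap.congr_fun k (dec x)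

/-- a configuration in codes: points, generators of `H₀` (the first three generate `L v0`), further generators of
the stabiliser -/
structure DC where
  P : List ℕ
  gH : List ℕ
  ex : List ℕ

/-- `v0 = e 7`, `E v0 = ⟨e 7, e 6, e 5, e 3⟩` -/
noncomputable def DC.dat (c : DC) : Dat :=
  ⟨c.P.map dec, c.gH.map cO, (c.gH ++ c.ex).map cO, dec 128, [dec 128, dec 64, dec 32, dec 8], (c.gH.take 3).map cO⟩

/-- all codes are isometries, the `gH` are involutions -/
def DC.ok (c : DC) : Bool := (c.gH ++ c.ex).all okc && c.gH.all fun g => mulc g g == idc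

/-- `H₀ = S₃³`, `N = S₃ ≀ S₃`; `gH = s 0, s 1, s 2` of `Spor/O8D` and their conjugates by the `ν i` -/
def c27 : DC := ⟨[1, 2, 3, 4, 5, 8, 10, 12, 15, 16, 17, 32, 34, 48, 51, 64, 68, 80, 85, 128, 136, 160, 170, 192, 204, 240, 
    255],
  [0x80c02030080c0203, 0x8040a05008040a05, 0x8040201088442211, 0xc04030100c040301, 0xa05020100a050201, 
    0x8844221108040201],
  [0x8008200240041001, 0x8020401008020401]⟩
noncomputable def d27 : Dat := c27.dat
theorem c27_ok : c27.ok = true := by decide +kernel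

/-- `H₀ = 3⁴:2³`, `|N| = 15552`; the first six generators are those of `c27` -/
def c81 : DC := ⟨[1, 2, 3, 4, 5, 8, 10, 12, 15, 16, 17, 22, 23, 32, 34, 41, 43, 48, 51, 61, 62, 64, 68, 73, 77, 80, 85, 91, 
    94, 97, 103, 104, 105, 110, 111, 113, 118, 122, 123, 124, 125, 128, 134, 136, 142, 146, 148, 150, 155, 
    157, 159, 160, 167, 170, 173, 178, 181, 183, 185, 188, 190, 192, 199, 203, 204, 211, 212, 215, 217, 218, 
    222, 227, 229, 230, 232, 235, 237, 240, 246, 249, 255],
  [0x80c02030080c0203, 0x8040a05008040a05, 0x8040201088442211, 0xc04030100c040301, 0xa05020100a050201, 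
    0x8844221108040201, 0x7c94e371cb4d3d16, 0xcc4433110c040301, 0xf05030100f050301],
  [0x8008200240041001, 0x8020401008020401, 0x80402010e8949271]⟩
noncomputable def d81 : Dat := c81.dat
theorem c81_ok : c81.ok = true := by decide +kernel

/-- `H₀ = N` of order `720` -/
def c45a : DC := ⟨[1, 2, 3, 4, 5, 8, 10, 12, 15, 16, 17, 20, 21, 32, 34, 40, 42, 48, 51, 60, 63, 64, 65, 68, 69, 80, 81, 84, 
    85, 128, 130, 136, 138, 160, 162, 168, 170, 192, 195, 204, 207, 240, 243, 252, 255],
  [0x80c02030080c0203, 0x8040a05008040a05, 0x8040201088442211, 0xc04030100c040301, 0xa05020100a050201, 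
    0x8a45221108040201],
  []⟩
noncomputable def d45a : Dat := c45a.dat
theorem c45a_ok : c45a.ok = true := by decide +kernel

/-- `H₀ = (3 × A₆).2`, `N = S₃ × S₆` -/
def c45b : DC := ⟨[1, 2, 3, 4, 5, 6, 7, 8, 9, 10, 11, 12, 13, 14, 15, 17, 22, 34, 40, 51, 62, 68, 72, 85, 94, 96, 102, 118, 
    119, 128, 136, 150, 153, 168, 170, 187, 190, 200, 204, 221, 222, 224, 238, 246, 255],
  [0x80c02030080c0203, 0x8040a05008040a05, 0x8040201088442211, 0xaa312061020f0801, 0x963151100f020401, 
    0xff4d2b1709050301],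
  [0x8020401008020401]⟩
noncomputable def d45b : Dat := c45b.dat
theorem c45b_ok : c45b.ok = true := by decide +kernel

/-- `H₀ = N = S₇` -/
def c105 : DC := ⟨[1, 2, 3, 4, 5, 8, 10, 12, 15, 16, 17, 18, 19, 20, 21, 22, 23, 32, 33, 34, 35, 40, 41, 42, 43, 48, 49, 50, 
    51, 60, 61, 62, 63, 64, 65, 68, 69, 72, 73, 76, 77, 80, 81, 84, 85, 90, 91, 94, 95, 96, 103, 105, 110, 
    112, 118, 123, 125, 128, 130, 132, 134, 136, 138, 140, 142, 144, 150, 155, 157, 160, 162, 165, 167, 168, 
    170, 173, 175, 176, 183, 185, 190, 192, 195, 196, 199, 200, 203, 204, 207, 208, 215, 217, 222, 224, 230, 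
    235, 237, 240, 243, 245, 246, 249, 250, 252, 255],
  [0x80c02030080c0203, 0x8040a05008040a05, 0x8040201088442211, 0xc04030100c040301, 0xa75121100a050201, 
    0x8c44231108040201],
  []⟩
noncomputable def d105 : Dat := c105.dat
theorem c105_ok : c105.ok = true := by decide +kernel

/-- `H₀ = S₃ × A₅`, `N = S₃ × S₅` -/
def c15 : DC := ⟨[1, 3, 5, 8, 15, 112, 113, 128, 136, 144, 159, 176, 181, 208, 211],
  [0x80c02030080c0203, 0x8040a05008040a05, 0x8040201088c4a271, 0xd0302060030e0901, 0x903050100f020401, 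
    0x884c2a1708040201],
  [0x8020401008020401]⟩
noncomputable def d15 : Dat := c15.dat
theorem c15_ok : c15.ok = true := by decide +kernel

/-- `H₀ = S₃ × A₆`, `N = S₃ × S₆`; extends `c15` -/
def c45c : DC := ⟨[1, 2, 3, 4, 5, 6, 7, 8, 9, 10, 11, 12, 13, 14, 15, 16, 23, 32, 42, 48, 61, 64, 76, 80, 91, 96, 102, 112, 
    113, 128, 136, 144, 159, 160, 162, 176, 181, 192, 196, 208, 211, 224, 238, 240, 249],
  [0x80c02030080c0203, 0x8040a05008040a05, 0x8040201088c4a271, 0xd0302060030e0901, 0x903050100f020401, 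
    0x884c2a1708040201, 0x3dee9f170d030206, 0x5b9fee170b040506, 0x884c2a1708040201],
  [0x8020401008020401]⟩
noncomputable def d45c : Dat := c45c.dat
theorem c45c_ok : c45c.ok = true := by decide +kernel

/-- `H₀ = A₅ ≀ 2`, `|N| = 14400` -/
def c75 : DC := ⟨[1, 2, 3, 4, 5, 6, 7, 12, 13, 14, 15, 16, 17, 18, 19, 20, 21, 22, 23, 48, 49, 50, 51, 60, 61, 62, 63, 65, 
    69, 73, 76, 80, 84, 90, 95, 97, 102, 104, 110, 113, 118, 122, 124, 128, 134, 138, 142, 146, 148, 155, 159, 
    162, 165, 170, 175, 178, 181, 185, 188, 195, 196, 203, 207, 211, 212, 218, 222, 227, 230, 232, 238, 240, 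
    245, 250, 252],
  [0x80c02030080c0203, 0x8040a05008048a45, 0x8040201088c4a271, 0xe8402031080d0301, 0xb960201109070201, 
    0xa548211208050201],
  [0x8040080c20300201]⟩
noncomputable def d75 : Dat := c75.dat
theorem c75_ok : c75.ok = true := by decide +kernel

/-- `H₀ = L₂(8)`, `N = L₂(8):3` -/
def c9 : DC := ⟨[1, 128, 155, 175, 183, 195, 221, 229, 249],
  [0x80c02030080c82c3, 0x8040a05008848ae5, 0x8040209088c4a2f9, 0xc34130100c040301, 0xb75121100b050201, 
    0x9b45221109040201],
  [0x8040080428140201]⟩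
noncomputable def d9 : Dat := c9.dat
theorem c9_ok : c9.ok = true := by decide +kernel

/-- `H₀ = N = A₉`; extends `c9` -/
def c135 : DC := ⟨[1, 2, 3, 4, 5, 6, 7, 8, 9, 10, 11, 12, 13, 14, 15, 16, 17, 18, 19, 20, 21, 22, 23, 32, 33, 34, 35, 40, 41, 
    42, 43, 48, 49, 50, 51, 60, 61, 62, 63, 64, 65, 68, 69, 72, 73, 76, 77, 80, 81, 84, 85, 90, 91, 94, 95, 
    96, 97, 102, 103, 104, 105, 110, 111, 112, 113, 118, 119, 122, 123, 124, 125, 128, 130, 132, 134, 136, 
    138, 140, 142, 144, 146, 148, 150, 153, 155, 157, 159, 160, 162, 165, 167, 168, 170, 173, 175, 176, 178, 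
    181, 183, 185, 187, 188, 190, 192, 195, 196, 199, 200, 203, 204, 207, 208, 211, 212, 215, 217, 218, 221, 
    222, 224, 227, 229, 230, 232, 235, 237, 238, 240, 243, 245, 246, 249, 250, 252, 255],
  [0x80c02030080c82c3, 0x8040a05008848ae5, 0x8040209088c4a2f9, 0xc34130100c040301, 0xb75121100b050201, 
    0x9b45221109040201, 0x418230100c040102, 0xa57623100a070201, 0x9d5a21130b040201],
  []⟩
noncomputable def d135 : Dat := c135.dat
theorem c135_ok : c135.ok = true := by decide +kernel

end CL.N9
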