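/-
Extraspecial `F*(C(z))` of order `2 ^ 9` (S1763, helper75): the configuration with 75 points (Harada–Norton), statements.
-/
import Cfsg.Agent.N9.Data
import Cfsg.Agent.Even.Styp2

set_option autoImplicit false

namespace CL.N9.H75

open Cfsg Subgroup CL.Even CL.Grp CL.WC CL.Cls QuadraticMap Module

universe u

/-- the code of the transvection over the field with four elements -/
def ex : ℕ := 0x8040080c20300201
/-- the codes of the stabiliser `S₅` of `dec 40` in `H₀` -/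
def S120 : List ℕ := [
  0x12a0866205a6880, 0x12a094c2171419f, 0x12a0a50226e5faa, 0x12a0b7a234576b5, 0x12b086e207a68e8, 
  0x12b0945215041de, 0x12b0a5a224c5ff5, 0x12b0b71236676c3, 0x229088620928068, 0x229099b218e9f41, 
  0x2290aaf22b9aa5f, 0x2290bb223a5b576, 0x22b088e20b280e8, 0x22b099221af9fde, 0x22b0aa5229baaf5, 
  0x22b0bb92386b5c3, 0x32908e620dae868, 0x32909d321eede41, 0x3290afa22c4f55f, 0x3290bcf23f0c376, 
  0x32a08ee20fae880, 0x32a09da21cfde9f, 0x32a0af022e6f5aa, 0x32a0bc423d3c3b5, 0x41b72131090c0102, 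
  0x41b7608648fa68e8, 0x41b7beb29610c3b5, 0x41b7ff05d7e6aa5f, 0x41f6211009050103, 0x41f660e648b26880, 
  0x41f6be0c9686c376, 0x41f6fffad731aaf5, 0x5f8222300a0e0102, 0x5f827db255d376c3, 0x5f828886a012e880, 
  0x5f82d704ffcf9f41, 0x5fdd22120a040103, 0x5fdd7dcf558676b5, 0x5fdd880ea0b2e868, 0x5fddd7d3ff309fde, 
  0x68a82033080f0102, 0x68a8489b60cf41de, 0x68a8a0af8813f5aa, 0x68a8c807e0d3b576, 0x68c0201308070103, 
  0x68c048d360af419f, 0x68c0a00f889bf55f, 0x68c0c8cfe033b5c3, 0x769d23320b0d0102, 0x769d55af7de65ff5, 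
  0x769d969bbe11de9f, 0x769de006c8fa8068, 0x76eb23110b060103, 0x76eb55fa7d9b5faa, 0x76eb960dbeafde41, 
  0x76ebe0e6c83280e8, 0x8040201008040201, 0x8040484c6030de41, 0x8040a05088c4aaf5, 0x8040c80ce0f076b5, 
  0x80c02030080c0203, 0x80c048046050de9f, 0x80c0a0f0884caa5f, 0x80c0c8c4e01076c3, 0x9f69211309060201, 
  0x9f6960664832e868, 0x9f69be7a96f0b5c3, 0x9f69ff0fd7c45faa, 0x9ff62132090f0203, 0x9ff66006487ae880, 
  0x9ff6bec49666b576, 0x9ff6fff0d7135ff5, 0xaa7722110a070201, 0xaa777d7a5533c376, 0xaa778866a0da80e8, 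
  0xaa77d70dffee419f, 0xaadd22330a0d0203, 0xaadd7d075566c3b5, 0xaadd88eea07a8068, 0xaaddd7daff1141de, 
  0xb55e23120b050201, 0xb55e55507d31f55f, 0xb55e964cbeee9fde, 0xb55ee00ec8da6880, 0xb5eb23310b0e0203, 
  0xb5eb55057d4cf5aa, 0xb5eb96dabe509f41, 0xb5ebe0eec81268e8, 0xc35e23300b0f0301, 0xc35e555a7d13aa5f, 
  0xc35e9604be8e41de, 0xc35ee06ec892e880, 0xc39d23130b040302, 0xc39d550f7d6eaaf5, 0xc39d9692be30419f, 
  0xc39de08ec85ae868, 0xde692133090e0301, 0xde69606e48128068, 0xde69be0796a576c3, 0xde69ff5ad7b9f5aa, 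
  0xdeb7211209070302, 0xdeb7600e485a80e8, 0xdeb7beb9963376b5, 0xdeb7ffa5d76ef55f, 0xe8402031080d0301, 
  0xe840484560119f41, 0xe840a00588b95ff5, 0xe840c871e0a5c3b5, 0xe8a8201108050302, 0xe8a8480d60719fde, 
  0xe8a8a0a588315faa, 0xe8a8c8b9e045c376, 0xf57722320a0c0301, 0xf5777d715510b576, 0xf5778806a09268e8, 
  0xf577d745ff8ede9f, 0xf58222100a060302, 0xf5827d0c5545b5c3, 0xf582888ea0326880, 0xf582d792ff71de41]

/-- facts that hold for `H₀ ≤ X ≤ N` -/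
structure LA (X : Subgroup (OG qp)) (O : Set V8) (r w : V8) (τ : OG qp) : Prop where
  r0 : r ≠ 0
  qr : qp r = 0
  qw : qp w = 1
  rw : polar qp r w = 0
  rO : r ∉ O
  app : ∀ x, τ.1 x = x + polar qp x w • w + polar qp x (w + r) • (w + r)
  fw : ∀ g ∈ X, g.1 r = r → g.1 w = w ∨ g.1 w = w + r
  fa : ∀ g ∈ X, g.1 r = r → (∀ x, polar qp x r = 0 → polar qp x w = 0 →
    x + g.1 x = 0 ∨ x + g.1 x = r ∨ x + g.1 x = w ∨ x + g.1 x = w + r) → g = 1 ∨ g = τ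
  idx : ∃ H : Subgroup (OG qp), τ ∉ H ∧ ∀ g ∈ X, ∀ k ∈ X, g * k ∈ H ↔ (g ∈ H ↔ k ∈ H)

/-- facts that hold for `X = H₀` -/
structure LB (X : Subgroup (OG qp)) (O : Set V8) (E : V8 → Submodule (ZMod 2) V8) (r w v₀ v₁ : V8) : Prop where
  mv : ∃ g ∈ X, g.1 r = r ∧ g.1 w = w + r
  o2 : ∀ K : Subgroup (OG qp), K ≤ X → (∀ k ∈ K, k.1 r = r) → (∀ g ∈ X, g.1 r = r → ∀ k ∈ K, g * k * g⁻¹ ∈ K) →
    IsPGroup 2 K → K = ⊥
  gen : ∀ g ∈ X, g.1 r = r → g.1 w = w → ∃ a ∈ X, ∃ b ∈ X, a.1 r = r ∧ b.1 r = r ∧ a ^ 15 = 1 ∧ b ^ 15 = 1 ∧ g = a * b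
  cm : ∀ W : Submodule (ZMod 2) V8, r ∈ W →
    (∀ g ∈ X, g.1 r = r → g ^ 15 = 1 → ∀ y, polar qp y r = 0 → y + g.1 y ∈ W) →
    ∀ x, polar qp x r = 0 → polar qp x w = 0 → x ∈ W
  tr : ∀ v, qp v = 0 → v ≠ 0 → v ∉ O → ∃ g ∈ X, g.1 r = v
  o0 : v₀ ∈ O
  o1 : v₁ ∈ O
  e0 : r ∈ E v₀
  e1 : r ∈ E v₁
  e01 : v₁ ∈ E v₀
  n0 : v₁ ≠ v₀
  n1 : v₁ ≠ v₀ + r

def STAB : Prop := (∀ g ∈ closure {g | g ∈ d75.gH}, g.1 (dec 40) = dec 40 → ∃ c ∈ S120, Is g c) ∧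
  (∀ c ∈ S120, okc c = true ∧ cO c ∈ closure {g | g ∈ d75.gH}) ∧
  ∀ g ∈ closure {g | g ∈ d75.gN}, g ∈ closure {g | g ∈ d75.gH} ∨ cO ex * g ∈ closure {g | g ∈ d75.gH}

def LinA : Prop := ∀ (X : Subgroup (OG qp)) (O : Set V8) (E : V8 → Submodule (ZMod 2) V8) (L : V8 → Subgroup (OG qp)),
  Cfg d75 X O E L → LA X O (dec 40) (dec 52) (cO ex)

def LinB : Prop := ∀ (X : Subgroup (OG qp)) (O : Set V8) (E : V8 → Submodule (ZMod 2) V8) (L : V8 → Subgroup (OG qp)),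
  LD qp X O E L → Cfg d75 X O E L → cO ex ∉ X → LB X O E (dec 40) (dec 52) (dec 128) (dec 104)

def KILL1 : Prop := ∀ (G : Type u) [Group G] [Finite G] (z : G), Hy z → ∀ (M : OM qp z) (r w : V8) (τ : OG qp),
  LA M.X M.O r w τ → τ ∈ M.X → ∃ s, Commute s z ∧ M.ρ s = τ ∧ s * s = 1

def KILL2 : Prop := ∀ (G : Type u) [Group G] [Finite G] (z : G), Hy z → ∀ (M : OM qp z) (r w : V8) (τ : OG qp),
  LA M.X M.O r w τ → ∀ s, Commute s z → M.ρ s = τ → s * s = 1 →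
    ∃ y, IsConj z y ∧ Commute y z ∧ M.ρ y = τ

def KILL3 : Prop := ∀ (G : Type u) [Group G] [Finite G] (z : G), Hy z → ∀ (M : OM qp z) (r w : V8) (τ : OG qp),
  LA M.X M.O r w τ → ∀ y, IsConj z y → Commute y z → M.ρ y ≠ τ

section
variable {G : Type u} [Group G]

/-- `t` is an involution of `Q` that is not conjugate to `z`, and `i ^ 2 = z` -/
structure Su {z : G} (M : OM qp z) (t i : G) (τ : OG qp) (v₀ v₁ : V8) : Prop where
  hy : Hy z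
  tQ : t ∈ QQ z
  iQ : i ∈ QQ z
  la : LA M.X M.O (M.π t) (M.π i) τ
  nτ : τ ∉ M.X
  lb : LB M.X M.O M.E (M.π t) (M.π i) v₀ v₁

/-- `C(t, z, i)` is generated by `t` and elements of odd order -/
def Gn (z t i : G) : Prop := ∀ L : Subgroup G, t ∈ L →
  (∀ c, Commute c t → Commute c z → Odd (orderOf c) → c ∈ L) → ∀ c, Commute c t → Commute c z → Commute c i → c ∈ L

/-- the subgroup of index two of `C(t)` -/
structure HT (z t i : G) (L : Subgroup G) : Prop where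
  le : L ≤ centralizer {t}
  two : L.relIndex (centralizer {t}) = 2
  c0 : ∀ c, Commute c t → Commute c z → Commute c i → c ∈ L
  out : ∃ a ∈ QQ z, Commute a t ∧ a ∉ L

def Fus (z t : G) : Prop := ∀ f, Nb z f → t ∈ QQ f → ∃ g, Commute g t ∧ g * z * g⁻¹ = f

def Quo (t : G) (L : Subgroup G) : Prop := ∀ (Γ : Type u) [Group Γ] (f : L →* Γ), Function.Surjective f →
  (∀ g, f g = 1 ↔ g.1 = 1 ∨ g.1 = t) → Spor.IsoHS Γ

namespace Su
variable [Finite G] {z t i : G} {M : OM qp z} {τ : OG qp} {v₀ v₁ : V8} (S : Su M t i τ v₀ v₁)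
include S

theorem tt : t * t = 1 := (M.q_zero S.tQ).1 S.la.qr
theorem ii : i * i = z := (S.hy.xe.sq_cases S.iQ).resolve_left fun e =>
  zero_ne_one (((M.q_zero S.iQ).2 e).symm.trans S.la.qw)
theorem ti : Commute t i := (M.b_zero S.tQ S.iQ).1 S.la.rw
theorem tz : Commute t z := S.hy.cz S.tQ
theorem t1 : t ≠ 1 := fun e => S.la.r0 ((M.π_zero S.tQ).2 (.inl e))
theorem t_ne : t ≠ z := fun e => S.la.r0 ((M.π_zero S.tQ).2 (.inr e))
theorem nct : ¬ IsConj z t := fun e => S.la.rO ⟨t, ⟨e, S.tQ, S.t_ne⟩, rfl⟩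
theorem swap : ∃ x ∈ QQ z, x * t * x⁻¹ = z * t :=
  S.hy.exists_conj_eq_mul S.tQ (S.hy.not_mem_cent S.tQ (by rw [pow_two, S.tt]) S.t1 S.t_ne)
theorem nczt : ¬ IsConj z (z * t) := fun e =>
  let ⟨x, _, k⟩ := S.swap
  S.nct (e.trans (isConj_iff.2 ⟨x, k⟩).symm)
/-- an element of `X` that fixes `π t` lifts to `C(t) ∩ C(z)` -/
theorem lift {g : OG qp} (hg : g ∈ M.X) (e : g.1 (M.π t) = M.π t) : ∃ c, Commute c t ∧ Commute c z ∧ M.ρ c = g := by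
  obtain ⟨c, hc, rfl⟩ := M.mem_X.1 hg
  rcases (M.π_eq S.tQ (S.hy.cmem hc S.tQ)).1 (by rw [M.π_conj hc S.tQ, e]) with k | k
  · exact ⟨c, mul_inv_eq_iff_eq_mul.1 k, hc, rfl⟩
  · obtain ⟨x, hx, k'⟩ := S.swap
    refine ⟨x⁻¹ * c, mul_inv_eq_iff_eq_mul.1 ?_, (S.hy.cz hx).inv_left.mul_left hc, ?_⟩
    · rw [show x⁻¹ * c * t * (x⁻¹ * c)⁻¹ = x⁻¹ * (c * t * c⁻¹) * x by group, k, S.tz.eq, ← k']; group
    · rw [M.ρ_mul (S.hy.cz hx).inv_left hc, M.ρ_Q S.hy (inv_mem hx), one_mul]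
theorem fix {c : G} (ct : Commute c t) (cz : Commute c z) : (M.ρ c).1 (M.π t) = M.π t := by
  rw [← M.π_conj cz S.tQ, cfix ct]

end Su
end

def All (p : ∀ (G : Type u) [Group G] [Finite G] (_ _ _ : G), Prop) : Prop :=
  ∀ (G : Type u) [Group G] [Finite G] (z t i : G) (M : OM qp z) (τ : OG qp) (v₀ v₁ : V8), Su M t i τ v₀ v₁ → p G z t i

def GEN : Prop := All.{u} fun _ _ _ z t i => Gn z t i

def TRA : Prop := ∀ (N : Type u) [Group N] [Finite N] (z : N) (E K : Subgroup N), XE z E → Nat.card E = 128 → IT z K →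
  ¬ E ≤ K → (∀ c, Commute c z → c * c ∈ pResidual 2 N) → ∃ L : Subgroup N, L.index = 2 ∧ ¬ E ≤ L

/-- the structure of `C(t) / ⟨t⟩` -/
def TRB : Prop := All.{u} fun G _ _ z t _ => ∀ (N : Type u) [Group N] [Finite N] (f : centralizer ({t} : Set G) →* N),
  Function.Surjective f → (∀ g, f g = 1 ↔ g.1 = 1 ∨ g.1 = t) → ∀ z' : centralizer ({t} : Set G), z'.1 = z →
    XE (f z') (((QQ z).subgroupOf _).map f) ∧ Nat.card (((QQ z).subgroupOf _).map f) = 128 ∧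
      ∀ g, Commute (f g) (f z') → Commute g.1 z

def TRC : Prop := All.{u} fun _ _ _ z t i => Gn z t i → ∃ L, HT z t i L

def FUS : Prop := All.{u} fun _ _ _ z t _ => Fus z t

def SYG : Prop := ∀ (Γ : Type u) [Group Γ] [Finite Γ] (z w : Γ) (P : Subgroup Γ), Styp.GP z w P P →
  (∀ K : Subgroup Γ, (∀ k ∈ K, Commute k z) → (∀ c, Commute c z → ∀ k ∈ K, c * k * c⁻¹ ∈ K) → IsPGroup 2 K → K ≤ P) →
  Nat.card P = 64 → ∀ g h : Γ, g * z * g⁻¹ ∈ P → g * z * g⁻¹ ≠ z → h * z * h⁻¹ ∈ P → g⁻¹ * (h * z * h⁻¹) * g ∈ P →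
    h * z * h⁻¹ ≠ z → h * z * h⁻¹ ≠ g * z * g⁻¹ → h * z * h⁻¹ ≠ g * z * g⁻¹ * z → Spor.IsoHS Γ

/-- the centraliser of `z` in `L / ⟨t⟩` -/
def HSA : Prop := All.{u} fun G _ _ z t i => ∀ L : Subgroup G, HT z t i L → ∀ (Γ : Type u) [Group Γ] (f : L →* Γ),
  Function.Surjective f → (∀ g, f g = 1 ↔ g.1 = 1 ∨ g.1 = t) → ∀ z' i' : L, z'.1 = z → i'.1 = i →
    Styp.GP (f z') (f i') (((QQ z).subgroupOf L).map f) (((QQ z).subgroupOf L).map f)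

def HSB : Prop := All.{u} fun G _ _ z t i => ∀ L : Subgroup G, HT z t i L → ∀ (Γ : Type u) [Group Γ] (f : L →* Γ),
  Function.Surjective f → (∀ g, f g = 1 ↔ g.1 = 1 ∨ g.1 = t) → ∀ z' : L, z'.1 = z →
    Nat.card (((QQ z).subgroupOf L).map f) = 64 ∧
    ∀ K : Subgroup Γ, (∀ k ∈ K, Commute k (f z')) → (∀ c, Commute c (f z') → ∀ k ∈ K, c * k * c⁻¹ ∈ K) → IsPGroup 2 K →
      K ≤ ((QQ z).subgroupOf L).map f

def HSQ : Prop := All.{u} fun G _ _ z t i => Fus z t → ∀ L : Subgroup G, HT z t i L → Quo t L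

def FIN : Prop := All.{u} fun G _ _ z t i => ∀ L : Subgroup G, HT z t i L → Quo t L → Spor.IsoHN G

theorem case_of (a : LinA) (b : LinB) (k1 : KILL1.{u}) (k2 : KILL2.{u}) (k3 : KILL3.{u}) (gen : GEN.{u}) (trc : TRC.{u})
    (fus : FUS.{u}) (hsq : HSQ.{u}) (fin : FIN.{u}) : Case.{u} d75 := fun G _ _ _ _ z h M c => by
  have la := a _ _ _ _ c
  have n : cO ex ∉ M.X := fun m => by
    obtain ⟨s, s1, s2, s3⟩ := k1 G z h M _ _ _ la m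
    obtain ⟨y, y1, y2, y3⟩ := k2 G z h M _ _ _ la s s1 s2 s3
    exact k3 G z h M _ _ _ la y y1 y2 y3
  obtain ⟨t, ht, et⟩ := M.surj (dec 40)
  obtain ⟨i, hi, ei⟩ := M.surj (dec 52)
  have S : Su M t i (cO ex) (dec 128) (dec 104) := ⟨h, ht, hi, et ▸ ei ▸ la, n, et ▸ ei ▸ b _ _ _ _ (M.ld h) c n⟩
  obtain ⟨L, hL⟩ := trc G z t i M _ _ _ S (gen G z t i M _ _ _ S)
  exact .inr (.inr (.inr (.inr (.inr (.inr (.inr (fin G z t i M _ _ _ S L hL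
    (hsq G z t i M _ _ _ S (fus G z t i M _ _ _ S) L hL))))))))

end CL.N9.H75
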