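/-
S1763 (project N9), helper91: the configurations `d105` and `d45a` do not occur.
-/
import Cfsg.Agent.N9.Kill
import Cfsg.Agent.N9.Data

set_option autoImplicit false

namespace CL.N9.Kill

open Cfsg Subgroup CL.Even CL.Grp CL.WC CL.Cls QuadraticMap Module

universe u

/-- the codes of the elements of `L v0` -/
def L8 : List ℕ := [0x8040201008040201, 0x80c02030080c0203, 0x8040a05008040a05, 0x80c0a0f0080c0a0f,
  0x8040201088442211, 0x80c0203088cc2233, 0x8040a0508844aa55, 0x80c0a0f088ccaaff]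
/-- the codes of the generators of `L v0` -/
def L3 : List ℕ := [0x80c02030080c0203, 0x8040a05008040a05, 0x8040201088442211]
/-- the codes of the elements of `E v0` -/
def E16 : List ℕ := [0, 8, 32, 40, 64, 72, 96, 104, 128, 136, 160, 168, 192, 200, 224, 232]

theorem mem_L8 {g : OG qp} (hg : g ∈ closure {g | g ∈ L3.map cO}) : ∃ d ∈ L8, Is g d := by
  have k1 : ∀ d ∈ L3, d ∈ L8 := by decide +kernel
  have k2 : ∀ d ∈ L8, okc d = true ∧ mulc d d = idc ∧ ∀ e ∈ L8, mulc d e ∈ L8 := by decide +kernel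
  induction hg using closure_induction with
  | mem g hg =>
    obtain ⟨d, hd, rfl⟩ := List.mem_map.1 hg
    exact ⟨d, k1 d hd, is_cO (k2 d (k1 d hd)).1⟩
  | one => exact ⟨idc, by decide +kernel, is_one⟩
  | mul g k _ _ hg hk =>
    obtain ⟨d, hd, e⟩ := hg
    obtain ⟨d', hd', e'⟩ := hk
    exact ⟨_, (k2 d hd).2.2 d' hd', e.mul e'⟩
  | inv g _ hg =>
    obtain ⟨d, hd, e⟩ := hg
    exact ⟨d, hd, e.inv (k2 d hd).1 (k2 d hd).2.1⟩

theorem mem_E16 {e : V8} (he : e ∈ Submodule.span (ZMod 2) {x | x ∈ [dec 128, dec 64, dec 32, dec 8]}) :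
    ∃ n ∈ E16, e = dec n := by
  have k : ∀ a ∈ E16, ∀ b ∈ E16, a ^^^ b ∈ E16 := by decide +kernel
  induction he using Submodule.span_induction with
  | mem x hx =>
    simp only [Set.mem_ofPred_eq, List.mem_cons, List.not_mem_nil, or_false] at hx
    rcases hx with rfl | rfl | rfl | rfl <;> exact ⟨_, by decide, rfl⟩
  | zero => exact ⟨0, by decide, dec_zero.symm⟩
  | add x y _ _ hx hy =>
    obtain ⟨a, ha, rfl⟩ := hx
    obtain ⟨b, hb, rfl⟩ := hy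
    exact ⟨_, k a ha b hb, (dec_xor a b).symm⟩
  | smul c x _ hx =>
    rcases z2 c with rfl | rfl
    · exact ⟨0, by decide, by rw [zero_smul, dec_zero]⟩
    · rwa [one_smul]

/-- the finite check -/
def Chk (c : DC) (s k a₁ b₁ a₂ b₂ w x₀ x₁ x : ℕ) : Prop :=
  (c.gH.take 3 = L3 ∧ s ∈ L3 ∧ s ∈ c.gH ∧ k ∈ c.gH ∧ a₁ ∈ c.gH ∧ b₁ ∈ c.gH ∧ a₂ ∈ c.gH ∧ b₂ ∈ c.gH) ∧
  (w < 256 ∧ ap k 128 = w ∧ mulc k s = mulc s k ∧ bN 128 x₀ = true ∧ w = x₀ ^^^ ap s x₀ ∧ bN w x₁ = true ∧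
    128 = x₁ ^^^ ap s x₁) ∧
  ((∀ y < 256, ap s y = y → ∃ a < 256, y = a ^^^ ap s a) ∧ (∀ a < 256, qN (a ^^^ ap s a) = false) ∧
    (∀ d ∈ L8, ap d w = w → d = idc ∨ d = s) ∧ (∀ n ∈ E16, bN n w = false → ap s n = n)) ∧
  (mulc (mulc a₁ b₁) s = mulc s (mulc a₁ b₁) ∧ mulc (mulc a₂ b₂) s = mulc s (mulc a₂ b₂)) ∧
  (x ^^^ ap (mulc (mulc a₁ b₁) (mulc a₁ b₁)) x =
      ap (mulc (mulc a₁ b₁) (mulc a₁ b₁)) (ap (mulc (mulc a₁ b₁) (mulc a₁ b₁)) x) ∧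
    x ^^^ ap (mulc (mulc a₂ b₂) (mulc a₂ b₂)) x =
      ap (mulc (mulc a₂ b₂) (mulc a₂ b₂)) (ap (mulc (mulc a₂ b₂) (mulc a₂ b₂)) x) ∧
    bN x (ap (mulc (mulc a₁ b₁) (mulc a₁ b₁)) x ^^^ ap s (ap (mulc (mulc a₁ b₁) (mulc a₁ b₁)) x)) = false ∧
    bN x (ap (mulc (mulc a₂ b₂) (mulc a₂ b₂)) x ^^^ ap s (ap (mulc (mulc a₂ b₂) (mulc a₂ b₂)) x)) = true)

theorem case_of {c : DC} (ok : c.ok = true) {s k a₁ b₁ a₂ b₂ w x₀ x₁ x : ℕ}
    (H : Chk c s k a₁ b₁ a₂ b₂ w x₀ x₁ x) : Case.{u} c.dat := fun G _ _ _ _ z h M C => by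
  obtain ⟨⟨hl, s3, ms, mk, m1, m1', m2, m2'⟩, ⟨w1, w2, w3, p0, e0, p1, e1⟩, ⟨fx, sg, lf, ef⟩, ⟨c1, c2⟩,
    f1, f2, b1, b2⟩ := H
  have ld := M.ld h
  have okg : ∀ g ∈ c.gH, okc g = true := fun g hg =>
    List.all_eq_true.1 (Bool.and_eq_true_iff.1 ok).1 g (List.mem_append_left _ hg)
  have isg : ∀ g ∈ c.gH, Is (cO g) g := fun g hg => is_cO (okg g hg)
  have mX : ∀ g ∈ c.gH, cO g ∈ M.X := fun g hg => C.H_le _ (List.mem_map_of_mem hg)
  have hL : M.L (dec 128) = closure {g | g ∈ L3.map cO} := hl ▸ C.L_eq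
  have hE : M.E (dec 128) = Submodule.span (ZMod 2) {x | x ∈ [dec 128, dec 64, dec 32, dec 8]} := C.E_eq
  have vO : dec 128 ∈ M.O := (C.O_iff _).2 C.v0
  have S := isg s ms
  have sv : cO s ∈ M.L (dec 128) := hL ▸ subset_closure (List.mem_map_of_mem s3)
  have kw : (cO k).1 (dec 128) = dec w := by rw [isg k mk, w2]
  have ks : cO k * cO s = cO s * cO k := ((isg k mk).mul S).ext (w3 ▸ S.mul (isg k mk))
  have G1 := (isg a₁ m1).mul (isg b₁ m1')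
  have G2 := (isg a₂ m2).mul (isg b₂ m2')
  refine (kill M h (s := cO s) (g₁ := cO a₁ * cO b₁) (g₂ := cO a₂ * cO b₂) (v := dec 128) (w := dec w)
    (x₀ := dec x₀) (x₁ := dec x₁) (x := dec x)
    ⟨vO, kw ▸ ld.aO _ (mX k mk) _ vO, sv, ?_, pol_dec1.2 p0, by rw [S, ← dec_xor, ← e0], pol_dec1.2 p1,
      by rw [S, ← dec_xor, ← e1], fun y hy => ?_, fun a => ?_, fun g hg e => ?_, fun e he p => ?_,
      mul_mem (mX _ m1) (mX _ m1'), mul_mem (mX _ m2) (mX _ m2'), (G1.mul S).ext (c1 ▸ S.mul G1),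
      (G2.mul S).ext (c2 ▸ S.mul G2), by rw [G1.mul G1, G1.mul G1, ← dec_xor, f1],
      by rw [G2.mul G2, G2.mul G2, ← dec_xor, f2], by rw [G1.mul G1, S, ← dec_xor, pol_dec0, b1],
      by rw [G2.mul G2, S, ← dec_xor, pol_dec1, b2]⟩).elim
  · have := ld.aL _ (mX k mk) _ vO _ sv
    rwa [kw, ks, mul_inv_cancel_right] at this
  · obtain ⟨y, y1, rfl⟩ := ex_dec y
    obtain ⟨a, -, e⟩ := fx y y1 (dec_inj (ap_lt _ _) y1 (by rw [← S, hy]))
    exact ⟨dec a, by rw [S, ← dec_xor, ← e]⟩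
  · obtain ⟨a, a1, rfl⟩ := ex_dec a
    rw [S, ← dec_xor, qp_dec0, sg a a1]
  · obtain ⟨d, hd, I⟩ := mem_L8 (hL ▸ hg)
    rcases lf d hd (dec_inj (ap_lt _ _) w1 (by rw [← I, e])) with rfl | rfl
    exacts [.inl (I.ext is_one), .inr (I.ext S)]
  · obtain ⟨n, hn, rfl⟩ := mem_E16 (hE ▸ he)
    rw [S, ef n hn (pol_dec0.1 p)]

end CL.N9.Kill

namespace CL.N9

universe u

theorem case45a : Case.{u} d45a :=
  Kill.case_of c45a_ok (s := 0x80c02030080c0203) (k := 0x8a45221108040201) (a₁ := 0x8040a05008040a05)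
    (b₁ := 0xa05020100a050201) (a₂ := 0x8040201088442211) (b₂ := 0x8a45221108040201) (w := 138) (x₀ := 69)
    (x₁ := 64) (x := 4) (by unfold Kill.Chk; decide +kernel)

theorem case105 : Case.{u} d105 :=
  Kill.case_of c105_ok (s := 0x8040a05008040a05) (k := 0x8c44231108040201) (a₁ := 0x80c02030080c0203)
    (b₁ := 0xc04030100c040301) (a₂ := 0x8040201088442211) (b₂ := 0x8c44231108040201) (w := 140) (x₀ := 35)
    (x₁ := 32) (x := 2) (by unfold Kill.Chk; decide +kernel)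

end CL.N9
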