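/-
Extraspecial `F*(C(z))` of order `2 ^ 9` (S1763): the linear data when all `L v` consist of Eichler maps.
Pairs of non-orthogonal vectors (port of `X7/LP`).
-/
import Cfsg.Agent.N9.Top

set_option autoImplicit false
set_option linter.unusedSimpArgs false

namespace CL.N9.L0

open CL.Cls QuadraticMap Module
attribute [-simp] polar_self

/-- the linear data with `L v = {eich v u | u ∈ Y v}` -/
structure LY (q : QuadraticForm (ZMod 2) V8) (X : Subgroup (OG q)) (O : Set V8)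
    (E Y : V8 → Submodule (ZMod 2) V8) : Prop where
  nd : (polarBilin q).Nondegenerate
  ne : ∀ v ∈ O, v ≠ 0
  mE : ∀ v ∈ O, v ∈ E v
  sE : ∀ v ∈ O, ∀ e ∈ E v, q e = 0
  mY : ∀ v ∈ O, v ∈ Y v
  pY : ∀ v ∈ O, ∀ u ∈ Y v, polar q v u = 0
  eY : ∀ v ∈ O, ∀ u ∈ Y v, eich q v u ∈ X
  inf : ∀ v ∈ O, ∀ u ∈ Y v, u ∈ E v → u = 0 ∨ u = v
  sup : ∀ v ∈ O, ∀ w, polar q v w = 0 → ∃ u ∈ Y v, w + u ∈ E v
  aO : ∀ g ∈ X, ∀ v ∈ O, g.1 v ∈ O
  aE : ∀ g ∈ X, ∀ v ∈ O, ∀ e ∈ E v, g.1 e ∈ E (g.1 v)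
  aY : ∀ g ∈ X, ∀ v ∈ O, ∀ u ∈ Y v, g.1 u ∈ Y (g.1 v)

variable {q : QuadraticForm (ZMod 2) V8} {X : Subgroup (OG q)} {O : Set V8} {E Y : V8 → Submodule (ZMod 2) V8}
  {v v' : V8}

theorem fr_span {a : V8} (h : a ≠ 0) : finrank (ZMod 2) (Submodule.span (ZMod 2) {a}) = 1 := finrank_span_singleton h

theorem fr_perp (nd : (polarBilin q).Nondegenerate) {a : V8} (h : a ≠ 0) : finrank (ZMod 2) (perp q a) = 7 := by
  obtain ⟨y, hy⟩ : ∃ y, polar q a y ≠ 0 := by
    by_contra! k
    exact h (eq_zero_of_pol nd k)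
  have := finrank_inf_perp (Q := q) (W := ⊤) (x := a) (y := y) Submodule.mem_top hy
  rw [top_inf_eq, finrank_top, fr8] at this
  omega

theorem exists_notMem {S T : Submodule (ZMod 2) V8} (h : finrank (ZMod 2) T < finrank (ZMod 2) S) :
    ∃ x ∈ S, x ∉ T := SetLike.not_le_iff_exists.1 fun k => absurd (Submodule.finrank_mono k) (by omega)

theorem mem_sp {a x : V8} : x ∈ Submodule.span (ZMod 2) {a} ↔ x = 0 ∨ x = a := by
  refine ⟨fun h => ?_, by rintro (rfl | rfl); exacts [zero_mem _, Submodule.mem_span_singleton_self _]⟩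
  obtain ⟨c, rfl⟩ := Submodule.mem_span_singleton.1 h
  rcases z2 c with rfl | rfl <;> simp

theorem fr_sp (a : V8) : finrank (ZMod 2) (Submodule.span (ZMod 2) {a}) ≤ 1 := by
  simpa using finrank_span_le_card (R := ZMod 2) ({a} : Set V8)

theorem exists_ne {S : Submodule (ZMod 2) V8} (h : 2 ≤ finrank (ZMod 2) S) (a : V8) : ∃ x ∈ S, x ≠ 0 ∧ x ≠ a := by
  obtain ⟨x, hx, k⟩ := exists_notMem (S := S) (T := Submodule.span (ZMod 2) {a}) (by have := fr_sp a; omega)
  exact ⟨x, hx, not_or.1 (mt mem_sp.2 k)⟩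

theorem enum1 {S : Submodule (ZMod 2) V8} (h : finrank (ZMod 2) S ≤ 1) {a x : V8} (ha : a ∈ S) (h0 : a ≠ 0)
    (hx : x ∈ S) : x = 0 ∨ x = a := by
  rwa [← Submodule.eq_of_le_of_finrank_le ((Submodule.span_singleton_le_iff_mem _ _).2 ha) (by rwa [fr_span h0]),
    mem_sp] at hx

namespace LY
variable (L : LY q X O E Y)
include L

theorem qv (hv : v ∈ O) : q v = 0 := L.sE v hv v (L.mE v hv)
theorem pE (hv : v ∈ O) {e : V8} (he : e ∈ E v) : polar q v e = 0 := pol_of_sing (L.sE v hv) (L.mE v hv) he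

theorem frY (hv : v ∈ O) : finrank (ZMod 2) (Y v) + finrank (ZMod 2) (E v) = 8 := by
  have h1 : Y v ⊔ E v = perp q v := le_antisymm (sup_le (L.pY v hv) fun _ => L.pE hv) fun w hw => by
    obtain ⟨u, hu, k⟩ := L.sup v hv w hw
    exact Submodule.mem_sup.2 ⟨u, hu, _, k, by rw [add_comm w, aac]⟩
  have h2 : Y v ⊓ E v = Submodule.span (ZMod 2) {v} := le_antisymm (fun u hu => mem_sp.2 (L.inf v hv u hu.1 hu.2))
    ((Submodule.span_singleton_le_iff_mem _ _).2 ⟨L.mY v hv, L.mE v hv⟩)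
  rw [← Submodule.finrank_sup_add_finrank_inf_eq, h1, h2, fr_perp L.nd (L.ne v hv), fr_span (L.ne v hv)]

theorem frE_le (hv : v ∈ O) {g : OG q} (hg : g ∈ X) : finrank (ZMod 2) (E v) ≤ finrank (ZMod 2) (E (g.1 v)) := by
  rw [← LinearEquiv.finrank_map_eq g.1]
  exact Submodule.finrank_mono (by rintro _ ⟨e, he, rfl⟩; exact L.aE g hg v hv e he)

theorem frE (hv : v ∈ O) {g : OG q} (hg : g ∈ X) : finrank (ZMod 2) (E (g.1 v)) = finrank (ZMod 2) (E v) :=
  le_antisymm (by have := L.frE_le (L.aO g hg v hv) (inv_mem hg); rwa [OG.inv_app_app] at this) (L.frE_le hv hg)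

end LY

/-- a non-orthogonal pair -/
structure Pa (q : QuadraticForm (ZMod 2) V8) (X : Subgroup (OG q)) (O : Set V8)
    (E Y : V8 → Submodule (ZMod 2) V8) (v v' : V8) : Prop extends LY q X O E Y where
  hv : v ∈ O
  hv' : v' ∈ O
  b : polar q v v' = 1

namespace Pa
variable (p : Pa q X O E Y v v')
include p

theorem b' : polar q v' v = 1 := polar_comm q v v' ▸ p.b
theorem symm : Pa q X O E Y v' v := ⟨p.toLY, p.hv', p.hv, p.b'⟩
theorem q0 : q v = 0 := p.qv p.hv
theorem q0' : q v' = 0 := p.qv p.hv'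
theorem pY0 {y : V8} (h : y ∈ Y v) : polar q v y = 0 := p.pY v p.hv y h
theorem pE0 {y : V8} (h : y ∈ E v) : polar q v y = 0 := p.pE p.hv h
theorem pEE {x y : V8} (h : x ∈ E v) (k : y ∈ E v) : polar q x y = 0 := pol_of_sing (p.sE v p.hv) h k

theorem inf0 {y : V8} (h1 : y ∈ Y v) (h2 : y ∈ E v) (h3 : polar q v' y = 0) : y = 0 :=
  (p.inf v p.hv y h1 h2).resolve_right fun e => by simp [e, p.b'] at h3

theorem nrm (x : V8) : polar q v' (x + polar q v' x • v) = 0 := by simp [p.b', z2_add]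

theorem q_nrm {x : V8} (h : polar q v x = 0) (c : ZMod 2) : q (x + c • v) = q x := by
  rw [qa, map_smul', p.q0, polar_smul_right, polar_comm, h]; simp

theorem dec {x : V8} (h1 : polar q v x = 0) (h2 : polar q v' x = 0) :
    ∃ y ∈ Y v, polar q v' y = 0 ∧ x + y ∈ E v ∧ polar q v' (x + y) = 0 := by
  obtain ⟨u, hu, k⟩ := p.sup v p.hv x h1
  exact ⟨_, add_mem hu (Submodule.smul_mem _ _ (p.mY v p.hv)), p.nrm u,
    add_assoc x u _ ▸ add_mem k (Submodule.smul_mem _ _ (p.mE v p.hv)), by rw [polar_add_right, h2, p.nrm, add_zero]⟩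

/-- nondegeneracy on `⟨v, v'⟩^⊥` -/
theorem ndW {x : V8} (h1 : polar q v x = 0) (h2 : polar q v' x = 0) (h3 : ∀ y ∈ Y v, polar q y x = 0)
    (h4 : ∀ e ∈ E v, polar q v' e = 0 → polar q e x = 0) : x = 0 := eq_zero_of_pol p.nd fun w => by
  obtain ⟨y, hy, -, k1, k2⟩ := p.dec (x := w + polar q v' w • v + polar q v w • v')
    (by simp [p.b, pp, z2_add]) (by simp [p.b', pp, z2_add])
  have := h4 _ k1 k2
  simp only [polar_add_left, polar_smul_left, h1, h2, h3 y hy, smul_zero, add_zero] at this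
  rwa [polar_comm]

theorem frYY : finrank (ZMod 2) (Y v ⊓ perp q v' : Submodule _ _) + finrank (ZMod 2) (E v) = 7 := by
  have := finrank_inf_perp (Q := q) (x := v') (p.mY v p.hv) (by simp [p.b'])
  have := p.frY p.hv
  omega

theorem frPP : finrank (ZMod 2) (E v ⊓ perp q v' : Submodule _ _) + 1 = finrank (ZMod 2) (E v) :=
  finrank_inf_perp (p.mE v p.hv) (by simp [p.b'])

theorem exY (a : V8) : ∃ y ∈ Y v, polar q v' y = 0 ∧ y ≠ 0 ∧ y ≠ a := by
  obtain ⟨y, hy, k⟩ := exists_ne (S := Y v ⊓ perp q v')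
    (by have := p.frYY; have := fr_le_four p.nd (p.sE v p.hv); omega) a
  exact ⟨y, hy.1, hy.2, k⟩

theorem T (y : V8) (hy : y ∈ Y v) (x : V8) :
    (eich q v y).1 x = x + polar q y x • v + polar q v x • y + (q y * polar q v x) • v := eich2 p.q0 (p.pY0 hy) x

/-- no singular vector of `Y v'` is orthogonal to `Y v` -/
theorem F3 {u : V8} (hu : u ∈ Y v') (h0 : u ≠ 0) (hq : q u = 0) (h : ∀ y ∈ Y v, polar q y u = 0) : False := by
  have vu := h v (p.mY v p.hv)
  have vu' := p.symm.pY0 hu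
  have gX := p.eY v' p.hv' u hu
  have g1 : (eich q v' u).1 v = v + u := by simp [p.symm.T u hu, polar_comm q u, vu, p.b', hq]
  have g2 : (eich q v' u).1 (v + u) = v := by
    rw [← g1, ← OG.mul_app, eich_sq p.q0' vu', OG.one_app]
  have o1 : v + u ∈ O := g1 ▸ p.aO _ gX v p.hv
  obtain ⟨e, he, e1, e2⟩ : ∃ e ∈ E v, polar q v' e = 0 ∧ polar q e u = 1 := by
    by_contra! k
    exact h0 (p.ndW vu vu' h fun e he e1 => (z2 _).resolve_right (k e he e1))
  have e3 : e + v' ∈ E (v + u) := by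
    simpa [g1, p.symm.T u hu, e1, polar_comm q u e, e2] using p.aE _ gX v p.hv e he
  have key : ∀ y ∈ Y v, polar q v' y = 0 → y ≠ 0 → y + u ∈ E v := fun y hy y1 y0 => by
    have k1 := p.aE _ (p.eY v p.hv y hy) _ o1 _ e3
    have k2 : (eich q v y).1 (v + u) = v + u := by
      simp [p.T y hy, h y hy, vu, pp, polar_comm q y v, p.pY0 hy]
    have k3 : e + v' + (eich q v y).1 (e + v') = y + (polar q y e + q y) • v := by
      simp only [p.T y hy, polar_add_right, p.pE0 he, p.b, polar_comm q y v', y1, add_zero, zero_add, mul_one,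
        one_smul, add_smul]
      rw [add_assoc (e + v'), add_assoc (e + v'), aac]; abel
    rw [k2] at k1
    replace k1 := k3 ▸ add_mem e3 k1
    have k4 := p.aE _ gX _ o1 _ k1
    rw [g2, map_add, map_smul, g1, p.symm.T u hu, y1, polar_comm q u, h y hy] at k4
    rcases z2 (polar q y e + q y) with c | c <;> rw [c] at k4
    · exact absurd (p.inf0 hy (by simpa using k4) y1) y0
    · have := add_mem k4 (p.mE v p.hv)
      simpa [add_assoc, add_comm u v, aac] using this
  obtain ⟨y, y1, y2, y3, -⟩ := p.exY 0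
  obtain ⟨x, x1, x2, x3, x4⟩ := p.exY y
  have := add_mem (key x x1 x2 x3) (key y y1 y2 y3)
  rw [add_assoc, add_comm y, aac] at this
  exact x4 (add_eq_zero2.1 (p.inf0 (add_mem x1 y1) this (by simp [x2, y2])))

/-- a common nonsingular vector gives an element that interchanges `v` and `v'` -/
theorem N {u : V8} (hu : u ∈ Y v) (hu' : u ∈ Y v') (hq : q u = 1) : ∃ g ∈ X, g.1 v = v' ∧ g.1 v' = v ∧
    ∀ w, polar q v w = 0 → polar q v' w = 0 → g.1 w = w + polar q u w • u := by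
  have h1 := p.pY0 hu
  have h2 := p.symm.pY0 hu'
  have a1 : (eich q v u).1 v = v := eich_app_self v u
  have a2 : (eich q v u).1 u = u := by simp [p.T u hu, pp, h1]
  have a3 : (eich q v u).1 v' = v' + u + v := by simp [p.T u hu, polar_comm q u, h2, p.b, hq]
  have b1 : (eich q v' u).1 v' = v' := eich_app_self v' u
  have b2 : (eich q v' u).1 u = u := by simp [p.symm.T u hu', pp, h2]
  have b3 : (eich q v' u).1 v = v + u + v' := by simp [p.symm.T u hu', polar_comm q u, h1, p.b', hq]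
  refine ⟨eich q v u * (eich q v' u * eich q v u), mul_mem (p.eY v p.hv u hu) (mul_mem (p.eY v' p.hv' u hu')
    (p.eY v p.hv u hu)), ?_, ?_, fun w w1 w2 => ?_⟩ <;> simp only [OG.mul_app]
  · simp only [a1, b3, map_add, a2, a3, add_assoc, add_comm, add_left_comm, aac, aa, add_zero]
  · simp only [a1, b1, b2, b3, map_add, a2, a3, add_assoc, add_comm, add_left_comm, aac, aa, add_zero]
  · have c1 : (eich q v u).1 w = w + polar q u w • v := by simp [p.T u hu, w1]
    have c2 : (eich q v' u).1 w = w + polar q u w • v' := by simp [p.symm.T u hu', w2]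
    rcases z2 (polar q u w) with c | c <;> simp only [c, zero_smul, one_smul, add_zero] at c1 c2 ⊢ <;>
      simp only [c1, c2, a1, b1, b3, map_add, a2, a3, add_assoc, add_comm, add_left_comm, aac, aa, add_zero]

/-- orthogonal nonsingular vectors give a product of two reflections -/
theorem R {u u' : V8} (hu : u ∈ Y v) (h2 : polar q v' u = 0) (hu' : u' ∈ Y v') (h1' : polar q v u' = 0) (hq : q u = 1)
    (hq' : q u' = 1) (h : polar q u u' = 0) : ∃ g ∈ X, g.1 v = v ∧ g.1 v' = v' ∧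
    ∀ w, polar q v w = 0 → polar q v' w = 0 → g.1 w = w + polar q u w • u + polar q u' w • u' := by
  have h1 := p.pY0 hu
  have h2' := p.symm.pY0 hu'
  have a1 : (eich q v u).1 v = v := eich_app_self v u
  have a2 : (eich q v u).1 u = u := by simp [p.T u hu, pp, h1]
  have a3 : (eich q v u).1 v' = v' + u + v := by simp [p.T u hu, polar_comm q u, h2, p.b, hq]
  have a4 : (eich q v u).1 u' = u' := by simp [p.T u hu, h, h1']
  have b1 : (eich q v' u').1 v' = v' := eich_app_self v' u'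
  have b2 : (eich q v' u').1 u = u := by simp [p.symm.T u' hu', polar_comm q u', h, h2]
  have b3 : (eich q v' u').1 v = v + u' + v' := by simp [p.symm.T u' hu', polar_comm q u', h1', p.b', hq']
  have b4 : (eich q v' u').1 u' = u' := by simp [p.symm.T u' hu', pp, h2']
  have m := mul_mem (p.eY v p.hv u hu) (p.eY v' p.hv' u' hu')
  refine ⟨_, mul_mem m (mul_mem m m), ?_, ?_, fun w w1 w2 => ?_⟩ <;> simp only [OG.mul_app]
  · simp only [a1, a2, a3, a4, b1, b2, b3, b4, map_add, add_assoc, add_comm, add_left_comm, aac, aa, add_zero]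
  · simp only [a1, a2, a3, a4, b1, b2, b3, b4, map_add, add_assoc, add_comm, add_left_comm, aac, aa, add_zero]
  · have c1 : (eich q v u).1 w = w + polar q u w • v := by simp [p.T u hu, w1]
    have c2 : (eich q v' u').1 w = w + polar q u' w • v' := by simp [p.symm.T u' hu', w2]
    rcases z2 (polar q u w) with c | c <;> rcases z2 (polar q u' w) with c' | c' <;>
      simp only [c, c', zero_smul, one_smul, add_zero] at c1 c2 ⊢ <;>
      simp only [c1, c2, a1, a2, a3, a4, b1, b2, b3, b4, map_add, add_assoc, add_comm, add_left_comm, aac, aa, add_zero]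

/-- `E v` is a point -/
theorem one (h : finrank (ZMod 2) (E v) ≤ 1) (h' : finrank (ZMod 2) (E v') ≤ 1) :
    commutator (OG q) ≤ X ∧ ∀ w, q w = 0 → w ≠ 0 → w ∈ O ∧ ∀ e ∈ E w, e = 0 ∨ e = w := by
  have k : ∀ {v}, v ∈ O → finrank (ZMod 2) (E v) ≤ 1 → ∀ u, eich q v u ∈ X := fun {v} hv h u => by
    by_cases hu : polar q v u = 0
    · obtain ⟨y, hy, e⟩ := p.sup v hv u hu
      refine p.eY v hv u ?_
      rcases enum1 h (p.mE v hv) (p.ne v hv) e with e | e
      · exact add_eq_zero2.1 e ▸ hy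
      · simpa only [← e, add_comm u, aac] using add_mem hy (p.mY v hv)
    · rw [eich_of_not (by simp [hu])]; exact one_mem _
  have hc := commutator_le_of_pair p.nd (by simp) ⟨p.q0, p.q0', p.b⟩ (k p.hv h) (k p.hv' h')
  refine ⟨hc, fun w w1 w2 => ?_⟩
  obtain ⟨g, hg, rfl⟩ := exists_commutator_app_eq p.nd (by simp) (p.ne v p.hv) w2 (p.q0.trans w1.symm)
  have o := p.aO g (hc hg) v p.hv
  exact ⟨o, fun e => enum1 (by rwa [p.frE p.hv (hc hg)]) (p.mE _ o) w2⟩

end Pa

end CL.N9.L0
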