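/-
Extraspecial `F*(C(z))` of order `2 ^ 9` (S1763): pairs with `E v ≠ ⟨v⟩`.
-/
import Cfsg.Agent.N9.L0a

set_option autoImplicit false
set_option linter.unusedSimpArgs false

namespace CL.N9.L0

open CL.Cls QuadraticMap Module
attribute [-simp] polar_self

variable {q : QuadraticForm (ZMod 2) V8} {X : Subgroup (OG q)} {O : Set V8} {E Y : V8 → Submodule (ZMod 2) V8}
  {v v' : V8}

namespace Pa
variable (p : Pa q X O E Y v v')
include p

theorem nY {y : V8} (h : y ∈ Y v) : y + polar q v' y • v ∈ Y v := add_mem h (Submodule.smul_mem _ _ (p.mY v p.hv))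

theorem star {a b : V8} (ha : a ∈ Y v) (a1 : polar q v' a = 0) (hb : b ∈ Y v') (b1 : polar q v b = 0) (qb : q b = 0)
    (ab : polar q a b = 0) : (∀ e ∈ E v, (polar q a e + q a * polar q b e) • b + polar q b e • a ∈ E v) ∧
      ∀ y ∈ Y v, (polar q a y + q a * polar q b y) • b ∈ Y v := by
  have g1 : (eich q v' b).1 v = v + b := by simp [p.symm.T b hb, polar_comm q b, b1, p.b', qb]
  have g2 : (eich q v' b).1 a = a := by simp [p.symm.T b hb, polar_comm q b, ab, a1]
  have gX := p.eY v' p.hv' b hb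
  have hX := mul_mem (mul_mem gX (p.eY v p.hv a ha)) (inv_mem gX)
  rw [eich_conj, g1, g2] at hX
  have q1 : q (v + b) = 0 := by rw [qa, p.q0, qb, b1]; rfl
  have q2 : polar q (v + b) a = 0 := by rw [polar_add_left, p.pY0 ha, polar_comm, ab, add_zero]
  have e1 : (eich q (v + b) a).1 v = v := by
    simp [eich2 q1 q2, polar_comm q a, p.pY0 ha, pp, polar_comm q b, b1]
  have e2 : ∀ w, polar q v w = 0 → (polar q a w + q a * polar q b w) • b + polar q b w • a =
      (eich q (v + b) a).1 w + w + (polar q a w + q a * polar q b w) • v := fun w hw => by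
    rw [eich2 q1 q2, polar_add_left, hw, zero_add]
    linear_combination (norm := module) -aa w - (polar q a w + q a * polar q b w) • aa v
  generalize eich q (v + b) a = g at hX e1 e2
  refine ⟨fun e he => ?_, fun y hy => ?_⟩
  · rw [e2 e (p.pE0 he)]
    exact add_mem (add_mem (e1 ▸ p.aE _ hX v p.hv e he) he) (Submodule.smul_mem _ _ (p.mE v p.hv))
  · rw [← add_mem_cancel_right (Submodule.smul_mem _ (polar q b y) ha), e2 y (p.pY0 hy)]
    exact add_mem (add_mem (e1 ▸ p.aY _ hX v p.hv y hy) hy) (Submodule.smul_mem _ _ (p.mY v p.hv))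

theorem subY {u : V8} (hu : u ∈ Y v) (hu' : u ∈ Y v') (hq : q u = 1) {y : V8} (y1 : y ∈ Y v) (y2 : polar q v' y = 0) :
    y ∈ Y v' := by
  obtain ⟨g, hg, g1, -, g3⟩ := p.N hu hu' hq
  have := p.aY g hg v p.hv y y1
  rwa [g1, g3 y (p.pY0 y1) y2, add_mem_cancel_right (Submodule.smul_mem _ _ hu')] at this

theorem fr3 : 3 ≤ finrank (ZMod 2) (Y v ⊓ perp q v' : Submodule _ _) := by
  have := p.frYY
  have := fr_le_four p.nd (p.sE v p.hv)
  omega

theorem exA (d a : V8) : ∃ y ∈ Y v, polar q v' y = 0 ∧ polar q d y = 0 ∧ y ≠ 0 ∧ y ≠ a := by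
  obtain ⟨y, hy, k⟩ := exists_ne (S := Y v ⊓ perp q v' ⊓ perp q d)
    (by have := p.fr3; have := finrank_le_finrank_inf_perp_succ (Q := q) (Y v ⊓ perp q v') d; omega) a
  exact ⟨y, hy.1.1, hy.1.2, hy.2, k⟩

/-- a vector of `E v ∩ v'^⊥` which is orthogonal to `Y v ∩ v'^⊥` vanishes -/
theorem zE {e : V8} (he : e ∈ E v) (e1 : polar q v' e = 0) (h : ∀ y ∈ Y v, polar q v' y = 0 → polar q y e = 0) :
    e = 0 := p.ndW (p.pE0 he) e1 (fun y hy => by simpa [p.pE0 he] using h _ (p.nY hy) (p.nrm y))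
      fun x hx _ => p.pEE hx he

/-- no common nonsingular vector -/
theorem K {e0 : V8} (h0 : e0 ∈ E v) (h1 : polar q v' e0 = 0) (h2 : e0 ≠ 0) {u : V8} (hu : u ∈ Y v) (hu' : u ∈ Y v') :
    q u = 0 := by
  by_contra hq
  replace hq := z2_ne.1 hq
  have u1 := p.symm.pY0 hu'
  have u0 : u ≠ 0 := by rintro rfl; simp at hq
  obtain ⟨g, hg, g1, -, g3⟩ := p.N hu hu' hq
  have c1 : ∀ a ∈ Y v, polar q v' a = 0 → q a = 1 → a ≠ u → polar q a e0 = 0 ∧ polar q u e0 = 0 :=
    fun a ha a1 a2 a3 => by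
      have ha' := p.subY hu hu' hq ha a1
      obtain ⟨k, hk, k1, -, k3⟩ := p.N ha ha' a2
      have m := add_mem (k1 ▸ p.aE k hk v p.hv e0 h0) (g1 ▸ p.aE g hg v p.hv e0 h0)
      rw [g3 e0 (p.pE0 h0) h1, k3 e0 (p.pE0 h0) h1, add_assoc, add_left_comm _ e0, aac] at m
      have z := p.symm.inf0 (add_mem (Submodule.smul_mem _ _ ha') (Submodule.smul_mem _ _ hu')) m
        (by simp [p.pY0 ha, p.pY0 hu])
      have a0 : a ≠ 0 := by rintro rfl; simp at a2
      rcases z2 (polar q a e0) with c | c <;> rcases z2 (polar q u e0) with d | d <;> rw [c, d] at z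
      · exact ⟨c, d⟩
      · exact absurd (by simpa using z) u0
      · exact absurd (by simpa using z) a0
      · exact absurd (add_eq_zero2.1 (by simpa using z)) a3
  have qs : ∀ y, polar q u y = 0 → q y = 0 → q (y + u) = 1 := fun y y1 y2 => by
    rw [qa, y2, hq, polar_comm, y1]; rfl
  have c2 : polar q u e0 = 0 := by
    obtain ⟨y, y1, y2, y3, y4, y5⟩ := p.exA u u
    rcases z2 (q y) with c | c
    · exact (c1 _ (add_mem y1 hu) (by simp [y2, u1]) (qs y y3 c) (by simpa using y4)).2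
    · exact (c1 y y1 y2 c y5).2
  have c3 : ∀ a ∈ Y v, polar q v' a = 0 → q a = 1 → polar q a e0 = 0 := fun a ha a1 a2 => by
    by_cases e : a = u
    exacts [e ▸ c2, (c1 a ha a1 a2 e).1]
  have c4 : ∀ y ∈ Y v, polar q v' y = 0 → polar q u y = 0 → polar q y e0 = 0 := fun y y1 y2 y3 => by
    rcases z2 (q y) with c | c
    · simpa [c2] using c3 _ (add_mem y1 hu) (by simp [y2, u1]) (qs y y3 c)
    · exact c3 y y1 y2 c
  obtain ⟨w, w1, w2, w3⟩ : ∃ w ∈ Y v, polar q v' w = 0 ∧ polar q w e0 = 1 := by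
    by_contra! k
    exact h2 (p.zE h0 h1 fun y y1 y2 => (z2 _).resolve_right (k y y1 y2))
  have w4 : polar q u w = 1 := z2_ne.1 fun c => by simp [c4 w w1 w2 c] at w3
  have c5 : ∀ y ∈ Y v, polar q v' y = 0 → polar q u y = 0 → q (w + y) = 0 := fun y y1 y2 y3 => by_contra fun c => by
    have := c3 _ (add_mem w1 y1) (by simp [w2, y2]) (z2_ne.1 c)
    simp [w3, c4 y y1 y2 y3] at this
  have qw : q w = 0 := by simpa using c5 0 (zero_mem _) (by simp) (by simp)
  have c6 : ∀ y ∈ Y v, polar q v' y = 0 → polar q u y = 0 → q y = polar q w y := fun y y1 y2 y3 => by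
    have := c5 y y1 y2 y3
    rw [qa, qw, zero_add] at this
    exact (CharTwo.add_eq_zero (R := ZMod 2)).1 this
  obtain ⟨r, hr, r0⟩ := exists_notMem (S := Y v ⊓ perp q v' ⊓ perp q u ⊓ perp q w) (T := ⊥) (by
    have := p.fr3
    have := finrank_le_finrank_inf_perp_succ (Q := q) (Y v ⊓ perp q v') u
    have := finrank_le_finrank_inf_perp_succ (Q := q) (Y v ⊓ perp q v' ⊓ perp q u) w
    rw [finrank_bot]; omega)
  have r1 : r ∈ Y v := hr.1.1.1
  have r2 : polar q v' r = 0 := hr.1.1.2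
  have r3 : polar q u r = 0 := hr.1.2
  have r4 : polar q w r = 0 := hr.2
  have qr : q r = 0 := (c6 r r1 r2 r3).trans r4
  have c7 : ∀ y ∈ Y v, polar q v' y = 0 → polar q u y = 0 → polar q y r = 0 := fun y y1 y2 y3 => by
    have := c6 _ (add_mem y1 r1) (by simp [y2, r2]) (by simp [y3, r3])
    rwa [qa, qr, add_zero, polar_add_right, r4, add_zero, c6 y y1 y2 y3, add_eq_left] at this
  refine p.F3 (p.subY hu hu' hq r1 r2) r0 qr fun y hy => ?_
  have y1 := p.nY hy
  have y2 := p.nrm y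
  have := c7 _ (add_mem y1 (Submodule.smul_mem _ (polar q u (y + polar q v' y • v)) w1)) (by simp [y2, w2])
    (by rw [polar_add_right q u _ (_ • w), polar_smul_right, w4, smul_eq_mul, mul_one, z2_add])
  simpa [r4, p.pY0 r1] using this

theorem D1 {d : V8} (hd : d ∈ Y v) (hd' : d ∈ Y v') (d0 : d ≠ 0) (qd : q d = 0) {e : V8} (he : e ∈ E v)
    {a : V8} (ha : a ∈ Y v) (a1 : polar q v' a = 0) (ad : polar q a d = 0) : polar q a e = 0 := by
  have d1 := p.symm.pY0 hd'
  have k : ∀ a ∈ Y v, polar q v' a = 0 → polar q a d = 0 →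
      (polar q a e + q a * polar q d e) • d + polar q d e • a = 0 := fun a ha a1 ad =>
    p.inf0 (add_mem (Submodule.smul_mem _ _ hd) (Submodule.smul_mem _ _ ha))
      ((p.star ha a1 hd' (p.pY0 hd) qd ad).1 e he) (by simp [a1, d1])
  have de : polar q d e = 0 := by
    obtain ⟨y, y1, y2, y3, y4, y5⟩ := p.exA d d
    have := k y y1 y2 (polar_comm q d y ▸ y3)
    by_contra c
    rw [z2_ne.1 c, one_smul, add_eq_zero2] at this
    rcases z2 (polar q y e + q y * 1) with c | c <;> rw [c] at this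
    exacts [y4 (by simpa using this.symm), y5 (by simpa using this.symm)]
  have := k a ha a1 ad
  rw [de, mul_zero, add_zero, zero_smul, add_zero] at this
  exact (smul_eq_zero.1 this).resolve_right d0

/-- `E v` is neither a line nor a plane -/
theorem not23 (h : 2 ≤ finrank (ZMod 2) (E v)) (h3 : finrank (ZMod 2) (E v) ≤ 3) (h' : finrank (ZMod 2) (E v') ≤ 3) :
    False := by
  obtain ⟨e, he, e0⟩ := exists_notMem (S := E v ⊓ perp q v') (T := ⊥) (by have := p.frPP; rw [finrank_bot]; omega)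
  have k : 2 ≤ finrank (ZMod 2) (Y v ⊓ Y v' : Submodule _ _) := by
    have a1 := Submodule.finrank_sup_add_finrank_inf_eq (Y v ⊓ perp q v') (Y v' ⊓ perp q v)
    have a2 := Submodule.finrank_mono (show (Y v ⊓ perp q v') ⊓ (Y v' ⊓ perp q v) ≤ Y v ⊓ Y v' from
      fun x hx => ⟨hx.1.1, hx.2.1⟩)
    have a3 := Submodule.finrank_mono (show (Y v ⊓ perp q v') ⊔ (Y v' ⊓ perp q v) ≤ perp q v ⊓ perp q v' from
      sup_le (fun x hx => ⟨p.pY0 hx.1, hx.2⟩) fun x hx => ⟨hx.2, p.symm.pY0 hx.1⟩)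
    have a4 := finrank_inf_perp (Q := q) (W := perp q v) (x := v') (y := v) (pp v) (by simp [p.b'])
    have := fr_perp p.nd (p.ne v p.hv)
    have := p.frYY
    have := p.symm.frYY
    omega
  obtain ⟨d, hd, d0, -⟩ := exists_ne k 0
  obtain ⟨d', hd', d0', dd⟩ := exists_ne k d
  have sg : ∀ x ∈ Y v ⊓ Y v', q x = 0 := fun x hx => p.K he.1 he.2 e0 hx.1 hx.2
  have key : ∀ d ∈ Y v ⊓ Y v', ∀ d' ∈ Y v ⊓ Y v', d ≠ 0 → d' ≠ 0 → ∀ y ∈ Y v, polar q v' y = 0 → polar q y d = 0 →
      polar q y d' = 0 := fun d hd d' hd' d0 d0' y y1 y2 y3 => by_contra fun c => e0 (p.zE he.1 he.2 fun a a1 a2 => by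
    have := p.D1 hd'.1 hd'.2 d0' (sg _ hd') he.1 (add_mem a1 (Submodule.smul_mem _ (polar q a d') y1))
      (by simp [a2, y2]) (by simp [z2_ne.1 c, z2_add])
    simpa [p.D1 hd.1 hd.2 d0 (sg _ hd) he.1 y1 y2 y3] using this)
  refine p.F3 (add_mem hd' hd).2 (mt add_eq_zero2.1 dd) (sg _ (add_mem hd' hd)) fun y hy => ?_
  have y1 := p.nY hy
  have y2 := p.nrm y
  have : polar q (y + polar q v' y • v) (d' + d) = 0 := by
    rw [polar_add_right]
    rcases z2 (polar q (y + polar q v' y • v) d) with c | c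
    · rw [c, key d hd d' hd' d0 d0' _ y1 y2 c, add_zero]
    · have c2 : polar q (y + polar q v' y • v) d' = 1 :=
        z2_ne.1 fun c' => by rw [key d' hd' d hd d0' d0 _ y1 y2 c'] at c; exact zero_ne_one c
      rw [c, c2, oo]
  simpa [p.pY0 hd.1, p.pY0 hd'.1] using this

variable (h : finrank (ZMod 2) (E v) = 4)
include h

theorem memE {x : V8} (h1 : polar q v x = 0) (hx : ∀ e ∈ E v, polar q v' e = 0 → polar q e x = 0) : x ∈ E v :=
  mem_of_perp4 p.nd (p.sE v p.hv) h fun e he => by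
    simpa [h1] using hx _ (add_mem he (Submodule.smul_mem _ _ (p.mE v p.hv))) (p.nrm e)

theorem exP {u : V8} (hu : u ∈ Y v) (u1 : polar q v' u = 0) (u0 : u ≠ 0) :
    ∃ e ∈ E v, polar q v' e = 0 ∧ polar q u e = 1 := by
  by_contra! k
  exact u0 (p.inf0 hu (p.memE h (p.pY0 hu) fun e he e1 => polar_comm q u e ▸ (z2 _).resolve_right (k e he e1)) u1)

theorem sB {b : V8} (hb : b ∈ Y v') (b1 : polar q v b = 0) (qb : q b = 0) : b ∈ E v := by
  by_contra nb
  have k : ∀ a ∈ Y v, polar q v' a = 0 → polar q b a = 0 → a ≠ 0 → a + b ∈ E v := fun a ha a1 ab a0 => by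
    have f : ∀ e ∈ E v, polar q a e = 1 → polar q b e = 1 := fun e he c => z2_ne.1 fun d => nb (by
      simpa [c, d] using (p.star ha a1 hb b1 qb (polar_comm q b a ▸ ab)).1 e he)
    obtain ⟨e1, m1, -, m3⟩ := p.exP h ha a1 a0
    refine p.memE h (by simp [p.pY0 ha, b1]) fun e he _ => ?_
    rw [polar_comm, polar_add_left]
    rcases z2 (polar q a e) with c | c
    · have := f _ (add_mem he m1) (by simp [c, m3])
      rw [polar_add_right, f e1 m1 m3, add_eq_right] at this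
      rw [c, this, add_zero]
    · rw [c, f e he c, oo]
  obtain ⟨a, a1, a2, a3, a4, -⟩ := p.exA b 0
  obtain ⟨c, c1, c2, c3, c4, c5⟩ := p.exA b a
  have := add_mem (k c c1 c2 c3 c4) (k a a1 a2 a3 a4)
  rw [add_assoc, add_comm a, aac] at this
  exact c5 (add_eq_zero2.1 (p.inf0 (add_mem c1 a1) this (by simp [c2, a2])))

theorem tsA {a : V8} (ha : a ∈ Y v) (a1 : polar q v' a = 0) : q a = 0 := by
  by_contra hq
  replace hq := z2_ne.1 hq
  obtain ⟨e, he, e1, e2⟩ := p.exP h ha a1 (by rintro rfl; simp at hq)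
  have e0 : e ≠ 0 := by rintro rfl; simp at e2
  have k1 : ∀ b ∈ Y v', polar q v b = 0 → polar q a b = 0 → q b = 1 → a + b ∈ E v ∧ ∀ y ∈ Y v, polar q b y = 0 :=
    fun b hb b1 ab qb => by
      obtain ⟨g, hg, g1, -, g3⟩ := p.R ha a1 hb b1 hq qb ab
      refine ⟨?_, fun y hy => by_contra fun c => ?_⟩
      · have k := add_mem he (g1 ▸ p.aE g hg v p.hv e he)
        rw [g3 e (p.pE0 he) e1, add_assoc, aac, e2, one_smul] at k
        rcases z2 (polar q b e) with d | d <;> rw [d] at k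
        · rw [p.sE v p.hv a (by simpa using k)] at hq; simp at hq
        · simpa using k
      · have m := p.nY hy
        have k := g1 ▸ p.aY g hg v p.hv _ m
        rw [g3 _ (p.pY0 m) (p.nrm y), add_mem_cancel_left (add_mem m (Submodule.smul_mem _ _ ha)),
          show polar q b (y + polar q v' y • v) = 1 by simp [z2_ne.1 c, polar_comm q b v, b1], one_smul] at k
        rw [p.K he e1 e0 k hb] at qb
        simp at qb
  have k0 : ∀ b ∈ Y v', polar q v b = 0 → polar q a b = 0 → q b = 0 → b ≠ 0 →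
      b ∈ E v ∧ ∀ y ∈ Y v, polar q a y + polar q b y = 0 := fun b hb b1 ab qb b0 => by
    have m := p.sB h hb b1 qb
    refine ⟨m, fun y hy => by_contra fun c => b0 (p.inf0 ?_ m (p.symm.pY0 hb))⟩
    have := (p.star ha a1 hb b1 qb ab).2 y hy
    rwa [hq, one_mul, z2_ne.1 c, one_smul] at this
  have fin : ∀ b ∈ Y v', polar q v b = 0 → polar q a b = 0 → b ≠ 0 → ∀ c ∈ Y v', polar q v c = 0 → polar q a c = 0 →
      c ≠ 0 → q b = q c → b = c := fun b hb b1 ab b0 c hc c1 ac c0 e => by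
    have z : b + c ∈ E v → (∀ y ∈ Y v, polar q b y + polar q c y = 0) → b = c := fun m k =>
      add_eq_zero2.1 (p.zE m (by simp [p.symm.pY0 hb, p.symm.pY0 hc]) fun y hy _ => by
        rw [polar_comm, polar_add_left, k y hy])
    rcases z2 (q c) with d | d
    · obtain ⟨m1, m2⟩ := k0 b hb b1 ab (e.trans d) b0
      obtain ⟨n1, n2⟩ := k0 c hc c1 ac d c0
      exact z (add_mem m1 n1) fun y hy => by
        rw [← add_left_cancel ((m2 y hy).trans (n2 y hy).symm), z2_add]
    · obtain ⟨m1, m2⟩ := k1 b hb b1 ab (e.trans d)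
      obtain ⟨n1, n2⟩ := k1 c hc c1 ac d
      refine z ?_ fun y hy => by rw [m2 y hy, n2 y hy, add_zero]
      have := add_mem m1 n1
      rwa [add_comm a b, add_assoc, aac] at this
  obtain ⟨b, b1, b2, b3, b4, -⟩ := p.symm.exA a 0
  obtain ⟨c, c1, c2, c3, c4, c5⟩ := p.symm.exA a b
  have s := fin _ (add_mem c1 b1) (by simp [c2, b2]) (by simp [c3, b3]) (mt add_eq_zero2.1 c5)
  by_cases e1 : q c = q b
  · exact c5 (fin c c1 c2 c3 c4 b b1 b2 b3 b4 e1)
  by_cases e2 : q (c + b) = q b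
  · exact c4 (by simpa using s b b1 b2 b3 b4 e2)
  · have e3 : q (c + b) = q c := by
      revert e1 e2
      generalize q (c + b) = i, q c = j, q b = k
      revert i j k; decide
    exact b4 (by simpa using s c c1 c2 c3 c4 e3)

theorem key (h' : finrank (ZMod 2) (E v') = 4) : Y v' ⊓ perp q v = E v ⊓ perp q v' :=
  Submodule.eq_of_le_of_finrank_eq (fun b hb => ⟨p.sB h hb.1 hb.2 (p.symm.tsA h' hb.1 hb.2), p.symm.pY0 hb.1⟩)
    (by have := p.symm.frYY; have := p.frPP; omega)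

end Pa

end CL.N9.L0
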