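/-
Extraspecial `F*(C(z))` of order `2 ^ 9` (S1763): two solids, and the linear classification `Lin0`.
-/
import Cfsg.Agent.N9.L0b

set_option autoImplicit false
set_option linter.unusedSimpArgs false

namespace CL.N9.L0

open CL.Cls QuadraticMap Module
attribute [-simp] polar_self

variable {q : QuadraticForm (ZMod 2) V8} {X : Subgroup (OG q)} {O : Set V8} {E Y : V8 → Submodule (ZMod 2) V8}
  {L : V8 → Subgroup (OG q)} {v v' : V8}

namespace Pa
variable (p : Pa q X O E Y v v') (H : ∀ x ∈ O, finrank (ZMod 2) (E x) = 4)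
include p H

theorem kY {b : V8} (hb : b ∈ E v) (b1 : polar q v' b = 0) : b ∈ Y v' :=
  ((p.key (H v p.hv) (H v' p.hv')).ge (show b ∈ E v ⊓ perp q v' from ⟨hb, b1⟩)).1

theorem orb1 {w : V8} (hw : w ∈ E v) (h : polar q v' w = 1) : w ∈ O ∧ E w = E v := by
  have m := add_mem hw (p.mE v p.hv)
  have b1 : polar q v' (w + v) = 0 := by simp [h, p.b', oo]
  have hb := p.kY H m b1
  have gX := p.eY v' p.hv' _ hb
  have k : ∀ e ∈ E v, (eich q v' (w + v)).1 e = e + polar q v' e • (w + v) := fun e he => by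
    rw [p.symm.T _ hb, p.pEE m he, p.sE v p.hv _ m, zero_mul, zero_smul, add_zero, add_zero]
  have g1 : (eich q v' (w + v)).1 v = w := by rw [k v (p.mE v p.hv), p.b', one_smul, add_comm w, aac]
  have o := p.aO _ gX v p.hv
  rw [g1] at o
  refine ⟨o, (Submodule.eq_of_le_of_finrank_eq (fun e he => ?_) (by rw [H v p.hv, H w o])).symm⟩
  have m2 := add_mem he (Submodule.smul_mem _ (polar q v' e) m)
  have := p.aE _ gX v p.hv _ m2
  rwa [g1, k _ m2, polar_add_right, polar_smul_right, b1, smul_zero, add_zero, aac'] at this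

theorem orb2 {w : V8} (hw : w ∈ E v) (h0 : w ≠ 0) : w ∈ O ∧ E w = E v := by
  rcases z2 (polar q v' w) with h | h
  · obtain ⟨e, he, e1, e2⟩ := p.symm.exP (H v' p.hv') (p.kY H hw h) (p.pE0 hw) h0
    have b : polar q v (v' + e) = 1 := by simp [p.b, e1]
    have f := p.symm.orb1 H (add_mem (p.mE v' p.hv') he) b
    exact Pa.orb1 ⟨p.toLY, p.hv, f.1, b⟩ H hw (by rw [polar_add_left, h, polar_comm, e2, zero_add])
  · exact p.orb1 H hw h

theorem infE {x : V8} (h : x ∈ E v) (h' : x ∈ E v') : x = 0 :=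
  p.inf0 (p.symm.kY H h' (p.pE0 h)) h (p.symm.pE0 h')

theorem supE (x : V8) : ∃ w ∈ E v, x + w ∈ E v' := by
  have h1 : E v ⊓ E v' = ⊥ := (Submodule.eq_bot_iff _).2 fun x hx => p.infE H hx.1 hx.2
  have h2 : E v ⊔ E v' = ⊤ := Submodule.eq_top_of_finrank_eq (by
    have := Submodule.finrank_sup_add_finrank_inf_eq (E v) (E v')
    rw [h1, finrank_bot, H v p.hv, H v' p.hv'] at this
    rw [fr8]; omega)
  obtain ⟨a, ha, b, hb, rfl⟩ := Submodule.mem_sup.1 (h2 ▸ Submodule.mem_top : x ∈ E v ⊔ E v')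
  exact ⟨a, ha, by rwa [add_right_comm, aa, zero_add]⟩

theorem side {x : V8} (hx : x ∈ O) (hn : x ∉ E v) : E v ⊓ perp q x ≤ Y x := fun b hb => by
  obtain ⟨w, hw, e⟩ : ∃ w ∈ E v, polar q w x = 1 := by
    by_contra! k
    exact hn (mem_of_perp4 p.nd (p.sE v p.hv) (H v p.hv) fun w hw => (z2 _).resolve_right (k w hw))
  obtain ⟨o, k⟩ := p.orb2 H hw (by rintro rfl; simp at e)
  exact Pa.kY ⟨p.toLY, o, hx, e⟩ H (k ▸ hb.1) hb.2

theorem sub {x : V8} (hx : x ∈ O) : x ∈ E v ∨ x ∈ E v' := by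
  by_contra! k
  have a1 := Submodule.finrank_mono (sup_le (p.side H hx k.1) (p.symm.side H hx k.2))
  have a2 := Submodule.finrank_sup_add_finrank_inf_eq (E v ⊓ perp q x) (E v' ⊓ perp q x)
  rw [show (E v ⊓ perp q x) ⊓ (E v' ⊓ perp q x) = ⊥ from
    (Submodule.eq_bot_iff _).2 fun y hy => p.infE H hy.1.1 hy.2.1, finrank_bot] at a2
  have := finrank_le_finrank_inf_perp_succ (Q := q) (E v) x
  have := finrank_le_finrank_inf_perp_succ (Q := q) (E v') x
  have := p.frY hx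
  have := H v p.hv
  have := H v' p.hv'
  have := H x hx
  omega

theorem cc {g : OG q} (hg : g ∈ X) (e : g.1 v = v') : CC q X O E L (E v) (E v') := by
  have e1 : ∀ x ∈ O, x ∈ E v → E x = E v := fun x hx h => (p.orb2 H h (p.ne x hx)).2
  have e2 : ∀ x ∈ O, x ∈ E v' → E x = E v' := fun x hx h => (p.symm.orb2 H h (p.ne x hx)).2
  refine ⟨p.sE v p.hv, p.sE v' p.hv', H v p.hv, H v' p.hv', fun _ => p.infE H, p.supE H,
    fun x => ⟨fun h => ⟨p.ne x h, p.sub H h⟩, fun ⟨h0, h⟩ => h.elim (fun h => (p.orb2 H h h0).1)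
      fun h => (p.symm.orb2 H h h0).1⟩, e1, e2, fun a ha f hf af => ?_, fun k hk => ?_,
    ⟨g, hg, fun w hw => e ▸ p.aE g hg v p.hv w hw⟩⟩
  · by_cases a0 : a = 0
    · rw [a0, eich_zero_left]; exact one_mem _
    · have o := (p.orb2 H ha a0).1
      exact p.eY a o f (p.symm.side H o (fun h => a0 (p.infE H ha h)) ⟨hf, af⟩)
  · have o := p.aO k hk v p.hv
    have o' := p.aO k hk v' p.hv'
    have b : polar q (k.1 v) (k.1 v') ≠ 0 := by simp [OG.polar_app k, p.b]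
    have m := p.aE k hk v p.hv
    have m' := p.aE k hk v' p.hv'
    rcases p.sub H o with c | c <;> rcases p.sub H o' with d | d
    · exact absurd (p.pEE c d) b
    · exact .inl ⟨e1 _ o c ▸ m, e2 _ o' d ▸ m'⟩
    · exact .inr ⟨e2 _ o c ▸ m, e1 _ o' d ▸ m'⟩
    · exact absurd (p.symm.pEE c d) b

end Pa

/-- the vectors whose Eichler maps lie in `L v` -/
def YY (L : V8 → Subgroup (OG q)) (v : V8) : Submodule (ZMod 2) V8 where
  carrier := {u | polar q v u = 0 ∧ (q v = 0 → eich q v u ∈ L v)}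
  add_mem' := fun {a b} ha hb => ⟨by rw [polar_add_right, ha.1, hb.1, add_zero],
    fun h => eich_mul h ha.1 hb.1 ▸ mul_mem (ha.2 h) (hb.2 h)⟩
  zero_mem' := ⟨by simp, fun _ => by rw [eich_zero_right]; exact one_mem _⟩
  smul_mem' := fun c x hx => by
    rcases z2 c with rfl | rfl
    · exact ⟨by simp, fun _ => by rw [zero_smul, eich_zero_right]; exact one_mem _⟩
    · rwa [one_smul]

section
variable (D : LD q X O E L)
include D

theorem ex1 (hv : v ∈ O) : ∃ y, polar q v y = 1 := by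
  by_contra! k
  exact D.ne v hv (eq_zero_of_pol D.nd fun y => (z2 _).resolve_right (k y))

theorem eichT (hv : v ∈ O) (T : T0 L v) {g : OG q} (hg : g ∈ L v) : ∃ u, polar q v u = 0 ∧ g = eich q v u := by
  have qv := D.sE v hv v (D.mE v hv)
  obtain ⟨y, hy⟩ := ex1 D hv
  have s : ∀ a b, polar q (g.1 a) b = polar q a (g.1 b) := fun a b => by
    rw [← OG.polar_app g, ← OG.mul_app, D.sq v hv g hg, OG.one_app]
  obtain ⟨u, hu, c⟩ : ∃ u, polar q v u = 0 ∧ ∀ x, polar q u x = polar q y (g.1 x + x) :=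
    ⟨g.1 y + y, by rw [polar_add_right, ← s, D.fixv v hv g hg, z2_add],
      fun x => by rw [polar_add_left, polar_add_right, s]⟩
  refine ⟨u, hu, mul_left_cancel ((eq_one_of_perp D.nd qv fun x hx => ?_).trans (eich_sq qv hu).symm)⟩
  have c := c x
  rw [OG.mul_app, eich2 qv hu]
  rcases T g hg x hx with e | e <;> rw [e] at c ⊢
  · simp [c, aa, hx]
  · rw [add_right_comm, aa, zero_add, polar_comm q y, hy] at c
    simp [c, hx, pp, polar_comm q u v, hu, aac']

theorem mv (hv : v ∈ O) {u x : V8} (hu : polar q v u = 0) (hx : polar q v x = 1) (w : V8) :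
    x + (eich q v u).1 x + w ∈ E v ↔ w + u ∈ E v := by
  rw [← add_mem_cancel_right (Submodule.smul_mem _ (polar q u x + q u) (D.mE v hv)) (y := w + u),
    eich2 (D.sE v hv v (D.mE v hv)) hu, hx]
  refine iff_of_eq (congrArg _ ?_)
  linear_combination (norm := module) aa x

theorem ly (T : ∀ v ∈ O, T0 L v) : LY q X O E (YY L) := by
  have qv : ∀ v ∈ O, q v = 0 := fun v hv => D.sE v hv v (D.mE v hv)
  refine ⟨D.nd, D.ne, D.mE, D.sE, fun v hv => ⟨pp v, fun h => ?_⟩, fun v _ u hu => hu.1,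
    fun v hv u hu => D.LX v hv (hu.2 (qv v hv)), fun v hv u hu he => ?_, fun v hv w hw => ?_, D.aO, D.aE,
    fun g hg v hv u hu => ⟨by rw [OG.polar_app g, hu.1], fun _ => ?_⟩⟩
  · have := eich_add_self (u := 0) h (by simp)
    rw [zero_add, eich_zero_right] at this
    rw [this]; exact one_mem _
  · obtain ⟨x, hx⟩ := ex1 D hv
    exact eich_eq_one D.nd (qv v hv) (D.ne v hv) hu.1 (D.inj v hv _ (hu.2 (qv v hv)) x hx
      (by simpa [he] using mv D hv hu.1 hx 0))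
  · obtain ⟨x, hx⟩ := ex1 D hv
    obtain ⟨g, hg, k⟩ := D.ex v hv w hw
    obtain ⟨u, hu, rfl⟩ := eichT D hv (T v hv) hg
    exact ⟨u, ⟨hu, fun _ => hg⟩, (mv D hv hu hx w).1 (k x hx)⟩
  · rw [← eich_conj]; exact D.aL g hg v hv _ (hu.2 (qv v hv))

theorem exg (hI : Irr X) (hv : v ∈ O) : ∃ g ∈ X, polar q v (g.1 v) = 1 := by
  by_contra! k
  have m : ∀ x, x ∈ (⨅ g ∈ X, perp q (g.1 v)) ↔ ∀ g ∈ X, polar q (g.1 v) x = 0 := fun x => by
    simp only [Submodule.mem_iInf, mem_perp]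
  rcases hI (⨅ g ∈ X, perp q (g.1 v)) (fun g hg w hw => (m _).2 fun h hh => by
    rw [OG.polar_app_right g, ← OG.mul_app]
    exact (m w).1 hw _ (mul_mem (inv_mem hg) hh)) with e | e <;> rw [e] at m
  · exact D.ne v hv ((m v).2 fun g hg => polar_comm q v _ ▸ (z2 _).resolve_right (k g hg))
  · exact D.ne v hv (eq_zero_of_pol D.nd fun x => (m x).1 trivial 1 (one_mem _))

end

end CL.N9.L0

namespace CL.N9

open CL.Cls QuadraticMap Module L0

theorem lin0 : Lin0 := fun q X O E L D hI ⟨v, hv⟩ T => by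
  have Y := ly D T
  by_cases h : ∃ v ∈ O, finrank (ZMod 2) (E v) ≤ 1
  · obtain ⟨v, hv, h⟩ := h
    obtain ⟨g, hg, b⟩ := exg D hI hv
    obtain ⟨-, k⟩ := Pa.one ⟨Y, hv, D.aO g hg v hv, b⟩ h (by rwa [Y.frE hv hg])
    have k' := fun w hw => (k w (Y.qv hw) (D.ne w hw)).2
    refine .inl ⟨fun w => ⟨fun hw => ⟨Y.qv hw, D.ne w hw⟩, fun hw => (k w hw.1 hw.2).1⟩, k',
      fun w hw g => ⟨eichT D hw (T w hw), ?_⟩⟩
    rintro ⟨u, hu, rfl⟩
    obtain ⟨y, hy, e⟩ := Y.sup w hw u hu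
    rcases k' w hw _ e with e | e
    · exact add_eq_zero2.1 e ▸ hy.2 (Y.qv hw)
    · rw [show u = y + w by rw [← e, add_comm u, aac]]
      exact (add_mem hy (Y.mY w hw)).2 (Y.qv hw)
  · push Not at h
    have H : ∀ x ∈ O, finrank (ZMod 2) (E x) = 4 := fun x hx => by
      obtain ⟨g, hg, b⟩ := exg D hI hx
      have := fr_le_four D.nd (D.sE x hx)
      by_contra c
      exact Pa.not23 ⟨Y, hx, D.aO g hg x hx, b⟩ (h x hx) (by omega) (by rw [Y.frE hx hg]; omega)
    obtain ⟨g, hg, b⟩ := exg D hI hv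
    exact .inr ⟨_, _, Pa.cc ⟨Y, hv, D.aO g hg v hv, b⟩ H hg rfl⟩

end CL.N9
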