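/-
S1763 (helper88): certificates, the five types.
-/
import Cfsg.Agent.N9.LDefs

set_option autoImplicit false
set_option maxRecDepth 100000

namespace CL.N9.LN

open CL.Cls QuadraticMap

/-- a fast test for `inv2` -/
def inv2q (t t' : ℕ) : Bool := (tv.all fun x => qN (ap t x) == qN x) && mulc t t' == idc && mulc t' t == idc

theorem okc_of_tv {t : ℕ} (h : (tv.all fun x => qN (ap t x) == qN x) = true) : okc t = true := by
  have k : ∀ x ∈ tv, qp ((cm t).mulVec (dec x)) = qp (dec x) := fun x hx => by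
    rw [cm_dec, qp_dec, qp_dec, beq_iff_eq.1 (List.all_eq_true.1 h x hx)]
  have e : ∀ j : Fin 8, (Pi.single j 1 : V8) = dec (2 ^ j.val) := by decide +kernel
  have m1 : ∀ j : Fin 8, 2 ^ j.val ∈ tv := by decide +kernel
  have m2 : ∀ i j : Fin 8, i = j ∨ (2 ^ i.val ^^^ 2 ^ j.val) ∈ tv := by decide +kernel
  let Q : QuadraticForm (ZMod 2) V8 := qp.comp (Matrix.toLin' (cm t))
  have hQ : ∀ v, Q v = qp ((cm t).mulVec v) := fun v => rfl
  have hB : polarBilin Q = polarBilin qp := LinearMap.BilinForm.ext_basis (Pi.basisFun (ZMod 2) (Fin 8)) fun i j => by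
    rw [Pi.basisFun_apply, Pi.basisFun_apply, e, e, polarBilin_apply_apply, polarBilin_apply_apply]
    rcases m2 i j with rfl | m
    · rw [pp, pp]
    · rw [polar, polar, ← dec_xor, hQ, hQ, hQ, k _ m, k _ (m1 i), k _ (m1 j)]
  have hv : ∀ v, Q v = qp v := fun v => by
    have : v ∈ Submodule.span (ZMod 2) (Set.range (Pi.basisFun (ZMod 2) (Fin 8))) := by
      rw [Module.Basis.span_eq]; trivial
    induction this using Submodule.span_induction with
    | mem x hx => obtain ⟨j, rfl⟩ := hx; rw [Pi.basisFun_apply, e, hQ, k _ (m1 j)]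
    | zero => rw [map_zero, map_zero]
    | add x y _ _ a b => rw [qa, qa, a, b, ← polarBilin_apply_apply, hB, polarBilin_apply_apply]
    | smul c x _ a => rw [QuadraticMap.map_smul, QuadraticMap.map_smul, a]
  refine List.all_eq_true.2 fun x _ => ?_
  have := hv (dec x)
  rw [hQ, cm_dec, qp_dec, qp_dec] at this
  revert this
  cases qN (ap t x) <;> cases qN x <;> simp

theorem inv2_of_q {t t' : ℕ} (h : inv2q t t' = true) : inv2 t t' = true := by
  simp only [inv2q, Bool.and_eq_true, beq_iff_eq] at h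
  have h1 := okc_of_tv h.1.1
  have h2 : okc t' = true := List.all_eq_true.2 fun x _ => by
    have := okc_q h1 (dec (ap t' x))
    rw [← cm_dec t', Matrix.mulVec_mulVec, ← cm_mulc, h.1.2, cm_idc, Matrix.one_mulVec, cm_dec, qp_dec, qp_dec] at this
    revert this
    cases qN (ap t' x) <;> cases qN x <;> simp
  simp only [inv2, h1, h2, h.1.2, h.2, beq_self_eq_true, Bool.and_self]

def y1 : List ℕ := [0x80c02030080c0203, 0x8040a05008040a05, 0x8040201088442211]
def yt : List ℕ := [0x80c02030080c0203, 0x8040a05008040a05, 0x8040201088c4a271]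
def yl : List ℕ := [0x80c02030080c0203, 0x8040a05008048a45, 0x8040201088c4a271]
def y5 : List ℕ := [0x80c02030080c0203, 0x8040a05008048a45, 0x8040209088442299]
def y7 : List ℕ := [0x80c02030080c82c3, 0x8040a05008848ae5, 0x8040209088c4a2f9]

def chkTY (a : ℕ) (T : List (ℕ × ℕ)) : Bool := (List.range 8).all fun b => (List.range 8).all fun c =>
  inv2q (T.getD (8 * b + c) (0, 0)).1 (T.getD (8 * b + c) (0, 0)).2 && stab (T.getD (8 * b + c) (0, 0)).2 &&
    [y1, yt, yl, y5, y7].any (same ((xa a b c).map (cjc (T.getD (8 * b + c) (0, 0)).1 (T.getD (8 * b + c) (0, 0)).2)))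

/-- every singular vector outside `e 7 ^ ⊥` is moved to `e 0` -/
def chkUN (y T : List ℕ) : Bool := (T.all fun t => inv2q t t && stab t && same (y.map (cjc t t)) y) &&
  (List.range 256).all fun p => !bN 128 p || qN p || T.any fun t => ap t p == 1

/-- normalisation of the surviving labels -/
def chkN (y : List ℕ) (tg : List (List ℕ)) (S : List (List ℕ × ℕ × ℕ)) : Bool := S.all fun e =>
  inv2q e.2.1 e.2.2 && stab e.2.2 && same (y.map (cjc e.2.1 e.2.2)) y && e.1.length == 3 &&
    tg.any (same (e.1.map (cjc e.2.1 e.2.2)))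

end CL.N9.LN
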