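/-
S1763, linear classification (helper98): frames, invariance of `T0`, a point not orthogonal to the base point.
-/
import Cfsg.Agent.N9.LDefs

set_option autoImplicit false

namespace CL.N9.LN

open Cfsg Subgroup CL.Cls QuadraticMap Module

namespace LFRx

/-- the singular nonzero codes with bits 0 and 7 clear -/
def SL : List ℕ := [2, 4, 6, 8, 10, 12, 14, 16, 18, 20, 22, 32, 34, 40, 42, 48, 50, 60, 62, 64, 68, 72, 76, 80, 84,
  90, 94, 96, 102, 104, 110, 112, 118, 122, 124]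

def FT : List (ℕ × ℕ × ℕ × ℕ) := [(0, 2, 4, 8), (1, 2, 4, 16), (2, 2, 8, 32), (3, 2, 12, 48), (4, 2, 16, 32),
  (5, 2, 20, 40), (6, 4, 8, 64), (7, 4, 10, 80), (8, 4, 16, 64), (9, 4, 18, 72), (10, 6, 8, 96), (11, 6, 10, 112),
  (12, 6, 16, 96), (13, 6, 18, 104), (14, 8, 32, 64), (15, 8, 34, 68), (16, 10, 32, 80), (17, 10, 34, 84),
  (18, 12, 48, 64), (19, 12, 50, 68), (20, 14, 48, 80), (21, 14, 50, 84), (22, 16, 32, 64), (23, 16, 34, 68),
  (24, 18, 32, 72), (25, 18, 34, 76), (26, 20, 40, 64), (27, 20, 42, 68), (28, 22, 40, 72), (29, 22, 42, 76)]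

def sp (a b c : ℕ) : List ℕ := [a, b, c, a ^^^ b, a ^^^ c, b ^^^ c, a ^^^ (b ^^^ c)]

theorem ft_ok : ∀ e ∈ FT, e.1 < 30 ∧ ap (frames.getD e.1 (0, 0)).1 64 = e.2.1 ∧
    ap (frames.getD e.1 (0, 0)).1 32 = e.2.2.1 ∧ ap (frames.getD e.1 (0, 0)).1 8 = e.2.2.2 := by decide +kernel

theorem sl_ok (t : ℕ) (ht : t < 256) (h : qN t = false) (h' : bN t 1 = false) :
    t = 0 ∨ t = 1 ∨ t ∈ SL ∨ t ^^^ 1 ∈ SL := by
  have k : ∀ t < 256, (qN t || bN t 1 || t == 0 || t == 1 || SL.contains t || SL.contains (t ^^^ 1)) = true := by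
    decide +kernel
  have := k t ht
  rw [h, h'] at this
  simpa only [Bool.false_or, Bool.or_eq_true, beq_iff_eq, List.contains_iff_mem, or_assoc] using this

theorem chk : (SL.all fun a => SL.all fun b => bN a b || b == a || SL.all fun c => bN a c || bN b c ||
    c == a || c == b || c == a ^^^ b || FT.any fun e => (sp a b c).contains e.2.1 && (sp a b c).contains e.2.2.1 &&
      (sp a b c).contains e.2.2.2) = true := by decide +kernel

theorem sp_mem {W : Sub} {a b c x : ℕ} (ha : dec a ∈ W) (hb : dec b ∈ W) (hc : dec c ∈ W) (h : x ∈ sp a b c) :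
    dec x ∈ W := by
  simp only [sp, List.mem_cons, List.not_mem_nil, or_false] at h
  rcases h with rfl | rfl | rfl | rfl | rfl | rfl | rfl <;> try simp only [dec_xor]
  exacts [ha, hb, hc, add_mem ha hb, add_mem ha hc, add_mem hb hc, add_mem ha (add_mem hb hc)]

theorem red {W : Sub} {g : OG qp} (hW : ∀ w ∈ W, qp w = 0) (h1 : g.1 (dec 128) = dec 1) (m1 : dec 1 ∈ W) {a : ℕ}
    (ha : a < 128) (a0 : a ≠ 0) (m : g.1 (dec a) ∈ W) :
    ∃ s ∈ SL, dec s ∈ W ∧ ∃ a', (a' = a ∨ a' = a ^^^ 128) ∧ g.1 (dec a') = dec s := by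
  obtain ⟨t, ht, e⟩ := ex_dec (g.1 (dec a))
  rw [← e] at m
  rcases sl_ok t ht (qp_dec0.1 (hW _ m)) (pol_dec0.1 (pol_of_sing hW m m1)) with rfl | rfl | k | k
  · rw [dec_zero, eq_comm, map_eq_zero_iff _ g.1.injective, ← dec_zero] at e
    exact absurd (dec_inj (by omega) (by norm_num) e) a0
  · have := dec_inj (by norm_num) (by omega) (g.1.injective (h1.trans e))
    omega
  · exact ⟨t, k, m, a, .inl rfl, e.symm⟩
  · exact ⟨_, k, by rw [dec_xor]; exact add_mem m m1, _, .inr rfl, by rw [dec_xor, dec_xor, map_add, h1, e]⟩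

theorem t0 {X : Subgroup (OG qp)} {O : Set V8} {E : V8 → Sub} {L : V8 → Subgroup (OG qp)} (h : LD qp X O E L)
    {g : OG qp} (hg : g ∈ X) {v : V8} (hv : v ∈ O) (t : T0 L v) : T0 L (g.1 v) := fun k hk x hx => by
  have m := h.aL g⁻¹ (X.inv_mem hg) _ (h.aO g hg v hv) k hk
  rw [OG.inv_app_app, inv_inv] at m
  rw [OG.polar_app_left] at hx
  have e : k.1 x = g.1 ((g⁻¹ * k * g).1 ((g⁻¹).1 x)) := by
    rw [OG.mul_app, OG.mul_app, OG.app_inv_app, OG.app_inv_app]
  rcases t _ m _ hx with c | c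
  · exact .inl (by rw [e, c, OG.app_inv_app])
  · exact .inr (by rw [e, c, map_add, OG.app_inv_app])

end LFRx

open LFRx

theorem fr : FR := fun W g hW h1 m1 m6 m5 m3 => by
  obtain ⟨a, sa, ma, a', ea, ga⟩ := red hW h1 m1 (by norm_num) (by norm_num) m6
  obtain ⟨b, sb, mb, b', eb, gb⟩ := red hW h1 m1 (by norm_num) (by norm_num) m5
  obtain ⟨c, sc, mc, c', ec, gc⟩ := red hW h1 m1 (by norm_num) (by norm_num) m3
  have ne : a' < 256 ∧ b' < 256 ∧ c' < 256 ∧ a' ^^^ b' < 256 ∧ b' ≠ a' ∧ c' ≠ a' ∧ c' ≠ b' ∧ c' ≠ a' ^^^ b' := by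
    rcases ea with rfl | rfl <;> rcases eb with rfl | rfl <;> rcases ec with rfl | rfl <;> decide
  obtain ⟨la, lb, lc, lab, n1, n2, n3, n4⟩ := ne
  have k := List.all_eq_true.1 (List.all_eq_true.1 chk a sa) b sb
  have k1 : (b == a) = false := beq_eq_false_iff_ne.2 fun e =>
    n1 (dec_inj lb la (g.1.injective (by rw [ga, gb, e])))
  rw [pol_dec0.1 (pol_of_sing hW ma mb), k1, Bool.false_or, Bool.false_or] at k
  have k' := List.all_eq_true.1 k c sc
  have k2 : (c == a) = false := beq_eq_false_iff_ne.2 fun e =>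
    n2 (dec_inj lc la (g.1.injective (by rw [ga, gc, e])))
  have k3 : (c == b) = false := beq_eq_false_iff_ne.2 fun e =>
    n3 (dec_inj lc lb (g.1.injective (by rw [gb, gc, e])))
  have k4 : (c == a ^^^ b) = false := beq_eq_false_iff_ne.2 fun e =>
    n4 (dec_inj lc lab (g.1.injective (by rw [dec_xor, map_add, ga, gb, gc, e, dec_xor])))
  rw [pol_dec0.1 (pol_of_sing hW ma mc), pol_dec0.1 (pol_of_sing hW mb mc), k2, k3, k4] at k'
  simp only [Bool.false_or, List.any_eq_true, Bool.and_eq_true, List.contains_iff_mem] at k'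
  obtain ⟨e, he, ⟨e1, e2⟩, e3⟩ := k'
  obtain ⟨j, f1, f2, f3⟩ := ft_ok e he
  exact ⟨e.1, j, (frames_ok _ j).1, (frames_ok _ j).2, f1 ▸ sp_mem ma mb mc e1, f2 ▸ sp_mem ma mb mc e2,
    f3 ▸ sp_mem ma mb mc e3⟩

theorem inv : INV := fun X O E L h g hg v hv =>
  ⟨fun t => by simpa only [OG.inv_app_app] using t0 h (X.inv_mem hg) (h.aO g hg v hv) t, t0 h hg hv⟩

theorem exu (hi : INV) : EXU := fun X O E L y h => by
  have ex : ∃ g ∈ X, polar qp (dec 128) (g.1 (dec 128)) ≠ 0 := by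
    by_contra hn
    push Not at hn
    let W : Sub := Submodule.span (ZMod 2) {x | ∃ g ∈ X, g.1 (dec 128) = x}
    have iv : ∀ g ∈ X, ∀ w ∈ W, g.1 w ∈ W := fun g hg w hw => by
      induction hw using Submodule.span_induction with
      | mem x hx =>
        obtain ⟨k, hk, rfl⟩ := hx
        exact Submodule.subset_span ⟨g * k, X.mul_mem hg hk, rfl⟩
      | zero => rw [map_zero]; exact W.zero_mem
      | add x y _ _ hx hy => rw [map_add]; exact W.add_mem hx hy
      | smul a x _ hx => rw [map_smul]; exact W.smul_mem a hx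
    have m : dec 128 ∈ W := Submodule.subset_span ⟨1, X.one_mem, rfl⟩
    have pz : ∀ w ∈ W, polar qp (dec 128) w = 0 := fun w hw => by
      induction hw using Submodule.span_induction with
      | mem x hx =>
        obtain ⟨k, hk, rfl⟩ := hx
        exact hn k hk
      | zero => exact polar_zero_right _ _
      | add x y _ _ hx hy => rw [polar_add_right, hx, hy, add_zero]
      | smul a x _ hx => rw [polar_smul_right, hx, smul_zero]
    rcases h.irr W iv with e | e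
    · rw [e, Submodule.mem_bot] at m
      exact h.ld.ne _ h.pt.2.1 m
    · have := pol_dec0.1 (pz (dec 1) (e ▸ Submodule.mem_top))
      exact absurd this (by decide)
  obtain ⟨g, hg, k⟩ := ex
  obtain ⟨p, hp, e⟩ := ex_dec (g.1 (dec 128))
  have mo : dec p ∈ O := e ▸ h.ld.aO g hg _ h.pt.2.1
  refine ⟨p, ⟨hp, mo, fun t => h.pt.2.2 ((hi X O E L h.ld g hg _ h.pt.2.1).1 (e ▸ t))⟩, ?_,
    qp_dec0.1 (h.ld.sE _ mo _ (h.ld.mE _ mo))⟩
  rw [← e] at k
  exact pol_dec1.1 (z2_ne.1 k)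

end CL.N9.LN
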