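/-
S1763 (job N9L-FIN, helper74): the final step for one configuration.
-/
import Cfsg.Agent.N9.LDefs

set_option autoImplicit false

namespace CL.N9.LN

open Cfsg Subgroup CL.Cls QuadraticMap Module

namespace FINx

theorem trX_refl (he : ∀ v, qp (LinearEquiv.refl (ZMod 2) V8 v) = qp v) (X : Subgroup (OG qp)) :
    trX (LinearEquiv.refl (ZMod 2) V8) he X = X := Subgroup.ext fun g => by
  have e : OG.congr (LinearEquiv.refl (ZMod 2) V8) he g = g := OG.ext' fun _ => rfl
  conv_lhs => rw [← e]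
  exact mem_trX _ he

theorem span4' : ∀ x < 256, (bN x 128 || bN x 64 || bN x 32 || bN x 8) = false →
    x = ((bif x.testBit 7 then 128 else 0) ^^^ (bif x.testBit 6 then 64 else 0) ^^^
      (bif x.testBit 5 then 32 else 0) ^^^ (bif x.testBit 3 then 8 else 0)) := by decide +kernel

theorem span4 (x : ℕ) (hx : x < 256) (h7 : bN x 128 = false) (h6 : bN x 64 = false) (h5 : bN x 32 = false)
    (h3 : bN x 8 = false) : ∃ a b c d : ZMod 2, dec x = a • dec 128 + b • dec 64 + c • dec 32 + d • dec 8 := by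
  have e := congrArg dec (span4' x hx (by rw [h7, h6, h5, h3]; rfl))
  rw [dec_xor, dec_xor, dec_xor, dec_cond, dec_cond, dec_cond, dec_cond] at e
  exact ⟨_, _, _, _, e⟩

theorem res_of_cfg {X : Subgroup (OG qp)} {O : Set V8} {E : V8 → Sub} {L : V8 → Subgroup (OG qp)} {D : Dat}
    (hD : D ∈ Ds) (h : Cfg D X O E L) : Res qp X O E L := by
  have he : ∀ v, qp (LinearEquiv.refl (ZMod 2) V8 v) = qp v := fun _ => rfl
  refine ⟨LinearEquiv.refl (ZMod 2) V8, he, D, hD, ?_⟩
  have eO : (LinearEquiv.refl (ZMod 2) V8) '' O = O := Set.ext fun v =>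
    ⟨fun ⟨w, hw, e⟩ => (show w = v from e) ▸ hw, fun hv => ⟨v, hv, rfl⟩⟩
  have eE : trE (LinearEquiv.refl (ZMod 2) V8) E = E := funext fun w => Submodule.map_id (E w)
  have eL : trL (LinearEquiv.refl (ZMod 2) V8) he L = L := funext fun w => trX_refl he (L w)
  rw [trX_refl, eO, eE, eL]
  exact h

theorem E_eq {X : Subgroup (OG qp)} {O : Set V8} {E : V8 → Sub} {L : V8 → Subgroup (OG qp)} {y : List ℕ}
    (h : B0 X O E L y) :
    E (dec 128) = Submodule.span (ZMod 2) {x | x ∈ [dec 128, dec 64, dec 32, dec 8]} := by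
  have hO := h.pt.2.1
  have m7 := h.ld.mE _ hO
  have s := h.ld.sE _ hO
  apply le_antisymm
  · intro v hv
    obtain ⟨x, hx, rfl⟩ := ex_dec v
    obtain ⟨a, b, c, d, e⟩ := span4 x hx (pol_dec0.1 (pol_of_sing s hv m7)) (pol_dec0.1 (pol_of_sing s hv h.e6))
      (pol_dec0.1 (pol_of_sing s hv h.e5)) (pol_dec0.1 (pol_of_sing s hv h.e3))
    rw [e]
    refine add_mem (add_mem (add_mem ?_ ?_) ?_) ?_ <;>
      exact Submodule.smul_mem _ _ (Submodule.subset_span (by simp))
  · rw [Submodule.span_le]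
    intro x hx
    simp only [List.mem_cons, List.not_mem_nil, or_false, Set.mem_ofPred_eq] at hx
    rcases hx with rfl | rfl | rfl | rfl
    exacts [m7, h.e6, h.e5, h.e3]

theorem L_eq {L : V8 → Subgroup (OG qp)} {y : List ℕ} (l : 3 ≤ y.length) (ok : ∀ c ∈ y, okc c = true)
    (h : Lb L 128 y) : L (dec 128) = closure {g | g ∈ (y.take 3).map cO} := by
  obtain ⟨y0, y1, y2, r, rfl⟩ : ∃ y0 y1 y2 r, y = y0 :: y1 :: y2 :: r := by
    match y, l with
    | y0 :: y1 :: y2 :: r, _ => exact ⟨y0, y1, y2, r, rfl⟩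
  have i0 := is_cO (ok y0 (by simp))
  have i1 := is_cO (ok y1 (by simp))
  have i2 := is_cO (ok y2 (by simp))
  have el : els (y0 :: y1 :: y2 :: r) =
      [idc, y0, y1, mulc y0 y1, y2, mulc y0 y2, mulc y1 y2, mulc y0 (mulc y1 y2)] := rfl
  have tk : ((y0 :: y1 :: y2 :: r).take 3).map cO = [cO y0, cO y1, cO y2] := rfl
  rw [tk]
  apply le_antisymm
  · intro g hg
    obtain ⟨c, hc, k⟩ := (h g).1 hg
    have m0 : cO y0 ∈ closure {g | g ∈ [cO y0, cO y1, cO y2]} := subset_closure (by simp)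
    have m1 : cO y1 ∈ closure {g | g ∈ [cO y0, cO y1, cO y2]} := subset_closure (by simp)
    have m2 : cO y2 ∈ closure {g | g ∈ [cO y0, cO y1, cO y2]} := subset_closure (by simp)
    rw [el] at hc
    simp only [List.mem_cons, List.not_mem_nil, or_false] at hc
    rcases hc with rfl | rfl | rfl | rfl | rfl | rfl | rfl | rfl
    · rw [k.ext is_one]; exact one_mem _
    · rw [k.ext i0]; exact m0
    · rw [k.ext i1]; exact m1
    · rw [k.ext (i0.mul i1)]; exact mul_mem m0 m1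
    · rw [k.ext i2]; exact m2
    · rw [k.ext (i0.mul i2)]; exact mul_mem m0 m2
    · rw [k.ext (i1.mul i2)]; exact mul_mem m1 m2
    · rw [k.ext (i0.mul (i1.mul i2))]; exact mul_mem m0 (mul_mem m1 m2)
  · rw [closure_le]
    intro g hg
    simp only [List.mem_cons, List.not_mem_nil, or_false, Set.mem_ofPred_eq] at hg
    rcases hg with rfl | rfl | rfl
    · exact (h _).2 ⟨y0, by rw [el]; simp, i0⟩
    · exact (h _).2 ⟨y1, by rw [el]; simp, i1⟩
    · exact (h _).2 ⟨y2, by rw [el]; simp, i2⟩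

end FINx

theorem fin : FIN := by
  intro X O E L c hD ok l h128 h hX
  simp only [DC.ok, Bool.and_eq_true, List.all_eq_true] at ok
  have ok1 := ok.1
  have mN : ∀ d ∈ c.gH ++ c.ex, cO d ∈ closure {g | g ∈ c.dat.gN} := fun d hd =>
    subset_closure (show cO d ∈ (c.gH ++ c.ex).map cO from List.mem_map_of_mem hd)
  have mX : ∀ d ∈ c.gH, cO d ∈ X := fun d hd => by
    obtain ⟨g, hg, k⟩ := hX d hd
    rw [← k.eq]; exact hg
  refine ⟨fun d hd => ⟨cO d, mN d hd, is_cO (ok1 d hd)⟩, fun d hd =>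
    ⟨cO d, ⟨mX d hd, mN d (List.mem_append_left _ hd)⟩, is_cO (ok1 d (List.mem_append_left _ hd))⟩, ?_⟩
  intro hO hN
  refine FINx.res_of_cfg hD ?_
  refine ⟨hO, ?_, hN, ?_, FINx.E_eq h, FINx.L_eq l (fun d hd => ok1 d (List.mem_append_left _ hd)) h.lb⟩
  · intro g hg
    obtain ⟨d, hd, rfl⟩ := List.mem_map.1 (show g ∈ c.gH.map cO from hg)
    exact mX d hd
  · exact List.mem_map_of_mem h128

end CL.N9.LN
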