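/-
S1763, linear classification: hyperbolic bases and the frame at a point.
-/
import Cfsg.Agent.N9.LDefs

set_option autoImplicit false

namespace CL.N9.LN

open Cfsg Subgroup CL.Cls QuadraticMap Module

namespace HBx

theorem comp (q : QF) (W : Sub) (hW : ∀ w ∈ W, q w = 0) (w a : Fin 4 → V8) (hw : ∀ i, w i ∈ W)
    (hd : ∀ i j, polar q (w i) (a j) = if i = j then 1 else 0) :
    ∃ b : Fin 8 → V8, (∀ i, q (b i) = 0) ∧ (∀ i j, polar q (b i) (b j) = if j = i.rev then 1 else 0) ∧
      b 7 = w 0 ∧ b 6 = w 1 ∧ b 5 = w 2 ∧ b 3 = w 3 := by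
  obtain ⟨a', h1, h2, h3⟩ : ∃ a' : Fin 4 → V8, (∀ i, q (a' i) = 0) ∧ (∀ i j, polar q (a' i) (a' j) = 0) ∧
      ∀ i j, polar q (w i) (a' j) = if i = j then 1 else 0 := by
    let c : Fin 4 → Fin 4 → ZMod 2 := fun i j => if j = i then q (a i) else if j < i then polar q (a i) (a j) else 0
    let s : Fin 4 → V8 := fun i => ∑ j, c i j • w j
    have hs : ∀ i, s i ∈ W := fun i => W.sum_mem fun j _ => W.smul_mem _ (hw j)
    have k : ∀ i j, polar q (s i) (a j) = c i j := fun i j => by
      simp only [s, Fin.sum_univ_four, polar_add_left, polar_smul_left, hd, smul_eq_mul]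
      fin_cases j <;> simp
    refine ⟨fun i => a i + s i, fun i => ?_, fun i j => ?_, fun i j => ?_⟩
    · rw [qa, hW _ (hs i), polar_comm, k, add_zero]
      simp only [c, if_true]
      exact z2_add _
    · rw [polar_add_left, polar_add_right, polar_add_right, k, polar_comm _ (a i) (s j), k,
        pol_of_sing hW (hs i) (hs j), add_zero]
      rcases lt_trichotomy i j with h | rfl | h
      · simp only [c, if_neg h.ne, if_neg h.ne', if_pos h, if_neg h.not_gt, add_zero]
        rw [polar_comm]; exact z2_add _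
      · rw [pp, zero_add]; exact z2_add _
      · simp only [c, if_neg h.ne, if_neg h.ne', if_pos h, if_neg h.not_gt, add_zero]
        exact z2_add _
    · rw [polar_add_right, hd, pol_of_sing hW (hw i) (hs j), add_zero]
  have h4 : ∀ i j, polar q (w i) (w j) = 0 := fun i j => pol_of_sing hW (hw i) (hw j)
  have h5 : ∀ i j, polar q (a' j) (w i) = if i = j then 1 else 0 := fun i j => by rw [polar_comm, h3]
  have h6 : ∀ i, q (w i) = 0 := fun i => hW _ (hw i)
  refine ⟨![a' 0, a' 1, a' 2, w 3, a' 3, w 2, w 1, w 0], fun i => ?_, fun i j => ?_, rfl, rfl, rfl, rfl⟩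
  · fin_cases i <;> simp [h1, h6]
  · fin_cases i <;> fin_cases j <;> simp [h2, h3, h4, h5, Fin.rev]

variable {q : QF} {X : Subgroup (OG q)} {O : Set V8} {E : V8 → Sub} {L : V8 → Subgroup (OG q)}

theorem d1 (k : OG q) {y : V8} (h : q (y + k.1 y) = 0) : polar q (y + k.1 y) y = 0 := by
  have e := qa (q := q) (y + k.1 y) y
  rw [h, add_comm y, aac', OG.map_app, zero_add, left_eq_add] at e
  rwa [add_comm y]

theorem d2 {k : OG q} (hk : k * k = 1) (y y' : V8) : polar q (y + k.1 y) y' = polar q y (y' + k.1 y') := by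
  rw [polar_add_left, polar_add_right, ← OG.polar_app k (k.1 y) y', ← OG.mul_app, hk, OG.one_app]

theorem d4 {k : OG q} (hk : k * k = 1) (u : V8) : u + k.1 u + k.1 (u + k.1 u) = 0 := by
  rw [map_add, ← OG.mul_app, hk, OG.one_app, add_comm (k.1 u), aa]

end HBx

open HBx

theorem hb : HB := by
  intro q b h1 h2
  let f : V8 →ₗ[ZMod 2] V8 := Fintype.linearCombination (ZMod 2) b
  have k : ∀ c, q (f c) = qp c := fun c => by
    simp (decide := true) only [f, Fintype.linearCombination_apply, Fin.sum_univ_eight, qa, polar_add_left,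
      polar_smul_left, polar_smul_right, map_smul', h1, h2, smul_eq_mul, qp_app, if_true, if_false]
    ring
  have hi : Function.Injective f := (injective_iff_map_eq_zero f).2 fun c hc =>
    eq_zero_of_pol qp_nd fun y => by
      rw [polar, ← k (c + y), ← k c, ← k y, map_add, hc, zero_add, map_zero]
      ring
  refine ⟨(LinearEquiv.ofInjectiveEndo f hi).symm, fun v => ?_, fun i => ?_⟩
  · rw [← k]
    exact congrArg q ((LinearEquiv.ofInjectiveEndo f hi).apply_symm_apply v)
  · rw [LinearEquiv.symm_apply_eq]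
    have e : ∀ i : Fin 8, dec (2 ^ i.val) = Pi.single i 1 := by decide +kernel
    rw [e]
    change b i = f _
    simp [f]

theorem frame (h : HB) : FRAME := by
  intro q X O E L D v hv hT
  obtain ⟨g, hg, y, hy, hne⟩ : ∃ g ∈ L v, ∃ y, polar q v y = 0 ∧ ¬ (g.1 y = y ∨ g.1 y = y + v) := by
    by_contra hc
    exact hT fun g hg x hx => by_contra fun k => hc ⟨g, hg, x, hx, k⟩
  obtain ⟨u, hu⟩ := exists_polar_eq_one D.nd (D.ne v hv)
  obtain ⟨y', hy', b1⟩ : ∃ y', polar q v y' = 0 ∧ polar q (y + g.1 y) y' = 1 := by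
    by_contra hc
    refine hne ((perp_perp D.nd (v := v) (x := y + g.1 y) fun z hz =>
      (z2 _).resolve_right fun k => hc ⟨z, hz, k⟩).imp (fun k => (add_eq_zero2.1 k).symm) fun k => ?_)
    rw [← k, aac]
  obtain ⟨k, hk, n1⟩ := D.ex v hv y hy
  have n2 := n1 u hu
  have sE := D.sE v hv
  have g2 := D.sq v hv g hg
  have k2 := D.sq v hv k hk
  have vp : ∀ l ∈ L v, polar q v (u + l.1 u) = 0 := fun l hl => by
    rw [polar_add_right, ← D.fixv v hv l hl, OG.polar_app, D.fixv v hv l hl, z2_add]
  have d3 : ∀ l ∈ L v, ∀ e ∈ E v, polar q y' (e + l.1 e) = 0 := fun l hl e he => by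
    rcases D.actE v hv l hl e he with e1 | e1 <;> rw [e1]
    · exact (congrArg _ (aa e)).trans (polar_zero_right _ _)
    · rw [aac, polar_comm, hy']
  have sp : ∀ (l : OG q) (a b : V8), polar q y' (a + b + l.1 (a + b)) =
      polar q y' (a + l.1 a) + polar q y' (b + l.1 b) := fun l a b => by
    rw [← polar_add_right, map_add, add_add_add_comm]
  have w1 := D.perp v hv g hg y hy
  have w2 := D.perp v hv g hg y' hy'
  have w3 := D.perp v hv k hk y' hy'
  have a1 := d1 g (sE _ w1)
  have a2 : polar q (y + g.1 y) (u + g.1 u) = 0 := by rw [d2 g2, d4 g2, polar_zero_right]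
  have a3 : polar q (y' + g.1 y') y = 1 := by rw [d2 g2, polar_comm, b1]
  have a4 := d1 g (sE _ w2)
  have a5 : polar q (y' + g.1 y') (u + g.1 u) = 0 := by rw [d2 g2, d4 g2, polar_zero_right]
  have a6 := d1 k (sE _ w3)
  have a7 : polar q (y' + k.1 y') y = 0 := by
    have := d3 k hk _ n2
    rwa [sp, d4 k2, polar_zero_right, zero_add, ← d2 k2] at this
  have a8 : polar q (y' + k.1 y') (u + g.1 u) = 1 := by
    have c : k * g = g * k := by
      have := D.sq v hv _ (mul_mem hk hg)
      calc k * g = g * g * (k * g) * (k * k) := by rw [g2, k2, one_mul, mul_one]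
        _ = g * (g * k * g * k) * k := by group
        _ = g * k := by
          rw [show g * k * g * k = g * (k * g * (k * g)) * g⁻¹ by group, this]; group
    have e1 : u + g.1 u + k.1 (u + g.1 u) = u + k.1 u + g.1 (u + k.1 u) := by
      rw [map_add, map_add, ← OG.mul_app, ← OG.mul_app, c, add_add_add_comm]
    have := d3 g hg _ n2
    rw [sp, polar_comm _ y' (y + g.1 y), b1] at this
    rw [d2 k2, e1]
    exact (z2 _).resolve_left fun e => by rw [e, zero_add] at this; exact one_ne_zero this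
  have a9 := vp g hg
  generalize y + g.1 y = p1 at *
  generalize y' + g.1 y' = p2 at *
  generalize y' + k.1 y' = p3 at *
  generalize u + g.1 u = m at *
  obtain ⟨b, e1, e2, e7, e6, e5, e3⟩ := comp q (E v) sE ![v, p2, p1, p3]
    ![u + polar q p2 u • y + polar q p1 u • y' + polar q p3 u • m, y, y', m]
    (fun i => by fin_cases i; exacts [D.mE v hv, w2, w1, w3]) (fun i j => by
      fin_cases i <;> fin_cases j <;>
        simp [polar_add_right, polar_smul_right, hu, hy, hy', b1, a1, a2, a3, a4, a5, a6, a7, a8, a9, z2_add])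
  obtain ⟨e, he, hb⟩ := h q b e1 e2
  have s : ∀ i, e.symm (dec (2 ^ i.val)) = b i := fun i => by rw [← hb, e.symm_apply_apply]
  refine ⟨e, he, (congrArg e e7.symm).trans (hb 7), ?_, ?_, ?_⟩
  · exact ((s 6).trans e6) ▸ w2
  · exact ((s 5).trans e5) ▸ w1
  · exact ((s 3).trans e3) ▸ w3

end CL.N9.LN
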