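/-
S1763, linear classification: words, refutation certificates and points (job N9L-KILL, helper27).
-/
import Cfsg.Agent.N9.LDefs

set_option autoImplicit false

namespace CL.N9.LN

open Cfsg Subgroup CL.Cls QuadraticMap Module

namespace LKill

theorem letter {K : Subgroup (OG qp)} {G : List ℕ} (h : InX K G) (i : ℕ) : ∃ g ∈ K, Is g (G.getD i idc) := by
  by_cases hi : i < G.length
  · rw [List.getD_eq_getElem _ _ hi]
    exact h _ (List.getElem_mem hi)
  · rw [List.getD_eq_default _ _ (not_lt.1 hi)]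
    exact ⟨1, one_mem _, is_one⟩

theorem fold {K : Subgroup (OG qp)} {G : List ℕ} (h : InX K G) (l : List ℕ) : ∀ (c : ℕ) (k : OG qp), k ∈ K → Is k c →
    ∃ k' ∈ K, Is k' (l.foldl (fun c i => mulc (G.getD i idc) c) c) ∧
      ∀ x y, k.1 (dec x) = dec y → k'.1 (dec x) = dec (l.foldl (fun x i => ap (G.getD i idc) x) y) := by
  induction l with
  | nil => exact fun c k hk hc => ⟨k, hk, hc, fun _ _ e => e⟩
  | cons a l ih =>
    intro c k hk hc
    obtain ⟨g, hg, hg'⟩ := letter h a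
    obtain ⟨k', h1, h2, h3⟩ := ih _ (g * k) (mul_mem hg hk) (hg'.mul hc)
    exact ⟨k', h1, h2, fun x y e => h3 x _ (by
      change g.1 (k.1 (dec x)) = _
      rw [e, hg'])⟩

end LKill

open LKill

theorem wrd : WRD := fun K G n h => by
  obtain ⟨k, h1, h2, h3⟩ := fold h (wd n) idc 1 (one_mem _) is_one
  exact ⟨k, h1, h2, fun x => h3 x x rfl⟩

theorem kil (h : WRD) : KILL := by
  intro X O E L G n0 r c b hX hr
  by_contra hc
  rw [Bool.not_eq_false, kill] at hc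
  generalize (c >>> 16) % 16 = i at hc
  generalize c >>> 20 = w at hc
  simp only [Bool.and_eq_true, Bool.or_eq_true, decide_eq_true_eq, beq_iff_eq, List.all_eq_true, Bool.not_eq_true',
    Bool.and_eq_false_iff, beq_eq_false_iff_ne] at hc
  obtain ⟨⟨h1, h2⟩, h3⟩ := hc
  obtain ⟨p, e, hp, z, hz, hz'⟩ : ∃ p, run G w p = 128 ∧ dec p ∈ O ∧ ∃ z ∈ L (dec p), Is z (G.getD i idc) := by
    by_cases hi : i < 3
    · obtain ⟨g, -, hg⟩ := letter hX i
      refine ⟨128, by simpa [hi] using h2, b.pt.2.1, g, (b.lb g).2 ⟨_, ?_, hg⟩, hg⟩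
      interval_cases i <;> simp [els]
    · exact ⟨r, by simpa [hi] using h2, hr i (h1.resolve_left hi).1 (h1.resolve_left hi).2⟩
  obtain ⟨k, hk, -, hk'⟩ := h X G w hX
  have h4 := b.ld.aL k hk _ hp z hz
  rw [hk', e] at h4
  obtain ⟨d, hd, hd'⟩ := (b.lb _).1 h4
  have key : ∀ s, ap d (run G w s) = run G w (ap (G.getD i idc) s) := fun s =>
    dec_inj (ap_lt _ _) (run_lt _ _ (ap_lt _ _)) (by
      rw [← hd', ← hk', ← hk', ← hz']
      change (k * z * k⁻¹ * k).1 (dec s) = (k * z).1 (dec s)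
      rw [inv_mul_cancel_right])
  exact (h3 d hd).elim (fun a => a (key _)) fun a => a (key _)

theorem pts (h1 : WRD) (h2 : INV) : PTS := by
  intro X O E L G P R T b hX hP hc
  have mv : ∀ w x, x < 256 → dec x ∈ O → dec (run G w x) ∈ O ∧ (T0 L (dec (run G w x)) ↔ T0 L (dec x)) :=
    fun w x _ hx => by
      obtain ⟨k, hk, -, hk'⟩ := h1 X G w hX
      rw [← hk']
      exact ⟨b.ld.aO k hk _ hx, h2 X O E L b.ld k hk _ hx⟩
  have mp : ∀ w x, Pt O L x → Pt O L (run G w x) := fun w x hx =>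
    ⟨run_lt _ _ hx.1, (mv w x hx.1 hx.2.1).1, fun t => hx.2.2 ((mv w x hx.1 hx.2.1).2.1 t)⟩
  have hc' := fun x (hx : x < 256) => List.all_eq_true.1 hc x (List.mem_range.2 hx)
  have c1 : ∀ x ∈ P, ∃ w w', run G w x = 128 ∧ run G w' 128 = x := fun x hx => by
    have := hc' x (hP x hx)
    rw [List.contains_iff_mem.2 hx, cond_true] at this
    simp only [List.any_eq_true, Bool.and_eq_true, beq_iff_eq] at this
    obtain ⟨e, -, ⟨-, a1⟩, a2⟩ := this
    exact ⟨_, _, a1, a2⟩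
  have c2 : ∀ x < 256, x ∉ P → dec x ∈ O → ∃ w, run G w x ∈ R := fun x hx hn hO => by
    have := hc' x hx
    rw [(Bool.not_eq_true _).mp (mt List.contains_iff_mem.1 hn), cond_false,
      qp_dec0.1 (b.ld.sE _ hO _ (b.ld.mE _ hO))] at this
    simp only [List.any_eq_true, Bool.and_eq_true, Bool.or_eq_true, beq_iff_eq, List.contains_iff_mem,
      Bool.false_eq_true, or_false] at this
    rcases this with rfl | ⟨e, -, -, a⟩
    · exact absurd dec_zero (b.ld.ne _ hO)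
    · exact ⟨_, a⟩
  refine ⟨fun hR x => ⟨fun hx => by_contra fun hn => ?_, fun hx => ?_⟩, fun hp hR v => ⟨fun hv => ?_, fun hv => ?_⟩,
    fun K hK hp hs g hg => ?_⟩
  · obtain ⟨w, hw⟩ := c2 x hx.1 hn hx.2.1
    exact hR _ hw (mp w x hx)
  · obtain ⟨w, w', -, rfl⟩ := c1 x hx
    exact mp w' _ b.pt
  · obtain ⟨x, hx, rfl⟩ := ex_dec v
    refine List.mem_map_of_mem (by_contra fun hn => ?_)
    obtain ⟨w, hw⟩ := c2 x hx hn hv
    exact hR _ hw (run_lt _ _ hx) (mv w x hx hv).1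
      ((mv w x hx hv).2.2 (by_contra fun t => hn ((hp x).1 ⟨hx, hv, t⟩)))
  · obtain ⟨x, hx, rfl⟩ := List.mem_map.1 hv
    exact ((hp x).2 hx).2.1
  · obtain ⟨p, hp', e⟩ := ex_dec (g.1 (dec 128))
    obtain ⟨w, w', e1, -⟩ := c1 p ((hp p).1 ⟨hp', e ▸ b.ld.aO g hg _ b.pt.2.1,
      fun t => b.pt.2.2 ((h2 X O E L b.ld g hg _ b.pt.2.1).1 (e ▸ t))⟩)
    obtain ⟨k, hk, -, hk'⟩ := h1 _ G w hK
    refine (K.mul_mem_cancel_left hk.2).1 (hs _ (mul_mem hk.1 hg) ?_)
    change k.1 (g.1 (dec 128)) = _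
    rw [← e, hk', e1]

end CL.N9.LN
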