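/-
S1763, linear classification: change of coordinates by a coded isometry.
-/
import Cfsg.Agent.N9.LDefs

set_option autoImplicit false

namespace CL.N9.LN

open Cfsg Subgroup CL.Cls QuadraticMap Module

namespace LMV

theorem isM {k : OG qp} {c : ℕ} : Is k c ↔ ∀ v, k.1 v = (cm c).mulVec v :=
  ⟨fun h v => h.app v, fun h x => by rw [h, cm_dec]⟩

theorem cm_one {g k : OG qp} {t t' : ℕ} (h : Is g t) (h' : Is k t') (e : g * k = 1) : cm t * cm t' = 1 := by
  have h1 := isM.1 (h.mul h')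
  rw [e, cm_mulc] at h1
  exact Matrix.toLin'.injective (LinearMap.ext fun v => by
    rw [Matrix.toLin'_apply, Matrix.toLin'_apply, Matrix.one_mulVec, ← h1]; rfl)

theorem is_cj {g k : OG qp} {t t' c d : ℕ} (h : Is g t) (h' : Is g⁻¹ t') (e : cm d = cm t * (cm c * cm t')) :
    Is (g * k * g⁻¹) d ↔ Is k c := by
  have key : ∀ {g k : OG qp} {t t' c d : ℕ}, Is g t → Is g⁻¹ t' → cm d = cm t * (cm c * cm t') → Is k c →
      Is (g * k * g⁻¹) d := fun h h' e hk => isM.2 fun v => by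
    rw [e, ← cm_mulc, ← cm_mulc, mul_assoc]
    exact isM.1 (h.mul (hk.mul h')) v
  refine ⟨fun hd => ?_, key h h' e⟩
  have := key (g := g⁻¹) (d := c) h' (by rwa [inv_inv]) (by
    rw [e]
    simp only [← mul_assoc]
    rw [cm_one h' h (inv_mul_cancel g), one_mul, mul_assoc, cm_one h' h (inv_mul_cancel g), mul_one]) hd
  simpa [mul_assoc] using this

theorem els_cj {g : OG qp} {t t' : ℕ} (h : Is g t) (h' : Is g⁻¹ t') {y : List ℕ} (hy : y.length = 3) (k : OG qp) :
    (∃ c ∈ els (y.map (cjc t t')), Is (g * k * g⁻¹) c) ↔ ∃ c ∈ els y, Is k c := by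
  obtain ⟨a, b, c, rfl⟩ := List.length_eq_three.1 hy
  have e1 := cm_one h h' (mul_inv_cancel g)
  have e2 := cm_one h' h (inv_mul_cancel g)
  have e3 : ∀ M : Matrix (Fin 8) (Fin 8) (ZMod 2), cm t' * (cm t * M) = M := fun M => by
    rw [← mul_assoc, e2, one_mul]
  simp only [els, List.map_cons, List.map_nil, List.getD_cons_zero, List.getD_cons_succ, List.mem_cons,
    List.not_mem_nil, or_false, exists_eq_or_imp, exists_eq_left]
  refine or_congr (is_cj h h' ?_) (or_congr (is_cj h h' ?_) (or_congr (is_cj h h' ?_) (or_congr (is_cj h h' ?_)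
    (or_congr (is_cj h h' ?_) (or_congr (is_cj h h' ?_) (or_congr (is_cj h h' ?_) (is_cj h h' ?_)))))))
  all_goals simp only [cjc, cm_mulc, cm_idc, one_mul, mul_assoc, e3, e1]

theorem span4 : ∀ x < 256, x &&& 23 = 0 → ∃ a b c d : ZMod 2,
    dec x = a • dec 128 + b • dec 64 + c • dec 32 + d • dec 8 := by decide +kernel

end LMV

open LMV

theorem mv0 (h : TR) : MV0 := by
  intro X O E L g t t' ht ht' ld irr
  obtain ⟨h1, h2, h3, h4⟩ := h qp qp g.1 (OG.map_app g) X O E L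
  have hL : ∀ p k, g * k * g⁻¹ ∈ trL g.1 (OG.map_app g) L (dec (ap t p)) ↔ k ∈ L (dec p) := fun p k => by
    rw [← ht p, trL, LinearEquiv.symm_apply_apply]
    exact mem_trX (e := g.1) (he := OG.map_app g)
  refine ⟨_, _, _, _, h1 ld, h2 irr, h4, fun p hp => ?_, fun p x => ?_, fun p y hy hb k => ?_, fun p y hy hb k => ?_⟩
  · rw [Pt, Pt, ← ht p, h3, g.1.injective.mem_set_image]
    exact and_congr_left' (iff_of_true (ap_lt _ _) hp)
  · rw [← ht p, ← ht x, trE, LinearEquiv.symm_apply_apply]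
    exact ⟨fun ⟨w, hw, e⟩ => g.1.injective e ▸ hw, fun hx => ⟨_, hx, rfl⟩⟩
  · obtain ⟨k, rfl⟩ : ∃ k', k = g * k' * g⁻¹ := ⟨g⁻¹ * k * g, by group⟩
    rw [hL, els_cj ht ht' hy]
    exact hb k
  · rw [← hL, hb, ← els_cj (g := g⁻¹) ht' (by rwa [inv_inv]) hy]
    simp only [inv_inv, mul_assoc, inv_mul_cancel, mul_one, inv_mul_cancel_left]

theorem mv (h : MV0) : MV := by
  intro X O E L y y' t t' b hy hi hs hsame
  obtain ⟨ht, ht'⟩ := inv2_is hi
  obtain ⟨X', O', E', L', h1, h2, h3, h4, h5, h6, -⟩ := h X O E L _ t t' ht ht' b.ld b.irr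
  have back : ∀ x < 256, ap t (ap t' x) = x := fun x hx =>
    dec_inj (ap_lt _ _) hx (by rw [← ht, ← ht', OG.app_inv_app])
  simp only [stab, Bool.and_eq_true, beq_iff_eq] at hs
  obtain ⟨⟨⟨s0, s1⟩, s2⟩, s3⟩ := hs
  have e0 : ap t 128 = 128 := by
    have := back 128 (by norm_num)
    rwa [s0] at this
  have mem : ∀ x < 256, ap t' x &&& 23 = 0 → dec x ∈ E' (dec 128) := fun x hx h0 => by
    obtain ⟨a, c, d, e, k⟩ := span4 _ (ap_lt t' x) h0
    have := (h5 128 (ap t' x)).2 (k ▸ add_mem (add_mem (add_mem (Submodule.smul_mem _ _ (b.ld.mE _ b.pt.2.1))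
      (Submodule.smul_mem _ _ b.e6)) (Submodule.smul_mem _ _ b.e5)) (Submodule.smul_mem _ _ b.e3))
    rwa [back x hx, e0] at this
  refine ⟨X', O', E', L', ⟨h1, h2, e0 ▸ (h4 128 (by norm_num)).2 b.pt, mem 64 (by norm_num) s1,
    mem 32 (by norm_num) s2, mem 8 (by norm_num) s3, ?_⟩, h3, fun p hp => (h4 p hp.1).2 hp,
    fun p z z' hz hb s => (h6 p z hz hb).same s⟩
  have := (h6 128 y hy b.lb).same hsame
  rwa [e0] at this

end CL.N9.LN
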