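/-
S1763, part LIN: the labels at an arbitrary point and the refutation trees.
-/
import Cfsg.Agent.N9.LDefs

set_option autoImplicit false

namespace CL.N9.LN

open Cfsg Subgroup CL.Cls QuadraticMap Module

theorem nf (h1 : FRAME) (h2 : FR) (h3 : MV0) (h4 : NF0) : NF := by
  intro X O E L t t' ld irr hi pt
  obtain ⟨hs, hs'⟩ := inv2_is hi
  generalize cO t = s at hs hs'
  have hv : s.1 (dec 1) = dec (ap t 1) := hs 1
  obtain ⟨e, he, ev, e6, e5, e3⟩ := h1 qp X O E L ld (dec (ap t 1)) pt.2.1 pt.2.2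
  let g0 : OG qp := ⟨e.symm, fun x => by rw [← he, e.apply_symm_apply]⟩
  have hm : ∀ x ∈ E (dec (ap t 1)), (s⁻¹).1 x ∈ (E (dec (ap t 1))).map (s⁻¹).1.toLinearMap := fun x hx =>
    Submodule.mem_map_of_mem hx
  have hb : ∀ x ∈ (E (dec (ap t 1))).map (s⁻¹).1.toLinearMap, s.1 x ∈ E (dec (ap t 1)) := by
    rintro _ ⟨x, hx, rfl⟩
    have : s.1 ((s⁻¹).1 x) = x := OG.app_inv_app s x
    exact this.symm ▸ hx
  have hv' : (s⁻¹).1 (dec (ap t 1)) = dec 1 := by rw [← hv, OG.inv_app_app]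
  obtain ⟨j, hj, fi, f1, f6, f5, f3⟩ := h2 ((E (dec (ap t 1))).map (s⁻¹).1.toLinearMap) (s⁻¹ * g0)
    (by
      rintro _ ⟨x, hx, rfl⟩
      exact (OG.map_app s⁻¹ x).trans (ld.sE _ pt.2.1 x hx))
    (by
      change (s⁻¹).1 (e.symm (dec 128)) = dec 1
      rw [← ev, e.symm_apply_apply, hv'])
    (hv' ▸ hm _ (ld.mE _ pt.2.1)) (hm _ e6) (hm _ e5) (hm _ e3)
  refine ⟨j, hj, ?_⟩
  generalize (frames.getD j (0, 0)).1 = F at *
  generalize (frames.getD j (0, 0)).2 = F' at *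
  obtain ⟨hf, hf'⟩ := inv2_is fi
  generalize cO F = f at hf hf'
  have hT : Is (s * f) (mulc t F) := hs.mul hf
  have hT' : Is (s * f)⁻¹ (mulc F' t') := by rw [mul_inv_rev]; exact hf'.mul hs'
  have hd : ∀ x, dec (ap (mulc t F) x) = s.1 (dec (ap F x)) := fun x => by rw [← hT x, OG.mul_app, hf x]
  generalize mulc t F = T at *
  generalize mulc F' t' = T' at *
  have a128 : ap T 128 = ap t 1 := dec_inj (ap_lt _ _) (ap_lt _ _) (by rw [hd, f1, hv])
  have hinv : ∀ x < 256, ap T' (ap T x) = x := fun x hx =>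
    dec_inj (ap_lt _ _) hx (by rw [← hT', ← hT, OG.inv_app_app])
  obtain ⟨X', O', E', L', ld', -, -, hp, hE, -, hl⟩ := h3 X O E L (s * f)⁻¹ T' T hT' (by rw [inv_inv]; exact hT) ld irr
  have r128 : ap T' (ap t 1) = 128 := by rw [← a128]; exact hinv 128 (by norm_num)
  have pt' : Pt O' L' 128 := r128 ▸ (hp _ (ap_lt _ _)).2 pt
  have mem' : ∀ x < 256, dec (ap F x) ∈ (E (dec (ap t 1))).map (s⁻¹).1.toLinearMap → dec x ∈ E' (dec 128) :=
    fun x hx k => by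
      have := (hE (ap t 1) (ap T x)).2 (by rw [hd]; exact hb _ k)
      rwa [hinv x hx, r128] at this
  obtain ⟨a, ha, b, hb', c, hc, lb⟩ := h4 X' O' E' L' ld' pt' (mem' _ (by norm_num) f6) (mem' _ (by norm_num) f5)
    (mem' _ (by norm_num) f3)
  exact ⟨a, ha, b, hb', c, hc, hl _ (xa a b c) rfl (r128.symm ▸ lb)⟩

namespace LNFx

theorem xc_ok : ∀ i < 3, ∀ b < 8, okc (xc i b) = true := by decide +kernel

end LNFx

theorem tree (h1 : NF) (h2 : KILL) : TREE := by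
  intro X O E L G r S t t' Ts b0 inx pt hc
  simp only [chkT, Bool.and_eq_true, beq_iff_eq, decide_eq_true_eq, List.all_eq_true, List.mem_range] at hc
  obtain ⟨⟨⟨hi, hr⟩, hl⟩, hall⟩ := hc
  subst hr
  obtain ⟨j, hj, a, ha, b, hb, c, hc, lb⟩ := h1 X O E L t t' b0.ld b0.irr hi pt
  have k := hall j hj
  obtain ⟨hs, hs'⟩ := inv2_is hi
  obtain ⟨hf, hf'⟩ := inv2_is (frames_ok j hj).1
  have hT := hs.mul hf
  have hT' := hf'.mul hs'
  generalize mulc t (frames.getD j (0, 0)).1 = T at *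
  generalize mulc (frames.getD j (0, 0)).2 t' = T' at *
  have hy : ∀ i < 3, ∀ b < 8, ∃ g, Is g (cjc T T' (xc i b)) := fun i hi b hb =>
    ⟨_, hT.mul ((is_cO (LNFx.xc_ok i hi b hb)).mul hT')⟩
  change Lb L _ [cjc T T' (xc 0 a), cjc T T' (xc 1 b), cjc T T' (xc 2 c)] at lb
  obtain ⟨g0, k0⟩ := hy 0 (by norm_num) a ha
  obtain ⟨g1, k1⟩ := hy 1 (by norm_num) b hb
  obtain ⟨g2, k2⟩ := hy 2 (by norm_num) c hc
  have m0 : g0 ∈ L (dec (ap t 1)) := (lb g0).2 ⟨_, by simp [els], k0⟩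
  have m1 : g1 ∈ L (dec (ap t 1)) := (lb g1).2 ⟨_, by simp [els], k1⟩
  have m2 : g2 ∈ L (dec (ap t 1)) := (lb g2).2 ⟨_, by simp [els], k2⟩
  have kl : ∀ z : List ℕ, (∀ d ∈ z, ∃ g ∈ L (dec (ap t 1)), Is g d) → ∀ cc,
      ¬ kill (G ++ z) G.length (ap t 1) cc = true := fun z hz cc => by
    rw [h2 X O E L (G ++ z) G.length (ap t 1) cc (b0.append hl z) (fun d hd => ?_) fun i i1 i2 => ⟨pt.2.1, ?_⟩]
    · exact Bool.false_ne_true
    · rcases List.mem_append.1 hd with hd | hd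
      · exact inx d hd
      · obtain ⟨g, hg, e⟩ := hz d hd
        exact ⟨g, b0.ld.LX _ pt.2.1 hg, e⟩
    · rw [List.getD_append_right _ _ _ _ i1]
      have i3 : i - G.length < z.length := by rw [List.length_append] at i2; omega
      rw [List.getD_eq_getElem _ _ i3]
      exact hz _ (List.getElem_mem i3)
  simp only [chkF, List.all_eq_true, List.mem_range, Bool.or_eq_true] at k
  have z0 : ∀ d ∈ [cjc T T' (xc 0 a)], ∃ g ∈ L (dec (ap t 1)), Is g d := by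
    simp only [List.mem_cons, List.not_mem_nil, or_false]
    rintro d rfl
    exact ⟨g0, m0, k0⟩
  have z1 : ∀ d ∈ [cjc T T' (xc 0 a), cjc T T' (xc 1 b)], ∃ g ∈ L (dec (ap t 1)), Is g d := by
    simp only [List.mem_cons, List.not_mem_nil, or_false]
    rintro d (rfl | rfl)
    exacts [⟨g0, m0, k0⟩, ⟨g1, m1, k1⟩]
  have z2 : ∀ d ∈ [cjc T T' (xc 0 a), cjc T T' (xc 1 b), cjc T T' (xc 2 c)], ∃ g ∈ L (dec (ap t 1)), Is g d := by
    simp only [List.mem_cons, List.not_mem_nil, or_false]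
    rintro d (rfl | rfl | rfl)
    exacts [⟨g0, m0, k0⟩, ⟨g1, m1, k1⟩, ⟨g2, m2, k2⟩]
  have q0 := (k a ha).resolve_left (kl _ z0 _)
  have q1 := (q0 b hb).resolve_left (kl _ z1 _)
  have q2 := (q1 c hc).resolve_left (kl _ z2 _)
  obtain ⟨y, hy', e⟩ := List.any_eq_true.1 q2
  exact ⟨y, hy', lb.same e⟩

end CL.N9.LN
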