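/-
S1763, the linear classification: the normal form of `L v` at the base point.
-/
import Cfsg.Agent.N9.LDefs

set_option autoImplicit false

namespace CL.N9.LN

open Cfsg Subgroup CL.Cls QuadraticMap Module

namespace NF0x

/-- the candidates for the three generators -/
def cd0 : List ℕ := [0x80c0201008040203, 0x80c02030080c0203, 0x80c020d008040a03, 0x80c020f0080c0a03, 0x80c0201008c42203,
  0x80c0203008cc2203, 0x80c020d008c42a03, 0x80c020f008cc2a03, 0x80c020900804020b, 0x80c020b0080c020b,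
  0x80c0205008040a0b, 0x80c02070080c0a0b, 0x80c0209008c4220b, 0x80c020b008cc220b, 0x80c0205008c42a0b,
  0x80c0207008cc2a0b, 0x80c0201008840223, 0x80c02030088c0223, 0x80c020d008840a23, 0x80c020f0088c0a23,
  0x80c0201008442223, 0x80c02030084c2223, 0x80c020d008442a23, 0x80c020f0084c2a23, 0x80c020900884022b,
  0x80c020b0088c022b, 0x80c0205008840a2b, 0x80c02070088c0a2b, 0x80c020900844222b, 0x80c020b0084c222b,
  0x80c0205008442a2b, 0x80c02070084c2a2b, 0x80c02010080482c3, 0x80c02030080c82c3, 0x80c020d008048ac3,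
  0x80c020f0080c8ac3, 0x80c0201008c4a2c3, 0x80c0203008cca2c3, 0x80c020d008c4aac3, 0x80c020f008ccaac3,
  0x80c02090080482cb, 0x80c020b0080c82cb, 0x80c0205008048acb, 0x80c02070080c8acb, 0x80c0209008c4a2cb,
  0x80c020b008cca2cb, 0x80c0205008c4aacb, 0x80c0207008ccaacb, 0x80c02010088482e3, 0x80c02030088c82e3,
  0x80c020d008848ae3, 0x80c020f0088c8ae3, 0x80c020100844a2e3, 0x80c02030084ca2e3, 0x80c020d00844aae3,
  0x80c020f0084caae3, 0x80c02090088482eb, 0x80c020b0088c82eb, 0x80c0205008848aeb, 0x80c02070088c8aeb,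
  0x80c020900844a2eb, 0x80c020b0084ca2eb, 0x80c020500844aaeb, 0x80c02070084caaeb]
def cd1 : List ℕ := [0x8040a01008040205, 0x8040a0b0080c0205, 0x8040a05008040a05, 0x8040a0f0080c0a05, 0x8040a0100844a205,
  0x8040a0b0084ca205, 0x8040a0500844aa05, 0x8040a0f0084caa05, 0x8040a0900804020d, 0x8040a030080c020d,
  0x8040a0d008040a0d, 0x8040a070080c0a0d, 0x8040a0900844a20d, 0x8040a030084ca20d, 0x8040a0d00844aa0d,
  0x8040a070084caa0d, 0x8040a01008442245, 0x8040a0b0084c2245, 0x8040a05008442a45, 0x8040a0f0084c2a45,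
  0x8040a01008048245, 0x8040a0b0080c8245, 0x8040a05008048a45, 0x8040a0f0080c8a45, 0x8040a0900844224d,
  0x8040a030084c224d, 0x8040a0d008442a4d, 0x8040a070084c2a4d, 0x8040a0900804824d, 0x8040a030080c824d,
  0x8040a0d008048a4d, 0x8040a070080c8a4d, 0x8040a010088402a5, 0x8040a0b0088c02a5, 0x8040a05008840aa5,
  0x8040a0f0088c0aa5, 0x8040a01008c4a2a5, 0x8040a0b008cca2a5, 0x8040a05008c4aaa5, 0x8040a0f008ccaaa5,
  0x8040a090088402ad, 0x8040a030088c02ad, 0x8040a0d008840aad, 0x8040a070088c0aad, 0x8040a09008c4a2ad,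
  0x8040a03008cca2ad, 0x8040a0d008c4aaad, 0x8040a07008ccaaad, 0x8040a01008c422e5, 0x8040a0b008cc22e5,
  0x8040a05008c42ae5, 0x8040a0f008cc2ae5, 0x8040a010088482e5, 0x8040a0b0088c82e5, 0x8040a05008848ae5,
  0x8040a0f0088c8ae5, 0x8040a09008c422ed, 0x8040a03008cc22ed, 0x8040a0d008c42aed, 0x8040a07008cc2aed,
  0x8040a090088482ed, 0x8040a030088c82ed, 0x8040a0d008848aed, 0x8040a070088c8aed]
def cd2 : List ℕ := [0x8040201088040211, 0x80402030888c0211, 0x8040201088442211, 0x8040203088cc2211, 0x8040205088048a11,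
  0x80402070888c8a11, 0x804020508844aa11, 0x8040207088ccaa11, 0x80402030880c0231, 0x8040201088840231,
  0x80402030884c2231, 0x8040201088c42231, 0x80402070880c8a31, 0x8040205088848a31, 0x80402070884caa31,
  0x8040205088c4aa31, 0x8040205088040a51, 0x80402070888c0a51, 0x8040205088442a51, 0x8040207088cc2a51,
  0x8040201088048251, 0x80402030888c8251, 0x804020108844a251, 0x8040203088cca251, 0x80402070880c0a71,
  0x8040205088840a71, 0x80402070884c2a71, 0x8040205088c42a71, 0x80402030880c8271, 0x8040201088848271,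
  0x80402030884ca271, 0x8040201088c4a271, 0x8040209088040299, 0x804020b0888c0299, 0x8040209088442299,
  0x804020b088cc2299, 0x804020d088048a99, 0x804020f0888c8a99, 0x804020d08844aa99, 0x804020f088ccaa99,
  0x804020b0880c02b9, 0x80402090888402b9, 0x804020b0884c22b9, 0x8040209088c422b9, 0x804020f0880c8ab9,
  0x804020d088848ab9, 0x804020f0884caab9, 0x804020d088c4aab9, 0x804020d088040ad9, 0x804020f0888c0ad9,
  0x804020d088442ad9, 0x804020f088cc2ad9, 0x80402090880482d9, 0x804020b0888c82d9, 0x804020908844a2d9,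
  0x804020b088cca2d9, 0x804020f0880c0af9, 0x804020d088840af9, 0x804020f0884c2af9, 0x804020d088c42af9,
  0x804020b0880c82f9, 0x80402090888482f9, 0x804020b0884ca2f9, 0x8040209088c4a2f9]
/-- the Eichler maps among them -/
def ey : List ℕ := [0x80c0201008040203, 0x80c020900804020b, 0x80c0201008840223, 0x80c020900884022b, 0x80c02010080482c3,
  0x80c02090080482cb, 0x80c02010088482e3, 0x80c02090088482eb, 0x8040a01008040205, 0x8040a0900804020d,
  0x8040a01008048245, 0x8040a0900804824d, 0x8040a010088402a5, 0x8040a090088402ad, 0x8040a010088482e5,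
  0x8040a090088482ed, 0x8040201088040211, 0x8040201088840231, 0x8040201088048251, 0x8040201088848271,
  0x8040209088040299, 0x80402090888402b9, 0x80402090880482d9, 0x80402090888482f9]

def cod (c0 c1 c2 c3 c4 c5 c6 : ℕ) : ℕ :=
  c0 + 256 * (c1 + 256 * (c2 + 256 * (c3 + 256 * (c4 + 256 * (c5 + 256 * (c6 + 256 * 128))))))

def chk (m : ℕ) (C : List ℕ) : Bool := (List.range 256).all fun n => !((1 ^^^ n ^^^ m) &&& 23 == 0 && !qN n) ||
  [64, 192].all fun c6 => bN c6 n || [32, 160].all fun c5 => bN c5 n || [8, 136].all fun c3 => bN c3 n ||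
    (List.range 256).all fun c1 => !((2 ^^^ c1) &&& 23 == 0 && !qN c1 && !bN c1 n) ||
      (List.range 256).all fun c2 => !((4 ^^^ c2) &&& 23 == 0 && !qN c2 && !bN c2 n && !bN c1 c2) ||
        (List.range 256).all fun c4 => !((16 ^^^ c4) &&& 23 == 0 && !qN c4 && !bN c4 n && !bN c1 c4 && !bN c2 c4) ||
          C.contains (cod n c1 c2 c3 c4 c5 c6)

theorem ck0 : chk 2 cd0 = true := by decide +kernel
theorem ck1 : chk 4 cd1 = true := by decide +kernel
theorem ck2 : chk 16 cd2 = true := by decide +kernel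

def cmm (c d : ℕ) : Bool := ap c (ap d 1) == ap d (ap c 1)
def isx (i c : ℕ) : Bool := (List.range 8).any fun b => xc i b == c

theorem tri : (cd0.all fun c0 => cd1.all fun c1 => !cmm c0 c1 || cd2.all fun c2 => !(cmm c0 c2 && cmm c1 c2) ||
    (isx 0 c0 && isx 1 c1 && isx 2 c2) || (ey.contains c0 && ey.contains c1 && ey.contains c2)) = true := by
  decide +kernel

theorem ey_ok : ∀ c ∈ ey, ∀ x < 256, bN 128 x = false → ap c x = x ∨ ap c x = x ^^^ 128 := by decide +kernel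

theorem k1 : ∀ x < 256, bN x 128 = false → bN x 64 = false → bN x 32 = false → bN x 8 = false → x &&& 23 = 0 := by
  decide +kernel

theorem k2 : ∀ x < 256, x &&& 23 = 0 → x = (bif x.testBit 7 then 128 else 0) ^^^ ((bif x.testBit 6 then 64 else 0) ^^^
    ((bif x.testBit 5 then 32 else 0) ^^^ (bif x.testBit 3 then 8 else 0))) := by decide +kernel

theorem k3 : ∀ n < 256, bN 128 n = true → ∃ a ∈ [0, 2, 4, 2 ^^^ 4, 16, 2 ^^^ 16, 4 ^^^ 16, 2 ^^^ (4 ^^^ 16)],
    (1 ^^^ n ^^^ a) &&& 23 = 0 := by decide +kernel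

theorem xl {a b : ℕ} (ha : a < 256) (hb : b < 256) : a ^^^ b < 256 := Nat.xor_lt_two_pow (n := 8) ha hb

theorem col_cod {c0 c1 c2 c3 c4 c5 c6 : ℕ} (h0 : c0 < 256) (h1 : c1 < 256) (h2 : c2 < 256) (h3 : c3 < 256)
    (h4 : c4 < 256) (h5 : c5 < 256) (h6 : c6 < 256) :
    ∀ j < 8, col (cod c0 c1 c2 c3 c4 c5 c6) j = [c0, c1, c2, c3, c4, c5, c6, 128].getD j 0 := by
  intro j hj
  rw [col, cod, Nat.shiftRight_eq_div_pow]
  interval_cases j <;> simp only [List.getD_cons_zero, List.getD_cons_succ] <;> omega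

section
variable {X : Subgroup (OG qp)} {O : Set V8} {E : V8 → Sub} {L : V8 → Subgroup (OG qp)} (h : LD qp X O E L)
  (hv : dec 128 ∈ O) (e6 : dec 64 ∈ E (dec 128)) (e5 : dec 32 ∈ E (dec 128)) (e3 : dec 8 ∈ E (dec 128))

include h hv e6 e5 e3 in
theorem memE {x : ℕ} (hx : x < 256) : dec x ∈ E (dec 128) ↔ x &&& 23 = 0 := by
  refine ⟨fun e => k1 x hx ?_ ?_ ?_ ?_, fun e => ?_⟩
  · exact pol_dec0.1 (pol_of_sing (h.sE _ hv) e (h.mE _ hv))
  · exact pol_dec0.1 (pol_of_sing (h.sE _ hv) e e6)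
  · exact pol_dec0.1 (pol_of_sing (h.sE _ hv) e e5)
  · exact pol_dec0.1 (pol_of_sing (h.sE _ hv) e e3)
  · rw [k2 x hx e, dec_xor, dec_xor, dec_xor, dec_cond, dec_cond, dec_cond, dec_cond]
    exact add_mem (Submodule.smul_mem _ _ (h.mE _ hv)) (add_mem (Submodule.smul_mem _ _ e6)
      (add_mem (Submodule.smul_mem _ _ e5) (Submodule.smul_mem _ _ e3)))

include h hv e6 e5 e3 in
theorem cand {m : ℕ} (hm : m < 256) {C : List ℕ} (hC : chk m C = true) {g : OG qp} (hg : g ∈ L (dec 128))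
    (hu : dec 1 + g.1 (dec 1) + dec m ∈ E (dec 128)) : ∃ c ∈ C, Is g c := by
  obtain ⟨n, hn, en⟩ := ex_dec (g.1 (dec 1))
  obtain ⟨c1, h1, e1⟩ := ex_dec (g.1 (dec 2))
  obtain ⟨c2, h2, e2⟩ := ex_dec (g.1 (dec 4))
  obtain ⟨c4, h4, e4⟩ := ex_dec (g.1 (dec 16))
  have hw : ∀ w, dec w ∈ E (dec 128) → ∃ c ∈ [w, w ^^^ 128], dec c = g.1 (dec w) := by
    intro w hw
    rcases h.actE _ hv g hg _ hw with e | e
    · exact ⟨w, by simp, e.symm⟩
    · exact ⟨w ^^^ 128, by simp, by rw [e, dec_xor]⟩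
  obtain ⟨c6, m6, f6⟩ := hw 64 e6
  obtain ⟨c5, m5, f5⟩ := hw 32 e5
  obtain ⟨c3, m3, f3⟩ := hw 8 e3
  have hb : ∀ {a b x y : ℕ}, dec a = g.1 (dec x) → dec b = g.1 (dec y) → bN x y = false → bN a b = false := by
    intro a b x y ea eb e
    rw [← pol_dec0, ea, eb, OG.polar_app, pol_dec0, e]
  have hq : ∀ {a x : ℕ}, dec a = g.1 (dec x) → qN x = false → qN a = false := by
    intro a x ea e
    rw [← qp_dec0, ea, OG.map_app, qp_dec0, e]
  have hp : ∀ {a x : ℕ}, a < 256 → x < 256 → dec a = g.1 (dec x) → bN 128 x = false → (x ^^^ a) &&& 23 = 0 := by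
    intro a x ha hx ea e
    rw [← memE h hv e6 e5 e3 (xl hx ha), dec_xor, ea]
    exact h.perp _ hv g hg _ (pol_dec0.2 e)
  have p0 : (1 ^^^ n ^^^ m) &&& 23 = 0 := by
    rw [← memE h hv e6 e5 e3 (xl (xl (by decide) hn) hm), dec_xor, dec_xor, en]
    exact hu
  have a0 := List.all_eq_true.1 hC n (List.mem_range.2 hn)
  rw [p0, hq en (by decide)] at a0
  simp only [beq_self_eq_true, Bool.not_false, Bool.and_self, Bool.not_true, Bool.false_or] at a0
  have a6 := List.all_eq_true.1 a0 c6 m6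
  rw [hb f6 en (by decide)] at a6
  simp only [Bool.false_or] at a6
  have a5 := List.all_eq_true.1 a6 c5 m5
  rw [hb f5 en (by decide)] at a5
  simp only [Bool.false_or] at a5
  have a3 := List.all_eq_true.1 a5 c3 m3
  rw [hb f3 en (by decide)] at a3
  simp only [Bool.false_or] at a3
  have a1 := List.all_eq_true.1 a3 c1 (List.mem_range.2 h1)
  rw [hp h1 (by decide) e1 (by decide), hq e1 (by decide), hb e1 en (by decide)] at a1
  simp only [beq_self_eq_true, Bool.not_false, Bool.and_self, Bool.not_true, Bool.false_or] at a1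
  have a2 := List.all_eq_true.1 a1 c2 (List.mem_range.2 h2)
  rw [hp h2 (by decide) e2 (by decide), hq e2 (by decide), hb e2 en (by decide), hb e1 e2 (by decide)] at a2
  simp only [beq_self_eq_true, Bool.not_false, Bool.and_self, Bool.not_true, Bool.false_or] at a2
  have a4 := List.all_eq_true.1 a2 c4 (List.mem_range.2 h4)
  rw [hp h4 (by decide) e4 (by decide), hq e4 (by decide), hb e4 en (by decide), hb e1 e4 (by decide),
    hb e2 e4 (by decide)] at a4
  simp only [beq_self_eq_true, Bool.not_false, Bool.and_self, Bool.not_true, Bool.false_or] at a4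
  refine ⟨_, List.contains_iff_mem.1 a4, is_of_basis fun j hj => ?_⟩
  have l6 : c6 < 256 := by rcases List.mem_pair.1 m6 with rfl | rfl <;> decide
  have l5 : c5 < 256 := by rcases List.mem_pair.1 m5 with rfl | rfl <;> decide
  have l3 : c3 < 256 := by rcases List.mem_pair.1 m3 with rfl | rfl <;> decide
  rw [col_cod hn h1 h2 l3 h4 l5 l6 j hj]
  interval_cases j
  exacts [en.symm, e1.symm, e2.symm, f3.symm, e4.symm, f5.symm, f6.symm, h.fixv _ hv g hg]

/-- the class of `k` -/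
def R (E : V8 → Sub) (L : V8 → Subgroup (OG qp)) (k : OG qp) (a : ℕ) : Prop :=
  k ∈ L (dec 128) ∧ dec 1 + k.1 (dec 1) + dec a ∈ E (dec 128)

theorem p1 : polar qp (dec 128) (dec 1) = 1 := pol_dec1.2 (by decide)

include h hv in
theorem R.mul {k l : OG qp} {a b : ℕ} (hk : R E L k a) (hl : R E L l b) : R E L (k * l) (a ^^^ b) := by
  refine ⟨mul_mem hk.1 hl.1, ?_⟩
  have h1 : polar qp (dec 128) (dec 1 + l.1 (dec 1)) = 0 := by
    rw [polar_add_right, p1]
    conv_lhs => rw [← h.fixv _ hv l hl.1]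
    rw [OG.polar_app, p1]
    rfl
  have h2 := add_mem (add_mem hk.2 hl.2) (h.perp _ hv k hk.1 _ h1)
  rw [map_add] at h2
  rw [OG.mul_app, dec_xor]
  convert h2 using 1
  have key : ∀ x y z u s t : ZMod 2, u + x + (s + t) = u + y + s + (u + z + t) + (u + z + (y + x)) := by decide
  funext i
  exact key _ _ _ _ _ _

include h hv in
theorem R.eq {k l : OG qp} {a : ℕ} (hk : R E L k a) (hl : R E L l a) : k = l := by
  have h1 := hk.mul h hv hl
  have h2 := h1.2
  rw [Nat.xor_self, dec_zero, add_zero] at h2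
  have h3 := h.inj _ hv _ h1.1 _ p1 h2
  rw [eq_inv_of_mul_eq_one_left h3, eq_comm]
  exact eq_inv_of_mul_eq_one_left (h.sq _ hv l hl.1)

theorem R.one : R E L 1 0 := ⟨one_mem _, by rw [OG.one_app, aa, dec_zero, add_zero]; exact zero_mem _⟩

include h hv in
theorem comm {k l : OG qp} {c d : ℕ} (hk : k ∈ L (dec 128)) (hl : l ∈ L (dec 128)) (ik : Is k c) (il : Is l d) :
    cmm c d = true := by
  have h1 : k * l = l * k := by
    have h2 := h.sq _ hv _ (mul_mem hk hl)
    rw [eq_inv_of_mul_eq_one_left h2, mul_inv_rev, ← eq_inv_of_mul_eq_one_left (h.sq _ hv _ hk),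
      ← eq_inv_of_mul_eq_one_left (h.sq _ hv _ hl)]
  refine beq_iff_eq.2 (dec_inj (ap_lt _ _) (ap_lt _ _) ?_)
  rw [← ik, ← il, ← il, ← ik, ← OG.mul_app, h1, OG.mul_app]

/-- `k` is trivial on `v^⊥ / v` -/
def Tv (k : OG qp) : Prop := k.1 (dec 128) = dec 128 ∧
  ∀ x, polar qp (dec 128) x = 0 → k.1 x = x ∨ k.1 x = x + dec 128

theorem Tv.mul {k l : OG qp} (hk : Tv k) (hl : Tv l) : Tv (k * l) := by
  refine ⟨by rw [OG.mul_app, hl.1, hk.1], fun x hx => ?_⟩
  rw [OG.mul_app]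
  rcases hl.2 x hx with e | e
  · rw [e]
    exact hk.2 x hx
  · rw [e, map_add, hk.1]
    rcases hk.2 x hx with e' | e'
    · rw [e']
      exact Or.inr rfl
    · rw [e', aac']
      exact Or.inl rfl

theorem tv_of {k : OG qp} {c : ℕ} (hk : k.1 (dec 128) = dec 128) (ik : Is k c) (hc : ey.contains c = true) : Tv k := by
  refine ⟨hk, fun x hx => ?_⟩
  obtain ⟨x, lx, rfl⟩ := ex_dec x
  rw [ik, ← dec_xor]
  exact (ey_ok c (List.contains_iff_mem.1 hc) x lx (pol_dec0.1 hx)).imp (congrArg dec) (congrArg dec)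

end

end NF0x

open NF0x in
theorem nf0 : NF0 := by
  intro X O E L h hp e6 e5 e3
  have hv := hp.2.1
  have hex : ∀ m, bN 128 m = false → ∃ g, R E L g m := fun m hm => by
    obtain ⟨g, hg, e⟩ := h.ex _ hv (dec m) (pol_dec0.2 hm)
    exact ⟨g, hg, e _ p1⟩
  obtain ⟨g0, r0⟩ := hex 2 (by decide)
  obtain ⟨g1, r1⟩ := hex 4 (by decide)
  obtain ⟨g2, r2⟩ := hex 16 (by decide)
  obtain ⟨c0, m0, i0⟩ := cand h hv e6 e5 e3 (by decide) ck0 r0.1 r0.2
  obtain ⟨c1, m1, i1⟩ := cand h hv e6 e5 e3 (by decide) ck1 r1.1 r1.2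
  obtain ⟨c2, m2, i2⟩ := cand h hv e6 e5 e3 (by decide) ck2 r2.1 r2.2
  have hall : ∀ g ∈ L (dec 128), g = 1 ∨ g = g0 ∨ g = g1 ∨ g = g0 * g1 ∨ g = g2 ∨ g = g0 * g2 ∨ g = g1 * g2 ∨
      g = g0 * (g1 * g2) := by
    intro g hg
    obtain ⟨n, hn, en⟩ := ex_dec (g.1 (dec 1))
    have h1 : bN 128 n = true := by
      rw [← pol_dec1, en]
      conv_lhs => rw [← h.fixv _ hv g hg]
      rw [OG.polar_app, p1]
    obtain ⟨a, ha, e⟩ := k3 n hn h1
    have la : a < 256 := by clear e; revert a; decide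
    have r : R E L g a := ⟨hg, by
      rw [← en, ← dec_xor, ← dec_xor, memE h hv e6 e5 e3 (xl (xl (by decide) hn) la)]
      exact e⟩
    simp only [List.mem_cons, List.not_mem_nil, or_false] at ha
    rcases ha with rfl | rfl | rfl | rfl | rfl | rfl | rfl | rfl
    · exact Or.inl (r.eq h hv R.one)
    · exact Or.inr (Or.inl (r.eq h hv r0))
    · exact Or.inr (Or.inr (Or.inl (r.eq h hv r1)))
    · exact Or.inr (Or.inr (Or.inr (Or.inl (r.eq h hv (r0.mul h hv r1)))))
    · exact Or.inr (Or.inr (Or.inr (Or.inr (Or.inl (r.eq h hv r2)))))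
    · exact Or.inr (Or.inr (Or.inr (Or.inr (Or.inr (Or.inl (r.eq h hv (r0.mul h hv r2)))))))
    · exact Or.inr (Or.inr (Or.inr (Or.inr (Or.inr (Or.inr (Or.inl (r.eq h hv (r1.mul h hv r2))))))))
    · exact Or.inr (Or.inr (Or.inr (Or.inr (Or.inr (Or.inr (Or.inr (r.eq h hv (r0.mul h hv (r1.mul h hv r2)))))))))
  have a1 := List.all_eq_true.1 (List.all_eq_true.1 tri c0 m0) c1 m1
  rw [comm h hv r0.1 r1.1 i0 i1] at a1
  have a2 := List.all_eq_true.1 a1 c2 m2
  rw [comm h hv r0.1 r2.1 i0 i2, comm h hv r1.1 r2.1 i1 i2] at a2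
  simp only [Bool.and_self, Bool.not_true, Bool.false_or, Bool.or_eq_true, Bool.and_eq_true] at a2
  rcases a2 with ⟨⟨x0, x1⟩, x2⟩ | ⟨⟨x0, x1⟩, x2⟩
  · simp only [isx, List.any_eq_true, List.mem_range, beq_iff_eq] at x0 x1 x2
    obtain ⟨a, ha, rfl⟩ := x0
    obtain ⟨b, hb, rfl⟩ := x1
    obtain ⟨c, hc, rfl⟩ := x2
    refine ⟨a, ha, b, hb, c, hc, fun g => ⟨fun hg => ?_, ?_⟩⟩
    · rcases hall g hg with rfl | rfl | rfl | rfl | rfl | rfl | rfl | rfl
      · exact ⟨_, by simp [els, xa], is_one⟩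
      · exact ⟨_, by simp [els, xa], i0⟩
      · exact ⟨_, by simp [els, xa], i1⟩
      · exact ⟨_, by simp [els, xa], i0.mul i1⟩
      · exact ⟨_, by simp [els, xa], i2⟩
      · exact ⟨_, by simp [els, xa], i0.mul i2⟩
      · exact ⟨_, by simp [els, xa], i1.mul i2⟩
      · exact ⟨_, by simp [els, xa], i0.mul (i1.mul i2)⟩
    · rintro ⟨d, hd, ig⟩
      simp only [els, xa, List.getD_cons_zero, List.getD_cons_succ, List.mem_cons, List.not_mem_nil, or_false] at hd
      rcases hd with rfl | rfl | rfl | rfl | rfl | rfl | rfl | rfl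
      · rw [ig.ext is_one]; exact one_mem _
      · rw [ig.ext i0]; exact r0.1
      · rw [ig.ext i1]; exact r1.1
      · rw [ig.ext (i0.mul i1)]; exact mul_mem r0.1 r1.1
      · rw [ig.ext i2]; exact r2.1
      · rw [ig.ext (i0.mul i2)]; exact mul_mem r0.1 r2.1
      · rw [ig.ext (i1.mul i2)]; exact mul_mem r1.1 r2.1
      · rw [ig.ext (i0.mul (i1.mul i2))]; exact mul_mem r0.1 (mul_mem r1.1 r2.1)
  · have t0 := tv_of (h.fixv _ hv _ r0.1) i0 x0
    have t1 := tv_of (h.fixv _ hv _ r1.1) i1 x1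
    have t2 := tv_of (h.fixv _ hv _ r2.1) i2 x2
    refine (hp.2.2 fun g hg => ?_).elim
    rcases hall g hg with rfl | rfl | rfl | rfl | rfl | rfl | rfl | rfl
    · exact fun x _ => Or.inl rfl
    · exact t0.2
    · exact t1.2
    · exact (t0.mul t1).2
    · exact t2.2
    · exact (t0.mul t2).2
    · exact (t1.mul t2).2
    · exact (t0.mul (t1.mul t2)).2

end CL.N9.LN
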