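/-
S1763, linear classification: the points where `L v` consists of Eichler maps.
-/
import Cfsg.Agent.N9.LDefs

set_option autoImplicit false

namespace CL.N9.LN

open Cfsg Subgroup CL.Cls QuadraticMap Module

namespace T0Xx

theorem dec_mod (x : ℕ) : dec (x % 256) = dec x := funext fun i => by
  simp only [dec]
  rw [show 256 = 2 ^ 8 from rfl, Nat.testBit_mod_two_pow]
  simp [i.2]

theorem col_mkc (f : ℕ → ℕ) : ∀ j < 8, col (mkc f) j = f (2 ^ j) % 256 := by
  intro j hj
  rw [col, mkc, Nat.shiftRight_eq_div_pow]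
  interval_cases j <;> norm_num <;> omega

theorem is_eich {r m : ℕ} (hr : qp (dec r) = 0) (hm : polar qp (dec r) (dec m) = 0) :
    Is (eich qp (dec r) (dec m)) (eichc r m) := is_of_basis fun j hj => by
  rw [eichc, col_mkc _ j hj, dec_mod, eich2 hr hm]
  simp only [dec_xor, dec_cond, pol_dec, qp_dec]
  cases qN m <;> cases bN r (2 ^ j) <;> simp

theorem three {X : Subgroup (OG qp)} {O : Set V8} {E : V8 → Sub} {L : V8 → Subgroup (OG qp)} {G : List ℕ}
    (h : B0 X O E L G) : 3 ≤ G.length := by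
  by_contra hl
  have h2 : G.getD 2 idc = idc := List.getD_eq_default _ _ (by omega)
  have hO := h.pt.2.1
  have hv : ∀ g ∈ L (dec 128), ∃ j : Fin 4, g.1 (dec 1) = ![dec 1, (cm (G.getD 0 idc)).mulVec (dec 1),
      (cm (G.getD 1 idc)).mulVec (dec 1), (cm (G.getD 0 idc) * cm (G.getD 1 idc)).mulVec (dec 1)] j := fun g hg => by
    obtain ⟨c, hc, k⟩ := (h.lb g).1 hg
    rw [k.app]
    simp only [els, h2, List.mem_cons, List.not_mem_nil, or_false] at hc
    rcases hc with rfl | rfl | rfl | rfl | rfl | rfl | rfl | rfl <;>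
      try simp only [cm_mulc, cm_idc, mul_one, Matrix.one_mulVec]
    exacts [⟨0, rfl⟩, ⟨1, rfl⟩, ⟨2, rfl⟩, ⟨3, rfl⟩, ⟨0, rfl⟩, ⟨1, rfl⟩, ⟨2, rfl⟩, ⟨3, rfl⟩]
  have hw : ∀ i : Fin 5, bN 128 (![0, 2, 4, 6, 16] i) = false := by decide +kernel
  choose g hg hx using fun i => h.ld.ex _ hO _ (pol_dec0.2 (hw i))
  choose j hj using fun i => hv _ (hg i)
  obtain ⟨a, b, hab, e⟩ := Fintype.exists_ne_map_eq_of_card_lt j (by simp)
  have h1 := add_mem (hx a (dec 1) (pol_dec1.2 (by decide +kernel))) (hx b (dec 1) (pol_dec1.2 (by decide +kernel)))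
  rw [hj a, hj b, e, add_add_add_comm, aa, zero_add, ← dec_xor] at h1
  have k : ∀ a b : Fin 5, bN 64 (![0, 2, 4, 6, 16] a ^^^ ![0, 2, 4, 6, 16] b) = false →
      bN 32 (![0, 2, 4, 6, 16] a ^^^ ![0, 2, 4, 6, 16] b) = false →
      bN 8 (![0, 2, 4, 6, 16] a ^^^ ![0, 2, 4, 6, 16] b) = false → a = b := by decide +kernel
  exact hab (k a b (pol_dec0.1 (pol_of_sing (h.ld.sE _ hO) h.e6 h1)) (pol_dec0.1 (pol_of_sing (h.ld.sE _ hO) h.e5 h1))
    (pol_dec0.1 (pol_of_sing (h.ld.sE _ hO) h.e3 h1)))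

theorem eq_eich {g : OG qp} {v x : V8} (hv : qp v = 0) (hg : g.1 v = v) (hx : polar qp v x = 1)
    (h : ∀ y, polar qp v y = 0 → g.1 y = y ∨ g.1 y = y + v) :
    polar qp v (x + g.1 x) = 0 ∧ g = eich qp v (x + g.1 x) := by
  have h1 : polar qp v (g.1 x) = 1 := by rw [← hx, ← OG.polar_app g v x, hg]
  have h2 : polar qp v (x + g.1 x) = 0 := by rw [polar_add_right, hx, h1, oo]
  refine ⟨h2, (inv_mul_eq_one.1 (eq_one_of_perp qp_nd hv fun y hy => ?_)).symm⟩
  have h3 := OG.polar_app g x y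
  have h4 : (eich qp v (x + g.1 x)).1 y = g.1 y := by
    rw [eich2 hv h2, hy, zero_smul, mul_zero, zero_smul, add_zero, add_zero, polar_add_left]
    rcases h y hy with e | e
    · rw [e] at h3 ⊢
      rw [h3, z2_add, zero_smul, add_zero]
    · rw [e] at h3 ⊢
      rw [polar_add_right, polar_comm _ _ v, h1] at h3
      rw [← h3, add_right_comm, z2_add, zero_add, one_smul]
  rw [OG.mul_app, ← h4, OG.inv_app_app]

end T0Xx
open T0Xx

theorem t0x (h1 : KILL) (h2 : INV) : T0X := by
  intro X O E L G P r s1 s2 cs h hX hl hP _ hO hT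
  by_contra hc
  rw [Bool.not_eq_false, chk0, List.all_eq_true] at hc
  have ld := h.ld
  have hv := ld.sE _ hO _ (ld.mE _ hO)
  obtain ⟨x, hx⟩ : ∃ x, polar qp (dec r) x = 1 := by
    by_contra! k
    exact ld.ne _ hO (eq_zero_of_pol qp_nd fun y => (z2 _).resolve_right (k y))
  set W := E (dec r) ⊔ Submodule.span (ZMod 2) {dec s1, dec s2} with hW
  have w0 : dec r ∈ W := Submodule.mem_sup_left (ld.mE _ hO)
  have w1 : dec s1 ∈ W := Submodule.mem_sup_right (Submodule.subset_span (by simp))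
  have w2 : dec s2 ∈ W := Submodule.mem_sup_right (Submodule.subset_span (by simp))
  have key : ∀ g ∈ L (dec r), x + g.1 x ∈ W := fun g hg => by
    obtain ⟨k1, k2⟩ := eq_eich hv (ld.fixv _ hO g hg) hx (hT g hg)
    obtain ⟨m, hm, e⟩ := ex_dec (x + g.1 x)
    rw [← e] at k1 k2 ⊢
    have hi : Is g (eichc r m) := k2 ▸ is_eich hv k1
    have hgX := ld.LX _ hO hg
    have := hc m (List.mem_range.2 hm)
    simp only [Bool.or_eq_true, List.any_eq_true, List.contains_iff_mem, Bool.not_eq_true', pol_dec0.1 k1,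
      Bool.false_eq_true, false_or] at this
    rcases this with (k | ⟨p, hp, k⟩) | ⟨c, -, k⟩
    · simp only [List.mem_cons, List.not_mem_nil, or_false] at k
      rcases k with rfl | rfl | rfl | rfl | rfl | rfl | rfl | rfl <;>
        simp only [dec_xor, dec_zero, zero_mem, add_mem, w0, w1, w2]
    · obtain ⟨-, p2, p3⟩ := (hP p).2 hp
      have : ap (eichc r m) p ∈ P := (hP _).1 ⟨ap_lt _ _, hi p ▸ ld.aO g hgX _ p2,
        fun k => p3 ((h2 X O E L ld g hgX _ p2).1 ((hi p).symm ▸ k))⟩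
      rw [← List.contains_iff_mem, k] at this
      exact absurd this Bool.false_ne_true
    · rw [h1 X O E L _ 16 0 c (h.append (three h) _) (fun d hd => ?_) fun i i1 i2 => ?_] at k
      · exact absurd k Bool.false_ne_true
      · rcases List.mem_append.1 hd with hd | hd
        · exact hX d hd
        · exact ⟨g, hgX, List.mem_singleton.1 hd ▸ hi⟩
      · rw [List.length_append, List.length_singleton] at i2
        omega
  have hle : prp qp (Submodule.span (ZMod 2) {dec r}) ≤ W := fun w hw => by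
    obtain ⟨g, hg, k⟩ := ld.ex _ hO w (hw _ (Submodule.mem_span_singleton_self _))
    rw [← aac (x + g.1 x) w]
    exact add_mem (key g hg) (Submodule.mem_sup_left (k x hx))
  have f1 := fr_prp qp_nd (Submodule.span (ZMod 2) {dec r})
  rw [finrank_span_singleton (ld.ne _ hO)] at f1
  have f2 := fr_le_four qp_nd (ld.sE _ hO)
  have f3 : finrank (ZMod 2) (Submodule.span (ZMod 2) {dec s1, dec s2}) ≤ 2 :=
    (finrank_span_le_card _).trans (by rw [Set.toFinset_insert, Set.toFinset_singleton]; exact Finset.card_le_two)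
  have f4 := Submodule.finrank_add_le_finrank_add_finrank (E (dec r)) (Submodule.span (ZMod 2) {dec s1, dec s2})
  have f5 := Submodule.finrank_mono hle
  rw [← hW] at f4
  omega

end CL.N9.LN
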