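/-
S1763: transport of the linear data along an isometry.
-/
import Cfsg.Agent.N9.LDefs

set_option autoImplicit false

namespace CL.N9.LN

open Cfsg Subgroup CL.Cls QuadraticMap Module

namespace TRx

variable {q q' : QF} (e : V8 ≃ₗ[ZMod 2] V8) (he : ∀ v, q' (e v) = q v)

include he in
theorem pol (x y : V8) : polar q' (e x) (e y) = polar q x y := by rw [polar, polar, ← map_add, he, he, he]

theorem app (g : OG q) (x : V8) : (OG.congr e he g).1 (e x) = e (g.1 x) := by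
  rw [OG.congr_app, e.symm_apply_apply]

theorem mE {E : V8 → Sub} {v x : V8} : e x ∈ trE e E (e v) ↔ x ∈ E v := by
  rw [trE, e.symm_apply_apply]
  exact ⟨fun ⟨y, h, k⟩ => e.injective k ▸ h, fun h => ⟨x, h, rfl⟩⟩

theorem mL {L : V8 → Subgroup (OG q)} {v : V8} {g : OG q} : OG.congr e he g ∈ trL e he L (e v) ↔ g ∈ L v := by
  rw [trL, e.symm_apply_apply, mem_trX]

theorem mO {O : Set V8} {v : V8} : e v ∈ e '' O ↔ v ∈ O := e.injective.mem_set_image

theorem trX_trans {q'' : QF} (e' : V8 ≃ₗ[ZMod 2] V8) (he' : ∀ v, q'' (e' v) = q' v) (X : Subgroup (OG q)) :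
    trX (e.trans e') (fun v => (he' (e v)).trans (he v)) X = trX e' he' (trX e he X) := by
  unfold trX
  rw [map_map]
  congr 1

end TRx

open TRx in
theorem tr : TR := by
  intro q q' e he X O E L
  have sv := e.surjective
  have sg := (OG.congr e he).surjective
  have ei : ∀ {x y}, e x = e y ↔ x = y := e.injective.eq_iff
  refine ⟨fun D => ⟨nondeg_iff.2 fun x hx => ?_, ?_, ?_, ?_, ?_, ?_, ?_, ?_, ?_, ?_, ?_, ?_, ?_, ?_, ?_, ?_⟩,
    fun I W hW => ?_, fun v => ?_, ?_⟩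
  · obtain ⟨x, rfl⟩ := sv x
    rw [nondeg_iff.1 D.nd x fun y => (pol e he x y).symm.trans (hx (e y)), map_zero]
  · rintro _ ⟨v, hv, rfl⟩
    exact e.map_ne_zero_iff.2 (D.ne v hv)
  · rintro _ ⟨v, hv, rfl⟩
    exact (mE e).2 (D.mE v hv)
  · rintro _ ⟨v, hv, rfl⟩ x hx
    obtain ⟨x, rfl⟩ := sv x
    rw [he]; exact D.sE v hv x ((mE e).1 hx)
  · rintro _ ⟨v, hv, rfl⟩ g hg
    obtain ⟨g, rfl⟩ := sg g
    exact (mem_trX e he).2 (D.LX v hv ((mL e he).1 hg))
  · rintro _ ⟨v, hv, rfl⟩ g hg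
    obtain ⟨g, rfl⟩ := sg g
    rw [← map_mul, D.sq v hv g ((mL e he).1 hg), map_one]
  · rintro _ ⟨v, hv, rfl⟩ g hg
    obtain ⟨g, rfl⟩ := sg g
    rw [app, D.fixv v hv g ((mL e he).1 hg)]
  · rintro _ ⟨v, hv, rfl⟩ g hg x hx
    obtain ⟨g, rfl⟩ := sg g
    obtain ⟨x, rfl⟩ := sv x
    rw [app, ← map_add, ei, ei]
    exact D.actE v hv g ((mL e he).1 hg) x ((mE e).1 hx)
  · rintro _ ⟨v, hv, rfl⟩ g hg x hx
    obtain ⟨g, rfl⟩ := sg g
    obtain ⟨x, rfl⟩ := sv x
    rw [app, ← map_add, mE]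
    exact D.perp v hv g ((mL e he).1 hg) x ((pol e he v x).symm.trans hx)
  · rintro _ ⟨v, hv, rfl⟩ w hw
    obtain ⟨w, rfl⟩ := sv w
    obtain ⟨g, hg, k⟩ := D.ex v hv w ((pol e he v w).symm.trans hw)
    refine ⟨_, (mL e he).2 hg, fun x hx => ?_⟩
    obtain ⟨x, rfl⟩ := sv x
    rw [app, ← map_add, ← map_add, mE]
    exact k x ((pol e he v x).symm.trans hx)
  · rintro _ ⟨v, hv, rfl⟩ g hg x hx k
    obtain ⟨g, rfl⟩ := sg g
    obtain ⟨x, rfl⟩ := sv x
    rw [app, ← map_add, mE] at k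
    rw [D.inj v hv g ((mL e he).1 hg) x ((pol e he v x).symm.trans hx) k, map_one]
  · rintro g hg _ ⟨v, hv, rfl⟩
    obtain ⟨g, rfl⟩ := sg g
    rw [app, mO]
    exact D.aO g ((mem_trX e he).1 hg) v hv
  · rintro g hg _ ⟨v, hv, rfl⟩ x hx
    obtain ⟨g, rfl⟩ := sg g
    obtain ⟨x, rfl⟩ := sv x
    rw [app, app, mE]
    exact D.aE g ((mem_trX e he).1 hg) v hv x ((mE e).1 hx)
  · rintro g hg _ ⟨v, hv, rfl⟩ k hk
    obtain ⟨g, rfl⟩ := sg g
    obtain ⟨k, rfl⟩ := sg k
    rw [app, ← map_inv, ← map_mul, ← map_mul, mL]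
    exact D.aL g ((mem_trX e he).1 hg) v hv k ((mL e he).1 hk)
  · intro n hn
    obtain ⟨n, rfl⟩ := sv n
    rw [D.fix n fun g hg => ei.1 ((app e he g n).symm.trans (hn _ ((mem_trX e he).2 hg))), map_zero]
  · intro K h1 h2 h3
    have := D.o2 (K.comap (OG.congr e he).toMonoidHom) (fun g hg => (mem_trX e he).1 (h1 hg))
      (fun g hg k hk => by
        have := h2 _ ((mem_trX e he).2 hg) _ hk
        rwa [MulEquiv.coe_toMonoidHom, ← map_inv, ← map_mul, ← map_mul] at this)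
      fun k hk => (OG.congr e he).injective (by rw [map_pow, map_one]; exact h3 _ hk)
    refine (eq_bot_iff_forall _).2 fun k hk => ?_
    obtain ⟨k, rfl⟩ := sg k
    rw [(eq_bot_iff_forall _).1 this k hk, map_one]
  · refine (I (W.comap e.toLinearMap) fun g hg w hw => ?_).imp (fun k => ?_) fun k => ?_
    · have := hW _ ((mem_trX e he).2 hg) _ hw
      rwa [LinearEquiv.coe_coe, app] at this
    · refine (Submodule.eq_bot_iff _).2 fun x hx => ?_
      obtain ⟨x, rfl⟩ := sv x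
      rw [(Submodule.eq_bot_iff _).1 k x hx, map_zero]
    · refine Submodule.eq_top_iff'.2 fun x => ?_
      obtain ⟨x, rfl⟩ := sv x
      exact Submodule.eq_top_iff'.1 k x
  · refine sg.forall.trans (forall_congr' fun g => imp_congr (mL e he) (sv.forall.trans (forall_congr' fun x => ?_)))
    rw [pol e he, app, ← map_add, ei, ei]
  · rintro ⟨e', he', D, hD, C⟩
    refine ⟨e.trans e', fun v => (he' (e v)).trans (he v), D, hD, ?_⟩
    have e1 : (e.trans e') '' O = e' '' (e '' O) := by rw [Set.image_image]; rfl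
    have e2 : trE (e.trans e') E = trE e' (trE e E) := funext fun w => by
      rw [trE, trE, trE, ← Submodule.map_comp]; rfl
    have e3 : trL (e.trans e') (fun v => (he' (e v)).trans (he v)) L = trL e' he' (trL e he L) :=
      funext fun w => trX_trans e he e' he' _
    rwa [trX_trans e he e' he', e1, e2, e3]

end CL.N9.LN
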