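/-
S1763: the stabiliser of the base point is bounded by the checker `chkU`.
-/
import Cfsg.Agent.N9.LDefs

set_option autoImplicit false

namespace CL.N9.LN

open Cfsg Subgroup CL.Cls QuadraticMap Module

namespace LUB

theorem col8 (a0 a1 a2 a3 a4 a5 a6 a7 : ℕ) (h0 : a0 < 256) (h1 : a1 < 256) (h2 : a2 < 256) (h3 : a3 < 256)
    (h4 : a4 < 256) (h5 : a5 < 256) (h6 : a6 < 256) (h7 : a7 < 256) : ∀ j < 8,
    col (a0 + 256 * (a1 + 256 * (a2 + 256 * (a3 + 256 * (a4 + 256 * (a5 + 256 * (a6 + 256 * (a7 + 256 * 0)))))))) j =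
      [a0, a1, a2, a3, a4, a5, a6, a7].getD j 0 := by
  intro j hj
  rw [col, Nat.shiftRight_eq_div_pow]
  interval_cases j <;> simp only [List.getD_cons_zero, List.getD_cons_succ] <;> omega

theorem col_colm (y : List ℕ) (x : ℕ) : ∀ j < 8, col (colm y x) j = ap ((els y).getD j 0) x := by
  intro j hj
  refine (col8 _ _ _ _ _ _ _ _ (ap_lt _ x) (ap_lt _ x) (ap_lt _ x) (ap_lt _ x) (ap_lt _ x) (ap_lt _ x) (ap_lt _ x)
    (ap_lt _ x) j hj).trans ?_
  interval_cases j <;> rfl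

/-- a code and the code of its conjugate -/
def Pr (g : OG qp) (c c' : ℕ) : Prop := ∃ h, Is h c ∧ Is (g * h * g⁻¹) c'

theorem Pr.one (g : OG qp) : Pr g idc idc := ⟨1, is_one, by rw [mul_one, mul_inv_cancel]; exact is_one⟩

theorem Pr.mul {g : OG qp} {c c' d d' : ℕ} (h : Pr g c c') (k : Pr g d d') : Pr g (mulc c d) (mulc c' d') := by
  obtain ⟨a, a1, a2⟩ := h
  obtain ⟨b, b1, b2⟩ := k
  exact ⟨a * b, a1.mul b1, by rw [show g * (a * b) * g⁻¹ = g * a * g⁻¹ * (g * b * g⁻¹) by group]; exact a2.mul b2⟩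

theorem Pr.app {g : OG qp} {c c' u : ℕ} (h : Pr g c c') (hu : g.1 (dec 1) = dec u) :
    g.1 (dec (ap c 1)) = dec (ap c' u) := by
  obtain ⟨a, a1, a2⟩ := h
  rw [← a1, ← a2, ← hu, OG.mul_app, OG.mul_app, OG.inv_app_app]

theorem pr_els {g : OG qp} {y y' : List ℕ} (h0 : Pr g (y.getD 0 idc) (y'.getD 0 idc))
    (h1 : Pr g (y.getD 1 idc) (y'.getD 1 idc)) (h2 : Pr g (y.getD 2 idc) (y'.getD 2 idc)) :
    ∀ j < 8, Pr g ((els y).getD j 0) ((els y').getD j 0) := by
  intro j hj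
  interval_cases j
  · exact Pr.one g
  · exact h0
  · exact h1
  · exact h0.mul h1
  · exact h2
  · exact h0.mul h2
  · exact h1.mul h2
  · exact h0.mul (h1.mul h2)

theorem is_of {g : OG qp} {c d Bi : ℕ} (h : ∀ j < 8, g.1 (dec (col c j)) = dec (col d j)) (hB : mulc c Bi = idc) :
    Is g (mulc d Bi) := fun x => by
  have k : g.1.toLinearMap ∘ₗ Matrix.toLin' (cm c) = Matrix.toLin' (cm d) :=
    (Pi.basisFun (ZMod 2) (Fin 8)).ext fun j => by
      rw [Pi.basisFun_apply, LinearMap.comp_apply, Matrix.toLin'_apply, Matrix.toLin'_apply,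
        Matrix.mulVec_single_one, Matrix.mulVec_single_one]
      exact h j j.2
  have e := LinearMap.congr_fun k ((cm Bi).mulVec (dec x))
  rw [LinearMap.comp_apply, Matrix.toLin'_apply, Matrix.toLin'_apply, Matrix.mulVec_mulVec, Matrix.mulVec_mulVec,
    ← cm_mulc, ← cm_mulc, hB, cm_idc, Matrix.one_mulVec, cm_dec] at e
  exact e

theorem mem_els (y : List ℕ) : ∀ i < 3, y.getD i idc ∈ els y := by
  intro i hi
  interval_cases i <;> simp only [els, List.mem_cons, true_or, or_true]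

end LUB

open LUB

theorem ub (h1 : WRD) (h2 : KILL) (h3 : INV) : UB := by
  intro X O E L G N P T2 U Bi A cs K b0 inX l3 l16 pts p1 inXK inK chk g hg g128
  simp only [chkU, Bool.and_eq_true, List.all_eq_true, List.any_eq_true, Bool.or_eq_true, beq_iff_eq,
    Bool.not_eq_true', List.contains_iff_mem, bne_iff_ne] at chk
  obtain ⟨⟨⟨c1, c2⟩, c3⟩, c4⟩ := chk
  obtain ⟨u1, lt1, e1⟩ := ex_dec (g.1 (dec 1))
  obtain ⟨-, o1, t1⟩ := (pts 1).2 p1
  have pu : u1 ∈ P := (pts u1).1 ⟨lt1, e1 ▸ b0.ld.aO g hg _ o1, e1 ▸ fun t => t1 ((h3 X O E L b0.ld g hg _ o1).1 t)⟩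
  have bu : bN 128 u1 = true := pol_dec1.1 (by
    rw [e1, ← g128, OG.polar_app]; exact pol_dec1.2 (by decide))
  obtain ⟨⟨u', w⟩, -, ⟨rfl, r128⟩, uU⟩ := (c2 u1 pu).resolve_left (by simp [bu])
  obtain ⟨k, hk, -, kw⟩ := h1 (X ⊓ K) G w inXK
  have g2X : k * g ∈ X := X.mul_mem (mem_inf.1 hk).1 hg
  have g2a : (k * g).1 (dec 128) = dec 128 := by rw [OG.mul_app, g128, kw, r128]
  have g2b : (k * g).1 (dec 1) = dec (run G w u') := by rw [OG.mul_app, ← e1, kw]
  have lab : ∀ i < 3, ∃ a ∈ els G, Pr (k * g) (G.getD i idc) a := fun i hi => by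
    obtain ⟨x, -, hx⟩ := inX (G.getD i idc) (by
      rw [List.getD_eq_getElem _ _ (by omega : i < G.length)]; exact List.getElem_mem _)
    have := b0.ld.aL _ g2X _ b0.pt.2.1 x ((b0.lb x).2 ⟨_, mem_els G i hi, hx⟩)
    rw [g2a] at this
    obtain ⟨a, ha, ia⟩ := (b0.lb _).1 this
    exact ⟨a, ha, x, hx, ia⟩
  obtain ⟨a, ha, pa⟩ := lab 0 (by norm_num)
  obtain ⟨b, hb, pb⟩ := lab 1 (by norm_num)
  obtain ⟨c, hc, pc⟩ := lab 2 (by norm_num)
  have isC : Is (k * g) (mulc (colm [a, b, c] (run G w u')) Bi) := is_of (fun j hj => by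
    rw [col_colm _ _ j hj, col_colm _ _ j hj]
    exact (pr_els (y' := [a, b, c]) pa pb pc j hj).app g2b) c1
  rcases c4 _ uU a ha b hb c hc with (⟨x, -, hx⟩ | ⟨e, he, hx⟩) | ⟨s, -, hs⟩
  · have := OG.map_app (k * g) (dec x)
    rw [isC, qp_dec, qp_dec] at this
    refine absurd ?_ hx
    revert this
    cases qN (ap _ x) <;> cases qN x <;> simp
  · obtain ⟨k', hk', ik', -⟩ := h1 K N e.2 inK
    rw [c3 e he, hx] at ik'
    have := K.mul_mem (K.inv_mem (mem_inf.1 hk).2) (isC.ext ik' ▸ hk')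
    rwa [inv_mul_cancel_left] at this
  · have := h2 X O E L (G ++ [mulc (colm [a, b, c] (run G w u')) Bi]) 16 0 s (b0.append l3 _) (fun d hd => by
      rcases List.mem_append.1 hd with hd | hd
      · exact inX d hd
      · exact ⟨k * g, g2X, List.mem_singleton.1 hd ▸ isC⟩) fun i i1 i2 => by
        rw [List.length_append, List.length_singleton] at i2; omega
    rw [hs] at this
    exact absurd this (by simp)

end CL.N9.LN
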