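/-
S1763 (helper88): the linear classification in the case `T = det`; generic assembly.
-/
import Cfsg.Agent.N9.LC0
import Cfsg.Agent.N9.LTR
import Cfsg.Agent.N9.LHB
import Cfsg.Agent.N9.LFR
import Cfsg.Agent.N9.LNF0
import Cfsg.Agent.N9.LMV
import Cfsg.Agent.N9.LNF
import Cfsg.Agent.N9.LKill
import Cfsg.Agent.N9.LT0
import Cfsg.Agent.N9.LUB
import Cfsg.Agent.N9.LFin

set_option autoImplicit false

namespace CL.N9.LN

open Cfsg Subgroup CL.Cls QuadraticMap Module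

theorem tree' : TREE := tree (nf (frame hb) fr (mv0 tr) nf0) (kil wrd)
theorem mv' : MV := mv (mv0 tr)

/-- side conditions -/
def Sd (c : DC) : Prop := 3 ≤ c.gH.length ∧ c.gH.length < 16 ∧ 128 ∈ c.P ∧ 1 ∈ c.P ∧ ∀ p ∈ c.P, p < 256
instance (c : DC) : Decidable (Sd c) := by unfold Sd; infer_instance

/-- the classification is finished as soon as the codes `G` lie in `X` -/
def Done (G : List ℕ) : Prop := ∀ (X : Subgroup (OG qp)) (O : Set V8) (E : V8 → Sub) (L : V8 → Subgroup (OG qp)),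
  B0 X O E L G → InX X G → Res qp X O E L

variable {X : Subgroup (OG qp)} {O : Set V8} {E : V8 → Sub} {L : V8 → Subgroup (OG qp)}

theorem core {c : DC} (hD : c.dat ∈ Ds) (ok : c.ok = true) (sd : Sd c) {R : List ℕ}
    (hW : ∃ T, chkW c.gH c.P R T = true) (h0 : ∀ r ∈ R, ∃ s1 s2 cs, chk0 c.gH c.P r s1 s2 cs = true)
    (hU : ∃ T2 U Bi A cs, chkU c.gH (c.gH ++ c.ex) c.P T2 U Bi A cs = true)
    (b : B0 X O E L c.gH) (i : InX X c.gH) (hR : ∀ r ∈ R, ¬ Pt O L r) : Res qp X O E L := by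
  obtain ⟨T, hW⟩ := hW
  obtain ⟨T2, U, Bi, A, cs, hU⟩ := hU
  obtain ⟨l3, l16, h128, h1, lt⟩ := sd
  obtain ⟨p1, p2, p3⟩ := pts wrd inv X O E L c.gH c.P R T b i lt hW
  obtain ⟨f1, f2, f3⟩ := fin X O E L c hD ok l3 h128 b i
  have hP := p1 hR
  refine f3 (p2 hP fun r hr lt mem t0 => ?_)
    (p3 _ f2 hP (ub wrd (kil wrd) inv X O E L _ _ _ T2 U Bi A cs _ b i l3 l16 hP h1 f2 f1 hU))
  obtain ⟨s1, s2, cs', h⟩ := h0 r hr
  have := t0x (kil wrd) inv X O E L _ _ r s1 s2 cs' b i l16 hP lt mem t0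
  rw [h] at this
  cases this

theorem noPt {G : List ℕ} {r : ℕ} (h : ∃ t t' Ts, chkT G r [] t t' Ts = true) (b : B0 X O E L G) (i : InX X G) :
    ¬ Pt O L r := fun p => by
  obtain ⟨t, t', Ts, h⟩ := h
  obtain ⟨y, hy, -⟩ := tree' X O E L G r _ t t' Ts b i p h
  cases hy

theorem inx_of_lb (ld : LD qp X O E L) {p : ℕ} (hp : Pt O L p) {z : List ℕ} (lb : Lb L p z) (l : z.length = 3)
    (ok : z.all okc = true) : InX X z := fun c hc => by
  have k := is_cO (List.all_eq_true.1 ok c hc)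
  refine ⟨_, ld.LX _ hp.2.1 ((lb _).2 ⟨c, ?_, k⟩), k⟩
  obtain ⟨a0, a1, a2, rfl⟩ := List.length_eq_three.1 l
  simp only [List.mem_cons, List.not_mem_nil, or_false] at hc
  rcases hc with rfl | rfl | rfl <;> simp [els]

theorem InX.append {G z : List ℕ} (h : InX X G) (h' : InX X z) : InX X (G ++ z) := fun c hc =>
  (List.mem_append.1 hc).elim (h c) (h' c)

theorem extn {G z : List ℕ} {r : ℕ} (h : ∃ t t' Ts, chkT G r [z] t t' Ts = true) (l3 : 3 ≤ G.length)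
    (l : z.length = 3) (ok : z.all okc = true) (d : Done (G ++ z)) (b : B0 X O E L G) (i : InX X G)
    (p : Pt O L r) : Res qp X O E L := by
  obtain ⟨t, t', Ts, h⟩ := h
  obtain ⟨y, hy, lb⟩ := tree' X O E L G r _ t t' Ts b i p h
  rw [List.mem_singleton.1 hy] at lb
  exact d X O E L (b.append l3 z) (i.append (inx_of_lb b.ld p lb l ok))

theorem lvl1 {y : List ℕ} {tg : List (List ℕ)} {S : List (List ℕ × ℕ × ℕ)} (un : ∃ T, chkUN y T = true)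
    (nm : chkN y tg S = true) (tr : ∃ Ts, chkT y 1 (S.map Prod.fst) idc idc Ts = true) (l : y.length = 3)
    (ok : y.all okc = true) (ok' : ∀ z ∈ tg, z.length = 3 ∧ z.all okc = true) (d : ∀ z ∈ tg, Done (y ++ z))
    (b : B0 X O E L y) : Res qp X O E L := by
  obtain ⟨T, un⟩ := un
  obtain ⟨Ts, tr⟩ := tr
  obtain ⟨p, hp, h1, h2⟩ := exu inv X O E L y b
  simp only [chkUN, Bool.and_eq_true, List.all_eq_true, List.mem_range, Bool.or_eq_true, List.any_eq_true,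
    beq_iff_eq] at un
  obtain ⟨t, ht, e⟩ := (un.2 p hp.1).resolve_left (by simp [h1, h2])
  obtain ⟨⟨u1, u2⟩, u3⟩ := un.1 t ht
  obtain ⟨X1, O1, E1, L1, b1, r1, p1, -⟩ := mv' X O E L y y t t b l (inv2_of_q u1) u2 u3
  have hp1 := e ▸ p1 p hp
  obtain ⟨w, hw, lb⟩ := tree' X1 O1 E1 L1 y 1 _ idc idc Ts b1 (inx_of_lb b1.ld b1.pt b1.lb l ok) hp1 tr
  obtain ⟨s, hs, rfl⟩ := List.mem_map.1 hw
  simp only [chkN, Bool.and_eq_true, List.all_eq_true, List.any_eq_true, beq_iff_eq] at nm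
  obtain ⟨⟨⟨⟨n1, n2⟩, n3⟩, n4⟩, z, hz, n5⟩ := nm s hs
  obtain ⟨X2, O2, E2, L2, b2, r2, p2, q2⟩ := mv' X1 O1 E1 L1 y y _ _ b1 l (inv2_of_q n1) n2 n3
  exact r1 (r2 (d z hz X2 O2 E2 L2 (b2.append l.ge z) ((inx_of_lb b2.ld b2.pt b2.lb l ok).append
    (inx_of_lb b2.ld (p2 1 hp1) (q2 1 _ z n4 lb n5) (ok' z hz).1 (ok' z hz).2))))

theorem top (ty : ∀ a < 8, ∃ T, chkTY a T = true)
    (d : ∀ y ∈ [y1, yt, yl, y5, y7], ∀ (X : Subgroup (OG qp)) (O : Set V8) (E : V8 → Sub)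
      (L : V8 → Subgroup (OG qp)), B0 X O E L y → Res qp X O E L) : LinDet Ds := by
  intro q X O E L ld irr v hv nt
  obtain ⟨e, he, e7, e6, e5, e3⟩ := frame hb q X O E L ld v hv nt
  obtain ⟨t1, t2, t3, t4⟩ := tr q qp e he X O E L
  have pt : Pt (e '' O) (trL e he L) 128 := ⟨by norm_num, e7 ▸ ⟨v, hv, rfl⟩, e7 ▸ fun k => nt ((t3 v).1 k)⟩
  have k : ∀ x, e.symm x ∈ E v → x ∈ trE e E (dec 128) := fun x hx => by
    rw [← e7, trE, e.symm_apply_apply]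
    exact ⟨_, hx, e.apply_symm_apply x⟩
  obtain ⟨a, ha, b, hb', c, hc, lb⟩ := nf0 _ _ _ _ (t1 ld) pt (k _ e6) (k _ e5) (k _ e3)
  obtain ⟨T, hT⟩ := ty a ha
  simp only [chkTY, Bool.and_eq_true, List.all_eq_true, List.mem_range, List.any_eq_true] at hT
  obtain ⟨⟨n1, n2⟩, y, hy, n3⟩ := hT b hb' c hc
  obtain ⟨X1, O1, E1, L1, b1, r1, -⟩ := mv' _ _ _ _ _ y _ _ ⟨t1 ld, t2 irr, pt, k _ e6, k _ e5, k _ e3, lb⟩ rfl
    (inv2_of_q n1) n2 n3
  exact t4 (r1 (d y hy X1 O1 E1 L1 b1))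

end CL.N9.LN
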