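/-
S1763 (helper88): the linear classification in the case `T = det`.
-/
import Cfsg.Agent.N9.LAs0
import Cfsg.Agent.N9.LCT0
import Cfsg.Agent.N9.LCT1
import Cfsg.Agent.N9.LCU
import Cfsg.Agent.N9.LC11
import Cfsg.Agent.N9.LC1t
import Cfsg.Agent.N9.LC1l
import Cfsg.Agent.N9.LC15
import Cfsg.Agent.N9.LC17
import Cfsg.Agent.N9.LCc27
import Cfsg.Agent.N9.LCc81
import Cfsg.Agent.N9.LCc45a
import Cfsg.Agent.N9.LCc45b
import Cfsg.Agent.N9.LCc105
import Cfsg.Agent.N9.LCc15
import Cfsg.Agent.N9.LCc45c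
import Cfsg.Agent.N9.LCc75
import Cfsg.Agent.N9.LCc9
import Cfsg.Agent.N9.LCc135

set_option autoImplicit false

namespace CL.N9.LN

open Cfsg Subgroup CL.Cls QuadraticMap Module

theorem all1 {p : ℕ → Prop} {a : ℕ} (h : p a) : ∀ r ∈ [a], p r := by simpa using h
theorem all2 {p : ℕ → Prop} {a b : ℕ} (h : p a) (h' : p b) : ∀ r ∈ [a, b], p r := by simpa using ⟨h, h'⟩
theorem all3 {p : ℕ → Prop} {a b c : ℕ} (h : p a) (h' : p b) (h'' : p c) : ∀ r ∈ [a, b, c], p r := by
  simpa using ⟨h, h', h''⟩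
theorem all4 {p : ℕ → Prop} {a b c d : ℕ} (h : p a) (h' : p b) (h'' : p c) (k : p d) : ∀ r ∈ [a, b, c, d], p r := by
  simpa using ⟨h, h', h'', k⟩

theorem mD : c27.dat ∈ Ds ∧ c81.dat ∈ Ds ∧ c45a.dat ∈ Ds ∧ c45b.dat ∈ Ds ∧ c105.dat ∈ Ds ∧ c15.dat ∈ Ds ∧
    c45c.dat ∈ Ds ∧ c75.dat ∈ Ds ∧ c9.dat ∈ Ds ∧ c135.dat ∈ Ds := by
  simp only [Ds, d27, d81, d45a, d45b, d105, d15, d45c, d75, d9, d135, List.mem_cons, true_or, or_true, and_self]

theorem done81 : Done c81.gH := fun _ _ _ _ b i => core mD.2.1 c81_ok (by decide +kernel) w81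
  (all3 z81_6 z81_18 z81_20) u81 b i (all3 (noPt e81_6 b i) (noPt e81_18 b i) (noPt e81_20 b i))
theorem done45a : Done c45a.gH := fun _ _ _ _ b i => core mD.2.2.1 c45a_ok (by decide +kernel) w45a
  (all2 z45a_6 z45a_18) u45a b i (all2 (noPt e45a_6 b i) (noPt e45a_18 b i))
theorem done45b : Done c45b.gH := fun _ _ _ _ b i => core mD.2.2.2.1 c45b_ok (by decide +kernel) w45b
  (all1 z45b_16) u45b b i (all1 (noPt e45b_16 b i))
theorem done105 : Done c105.gH := fun _ _ _ _ b i => core mD.2.2.2.2.1 c105_ok (by decide +kernel) w105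
  (all1 z105_6) u105 b i (all1 (noPt e105_6 b i))
theorem done45c : Done c45c.gH := fun _ _ _ _ b i => core mD.2.2.2.2.2.2.1 c45c_ok (by decide +kernel) w45c
  (all1 z45c_17) u45c b i (all1 (noPt e45c_17 b i))
theorem done75 : Done c75.gH := fun _ _ _ _ b i => core mD.2.2.2.2.2.2.2.1 c75_ok (by decide +kernel) w75
  (all1 z75_8) u75 b i (all1 (noPt e75_8 b i))
theorem done135 : Done c135.gH := fun _ _ _ _ b i => core mD.2.2.2.2.2.2.2.2.2 c135_ok (by decide +kernel) w135
  (fun _ h => by cases h) u135 b i fun _ h => by cases h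

theorem done27 : Done c27.gH := fun _ O _ L b i => by
  by_cases p : Pt O L 23
  · exact extn e27_23 (by decide +kernel) (by decide +kernel) (by decide +kernel)
      ((show c81.gH = c27.gH ++ c81.gH.drop 6 by decide +kernel) ▸ done81) b i p
  · exact core mD.1 c27_ok (by decide +kernel) w27 (all4 z27_23 z27_6 z27_18 z27_20) u27 b i
      (all4 p (noPt e27_6 b i) (noPt e27_18 b i) (noPt e27_20 b i))
theorem done15 : Done c15.gH := fun _ O _ L b i => by
  by_cases p : Pt O L 7
  · exact extn e15_7 (by decide +kernel) (by decide +kernel) (by decide +kernel)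
      ((show c45c.gH = c15.gH ++ c45c.gH.drop 6 by decide +kernel) ▸ done45c) b i p
  · exact core mD.2.2.2.2.2.1 c15_ok (by decide +kernel) w15 (all2 z15_7 z15_17) u15 b i (all2 p (noPt e15_17 b i))
theorem done9 : Done c9.gH := fun _ O _ L b i => by
  by_cases p : Pt O L 3
  · exact extn e9_3 (by decide +kernel) (by decide +kernel) (by decide +kernel)
      ((show c135.gH = c9.gH ++ c135.gH.drop 6 by decide +kernel) ▸ done135) b i p
  · exact core mD.2.2.2.2.2.2.2.2.1 c9_ok (by decide +kernel) w9 (all1 z9_3) u9 b i (all1 p)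

theorem done81' : Done (y1 ++ c81.gH.drop 6) := fun X O E L b i => by
  refine done81 X O E L ⟨b.ld, b.irr, b.pt, b.e6, b.e5, b.e3, fun g => ?_⟩ fun c hc => ?_
  · rw [show els c81.gH = els (y1 ++ c81.gH.drop 6) by decide +kernel]
    exact b.lb g
  · rw [g81] at hc
    obtain ⟨w, -, rfl⟩ := List.mem_map.1 hc
    obtain ⟨k, hk, e, -⟩ := wrd X _ w i
    exact ⟨k, hk, e⟩

theorem Done.of {G G' : List ℕ} (h : Done G) (e : G' = G) : Done G' := e ▸ h

theorem linDet' : LinDet Ds := by
  refine top (fun a ha => ?_) fun y hy X O E L b => ?_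
  · interval_cases a
    exacts [ty0, ty1, ty2, ty3, ty4, ty5, ty6, ty7]
  simp only [List.mem_cons, List.not_mem_nil, or_false] at hy
  rcases hy with rfl | rfl | rfl | rfl | rfl
  · refine lvl1 un1 nm1 tr1 rfl (by decide +kernel) (by decide +kernel) (fun z hz => ?_) b
    simp only [List.mem_cons, List.not_mem_nil, or_false] at hz
    rcases hz with rfl | rfl | rfl | rfl | rfl
    exacts [done27.of (by decide +kernel), done45a.of (by decide +kernel), done45b.of (by decide +kernel),
      done105.of (by decide +kernel), done81']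
  · refine lvl1 unt nmt trt rfl (by decide +kernel) (by decide +kernel) (fun z hz => ?_) b
    rw [List.mem_singleton.1 hz]
    exact done15.of (by decide +kernel)
  · refine lvl1 unl nml trl rfl (by decide +kernel) (by decide +kernel) (fun z hz => ?_) b
    rw [List.mem_singleton.1 hz]
    exact done75.of (by decide +kernel)
  · exact lvl1 un5 nm5 tr5 rfl (by decide +kernel) (by decide +kernel) (fun z hz => by cases hz) b
  · refine lvl1 un7 nm7 tr7 rfl (by decide +kernel) (by decide +kernel) (fun z hz => ?_) b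
    rw [List.mem_singleton.1 hz]
    exact done9.of (by decide +kernel)

end CL.N9.LN

namespace CL.N9

theorem linDet : LinDet [d27, d81, d45a, d45b, d105, d15, d45c, d75, d9, d135] := LN.linDet'

end CL.N9
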