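/-
Extraspecial `F*(C(z))` of order `2 ^ 9`, the case `S₃ × A₅` (helper12): from the configuration to the model.
-/
import Cfsg.Agent.N9.M8D
import Cfsg.Agent.N9.Data

set_option autoImplicit false
set_option linter.unusedSectionVars false

namespace CL.N9.M8

open Cfsg Subgroup CL.Even CL.Grp CL.WC CL.Cls QuadraticMap Module Equiv

universe u

attribute [local irreducible] cO

namespace BR

def φc : ℕ := 0x8020082a40504401
theorem φok : okc φc = true := by decide +kernel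
theorem exφ : ∃ φ : OG qp, ∀ x, φ.1 (dec x) = dec (ap φc x) := ⟨_, cO_dec φok⟩
noncomputable def φ : OG qp := exφ.choose
theorem φ_dec (x : ℕ) : φ.1 (dec x) = dec (ap φc x) := exφ.choose_spec x

theorem act_lin (w : X) (v : V8) : act w v = Matrix.toLin' (Matrix.of (mat w)) v := by
  funext k
  rw [Matrix.toLin'_apply, Matrix.mulVec, dotProduct, Fin.sum_univ_eight]; rfl

theorem faith : ∀ w : X, (∀ k l, mat w k l = e l k) → w = 1 := by decide +kernel

theorem act_e (w : X) (l k : Fin 8) : act w (e l) k = mat w k l := by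
  fin_cases l <;> simp [act, e]

/-- `g` acts as `w` -/
def Rel (g : OG qp) (w : X) : Prop := ∀ v, φ.1 (g.1 v) = act w (φ.1 v)

theorem Rel.one : Rel 1 1 := fun v => by rw [act_one]; rfl
theorem Rel.mul {g k : OG qp} {w w' : X} (h : Rel g w) (h' : Rel k w') : Rel (g * k) (w * w') := fun v => by
  rw [act_mul, ← h', ← h]; rfl
theorem Rel.inv {g : OG qp} {w : X} (h : Rel g w) : Rel g⁻¹ w⁻¹ := fun v => by
  have := h (g⁻¹.1 v)
  rw [show g.1 (g⁻¹.1 v) = (g * g⁻¹).1 v from rfl, mul_inv_cancel, OG.one_app] at this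
  rw [this, ← act_mul, inv_mul_cancel, act_one]
theorem Rel.eq_one {w : X} (h : Rel 1 w) : w = 1 := faith w fun k l => by
  obtain ⟨v, hv⟩ := φ.1.surjective (e l)
  rw [← act_e, ← hv, ← h]; rfl
theorem Rel.uniq {g : OG qp} {w w' : X} (h : Rel g w) (h' : Rel g w') : w = w' :=
  mul_inv_eq_one.1 (Rel.eq_one (by simpa using h.mul h'.inv))
theorem Rel.uniq' {g k : OG qp} {w : X} (h : Rel g w) (h' : Rel k w) : g = k :=
  OG.ext' fun v => φ.1.injective (by rw [h, h'])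

theorem rel_cO {c : ℕ} {w : X} (h : okc c = true)
    (k : ∀ j : Fin 8, dec (ap φc (ap c (2 ^ j.val))) = act w (dec (ap φc (2 ^ j.val)))) : Rel (cO c) w := fun v => by
  have e : ∀ j : Fin 8, dec (2 ^ j.val) = Pi.single j 1 := by decide +kernel
  have k' : φ.1.toLinearMap ∘ₗ (cO c).1.toLinearMap = Matrix.toLin' (Matrix.of (mat w)) ∘ₗ φ.1.toLinearMap :=
    (Pi.basisFun (ZMod 2) (Fin 8)).ext fun j => by
      rw [Pi.basisFun_apply, ← e]
      change φ.1 ((cO c).1 _) = Matrix.toLin' _ (φ.1 _)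
      rw [← act_lin, cO_dec h, φ_dec, φ_dec, k]
  rw [act_lin]
  exact LinearMap.congr_fun k' v

def w1 : X := (1, swap 1 3 * swap 0 2)
def w3 : X := (1, swap 0 4 * swap 1 2)
def w4 : X := (1, swap 0 1 * swap 2 4)
def w5 : X := (swap 1 2, 1)
def w6 : X := (1, swap 0 1)

theorem g0 : Rel (cO 0x80c02030080c0203) aa := rel_cO (by decide +kernel) (by decide +kernel)
theorem g1 : Rel (cO 0x8040a05008040a05) w1 := rel_cO (by decide +kernel) (by decide +kernel)
theorem g2 : Rel (cO 0x8040201088c4a271) s0 := rel_cO (by decide +kernel) (by decide +kernel)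
theorem g3 : Rel (cO 0xd0302060030e0901) w3 := rel_cO (by decide +kernel) (by decide +kernel)
theorem g4 : Rel (cO 0x903050100f020401) w4 := rel_cO (by decide +kernel) (by decide +kernel)
theorem g5 : Rel (cO 0x884c2a1708040201) w5 := rel_cO (by decide +kernel) (by decide +kernel)
theorem g6 : Rel (cO 0x8020401008020401) w6 := rel_cO (by decide +kernel) (by decide +kernel)

theorem clos {S : Set (OG qp)} {A : Subgroup X} (h : ∀ g ∈ S, ∃ w ∈ A, Rel g w) {g : OG qp} (hg : g ∈ closure S) :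
    ∃ w ∈ A, Rel g w := by
  induction hg using closure_induction with
  | mem g hg => exact h g hg
  | one => exact ⟨1, one_mem _, Rel.one⟩
  | mul _ _ _ _ h1 h2 =>
    obtain ⟨w, a, b⟩ := h1
    obtain ⟨w', a', b'⟩ := h2
    exact ⟨_, mul_mem a a', b.mul b'⟩
  | inv _ _ h1 =>
    obtain ⟨w, a, b⟩ := h1
    exact ⟨_, inv_mem a, b.inv⟩

def A0 : Subgroup X where
  carrier := {w | InA w}
  one_mem' := by change InA 1; decide +kernel
  mul_mem' := by
    rintro ⟨a, b⟩ ⟨c, d⟩ ⟨rfl | rfl, rfl | rfl | rfl | rfl⟩ ⟨rfl | rfl, rfl | rfl | rfl | rfl⟩ <;>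
      (change InA _; decide +kernel)
  inv_mem' := by
    rintro ⟨a, b⟩ ⟨rfl | rfl, rfl | rfl | rfl | rfl⟩ <;> (change InA _; decide +kernel)

theorem gen_even {A : Subgroup X} (h0 : aa ∈ A) (h1 : w1 ∈ A) (h2 : s0 ∈ A) (h3 : w3 ∈ A) (h4 : w4 ∈ A) (h5 : w5 ∈ A)
    (w : X) (hw : Perm.sign w.2 = 1) : w ∈ A := by
  have k1 : ∀ σ : Perm (Fin 3), ∃ i j k : Fin 2, σ = (s0 ^ i.val * w5 ^ j.val * s0 ^ k.val).1 := by decide +kernel
  have k2 : ∀ σ : Perm (Fin 5), Perm.sign σ = 1 → ∃ i j : Fin 2, ∃ k : Fin 3, ∃ l m n : Fin 2,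
      σ = aa.2 ^ i.val * w1.2 ^ j.val * hh.2 ^ k.val * (w3.2 * aa.2 ^ m.val * w1.2 ^ n.val) ^ l.val := by
    decide +kernel
  have h6 : hh ∈ A := (by decide +kernel : aa * w4 * w1 * w3 = hh) ▸ mul_mem (mul_mem (mul_mem h0 h4) h1) h3
  obtain ⟨i, j, k, e1⟩ := k1 w.1
  obtain ⟨i', j', k', l, m, n, e2⟩ := k2 w.2 hw
  have : w = s0 ^ i.val * w5 ^ j.val * s0 ^ k.val *
      (aa ^ i'.val * w1 ^ j'.val * hh ^ k'.val * (w3 * aa ^ m.val * w1 ^ n.val) ^ l.val) :=
    Prod.ext (by rw [e1]; simp [aa, w1, hh, w3]) (by rw [e2]; simp [s0, w5])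
  rw [this]
  exact mul_mem (mul_mem (mul_mem (pow_mem h2 _) (pow_mem h5 _)) (pow_mem h2 _)) (mul_mem (mul_mem (mul_mem
    (pow_mem h0 _) (pow_mem h1 _)) (pow_mem h6 _)) (pow_mem (mul_mem (mul_mem h3 (pow_mem h0 _)) (pow_mem h1 _)) _))

theorem pts : (∀ x ∈ c15.P, ∃ a i, dec (ap φc x) = pt a i) ∧ ∀ a i, ∃ x ∈ c15.P, dec (ap φc x) = pt a i := by
  decide +kernel

theorem inE : ∀ x < 256, (dec x 0 = 0 ∧ dec x 1 = 0 ∧ dec x 2 = 0 ∧ dec x 4 = 0) ↔
    (dec (ap φc x) 0 = 0 ∧ dec (ap φc x) 1 = 0 ∧ dec (ap φc x) 2 = 0 ∧ dec (ap φc x) 4 = 0) := by decide +kernel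

theorem mem_span {v : V8} : v ∈ Submodule.span (ZMod 2) {x | x ∈ d15.E0} ↔ v 0 = 0 ∧ v 1 = 0 ∧ v 2 = 0 ∧ v 4 = 0 := by
  refine ⟨fun h => ?_, fun h => ?_⟩
  · induction h using Submodule.span_induction with
    | mem x hx =>
      revert x
      change ∀ x ∈ [dec 128, dec 64, dec 32, dec 8], _
      decide +kernel
    | zero => simp
    | add x y _ _ h1 h2 => simp [h1.1, h1.2.1, h1.2.2.1, h1.2.2.2, h2.1, h2.2.1, h2.2.2.1, h2.2.2.2]
    | smul a x _ h1 => simp [h1.1, h1.2.1, h1.2.2.1, h1.2.2.2]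
  · have : v = v 7 • dec 128 + v 6 • dec 64 + v 5 • dec 32 + v 3 • dec 8 := by
      revert v; decide +kernel
    rw [this]
    refine add_mem (add_mem (add_mem ?_ ?_) ?_) ?_ <;>
      exact Submodule.smul_mem _ _ (Submodule.subset_span (by simp [d15, DC.dat]))

end BR

open BR

theorem exists_St {G : Type u} [Group G] [Finite G] {z : G} (h : Hy z) (M : OM qp z) (D : Cfg d15 M.X M.O M.E M.L) :
    ∃ (x : G) (M' : OM qp z) (r : G → X), St z x M' r := by
  have k : ∀ c, ∃ w, Commute c z → Rel (M.ρ c) w := fun c => by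
    by_cases hc : Commute c z
    · obtain ⟨w, -, hw⟩ := clos (A := ⊤) (fun g hg => by
        simp only [d15, DC.dat, c15, List.cons_append, List.nil_append, List.map_cons, List.map_nil, Set.mem_ofPred_eq,
          List.mem_cons, List.not_mem_nil, or_false] at hg
        rcases hg with rfl | rfl | rfl | rfl | rfl | rfl | rfl
        exacts [⟨_, trivial, g0⟩, ⟨_, trivial, g1⟩, ⟨_, trivial, g2⟩, ⟨_, trivial, g3⟩, ⟨_, trivial, g4⟩,
          ⟨_, trivial, g5⟩, ⟨_, trivial, g6⟩]) (D.le_N (M.ρ_mem hc))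
      exact ⟨w, fun _ => hw⟩
    · exact ⟨1, fun c => absurd c hc⟩
  choose r hr using k
  obtain ⟨x, nx, πx⟩ := (D.O_iff _).2 D.v0
  have hm : ∀ {a b}, Commute a z → Commute b z → r (a * b) = r a * r b := fun ha hb =>
    (hr _ (ha.mul_left hb)).uniq (M.ρ_mul ha hb ▸ (hr _ ha).mul (hr _ hb))
  refine ⟨x, M.tr φ.1 (OG.map_app φ), r, h, nx, ?_, fun {c} hc v => ?_, hm, fun {c} hc => ?_, fun w hw => ?_,
    fun v => ?_, fun {y} hy => ?_, fun {y} hy hz => ?_⟩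
  · rw [M.tr_π, πx]
    exact (φ_dec 128).trans (by decide +kernel)
  · rw [M.tr_ρ, OG.congr_app, hr c hc, φ.1.apply_symm_apply]
  · rw [← M.ker hc]
    exact ⟨fun e => (e ▸ hr c hc).uniq' Rel.one, fun e => (e ▸ hr c hc).eq_one⟩
  · let A : Subgroup X :=
      { carrier := {w | ∃ g ∈ M.X, Rel g w}
        one_mem' := ⟨1, one_mem _, Rel.one⟩
        mul_mem' := fun ⟨g, a, b⟩ ⟨g', a', b'⟩ => ⟨_, mul_mem a a', b.mul b'⟩
        inv_mem' := fun ⟨g, a, b⟩ => ⟨_, inv_mem a, b.inv⟩ }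
    obtain ⟨g, hg, e⟩ : w ∈ A := gen_even (A := A) ⟨_, D.H_le _ (by simp [d15, DC.dat, c15]), g0⟩
      ⟨_, D.H_le _ (by simp [d15, DC.dat, c15]), g1⟩ ⟨_, D.H_le _ (by simp [d15, DC.dat, c15]), g2⟩
      ⟨_, D.H_le _ (by simp [d15, DC.dat, c15]), g3⟩ ⟨_, D.H_le _ (by simp [d15, DC.dat, c15]), g4⟩
      ⟨_, D.H_le _ (by simp [d15, DC.dat, c15]), g5⟩ w hw
    obtain ⟨c, hc, rfl⟩ := M.mem_X.1 hg
    exact ⟨c, hc, (hr c hc).uniq e⟩
  · obtain ⟨v, rfl⟩ := φ.1.surjective v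
    rw [M.tr_O, D.O_iff]
    refine ⟨fun hv => ?_, fun ⟨a, i, e⟩ => ?_⟩
    · obtain ⟨n, hn, rfl⟩ := List.mem_map.1 hv
      rw [φ_dec]; exact pts.1 n hn
    · obtain ⟨n, hn, e'⟩ := pts.2 a i
      rw [φ.1.injective (e.trans (e'.symm.trans (φ_dec n).symm))]
      exact List.mem_map.2 ⟨n, hn, rfl⟩
  · rw [← M.mem_E h nx hy, πx, D.E_eq, mem_span, M.tr_π]
    obtain ⟨n, hn, e⟩ := ex_dec (M.π y)
    rw [← e, φ_dec]
    exact inE n hn
  · have := (M.mem_L h nx).2 ⟨y, hy, hz, rfl⟩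
    rw [πx, D.L_eq] at this
    obtain ⟨w, a, b⟩ := clos (A := A0) (fun g hg => by
      simp only [d15, DC.dat, c15, List.take_succ_cons, List.take_zero, List.map_cons, List.map_nil, Set.mem_ofPred_eq,
        List.mem_cons, List.not_mem_nil, or_false] at hg
      rcases hg with rfl | rfl | rfl
      exacts [⟨_, show InA _ by decide +kernel, g0⟩, ⟨_, show InA _ by decide +kernel, g1⟩,
        ⟨_, show InA _ by decide +kernel, g2⟩]) this
    exact (hr y hz).uniq b ▸ a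

end CL.N9.M8
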