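/-
Project N9 (S1763), case `O₈⁻(2)`: simplicity and order of the model.
-/
import Cfsg.Agent.N9.M8D
import Cfsg.Agent.S0294
import Cfsg.Agent.S0297

set_option autoImplicit false

namespace CL.N9.M8

open Cfsg

theorem cto : CTO := by
  have hab : ∀ z₁ z₂ : ZMod 2, z₁ ^ 2 + 1 * z₁ * z₂ + 1 * z₂ ^ 2 = 0 → z₁ = 0 ∧ z₂ = 0 := by decide
  refine ⟨Cfsg.Agent.S0297.result 4 le_rfl 1 1 hab, ?_⟩
  have h := Cfsg.Agent.S0294.result (ZMod.card 2) 4 le_rfl 1 1 hab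
  rw [show Nat.gcd 4 (2 ^ 4 + 1) = 1 by decide, one_mul] at h
  exact h.trans (by decide)

end CL.N9.M8
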