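/-
The relations of `Ω₈⁻(2)` bound the order (coset enumeration).
-/
import Cfsg.Agent.N9.M8D
import Cfsg.Agent.N9.M8TCA5
import Cfsg.Agent.N9.M8TCU4
import Cfsg.Agent.N9.M8TCF
import Cfsg.Agent.Spor.TCGroup

set_option autoImplicit false

namespace CL.N9.M8

open Subgroup CL.TC

universe u

theorem ctu : CTU.{u} := by
  intro G _ b m a₀ n₀ a h n C
  have iv : ∀ {g : G}, g * g = 1 → g = g⁻¹ := fun k => eq_inv_of_mul_eq_one_left k
  have cm : ∀ {g k : G}, Commute g k → g * g = 1 → k * k = 1 → g * (k * (g * k)) = 1 := fun {g k} c h1 h2 => by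
    rw [← mul_assoc k, ← c.eq, mul_assoc, h2, mul_one, h1]
  have ch : ∀ {g : G}, Commute h g → g * g = 1 → h * (g * (h⁻¹ * g)) = 1 := fun {g} c h1 => by
    rw [← mul_assoc, c.eq, mul_assoc, mul_inv_cancel_left, h1]
  have ch' : ∀ {g : G}, Commute g h → g * g = 1 → g * (h * (g * h⁻¹)) = 1 := fun {g} c h1 => by
    rw [← mul_assoc h, ← c.eq, mul_assoc, mul_inv_cancel, mul_one, h1]
  have r1 : h * (h * h) = 1 := by rw [← C.h3, pow_three]
  have r2 : a * (h * (a * (h * (a * h)))) = 1 := by rw [← C.ah, pow_three]; group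
  have r3 : a * (n * (a * (n * (a * n)))) = 1 := by rw [← C.ord, pow_three]; group
  have r4 : n * (h * (n * h)) = 1 := by rw [← C.nh, pow_two]; group
  have r5 : b * (m * (b * (m * (b * m)))) = 1 := by rw [← C.bm, pow_three]; group
  have cc : n * b * n * (n * b * n) = 1 := by
    rw [mul_assoc (n * b), ← mul_assoc n (n * b), ← mul_assoc n n, C.nsq, one_mul, mul_assoc n, ← mul_assoc b, C.bsq,
      one_mul, C.nsq]
  have r8 : m * (n * (b * (n * (m * (n * (b * n)))))) = 1 := by simpa only [mul_assoc] using cm C.mc C.msq cc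
  have r9 : m * (a * (m * (n * (b * (n * (b * (a * (b * a)))))))) = 1 := by
    calc _ = m * a * m * (n * b * n) * b * a * b * a := by simp only [mul_assoc]
      _ = a * (b * (a * (b * b) * a) * b) * a := by
          rw [C.ma, mul_assoc (a * b * a * b) (n * b * n) (n * b * n), cc]; simp only [mul_assoc, mul_one]
      _ = 1 := by rw [C.bsq, mul_one, C.asq, mul_one, C.bsq, mul_one, C.asq]
  have r10 : m * (n * (m * (n * (m * (n * (m * n)))))) = 1 := by
    rw [← C.br, pow_succ, pow_three]; simp only [mul_assoc]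
  have r11 : a₀ * (n₀ * (a₀ * (n₀ * (a₀ * n₀)))) = 1 := by rw [← C.ord₀, pow_three]; group
  have yy : a₀ * b * a₀ * b * (b * (a₀ * (b * a₀))) = 1 := by
    calc _ = a₀ * (b * (a₀ * (b * b) * a₀) * b) * a₀ := by simp only [mul_assoc]
      _ = 1 := by rw [C.bsq, mul_one, C.a₀sq, mul_one, C.bsq, mul_one, C.a₀sq]
  have r12 : n₀ * (b * (n₀ * (b * (a₀ * (b * a₀))))) = 1 := by rw [← yy, ← C.nb]; simp only [mul_assoc]
  have r13 : m * (a₀ * (m * (b * (a₀ * (b * a₀))))) = 1 := by rw [← yy, ← C.ma₀]; simp only [mul_assoc]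
  have r14 : m * (n₀ * (m * (n₀ * (m * n₀)))) = 1 := by rw [← C.br₀, pow_three]; group
  have k1 := M8A5.valid.relIndex_le' (fun i => [a, n, h, h⁻¹].getD i 1) (fun i => by
      rcases i with _ | _ | _ | _ | i
      exacts [iv C.asq, iv C.nsq, rfl, (inv_inv h).symm, inv_one.symm])
    (by simp [M8A5.rels, r1, r2, r3, r4]) (H := ⊥) (K := closure {a, h, n}) (by simp [M8A5.subs])
    (closure_mono (by
      rintro _ (rfl | rfl | rfl)
      exacts [⟨0, by simp, rfl⟩, ⟨2, by simp, rfl⟩, ⟨1, by simp, rfl⟩]))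
  have k2 := M8U4.valid.relIndex_le' (fun i => [b, m, a, n, h, h⁻¹].getD i 1) (fun i => by
      rcases i with _ | _ | _ | _ | _ | _ | i
      exacts [iv C.bsq, iv C.msq, iv C.asq, iv C.nsq, rfl, (inv_inv h).symm, inv_one.symm])
    (by simp [M8U4.rels, r1, r2, r3, r4, r5, r8, r9, r10, ch C.hb C.bsq, ch C.hm C.msq])
    (H := closure {a, h, n}) (K := closure {b, m, a, h, n})
    (by
      simp only [M8U4.subs, List.mem_cons, List.not_mem_nil, or_false, forall_eq_or_imp, forall_eq, ev_cons, ev_nil,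
        mul_one]
      refine ⟨?_, ?_, ?_⟩ <;> exact subset_closure (by simp))
    (closure_mono (by
      rintro _ (rfl | rfl | rfl | rfl | rfl)
      exacts [⟨0, by simp, rfl⟩, ⟨1, by simp, rfl⟩, ⟨2, by simp, rfl⟩, ⟨4, by simp, rfl⟩, ⟨3, by simp, rfl⟩]))
  have k3 := M8F.valid.relIndex_le' (fun i => [b, m, a₀, n₀, a, n, h, h⁻¹].getD i 1) (fun i => by
      rcases i with _ | _ | _ | _ | _ | _ | _ | _ | i
      exacts [iv C.bsq, iv C.msq, iv C.a₀sq, iv C.n₀sq, iv C.asq, iv C.nsq, rfl, (inv_inv h).symm, inv_one.symm])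
    (by simp [M8F.rels, r1, r2, r3, r4, r5, r8, r9, r10, r11, r12, r13, r14, ch C.hb C.bsq, ch C.hm C.msq,
      cm C.a₀a C.a₀sq C.asq, cm C.a₀n C.a₀sq C.nsq, cm C.n₀a C.n₀sq C.asq, cm C.n₀n C.n₀sq C.nsq,
      ch' C.a₀h C.a₀sq, ch' C.n₀h C.n₀sq])
    (H := closure {b, m, a, h, n}) (K := gen b m a₀ n₀ a h n)
    (by
      simp only [M8F.subs, List.mem_cons, List.not_mem_nil, or_false, forall_eq_or_imp, forall_eq, ev_cons, ev_nil,
        mul_one]
      refine ⟨?_, ?_, ?_, ?_, ?_⟩ <;> exact subset_closure (by simp))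
    (closure_mono (by
      rintro _ (rfl | rfl | rfl | rfl | rfl | rfl | rfl)
      exacts [⟨0, by simp, rfl⟩, ⟨1, by simp, rfl⟩, ⟨2, by simp, rfl⟩, ⟨3, by simp, rfl⟩, ⟨4, by simp, rfl⟩,
        ⟨6, by simp, rfl⟩, ⟨5, by simp, rfl⟩]))
  rw [M8A5.cert_N] at k1
  rw [M8U4.cert_N] at k2
  rw [M8F.cert_N] at k3
  exact card_le_of_relIndex (closure_mono (by simp [Set.insert_subset_iff])) (card_le_of_relIndex
    (closure_mono (by simp [Set.insert_subset_iff])) (card_le_of_relIndex (m := 1) bot_le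
      ⟨inferInstance, card_bot.le⟩ k1) k2) k3

end CL.N9.M8
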