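/-
Extraspecial `F*(C(z))` of order `2 ^ 9`, the case `S₃ × A₅`: generation of the centraliser.
-/
import Cfsg.Agent.N9.M8D

set_option autoImplicit false
set_option linter.unusedSectionVars false

namespace CL.N9.M8

open Cfsg Subgroup CL.Even CL.Grp CL.WC CL.Cls QuadraticMap Module Equiv

universe u

namespace F1x

theorem word5 : ∀ σ : Perm (Fin 5), Perm.sign σ = 1 → ∃ (i : Fin 3) (j : Fin 2) (k : Fin 3) (l m : Fin 2) (o : Fin 3),
    ∀ t, σ t = (hh.2 ^ i.val * aa.2 ^ j.val * hh.2 ^ k.val * nn.2 ^ l.val * aa.2 ^ m.val * hh.2 ^ o.val) t := by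
  decide +kernel

theorem word3 : ∀ σ : Perm (Fin 3), ∃ i j k : Fin 2, σ = s0.1 ^ i.val * ν0.1 ^ j.val * s0.1 ^ k.val := by
  decide +kernel

theorem mem_cl {w : X} (hw : Perm.sign w.2 = 1) : w ∈ closure ({s0, ν0, aa, hh, nn} : Set X) := by
  obtain ⟨i, j, k, l, m, o, e5⟩ := word5 w.2 hw
  obtain ⟨i', j', k', e3⟩ := word3 w.1
  have e : w = s0 ^ i'.val * ν0 ^ j'.val * s0 ^ k'.val *
      (hh ^ i.val * aa ^ j.val * hh ^ k.val * nn ^ l.val * aa ^ m.val * hh ^ o.val) := Prod.ext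
    (by
      simp only [Prod.fst_mul, Prod.pow_fst, show hh.1 = 1 from rfl, show aa.1 = 1 from rfl, show nn.1 = 1 from rfl,
        one_pow, mul_one]
      exact e3)
    (by
      simp only [Prod.snd_mul, Prod.pow_snd, show s0.2 = 1 from rfl, show ν0.2 = 1 from rfl, one_pow, one_mul]
      exact Equiv.ext e5)
  have g : ∀ v ∈ ({s0, ν0, aa, hh, nn} : Set X), ∀ n : ℕ, v ^ n ∈ closure ({s0, ν0, aa, hh, nn} : Set X) :=
    fun v hv n => pow_mem (subset_closure hv) n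
  rw [e]
  refine mul_mem (mul_mem (mul_mem (g _ ?_ _) (g _ ?_ _)) (g _ ?_ _)) (mul_mem (mul_mem (mul_mem (mul_mem (mul_mem
    (g _ ?_ _) (g _ ?_ _)) (g _ ?_ _)) (g _ ?_ _)) (g _ ?_ _)) (g _ ?_ _)) <;> simp

variable {G : Type u} [Group G] [Finite G] {z x : G} {M : OM qp z} {r : G → X}

theorem le_of_mem (S : St z x M r) {N : Subgroup G} {n₀ n a h b : G} (m1 : n₀ ∈ N) (m2 : n ∈ N) (m3 : a ∈ N) (m4 : h ∈ N)
    (c1 : Commute n₀ z) (c2 : Commute n z) (c3 : Commute a z) (c4 : Commute h z) (r1 : r n₀ = ν0) (r2 : r n = nn)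
    (r3 : r a = aa) (r4 : r h = hh) (hb : b ∈ QQ z) (hb' : b ∈ N) (hk : M.π b = e 0) : QQ z ≤ N := by
  let W : AddSubmonoid V8 :=
    { carrier := {v | ∃ y ∈ QQ z, y ∈ N ∧ M.π y = v}
      zero_mem' := ⟨1, one_mem _, one_mem _, M.π_one⟩
      add_mem' := by
        rintro _ _ ⟨x, h1, h2, rfl⟩ ⟨y, h3, h4, rfl⟩
        exact ⟨_, mul_mem h1 h3, mul_mem h2 h4, M.π_mul h1 h3⟩ }
  have h1 : ∀ g ∈ N, Commute g z → ∀ v ∈ W, act (r g) v ∈ W := by
    rintro g hg c _ ⟨y, h1, h2, rfl⟩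
    exact ⟨_, S.hy.cmem c h1, mul_mem (mul_mem hg h2) (inv_mem hg), S.π_conj c h1⟩
  have k1 := h1 _ m1 c1
  have k2 := h1 _ m2 c2
  have k3 := h1 _ m3 c3
  have k4 := h1 _ m4 c4
  rw [r1] at k1; rw [r2] at k2; rw [r3] at k3; rw [r4] at k4
  have e0 : e 0 ∈ W := ⟨b, hb, hb', hk⟩
  have e1 : e 1 ∈ W := (show act ν0 (e 0) = e 1 by decide +kernel) ▸ k1 _ e0
  have e6 : e 6 ∈ W := (show act nn (e 0) = e 6 by decide +kernel) ▸ k2 _ e0
  have e7 : e 7 ∈ W := (show act ν0 (e 6) = e 7 by decide +kernel) ▸ k1 _ e6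
  have e2 : e 2 ∈ W := (show act aa (e 0) + e 0 + e 6 = e 2 by decide +kernel) ▸ add_mem (add_mem (k3 _ e0) e0) e6
  have e4 : e 4 ∈ W := (show act hh (e 2) = e 4 by decide +kernel) ▸ k4 _ e2
  have e3 : e 3 ∈ W := (show act ν0 (e 2) = e 3 by decide +kernel) ▸ k1 _ e2
  have e5 : e 5 ∈ W := (show act ν0 (e 4) = e 5 by decide +kernel) ▸ k1 _ e4
  have h3 : ∀ l, e l ∈ W := fun l => by fin_cases l <;> assumption
  have h4 : ∀ v, v ∈ W := fun v => by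
    rw [← Finset.univ_sum_single v]
    refine sum_mem fun l _ => ?_
    rcases z2 (v l) with e1 | e1 <;> rw [e1]
    · rw [Pi.single_zero]; exact zero_mem _
    · exact (funext fun j => (Pi.single_apply _ _ _).symm : e l = Pi.single l 1) ▸ h3 l
  obtain ⟨x, x1, x2, x3⟩ := e0
  obtain ⟨y, y1, y2, y3⟩ := e7
  have hz : z ∈ N := (mul_mem_cancel_left x2).1 (S.conj_eq y1 x1 (by rw [x3, y3, pol_app]; decide +kernel) ▸
    mul_mem (mul_mem y2 x2) (inv_mem y2))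
  intro c hc
  obtain ⟨d, d1, d2, d3⟩ := h4 (M.π c)
  rcases (M.π_eq d1 hc).1 d3 with rfl | rfl
  exacts [d2, mul_mem d2 hz]

end F1x

open F1x

theorem f1 : F1.{u} := by
  intro G _ _ z x M r S hE h b m y c f a₀ a n₀ n R L k hk
  have g : ∀ v ∈ ({b, m, a₀, n₀, a, h, n} : Set G), v ∈ gen b m a₀ n₀ a h n := fun v hv => subset_closure hv
  have hQ : QQ z ≤ gen b m a₀ n₀ a h n := le_of_mem S (g n₀ (by simp)) (g n (by simp)) (g a (by simp)) (g h (by simp))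
    L.n₀z L.nz R.az R.hz L.rn₀ L.rn R.ra R.rh R.bQ (g b (by simp)) R.πb
  have key : ∀ w ∈ closure ({s0, ν0, aa, hh, nn} : Set X), ∃ l ∈ gen b m a₀ n₀ a h n, Commute l z ∧ r l = w :=
    fun w hw => by
    induction hw using closure_induction with
    | mem w hw =>
      rcases hw with rfl | rfl | rfl | rfl | rfl
      exacts [⟨a₀, g _ (by simp), R.a₀z, R.ra₀⟩, ⟨n₀, g _ (by simp), L.n₀z, L.rn₀⟩, ⟨a, g _ (by simp), R.az, R.ra⟩,
        ⟨h, g _ (by simp), R.hz, R.rh⟩, ⟨n, g _ (by simp), L.nz, L.rn⟩]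
    | one => exact ⟨1, one_mem _, Commute.one_left z, S.r_one⟩
    | mul _ _ _ _ h1 h2 =>
      obtain ⟨k, k1, k2, rfl⟩ := h1
      obtain ⟨l, l1, l2, rfl⟩ := h2
      exact ⟨_, mul_mem k1 l1, k2.mul_left l2, S.r_mul k2 l2⟩
    | inv _ _ h1 =>
      obtain ⟨k, k1, k2, rfl⟩ := h1
      exact ⟨_, inv_mem k1, k2.inv_left, S.r_inv k2⟩
  obtain ⟨l, l1, l2, l3⟩ := key (r k) (mem_cl (hE k hk))
  exact (mul_mem_cancel_right (inv_mem l1)).1 (hQ ((S.r_eq hk l2).1 l3.symm))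

end CL.N9.M8
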