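/-
Extraspecial `F*(C(z))` of order `2 ^ 9`, the case `S₃ × A₅`: control of fusion.
-/
import Cfsg.Agent.N9.M8D

set_option autoImplicit false
set_option linter.unusedSectionVars false

namespace CL.N9.M8

open Cfsg Subgroup CL.Even CL.Grp CL.WC CL.Cls QuadraticMap Module Equiv

universe u

namespace JF2

theorem pt_e7 : ∀ (a : Fin 3) (i : Fin 5), Perm.sign (if i = 4 then 1 else swap 0 1 * swap i 4 : Perm (Fin 5)) = 1 ∧
    act (swap a 1, if i = 4 then 1 else swap 0 1 * swap i 4) (pt a i) = e 7 := by decide +kernel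

theorem cj3 : ∀ σ : Perm (Fin 3), σ * σ = 1 → ∃ s : Perm (Fin 3), s * σ * s⁻¹ = 1 ∨ s * σ * s⁻¹ = swap 0 2 := by
  decide +kernel

theorem cj5 : ∀ τ : Perm (Fin 5), τ * τ = 1 → Perm.sign τ = 1 → ∃ i : Fin 5,
    InA (1, (if i = 4 then 1 else swap 0 1 * swap i 4) * τ * (if i = 4 then 1 else swap 0 1 * swap i 4)⁻¹) := by
  decide +kernel

theorem cjA {w : X} (h : w * w = 1) (hs : Perm.sign w.2 = 1) : ∃ v : X, Perm.sign v.2 = 1 ∧ InA (v * w * v⁻¹) := by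
  obtain ⟨s, k⟩ := cj3 w.1 (congrArg Prod.fst h)
  obtain ⟨i, k'⟩ := cj5 w.2 (congrArg Prod.snd h) hs
  exact ⟨(s, _), (pt_e7 0 i).1, k, k'.2⟩

theorem wd : ∀ w : X, InA w → ∃ i j l : Fin 2, w = s0 ^ i.val * aa ^ j.val * (hh * aa * hh⁻¹) ^ l.val := by
  decide +kernel

theorem free : ∀ w : X, InA w → w ≠ 1 → ∀ v : V8, act w v = v → ∃ u, act w u + u = v := by decide +kernel

theorem npt : ∀ a i, e 3 ≠ pt a i := by decide +kernel

variable {G : Type u} [Group G] [Finite G] {z x : G} {M : OM qp z} {r : G → X} {h b m y c f a₀ a : G}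

theorem exists_e7 (S : St z x M r) {t : G} (n : Nb z t) : ∃ c, Commute c z ∧ M.π (c * t * c⁻¹) = e 7 := by
  obtain ⟨a, i, k⟩ := (S.O_iff _).1 ⟨t, n, rfl⟩
  obtain ⟨c, hc, k'⟩ := S.sur (swap a 1, _) (pt_e7 a i).1
  exact ⟨c, hc, by rw [S.π_conj hc n.mem, k', k]; exact (pt_e7 a i).2⟩

/-- `w` is the image of `m g m` with `g` in a fixed elementary abelian subgroup of `Q` -/
def Wd (z : G) (M : OM qp z) (r : G → X) (m : G) (w : X) : Prop :=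
  ∃ g ∈ QQ z, Commute (m * g * m) z ∧ r (m * g * m) = w ∧ M.π g 0 = 0 ∧ M.π g 3 = 0 ∧ M.π g 5 = 0 ∧ M.π g 6 = 0

theorem Wd.mul (S : St z x M r) (B : B0 z x M r h b m) {w w' : X} (k : Wd z M r m w) (k' : Wd z M r m w') :
    Wd z M r m (w * w') := by
  obtain ⟨g, hg, c, rfl, h0, h3, h5, h6⟩ := k
  obtain ⟨g', hg', c', rfl, h0', h3', h5', h6'⟩ := k'
  refine ⟨g * g', mul_mem hg hg', by rw [B.mmul]; exact c.mul_left c', by rw [B.mmul, S.r_mul c c'], ?_⟩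
  simp only [M.π_mul hg hg', Pi.add_apply, h0, h3, h5, h6, h0', h3', h5', h6', add_zero, and_self]

theorem Wd.pow (S : St z x M r) (B : B0 z x M r h b m) {w : X} (k : Wd z M r m w) (n : ℕ) : Wd z M r m (w ^ n) := by
  induction n with
  | zero => exact ⟨1, one_mem _, by rw [mul_one, B.msq]; exact Commute.one_left z,
      by rw [mul_one, B.msq, S.r_one, pow_zero], by rw [M.π_one]; simp⟩
  | succ n ih => rw [pow_succ]; exact ih.mul S B k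

theorem exists_word (S : St z x M r) (R : RA z x M r h b m y c f a₀ a) {w : X} (hw : InA w) :
    ∃ p, Commute p z ∧ r p = w ∧ p * p = 1 ∧ m * p * m⁻¹ ∈ QQ z := by
  have B := R.toB0
  have k0 : Wd z M r m s0 := ⟨y, R.yQ, R.ha₀ ▸ R.a₀z, R.ha₀ ▸ R.ra₀, by rw [R.πy]; decide⟩
  have k1 : Wd z M r m aa := ⟨f, R.fQ, R.ha ▸ R.az, R.ha ▸ R.ra, by rw [R.πf]; decide⟩
  have e2 : m * (h * f * h⁻¹) * m = h * a * h⁻¹ := by
    rw [R.ha, ← mul_assoc, ← mul_assoc, ← B.hm.eq, mul_assoc _ h⁻¹, B.hm.inv_left.eq]; group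
  have k2 : Wd z M r m (hh * aa * hh⁻¹) := ⟨h * f * h⁻¹, S.hy.cmem B.hz R.fQ,
    by rw [e2]; exact (B.hz.mul_left R.az).mul_left B.hz.inv_left, by rw [e2, S.r_conj B.hz R.az, B.rh, R.ra],
    by rw [S.π_conj B.hz R.fQ, B.rh, R.πf, act_hh]; decide⟩
  obtain ⟨i, j, l, rfl⟩ := wd w hw
  obtain ⟨g, hg, cg, rg, h0, h3, h5, h6⟩ := ((k0.pow S B i).mul S B (k1.pow S B j)).mul S B (k2.pow S B l)
  refine ⟨m * g * m, cg, rg, ?_, by rw [B.minv, B.mm]; exact hg⟩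
  rw [← B.mmul, (M.q_zero hg).1 (by rw [qp_app, h0, h3, h5, h6]; ring), mul_one, B.msq]

end JF2

open JF2 in
theorem f2 : F2.{u} := by
  intro G _ _ z x M r S ev h b m y c f a₀ a R K hC hm
  have B := R.toB0
  have ic : ∀ g : G, IsConj z (g * z * g⁻¹) := fun g => isConj_iff.2 ⟨g, rfl⟩
  have hQ : ∀ g, g * z * g⁻¹ ∈ QQ z → ∃ k ∈ K, k * z * k⁻¹ = g * z * g⁻¹ := fun g hg => by
    by_cases hne : g * z * g⁻¹ = z
    · exact ⟨1, one_mem _, by rw [hne]; simp⟩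
    obtain ⟨c, hc, e⟩ := exists_e7 S ⟨ic g, hg, hne⟩
    rcases (M.π_eq S.nb.mem (S.hy.cmem hc hg)).mp (S.πx.trans e.symm) with e1 | e1
    · refine ⟨c⁻¹ * m, mul_mem (inv_mem (hC c hc)) hm, ?_⟩
      calc _ = c⁻¹ * (m * z * m⁻¹) * c := by group
        _ = _ := by rw [B.minv, B.mz, ← e1]; group
    · refine ⟨c⁻¹ * b * m, mul_mem (mul_mem (inv_mem (hC c hc)) (hC b (S.hy.cz B.bQ))) hm, ?_⟩
      rw [← S.conj_eq B.bQ S.nb.mem (by rw [S.πx, B.πb, pol_app]; decide)] at e1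
      calc _ = c⁻¹ * (b * (m * z * m⁻¹) * b⁻¹) * c := by group
        _ = _ := by rw [B.minv, B.mz, ← e1]; group
  have tr : ∀ g k, k ∈ K → (∃ l ∈ K, l * z * l⁻¹ = k * g * z * (k * g)⁻¹) → ∃ l ∈ K, l * z * l⁻¹ = g * z * g⁻¹ :=
    fun g k hk ⟨l, hl, e⟩ => ⟨k⁻¹ * l, mul_mem (inv_mem hk) hl, by
      calc _ = k⁻¹ * (l * z * l⁻¹) * k := by group
        _ = _ := by rw [e]; group⟩
  refine ⟨fun g hg => ?_, ?_⟩
  · obtain ⟨w, hw, h1⟩ := cjA (w := r (g * z * g⁻¹)) (by rw [← S.r_mul hg hg, (S.hy.conj g).zz, S.r_one]) (ev _ hg)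
    obtain ⟨c, hc, rfl⟩ := S.sur w hw
    refine tr g c (hC c hc) ?_
    have hg' := (hc.mul_left hg).mul_left hc.inv_left
    rw [← S.r_conj hc hg] at h1
    rw [show c * (g * z * g⁻¹) * c⁻¹ = c * g * z * (c * g)⁻¹ by group] at h1 hg'
    generalize c * g = g at h1 hg' ⊢
    by_cases h2 : r (g * z * g⁻¹) = 1
    · exact hQ g ((S.r_ker hg').mp h2)
    obtain ⟨p, pz, rp, pp, mp⟩ := exists_word S R h1
    have h3 := (S.r_eq hg' pz).mp rp.symm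
    have tt := (S.hy.conj g).zz
    have pi := inv_eq_of_mul_eq_one_right pp
    obtain ⟨u, hu⟩ := free _ h1 h2 (M.π (g * z * g⁻¹ * p⁻¹)) (by
      rw [← rp, ← S.π_conj pz h3, ← M.π_inv h3, mul_inv_rev, inv_inv, inv_eq_of_mul_eq_one_right tt, mul_assoc p,
        mul_assoc _ p⁻¹, pi, pp, mul_one])
    obtain ⟨d, hd, rfl⟩ := M.surj u
    rw [← rp, ← S.π_conj pz hd, ← M.π_inv (S.hy.cmem pz hd), add_comm, ← M.π_mul hd (inv_mem (S.hy.cmem pz hd)),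
      M.π_eq (mul_mem hd (inv_mem (S.hy.cmem pz hd))) h3] at hu
    refine tr g (m * d⁻¹) (mul_mem hm (inv_mem (hC d (S.hy.cz hd)))) (hQ _ ?_)
    rw [show m * d⁻¹ * g * z * (m * d⁻¹ * g)⁻¹ = m * (d⁻¹ * (g * z * g⁻¹ * p⁻¹ * p) * d) * m⁻¹ by group]
    rcases hu with e | e <;> rw [e]
    · rwa [show d⁻¹ * (d * (p * d * p⁻¹)⁻¹ * p) * d = p by group]
    · rw [mul_assoc _ z, ← pz.eq, ← mul_assoc _ p, mul_assoc d⁻¹, mul_assoc _ z, ← (S.hy.cz hd).eq,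
        show d⁻¹ * (d * (p * d * p⁻¹)⁻¹ * p * (d * z)) = p * z by group, ← conj_mul]
      refine mul_mem mp ?_
      rw [B.minv, B.mz]
      exact S.nb.mem
  · obtain ⟨t, ht, e⟩ := M.surj (e 3)
    have h0 : M.π t ≠ 0 := by rw [e]; decide +kernel
    refine ⟨t, orderOf_eq_prime (by rw [pow_two, ← M.q_zero ht, e]; decide +kernel)
      fun e' => h0 ((M.π_zero ht).mpr (Or.inl e')), fun hc => ?_⟩
    obtain ⟨a, i, k⟩ := (S.O_iff _).1 ⟨t, ⟨hc, ht, fun e' => h0 ((M.π_zero ht).mpr (Or.inr e'))⟩, e⟩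
    exact npt a i k

end CL.N9.M8
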