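/-
Extraspecial `F*(C(z))` of order `2 ^ 9`, the case `S₃ × A₅`: the transfer against `S₃ × S₅`.
-/
import Cfsg.Agent.N9.M8D

set_option autoImplicit false
set_option linter.unusedSectionVars false

namespace CL.N9.M8

open Cfsg Subgroup CL.Even CL.Grp CL.WC CL.Cls QuadraticMap Module Equiv

universe u

namespace KAj

theorem fpf (v : V8) : (act ρ0 v = v → v = 0) ∧ act ρ0 v + act ρ0 (act ρ0 v) = v := by
  simp only [act_ρ0]
  revert v
  decide +kernel

theorem fixss (v : V8) (h0 : v 0 = v 6) (h1 : v 1 = v 7) : act ss v = v := by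
  rw [act_ss]
  revert v
  decide +kernel

theorem pol0 (v : V8) (h : v 2 = v 5) : polar qp v (e 2 + e 5) = 0 := by
  rw [pol_app]
  revert v
  decide +kernel

variable {G : Type u} [Group G] [Finite G] {z x : G} {M : OM qp z} {r : G → X} (S : St z x M r)
  {t : G} (hz : Commute t z) (hr : r t = ρ0)
include S hz hr

theorem T1 {p : G} (hp : p ∈ QQ z) (h : Commute t p) : p = 1 ∨ p = z :=
  (M.π_zero hp).1 ((fpf _).1 (by rw [← hr, ← S.π_conj hz hp, cfix h]))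

theorem T2 (h3 : t ^ 3 = 1) {t' : G} (hz' : Commute t' z) (hr' : r t' = ρ0) (h3' : t' ^ 3 = 1) :
    ∃ p ∈ QQ z, p * t * p⁻¹ = t' := by
  have hd := (S.r_eq hz' hz).1 (hr'.trans hr.symm)
  obtain ⟨p, hp, e⟩ := M.surj (act ρ0 (M.π (t' * t⁻¹)))
  have h1 := S.hy.cmem hz (inv_mem hp)
  have h2 : M.π (p * (t * p⁻¹ * t⁻¹)) = M.π (t' * t⁻¹) := by
    rw [M.π_mul hp h1, S.π_conj hz (inv_mem hp), M.π_inv hp, e, hr, (fpf _).2]
  refine ⟨p, hp, ?_⟩
  rcases (M.π_eq (mul_mem hp h1) hd).1 h2 with h | h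
  · exact mul_right_cancel (b := t⁻¹) (by rw [h]; group)
  · have c : Commute (p * t * p⁻¹) z := ((S.hy.cz hp).mul_left hz).mul_left (S.hy.cz hp).inv_left
    have k : t' = p * t * p⁻¹ * z := by
      rw [mul_inv_eq_iff_eq_mul] at h
      rw [h, mul_assoc _ z, ← hz.eq]; group
    rw [k, c.mul_pow, conj_pow, h3, mul_one, mul_inv_cancel, one_mul, pow_succ, pow_two, S.zz, one_mul] at h3'
    exact absurd h3' S.z1

theorem claim {s a : G} (sz : Commute s z) (st : Commute s t) (ha : a ∈ QQ z) (h : act (r s) (M.π a) = M.π a) :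
    Commute s a := by
  rcases (M.π_eq ha (S.hy.cmem sz ha)).1 (by rw [S.π_conj sz ha, h]) with k | k
  · exact mul_inv_eq_iff_eq_mul.1 k
  have step : ∀ b, s * b * s⁻¹ = b * z → s * (t * b * t⁻¹) * s⁻¹ = t * b * t⁻¹ * z := fun b e => by
    calc _ = s * t * b * (s * t)⁻¹ := by group
      _ = t * (s * b * s⁻¹) * t⁻¹ := by rw [st.eq]; group
      _ = _ := by rw [e, mul_assoc _ t⁻¹, hz.inv_left.eq]; group
  have h1 := S.hy.cmem hz ha
  have h2 := S.hy.cmem hz h1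
  have k1 := step _ k
  have k2 := step _ k1
  have k3 : s * (t * a * t⁻¹ * (t * (t * a * t⁻¹) * t⁻¹)) * s⁻¹ = t * a * t⁻¹ * (t * (t * a * t⁻¹) * t⁻¹) := by
    rw [← conj_mul, k1, k2, mul_assoc _ z, ← mul_assoc z, ← (S.hy.cz h2).eq, mul_assoc _ z, S.zz, mul_one]
  refine mul_inv_eq_iff_eq_mul.1 ?_
  rcases (M.π_eq (mul_mem h1 h2) ha).1 (by
    rw [M.π_mul h1 h2, S.π_conj hz h1, S.π_conj hz ha, hr, (fpf _).2]) with e | e
  · rwa [← e] at k3
  · rw [e, ← conj_mul, k3, cfix sz]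

end KAj

open KAj

theorem ka : KA.{u} := by
  intro G _ _ z x M r S hev
  obtain ⟨c0, z0, h0⟩ : ∃ c, Commute c z ∧ Perm.sign (r c).2 ≠ 1 := by
    by_contra h
    push Not at h
    exact hev h
  obtain ⟨c1, z1, h1⟩ := S.sur ((r c0)⁻¹ * ss) (by
    rw [Prod.snd_mul, Prod.snd_inv, map_mul, map_inv, (Int.units_eq_one_or _).resolve_left h0]; decide +kernel)
  have cz := z0.mul_left z1
  have rc : r (c0 * c1) = ss := by rw [S.r_mul z0 z1, h1, mul_inv_cancel_left]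
  generalize c0 * c1 = c at cz rc
  obtain ⟨t, tz, rt, t3⟩ := S.lift3 (w := ρ0) (by decide +kernel) (by decide +kernel)
  obtain ⟨p, hp, e1⟩ := T2 S tz rt t3 ((cz.mul_left tz).mul_left cz.inv_left)
    (by rw [S.r_conj cz tz, rc, rt]; decide +kernel) (by rw [conj_pow, t3, mul_one, mul_inv_cancel])
  have sz : Commute (p⁻¹ * c) z := (S.hy.cz hp).inv_left.mul_left cz
  have rs : r (p⁻¹ * c) = ss := by rw [S.r_mul (S.hy.cz hp).inv_left cz, S.r_Q (inv_mem hp), one_mul, rc]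
  have st : Commute (p⁻¹ * c) t := mul_inv_eq_iff_eq_mul.1 (by
    calc _ = p⁻¹ * (c * t * c⁻¹) * p := by group
      _ = t := by rw [← e1]; group)
  generalize p⁻¹ * c = s at sz rs st
  have s2 := T1 S tz rt ((S.r_ker (sz.mul_left sz)).1 (by rw [S.r_mul sz sz, rs]; decide +kernel))
    (st.symm.mul_right st.symm)
  obtain ⟨p0, hp0, e0⟩ := M.surj (e 2 + e 5)
  have p2 : p0 * p0 = z := (S.hy.xe.sq_cases hp0).resolve_left fun k =>
    absurd ((M.q_zero hp0).2 k) (by rw [e0]; decide +kernel)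
  have sp : Commute s p0 := claim S tz rt sz st hp0 (by rw [rs, e0]; decide +kernel)
  obtain ⟨s', a1, a2, a3, a4⟩ : ∃ s', Commute s' z ∧ r s' = ss ∧ s' * s' = 1 ∧
      ∀ a, Commute a s → Commute a p0 → Commute a s' := by
    rcases s2 with k | k
    · exact ⟨s, sz, rs, k, fun _ h _ => h⟩
    · refine ⟨s * p0, sz.mul_left (S.hy.cz hp0), by rw [S.r_mul sz (S.hy.cz hp0), S.r_Q hp0, mul_one, rs], ?_,
        fun _ h h' => h.mul_right h'⟩
      rw [← pow_two, sp.mul_pow, pow_two, pow_two, k, p2, S.zz]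
  let K : Subgroup G :=
    { carrier := {c | Commute c z ∧ Perm.sign (r c).2 = 1}
      one_mem' := ⟨Commute.one_left z, by rw [S.r_one]; exact Perm.sign_one⟩
      mul_mem' := fun ha hb => ⟨ha.1.mul_left hb.1, by
        rw [S.r_mul ha.1 hb.1, Prod.snd_mul, map_mul, ha.2, hb.2, mul_one]⟩
      inv_mem' := fun ha => ⟨ha.1.inv_left, by rw [S.r_inv ha.1, Prod.snd_inv, map_inv, ha.2, inv_one]⟩ }
  have mK : ∀ c, c ∈ K ↔ Commute c z ∧ Perm.sign (r c).2 = 1 := fun _ => Iff.rfl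
  have hK : IT z K := ⟨fun _ hc => cm_iff.2 hc.1, fun a ha b hb => by
    have ha := cm_iff.1 ha
    have hb := cm_iff.1 hb
    simp only [mK, ha, hb, ha.mul_left hb, true_and, S.r_mul ha hb, Prod.snd_mul, map_mul]
    generalize Perm.sign (r a).2 = i, Perm.sign (r b).2 = j
    rcases Int.units_eq_one_or i with rfl | rfl <;> rcases Int.units_eq_one_or j with rfl | rfl <;> decide⟩
  have : Fact (Nat.Prime 2) := ⟨Nat.prime_two⟩
  obtain ⟨g, g1, g2, -⟩ := exists_fixed2 S.hy.res (R := QQ z ⊓ (centralizer {s} ⊓ centralizer {p0})) hK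
    (IsPGroup.of_card (n := 9) S.hy.card).to_inf_left (fun a ha => S.hy.cz ha.1)
    (fun a ha => a4 a (cm_iff.1 ha.2.1) (cm_iff.1 ha.2.2)) a1 (fun k => absurd k.2 (by rw [a2]; decide +kernel)) a3
  refine ⟨_, isConj_iff.2 ⟨g, rfl⟩, g1, (g2 z ⟨S.hy.zQ, cm_iff.2 sz.symm, cm_iff.2 (S.hy.cz hp0).symm⟩).symm,
    fun a ha k0 k1 k2 => (g2 a ⟨ha, cm_iff.2 (claim S tz rt sz st ha ?_).symm, cm_iff.2 ((M.b_zero ha hp0).1 ?_)⟩).symm⟩
  · rw [rs, fixss _ k0 k1]
  · rw [e0, pol0 _ k2]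

end CL.N9.M8
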