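/-
Extraspecial `F*(C(z))` of order `2 ^ 9`, the case `S₃ × A₅`: the conjugate produced by the transfer does not exist.
-/
import Cfsg.Agent.N9.M8D

set_option autoImplicit false
set_option linter.unusedSectionVars false

namespace CL.N9.M8

open Cfsg Subgroup CL.Even CL.Grp CL.WC CL.Cls QuadraticMap Module Equiv

universe u

namespace KCx

def U : List V8 := [e 0 + e 6, e 1 + e 7, e 3, e 4, e 2 + e 5]
def D : List V8 := [0, e 0 + e 6, e 1 + e 7, e 0 + e 1 + e 6 + e 7]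

theorem f0 : ∀ u ∈ U, u 0 = u 6 ∧ u 1 = u 7 ∧ u 2 = u 5 := by decide +kernel
theorem f1 : ∀ a i, ¬ ∀ u ∈ U, polar qp (pt a i) u = 0 := by simp only [pol_app]; decide +kernel
theorem f2 : ∀ v : V8, qp v = 0 → (∀ u ∈ U, polar qp v u = 0) → v ∈ D := by simp only [pol_app, qp_app]; decide +kernel
theorem f3 : ∀ w : X, (∀ u ∈ U, u + act w u ∈ D) → w = 1 ∨ w = ss := by decide +kernel
theorem f4 : ∀ v ∈ D, ∀ w ∈ D, v 0 = w 0 → v 1 = w 1 → v = w := by decide +kernel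

end KCx

open KCx

theorem kc (hB : KB.{u}) : KC.{u} := by
  intro G _ _ z x M r S y Y
  have hy := S.hy.of Y.ic
  have lf : ∀ u ∈ U, ∃ a ∈ QQ z, M.π a = u ∧ Commute y a := fun u hu => by
    obtain ⟨a, ha, rfl⟩ := M.surj u
    exact ⟨a, ha, rfl, Y.cm a ha (f0 _ hu).1 (f0 _ hu).2.1 (f0 _ hu).2.2⟩
  have h1 : y ∉ QQ z := fun m => by
    obtain ⟨a, i, k⟩ := (S.O_iff _).1 ⟨y, ⟨Y.ic, m, Y.ne⟩, rfl⟩
    refine f1 a i fun u hu => ?_
    obtain ⟨b, hb, rfl, c⟩ := lf u hu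
    exact k ▸ (M.b_zero m hb).2 c
  have h2 : z ∉ QQ y := fun m => h1 (hy.symm ⟨Y.ic.symm, m, Y.ne.symm⟩).mem
  have h3 : ∀ d ∈ QQ z, d ∈ QQ y → M.π d ∈ D := fun d d1 d2 =>
    f2 _ ((M.q_zero d1).2 ((S.hy.xe.sq_cases d1).resolve_right fun k => h2 (k ▸ mul_mem d2 d2))) fun u hu => by
      obtain ⟨b, hb, rfl, c⟩ := lf u hu
      exact (M.b_zero d1 hb).2 ((S.hy.xe.cj_cases hb d1).resolve_right fun k =>
        h2 ((mul_mem_cancel_right d2).1 (k ▸ hy.cmem c.symm d2))).symm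
  have h4 : ∀ k ∈ QQ y, Commute k z → r k = 1 ∨ r k = ss := fun k k1 k2 => f3 _ fun u hu => by
    obtain ⟨b, hb, rfl, c⟩ := lf u hu
    rw [← S.act_eq k2, ← M.π_cmt S.hy k2 hb]
    exact h3 _ (S.hy.xe.cmt_mem k2 hb) (mul_mem (hy.cmem c.symm k1) (inv_mem k1))
  let φ : (QQ y ⊓ centralizer ({z} : Set G) : Subgroup G) →* X :=
    MonoidHom.mk' (fun k => r k) fun a b => S.r_mul (cm_iff.1 a.2.2) (cm_iff.1 b.2.2)
  have c1 : Nat.card φ.ker ≤ Nat.card (ZMod 2 × ZMod 2) :=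
    Nat.card_le_card_of_injective (fun d => (M.π d.1.1 0, M.π d.1.1 1)) fun a b k => by
      have a1 := (S.r_ker (cm_iff.1 a.1.2.2)).1 a.2
      have b1 := (S.r_ker (cm_iff.1 b.1.2.2)).1 b.2
      refine Subtype.ext (Subtype.ext (((M.π_eq a1 b1).1 (f4 _ (h3 _ a1 a.1.2.1) _ (h3 _ b1 b.1.2.1) (congrArg Prod.fst k)
        (congrArg Prod.snd k))).resolve_right fun j => h2 ((mul_mem_cancel_left (mem_inf.1 a.1.2).1).1
          (j ▸ (mem_inf.1 b.1.2).1))).symm)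
  have c2 : Nat.card φ.range ≤ Nat.card Bool :=
    Nat.card_le_card_of_injective (fun w => decide (w.1 = 1)) fun ⟨_, a, rfl⟩ ⟨_, b, rfl⟩ k => Subtype.ext (by
      have k := decide_eq_decide.1 k
      rcases h4 _ a.2.1 (cm_iff.1 a.2.2) with i | i
      · exact i.trans (k.1 i).symm
      · exact (h4 _ b.2.1 (cm_iff.1 b.2.2)).elim (fun j => (k.2 j).trans j.symm) fun j => i.trans j.symm)
  have c3 := φ.ker.card_mul_index
  have c4 := hB G z y S.hy Y.ic Y.yz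
  rw [index_ker] at c3
  rw [Nat.card_prod, Nat.card_zmod] at c1
  rw [Nat.card_eq_fintype_card (α := Bool), Fintype.card_bool] at c2
  have := Nat.mul_le_mul c1 c2
  omega

end CL.N9.M8
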