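/-
Extraspecial `F*(C(z))` of order `2 ^ 9`, the case `S₃ × A₅` (helper12): assembly.
-/
import Cfsg.Agent.N9.M8BR
import Cfsg.Agent.N9.M8CTU

set_option autoImplicit false

namespace CL.N9.M8

open Cfsg Subgroup CL.Even CL.Grp CL.WC CL.Cls QuadraticMap Module Equiv

universe u

theorem CT.prod {G H : Type*} [Group G] [Group H] {b m a₀ n₀ a h n : G} {b' m' a₀' n₀' a' h' n' : H}
    (C : CT b m a₀ n₀ a h n) (D : CT b' m' a₀' n₀' a' h' n') :
    CT (b, b') (m, m') (a₀, a₀') (n₀, n₀') (a, a') (h, h') (n, n') :=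
  ⟨Prod.ext C.bsq D.bsq, Prod.ext C.msq D.msq, Prod.ext C.a₀sq D.a₀sq, Prod.ext C.n₀sq D.n₀sq, Prod.ext C.asq D.asq,
    Prod.ext C.nsq D.nsq, Prod.ext C.h3 D.h3, Prod.ext C.bm D.bm, Prod.ext C.ord₀ D.ord₀, Prod.ext C.ord D.ord,
    Prod.ext C.ah D.ah, Prod.ext C.nh D.nh, Prod.ext C.a₀a D.a₀a, Prod.ext C.a₀h D.a₀h, Prod.ext C.a₀n D.a₀n,
    Prod.ext C.n₀a D.n₀a, Prod.ext C.n₀h D.n₀h, Prod.ext C.n₀n D.n₀n, Prod.ext C.hb D.hb, Prod.ext C.hm D.hm,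
    Prod.ext C.nb D.nb, Prod.ext C.ma₀ D.ma₀, Prod.ext C.mc D.mc, Prod.ext C.ma D.ma, Prod.ext C.br₀ D.br₀,
    Prod.ext C.br D.br⟩

theorem map_gen {G H : Type*} [Group G] [Group H] (φ : G →* H) (b m a₀ n₀ a h n : G) :
    (gen b m a₀ n₀ a h n).map φ = gen (φ b) (φ m) (φ a₀) (φ n₀) (φ a) (φ h) (φ n) := by
  simp only [gen, MonoidHom.map_closure, Set.image_insert_eq, Set.image_singleton]

theorem recog (o : CTO) (c : CTM) {G : Type u} [Group G] [Nontrivial G] {b m a₀ n₀ a h n : G}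
    (C : CT b m a₀ n₀ a h n) (hg : gen b m a₀ n₀ a h n = ⊤) : Nonempty (G ≃* Om) := by
  obtain ⟨b', m', a₀', n₀', a', h', n', D, hc⟩ := c
  obtain ⟨hs, ho⟩ := o
  have hfin : Finite Om := Nat.finite_of_card_ne_zero (by rw [ho]; norm_num)
  have h1 : gen b' m' a₀' n₀' a' h' n' = ⊤ := eq_top_of_le_card _ (by rw [ho]; exact hc)
  obtain ⟨hf, hk⟩ := ctu (G × Om) _ _ _ _ _ _ _ (C.prod D)
  set K := gen (b, b') (m, m') (a₀, a₀') (n₀, n₀') (a, a') (h, h') (n, n')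
  have s1 : Function.Surjective ((MonoidHom.fst G Om).comp K.subtype) := by
    rw [← MonoidHom.range_eq_top, MonoidHom.range_comp, range_subtype, map_gen]; exact hg
  have s2 : Function.Surjective ((MonoidHom.snd G Om).comp K.subtype) := by
    rw [← MonoidHom.range_eq_top, MonoidHom.range_comp, range_subtype, map_gen]; exact h1
  let e := MulEquiv.ofBijective _ ((Nat.bijective_iff_surjective_and_card _).2
    ⟨s2, le_antisymm (ho ▸ hk) (Nat.card_le_card_of_surjective _ s2)⟩)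
  let φ := ((MonoidHom.fst G Om).comp K.subtype).comp e.symm.toMonoidHom
  have s3 : Function.Surjective φ := s1.comp e.symm.surjective
  refine ⟨(MulEquiv.ofBijective φ ⟨(MonoidHom.ker_eq_bot_iff φ).1
    ((φ.normal_ker.eq_bot_or_eq_top).resolve_right fun e => ?_), s3⟩).symm⟩
  obtain ⟨y, hy⟩ := exists_ne (1 : G)
  obtain ⟨x, rfl⟩ := s3 y
  exact hy (e.ge (mem_top x))

theorem case_of (ka : KA.{u}) (kc : KC.{u}) (r0 : R0.{u}) (r1 : R1.{u}) (r2a : R2a.{u}) (r2b : R2b.{u})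
    (r3a : R3a.{u}) (r3b : R3b.{u}) (r3c : R3c.{u}) (f1 : F1.{u}) (f2 : F2.{u}) (f3 : F3.{u}) (o : CTO) (c' : CTM) :
    Case.{u} d15 := by
  intro G _ _ _ hG z hy M₀ D
  obtain ⟨x, M, r, S⟩ := exists_St hy M₀ D
  have E : Ev z r := by
    by_contra k
    obtain ⟨y, Y⟩ := ka G z x M r S k
    exact kc G z x M r S y Y
  obtain ⟨h, b, m, B⟩ := r0 G z x M r S
  obtain ⟨y, c, f, a₀, a, R⟩ := r1 G z x M r S h b m B
  obtain ⟨t, T⟩ := r2a G z x M r S h b m y c f a₀ a R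
  obtain ⟨n₀, n, L⟩ := r2b G z x M r S h b m y c f a₀ a t R T
  obtain ⟨e1, e2, e3, e4⟩ := r3a G z x M r S h b m y c f a₀ a n₀ n R L
  have h1 := f1 G z x M r S E h b m y c f a₀ a n₀ n R L
  obtain ⟨h2, h3⟩ := f2 G z x M r S E h b m y c f a₀ a R _ h1 (subset_closure (by simp))
  have h4 := f3 G z x M r S E inferInstance hG _ h1 h2 h3
  have yy : y * y = 1 := (M.q_zero R.yQ).1 (by rw [R.πy]; decide +kernel)
  have ff : f * f = 1 := (M.q_zero R.fQ).1 (by rw [R.πf]; decide +kernel)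
  have cc : c * c = 1 := (M.q_zero R.cQ).1 (by rw [R.πc]; decide +kernel)
  have yf : Commute y f := (M.b_zero R.yQ R.fQ).1 (by rw [R.πy, R.πf, pol_app]; decide +kernel)
  have hy' : Commute h y := by refine B.hfix S R.yQ ?_ ?_ ?_ ?_ <;> rw [R.πy] <;> rfl
  have mh : m * h * m = h := by rw [← B.hm.eq, mul_assoc, B.msq, mul_one]
  have C : CT b m a₀ n₀ a h n := by
    refine ⟨B.bsq S, B.msq, ?_, L.n₀sq, ?_, L.nsq, B.h3, B.bm, L.ord₀, L.ord, ?_, L.nh, ?_, ?_, L.a₀n, L.n₀a, L.n₀h,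
      L.n₀n, B.hb S, B.hm, by rw [L.nb, R.com₀], by rw [R.com₀, R.ha₀, B.mm], ?_, ?_,
      r3b G z x M r S h b m y c f a₀ a n₀ n R L e2, r3c G z x M r S h b m y c f a₀ a n₀ n R L e1 e4⟩
    · rw [R.ha₀, ← B.mmul, yy, mul_one, B.msq]
    · rw [R.ha, ← B.mmul, ff, mul_one, B.msq]
    · have := congrArg (fun g => m * g * m⁻¹) R.fh
      simp only [← conj_pow, mul_one, mul_inv_cancel] at this
      rwa [B.minv, B.mmul, mh, ← R.ha] at this
    · rw [R.ha₀, R.ha]; exact B.mcm yf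
    · rw [R.ha₀, ← mh]; exact B.mcm hy'.symm
    · rw [e3, Commute, SemiconjBy, ← mul_left_inj m, R.mc, mul_assoc, B.msq, mul_one]
    · rw [e3, R.com, R.ha, B.mm, mul_assoc, cc, mul_one]
  exact Or.inl ⟨ZMod 2, inferInstance, inferInstance, ZMod.card 2, Or.inr (Or.inr ⟨1, 1, by decide, recog o c' C h4⟩)⟩

end CL.N9.M8
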