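/-
Extraspecial `F*(C(z))` of order `2 ^ 9`, the case `S₃ × A₅`: the torus and the central node.
-/
import Cfsg.Agent.N9.M8D
import Cfsg.Agent.Spor.O8R1

set_option autoImplicit false

namespace CL.N9.M8

open Cfsg Subgroup CL.Even CL.Grp CL.WC CL.Cls QuadraticMap Module Equiv

universe u

namespace R0

variable {G : Type u} [Group G] [Finite G] {z x h : G}

/-- an involution of `Q_x` that commutes with `h` and moves `z` -/
theorem exists_y (hx : Hy x) (n : Nb x z) (zz : z * z = 1) (c1 : Commute h x) (c2 : Commute h z) (h3 : h ^ 3 = 1) :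
    ∃ y ∈ QQ x, y * y = 1 ∧ Commute h y ∧ y * z * y⁻¹ = z * x := by
  obtain ⟨d, hd, e⟩ := hx.swap n
  have xz : Commute x z := hx.zt n
  have st : ∀ a ∈ QQ x, a * z * a⁻¹ = x * z → h * a * h⁻¹ * z * (h * a * h⁻¹)⁻¹ = x * z := fun a _ k => by
    calc _ = h * (a * (h⁻¹ * z * h⁻¹⁻¹) * a⁻¹) * h⁻¹ := by group
      _ = _ := by rw [cfix c2.inv_left, k, cfix (c1.mul_right c2)]
  have m1 := hx.cmem c1 hd
  have m2 := hx.cmem c1 m1
  have e1 := st _ hd e
  have e2 := st _ m1 e1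
  have e3 : h * (h * (h * d * h⁻¹) * h⁻¹) * h⁻¹ = d := by
    calc _ = h ^ 3 * d * (h ^ 3)⁻¹ := by rw [pow_three]; group
      _ = _ := by rw [h3]; group
  obtain ⟨u, hu, uz, hc⟩ : ∃ u ∈ QQ x, u * z * u⁻¹ = x * z ∧ h * u * h⁻¹ = d⁻¹ * u * d⁻¹⁻¹ := by
    refine ⟨d * (h * d * h⁻¹) * (h * (h * d * h⁻¹) * h⁻¹), mul_mem (mul_mem hd m1) m2, ?_, ?_⟩
    · have k : ∀ a ∈ QQ x, a * z * a⁻¹ = x * z → a * (x * z) * a⁻¹ = z := fun a ha k => by
        rw [← conj_mul, k, cfix (hx.cz ha), ← mul_assoc, hx.zz, one_mul]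
      generalize h * (h * d * h⁻¹) * h⁻¹ = d2 at e2
      generalize h * d * h⁻¹ = d1 at m1 e1
      calc _ = d * (d1 * (d2 * z * d2⁻¹) * d1⁻¹) * d⁻¹ := by group
        _ = _ := by rw [e2, k _ m1 e1, e]
    · rw [← conj_mul, ← conj_mul, e3]; group
  have hu' : Commute h u := by
    rcases hx.xe.cj_cases (inv_mem hd) hu with k | k
    · rw [cfix k] at hc
      exact mul_inv_eq_iff_eq_mul.1 hc
    · rw [k] at hc
      have k2 : h ^ 3 * u * (h ^ 3)⁻¹ = h * (h * (h * u * h⁻¹) * h⁻¹) * h⁻¹ := by rw [pow_three]; group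
      have k3 : h * (x * u) * h⁻¹ = u := by rw [← conj_mul, hc, cfix c1, ← mul_assoc, hx.zz, one_mul]
      rw [h3, hc, k3, hc] at k2
      exact absurd (by simpa using k2) hx.ne_one
  rcases hx.xe.sq_cases hu with k | k
  · exact ⟨u, hu, k, hu', uz.trans xz.eq⟩
  · refine ⟨u * z, mul_mem hu n.mem, ?_, hu'.mul_right c2, ?_⟩
    · calc _ = u * z * u⁻¹ * (u * u) * z := by group
        _ = 1 := by rw [uz, k, mul_assoc x, ← xz.eq, ← mul_assoc, hx.zz, one_mul, zz]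
    · calc _ = u * z * u⁻¹ := by group
        _ = _ := uz.trans xz.eq

end R0

theorem r0 : R0.{u} := by
  intro G _ _ z x M r S
  obtain ⟨h, hz, rh, h3⟩ := S.lift3 (w := hh) (by decide +kernel) (by decide +kernel)
  obtain ⟨b, bQ, πb⟩ := M.surj (e 0)
  have hx : Commute h x := S.fix3 hz h3 S.nb.mem (by rw [rh, S.πx]; decide +kernel)
  have hb : Commute h b := S.fix3 hz h3 bQ (by rw [rh, πb]; decide +kernel)
  have bb : b * b = 1 := (M.q_zero bQ).1 (by rw [πb]; decide +kernel)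
  have bx := S.conj_eq bQ S.nb.mem (by rw [πb, S.πx, pol_app]; decide +kernel)
  have bz := S.hy.cz bQ
  obtain ⟨y, yP, yy, hy, yz⟩ := R0.exists_y (S.hy.nb S.nb) (S.hy.symm S.nb) S.zz hx hz h3
  have c : ∀ {g}, Commute h g → g ∈ centralizer ({h} : Set G) := fun k => mem_centralizer_singleton_iff.2 k.symm
  obtain ⟨m, mm, bm, m1, -⟩ := CL.O8.exists_swap (G := centralizer ({h} : Set G)) (z := ⟨z, c hz⟩) (x := ⟨x, c hx⟩)
    (b := ⟨b, c hb⟩) (y := ⟨y, c hy⟩) (Subtype.ext bb) (Subtype.ext yy) (Subtype.ext S.zz) (Subtype.ext S.xx)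
    (Subtype.ext S.xz.symm) (Subtype.ext bz) (Subtype.ext bx) (Subtype.ext ((S.hy.nb S.nb).cz yP)) (Subtype.ext yz)
    fun c1 _ => Subtype.ext (by
      have c1 : Commute ((b * y) ^ 3) z := congrArg Subtype.val c1
      change ((b * y) ^ 3) ^ 8 = 1
      have k : b * (b * y) ^ 3 * b⁻¹ = ((b * y) ^ 3)⁻¹ := by
        rw [← conj_pow, ← inv_pow, ← mul_assoc, bb, one_mul, mul_inv_rev, inv_eq_of_mul_eq_one_right yy]
      generalize (b * y) ^ 3 = w at c1 k
      have k1 := S.r_conj bz c1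
      rw [k, S.r_Q bQ, S.r_inv c1, one_mul, inv_one, mul_one] at k1
      have k2 : w * w ∈ QQ z := (S.r_ker (c1.mul_left c1)).1 (by
        rw [S.r_mul c1 c1]; exact mul_eq_one_iff_inv_eq.2 k1)
      rw [show w ^ 8 = w * w * (w * w) * (w * w * (w * w)) by simp only [pow_succ, pow_zero, one_mul, mul_assoc]]
      rcases S.hy.xe.sq_cases k2 with k3 | k3 <;> rw [k3]
      exacts [one_mul 1, S.zz])
  have mm' : (m : G) * m = 1 := congrArg Subtype.val mm
  have m1' : (m : G) * z * (m : G)⁻¹ = x := congrArg Subtype.val m1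
  exact ⟨h, b, m, hz, rh, h3, bQ, πb, mm', congrArg Subtype.val bm, by rwa [inv_eq_of_mul_eq_one_right mm'] at m1',
    (mem_centralizer_singleton_iff.1 m.2).symm⟩

end CL.N9.M8
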