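/-
Extraspecial `F*(C(z))` of order `2 ^ 9`, the case `S₃ × A₅` (helper90, job of helper12): the root elements.
-/
import Cfsg.Agent.N9.M8D

set_option autoImplicit false
set_option linter.unusedSectionVars false

namespace CL.N9.M8

open Cfsg Subgroup CL.Even CL.Grp CL.WC CL.Cls QuadraticMap Module Equiv

universe u

namespace R1x

theorem act_e0 (w : X) (k : Fin 8) : act w (e 0) k = mat w k 0 := by
  simp [act, e]

theorem key1 : ∀ w : X, InA w → 0 + (mat w 0 0 + 1) = 0 → 1 + (mat w 1 0 + 0) = 0 → 0 + (mat w 2 0 + 0) = 0 →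
    0 + (mat w 4 0 + 0) = 0 → w = s0 := by decide +kernel

theorem key2 : ∀ w : X, InA w → 0 + (mat w 0 0 + 1) = 0 → 0 + (mat w 1 0 + 0) = 0 → 1 + (mat w 2 0 + 0) = 0 →
    0 + (mat w 4 0 + 0) = 0 → w = aa := by decide +kernel

theorem key3 : ∀ v : V8, v + act hh v + act hh (act hh v) = 0 → polar qp (e 0) v = 0 := by
  intro v h
  have h7 := congrFun h 7
  simp only [act_hh, Pi.add_apply] at h7
  have h7' : v 7 + v 7 + v 7 = 0 := h7
  rw [z2_add, zero_add] at h7'
  rw [pol_app, h7']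
  simp [e]

variable {G : Type u} [Group G] [Finite G] {z x : G} {M : OM qp z} {r : G → X} {h b m : G}

theorem cube {g : G} (h3 : h ^ 3 = 1) : (g * h) ^ 3 = g * (h * g * h⁻¹) * (h * (h * g * h⁻¹) * h⁻¹) := by
  calc _ = g * (h * g * h⁻¹) * (h * (h * g * h⁻¹) * h⁻¹) * h ^ 3 := by rw [pow_three, pow_three]; group
    _ = _ := by rw [h3, mul_one]

theorem cube_π (S : St z x M r) (B : B0 z x M r h b m) {g : G} (hg : g ∈ QQ z) :
    (g * h) ^ 3 ∈ QQ z ∧ M.π ((g * h) ^ 3) = M.π g + act hh (M.π g) + act hh (act hh (M.π g)) := by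
  have h1 := S.hy.cmem B.hz hg
  have h2 := S.hy.cmem B.hz h1
  rw [cube B.h3]
  refine ⟨mul_mem (mul_mem hg h1) h2, ?_⟩
  rw [M.π_mul (mul_mem hg h1) h2, M.π_mul hg h1, S.π_conj B.hz h1, S.π_conj B.hz hg, B.rh]

theorem keyK (S : St z x M r) (B : B0 z x M r h b m) {f a : G} (ha : a = m * f * m) (fQ : f ∈ QQ z)
    (ff : f * f = 1) (fb : Commute f b) (fx : Commute f x) :
    Commute a z ∧ InA (r a) ∧ f * (a * b * a * b) ∈ QQ z ∧
      M.π (f * (a * b * a * b)) = M.π f + (act (r a) (e 0) + e 0) ∧ f * (a * b * a * b) ∈ QQ x ∧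
      (act (r a) (M.π f) = M.π f → m * (f * (a * b * a * b)) * m = f * (a * b * a * b)) := by
  have hx : Hy x := S.hy.nb S.nb
  have bb := B.bsq S
  have aP : a ∈ QQ x := ha ▸ B.mQ.2 fQ
  have az : Commute a z := by
    have := B.mcm fx
    rwa [B.mx, ← ha] at this
  have aa' : a * a = 1 := by rw [ha, ← B.mmul, ff, mul_one, B.msq]
  have ai := inv_eq_of_mul_eq_one_right aa'
  have fi := inv_eq_of_mul_eq_one_right ff
  have bi := inv_eq_of_mul_eq_one_right bb
  have mam : m * a * m = f := by rw [ha, B.mm]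
  have q1 : a * b * a ∈ QQ z := by
    have := S.hy.cmem az B.bQ
    rwa [ai] at this
  have q2 : M.π (a * b * a) = act (r a) (e 0) := by
    have := S.π_conj az B.bQ
    rwa [ai, B.πb] at this
  have bfb : b * f * b = f := by rw [← fb.eq, mul_assoc, bb, mul_one]
  have e2 : b * a * b = m * b * m * f * (m * b * m) := by
    rw [B.br S, ha]
    calc _ = b * m * (b * f * b) * m * b := by rw [bfb]; group
      _ = _ := by group
  have e3 : m * (b * a * b) * m = b * a * b := by rw [B.mmul, B.mmul, mam, ← e2]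
  have yP : m * b * m ∈ QQ x := B.mQ.2 B.bQ
  have yx : Commute (m * b * m) x := hx.cz yP
  have cx : Commute (b * a * b) x := e2 ▸ (yx.mul_left fx).mul_left yx
  have h1 : b * a * b * f ∈ QQ x := by
    have := mul_mem yP (hx.cmem fx yP)
    rwa [fi, ← mul_assoc, ← mul_assoc, ← e2] at this
  have dP : f * (a * b * a * b) ∈ QQ x := by
    have := hx.cmem cx.inv_left (mul_mem h1 aP)
    rwa [show (b * a * b)⁻¹ * (b * a * b * f * a) * (b * a * b)⁻¹⁻¹ = f * (a * b * a * b) by group] at this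
  refine ⟨az, S.L_in aP az, mul_mem fQ (mul_mem q1 B.bQ), ?_, dP, fun k => ?_⟩
  · rw [M.π_mul fQ (mul_mem q1 B.bQ), M.π_mul q1 B.bQ, q2, B.πb]
  · have fa : a * f = f * a := by
      rcases (M.π_eq fQ (S.hy.cmem az fQ)).1 (by rw [S.π_conj az fQ, k]) with k1 | k1
      · exact mul_inv_eq_iff_eq_mul.1 k1
      · exfalso
        rw [ai] at k1
        have k2 : f * a * f = a * x := by
          have := congrArg (fun t => m * t * m) k1
          simp only [B.mmul, mam, ← ha, B.mz] at this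
          exact this
        have k3 : a * f * (a * f) = z := by
          rw [← mul_assoc, k1, (S.hy.cz fQ).eq, mul_assoc, ff, mul_one]
        have k4 : f * a * (f * a) = x := by
          rw [← mul_assoc, k2, (hx.cz aP).eq, mul_assoc, aa', mul_one]
        have k5 : x * z = 1 := by
          rw [← k3, ← k4]
          calc _ = f * a * (f * (a * a) * f) * a * f := by group
            _ = 1 := by rw [aa', mul_one, ff, mul_one, mul_assoc f, aa', mul_one, ff]
        exact S.nb.ne (by rw [eq_inv_of_mul_eq_one_left k5, inv_eq_of_mul_eq_one_right S.zz])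
    calc _ = m * (f * (a * (b * a * b))) * m := by group
      _ = a * (f * (b * a * b)) := by rw [B.mmul, B.mmul _ (b * a * b), e3, mam, ← ha]
      _ = _ := by rw [← mul_assoc, fa]; group

theorem bcm (S : St z x M r) (B : B0 z x M r h b m) {g : G} (hg : g ∈ QQ z) (h3 : (g * h) ^ 3 = 1) :
    Commute b g := by
  refine (M.b_zero B.bQ hg).1 ?_
  rw [B.πb]
  refine key3 _ ?_
  rw [← (cube_π S B hg).2, h3, M.π_one]

theorem mg (S : St z x M r) (B : B0 z x M r h b m) (g : G) (hg : g ∈ QQ z) (hg' : g ∈ QQ x)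
    (h3 : (g * h) ^ 3 = 1) : m * g * m = g := by
  have c1 := bcm S B hg h3
  have mh : m * h * m = h := by rw [← B.hm.eq, mul_assoc, B.msq, mul_one]
  have c2 : Commute b (m * g * m) := bcm S B (B.mQ'.2 hg') (by
    rw [← mh, ← B.mmul, pow_three, ← B.mmul, ← B.mmul, ← pow_three, h3, mul_one, B.msq])
  have c3 := B.mcm c2
  rw [B.mm] at c3
  have c4 := (c1.mul_left c3).mul_left c1
  rw [B.br S, ← mul_assoc, ← mul_assoc, B.bsq S, one_mul, mul_assoc, B.bsq S, mul_one] at c4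
  rw [c4.eq, mul_assoc, B.msq, mul_one]

theorem exf (S : St z x M r) (B : B0 z x M r h b m) : ∃ f ∈ QQ z, M.π f = e 2 ∧ (f * h) ^ 3 = 1 := by
  obtain ⟨f, fQ, πf⟩ := M.surj (e 2)
  obtain ⟨k1, k2⟩ := cube_π S B fQ
  rcases (M.π_zero k1).1 (by rw [k2, πf, act_hh, act_hh]; decide +kernel) with k | k
  · exact ⟨f, fQ, πf, k⟩
  · refine ⟨f * z, mul_mem fQ S.hy.zQ, ?_, ?_⟩
    · rw [← πf]; exact ((M.π_eq fQ (mul_mem fQ S.hy.zQ)).2 (Or.inr rfl)).symm
    · rw [mul_assoc, ← B.hz.eq, ← mul_assoc, ((S.hy.cz fQ).mul_left B.hz).mul_pow, k, pow_three, S.zz, mul_one,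
        S.zz]

end R1x

open R1x in
theorem r1 : R1.{u} := by
  intro G _ _ z x M r S h b m B
  obtain ⟨y, yQ, πy⟩ := M.surj (e 1)
  obtain ⟨f, fQ, πf, fh⟩ := exf S B
  have yy : y * y = 1 := (M.q_zero yQ).1 (by rw [πy]; decide +kernel)
  have ff : f * f = 1 := (M.q_zero fQ).1 (by rw [πf]; decide +kernel)
  obtain ⟨y1, y2, y3, y4, y5, y6⟩ := keyK S B rfl yQ yy
    ((M.b_zero yQ B.bQ).1 (by rw [πy, B.πb, pol_app]; decide +kernel))
    ((M.b_zero yQ S.nb.mem).1 (by rw [πy, S.πx, pol_app]; decide +kernel))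
  obtain ⟨f1, f2, f3, f4, f5, f6⟩ := keyK S B rfl fQ ff
    ((M.b_zero fQ B.bQ).1 (by rw [πf, B.πb, pol_app]; decide +kernel))
    ((M.b_zero fQ S.nb.mem).1 (by rw [πf, S.πx, pol_app]; decide +kernel))
  have ry : r (m * y * m) = s0 := by
    obtain ⟨k0, k1, k2, k4⟩ := (S.E_iff y3).1 y5
    rw [y4, πy, Pi.add_apply, Pi.add_apply, act_e0] at k0 k1 k2 k4
    exact key1 _ y2 k0 k1 k2 k4
  have rf : r (m * f * m) = aa := by
    obtain ⟨k0, k1, k2, k4⟩ := (S.E_iff f3).1 f5
    rw [f4, πf, Pi.add_apply, Pi.add_apply, act_e0] at k0 k1 k2 k4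
    exact key2 _ f2 k0 k1 k2 k4
  have y7 := y6 (by rw [ry, πy, act_s0]; decide +kernel)
  have f7 := f6 (by rw [rf, πf, act_aa]; decide +kernel)
  refine ⟨y, _, f, _, _, B, yQ, πy, f3, ?_, fQ, πf, rfl, rfl, y1, f1, ry, rf, ?_, ?_, f7, fh, mg S B⟩
  · rw [f4, rf, πf, act_aa]; decide +kernel
  · rcases (M.π_zero y3).1 (by rw [y4, ry, πy, act_s0]; decide +kernel) with k | k
    · rw [eq_inv_of_mul_eq_one_right k, inv_eq_of_mul_eq_one_right yy]
    · rw [k, B.mz] at y7
      exact absurd y7 S.nb.ne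
  · rw [← mul_assoc f f, ff, one_mul]

end CL.N9.M8
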