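/-
Extraspecial `F*(C(z))` of order `2 ^ 9`, the case `S₃ × A₅`: an element of order three normalised by the
root elements (port of `Spor/O8R2`).
-/
import Cfsg.Agent.N9.M8D

set_option autoImplicit false
set_option linter.unusedSectionVars false

namespace CL.N9.M8

open Cfsg Subgroup CL.Even CL.Grp CL.WC CL.Cls QuadraticMap Module Equiv

universe u

namespace R2ax

def a2 : X := hh * aa * hh⁻¹

theorem act_a2 (v : V8) : act a2 v = ![v 0, v 1, v 2, v 3, v 0 + v 4, v 1 + v 5, v 0 + v 2 + v 6, v 1 + v 3 + v 7] := by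
  rw [show a2 = hh * (aa * (hh * hh)) by decide +kernel]
  simp only [act_mul, act_hh, act_aa]
  revert v; decide +kernel

theorem fpf (v : V8) : (act ρ0 v = v → v = 0) ∧ act ρ0 v + act ρ0 (act ρ0 v) = v := by
  simp only [act_ρ0]
  revert v; decide +kernel

theorem l0 (v : V8) (h : act s0 v = v) : ∃ u, act s0 u + u = v := by
  refine ⟨![v 1, 0, v 3, 0, v 5, 0, v 7, 0], ?_⟩
  simp only [act_s0] at *
  revert v; decide +kernel

theorem l1 (v : V8) (h : act aa v = v) (h0 : act s0 v = v) : ∃ u, act aa u + u = v ∧ act s0 u = u := by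
  refine ⟨![0, v 3, 0, 0, 0, v 3 + v 7, 0, 0], ?_⟩
  simp only [act_s0, act_aa] at *
  revert v; decide +kernel

theorem l3 (v : V8) (h : act a2 v = v) (h0 : act s0 v = v) (h1 : act aa v = v) : v = 0 ∨ v = e 7 := by
  simp only [act_s0, act_aa, act_a2] at *
  revert v; decide +kernel

theorem l2 (v : V8) (h : act a2 v = v) (h0 : act s0 v = v) (h1 : act aa v = v) :
    ∃ u, act a2 u + u = v ∧ act s0 u = u ∧ act aa u = u := by
  rcases l3 v h h0 h1 with rfl | rfl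
  · exact ⟨0, by simp only [act_s0, act_aa, act_a2]; decide +kernel⟩
  · exact ⟨e 3, by simp only [act_s0, act_aa, act_a2]; decide +kernel⟩

variable {G : Type u} [Group G] [Finite G] {z x : G} {M : OM qp z} {r : G → X} (S : St z x M r)
include S

omit S in
theorem cjq {p p' : G} (hp : p ∈ QQ z) (hp' : p' ∈ QQ z) (h : M.π p = M.π p') {t : G} (ht : Commute t z) :
    p * t * p⁻¹ = p' * t * p'⁻¹ := by
  rcases (M.π_eq hp' hp).1 h.symm with rfl | rfl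
  · rfl
  · rw [mul_inv_rev, mul_assoc p', ← ht.eq]; group

theorem ne3 {t t' : G} (ht : Commute t z) (h : t ^ 3 = 1) (h' : t' ^ 3 = 1) : t' ≠ t * z := by
  rintro rfl
  rw [ht.mul_pow, h, one_mul, pow_succ, pow_two, S.zz, one_mul] at h'
  exact S.z1 h'

variable {t : G} (hz : Commute t z) (hr : r t = ρ0) (h3 : t ^ 3 = 1)
include hz hr

theorem T1 {p : G} (hp : p ∈ QQ z) (h : Commute t p) : M.π p = 0 :=
  (fpf _).1 (by rw [← hr, ← S.π_conj hz hp, h.eq, mul_inv_cancel_right])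

theorem T1' {p p' : G} (hp : p ∈ QQ z) (hp' : p' ∈ QQ z) {ε : ℤ} (hε : ε * ε = 1)
    (h : p * t ^ ε * p⁻¹ = p' * t ^ ε * p'⁻¹) : M.π p = M.π p' := by
  have h1 : Commute (t ^ ε) (p'⁻¹ * p) := by
    rw [Commute, SemiconjBy, ← mul_left_cancel_iff (a := p'), ← mul_right_cancel_iff (a := p⁻¹)]
    calc _ = p' * t ^ ε * p'⁻¹ := by group
      _ = _ := by rw [← h]; group
  have h2 := T1 S hz hr (mul_mem (inv_mem hp') hp) (by simpa [← zpow_mul, hε] using h1.zpow_left ε)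
  rw [M.π_mul (inv_mem hp') hp, M.π_inv hp'] at h2
  exact (add_eq_zero2.1 h2).symm

include h3

theorem T2 {t' : G} (hz' : Commute t' z) (hr' : r t' = ρ0) (h3' : t' ^ 3 = 1) : ∃ p ∈ QQ z, p * t * p⁻¹ = t' := by
  have hd := (S.r_eq hz' hz).1 (hr'.trans hr.symm)
  obtain ⟨p, hp, e⟩ := M.surj (act ρ0 (M.π (t' * t⁻¹)))
  have h1 := S.hy.cmem hz (inv_mem hp)
  have h2 : M.π (p * (t * p⁻¹ * t⁻¹)) = M.π (t' * t⁻¹) := by
    rw [M.π_mul hp h1, S.π_conj hz (inv_mem hp), M.π_inv hp, e, hr, (fpf _).2]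
  refine ⟨p, hp, ?_⟩
  rcases (M.π_eq hd (mul_mem hp h1)).1 h2.symm with h | h
  · exact mul_right_cancel (b := t⁻¹) (by rw [← h]; group)
  · refine (ne3 S (t' := p * t * p⁻¹) hz' h3' (by rw [conj_pow, h3]; simp) (mul_right_cancel (b := t⁻¹) ?_)).elim
    rw [mul_assoc t', ← hz.inv_left.eq, ← mul_assoc t', ← h]; group

omit h3 hr in
theorem keep {a p : G} (ha : Commute a z) (hp : p ∈ QQ z) (h : act (r a) (M.π p) = M.π p) {ε : ℤ}
    (e : a * t * a⁻¹ = t ^ ε) : a * (p * t * p⁻¹) * a⁻¹ = (p * t * p⁻¹) ^ ε := by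
  rw [conj_zpow, ← cjq (S.hy.cmem ha hp) hp ((S.π_conj ha hp).trans h) (hz.zpow_left ε), ← e]
  group

omit h3 in
theorem both {b p : G} {δ : ℤ} (hδ : δ * δ = 1) (hb : Commute b z) (hp : p ∈ QQ z) (hbt : b * t * b⁻¹ = t ^ δ)
    (e2 : b * (p * t * p⁻¹) * b⁻¹ = (p * t * p⁻¹) ^ δ) : act (r b) (M.π p) = M.π p := by
  rw [← S.π_conj hb hp]
  refine T1' S hz hr (S.hy.cmem hb hp) hp hδ ?_
  rw [← conj_zpow (a := p), ← e2, ← hbt]; group

theorem step {a : G} (ha : a * a = 1) (haz : Commute a z) {ε : ℤ} (hε : ε = 1 ∨ ε = -1)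
    (h : r a * ρ0 * (r a)⁻¹ = ρ0 ^ ε) : ∃ v : V8, act (r a) v = v ∧
      (∀ (b : G) (δ : ℤ), δ * δ = 1 → Commute b z → Commute a b → b * t * b⁻¹ = t ^ δ → act (r b) v = v) ∧
      ∀ p ∈ QQ z, act (r a) (M.π p) + M.π p = v → a * (p * t * p⁻¹) * a⁻¹ = (p * t * p⁻¹) ^ ε := by
  have h0 : ε * ε = 1 := by rcases hε with rfl | rfl <;> rfl
  have h1 : Commute (a * t * a⁻¹) z := (haz.mul_left hz).mul_left haz.inv_left
  obtain ⟨p, hp, e⟩ := T2 S hz hr h3 (t' := (a * t * a⁻¹) ^ ε) (h1.zpow_left ε) (by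
    rcases hε with rfl | rfl
    · rw [zpow_one, S.r_conj haz hz, hr, h, zpow_one]
    · rw [zpow_neg_one, S.r_inv h1, S.r_conj haz hz, hr, h, zpow_neg_one, inv_inv]) (by
    rw [← zpow_natCast, ← zpow_mul, mul_comm, zpow_mul, zpow_natCast, conj_pow, h3]; simp)
  have e1 : a * t * a⁻¹ = p * t ^ ε * p⁻¹ := by rw [← conj_zpow, e, ← zpow_mul, h0, zpow_one]
  have h2 := S.hy.cmem haz hp
  have ha' := inv_eq_of_mul_eq_one_right ha
  refine ⟨M.π p, ?_, fun b δ hδ hb hab hbt => ?_, fun p' hp' e' => ?_⟩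
  · rw [← S.π_conj haz hp, ← M.π_inv h2]
    refine T1' S hz hr (inv_mem h2) hp h0 ?_
    have e2 : t ^ ε = a * (p * t * p⁻¹) * a⁻¹ := by
      rw [e, conj_zpow, ha', ← mul_assoc, ← mul_assoc, ha, one_mul, mul_assoc, ha, mul_one]
    rw [← e1, e2]; group
  · refine both S hz hr hδ hb hp hbt ?_
    rw [e, ← zpow_mul, mul_comm ε, zpow_mul, conj_zpow (a := a) (i := δ), ← hbt, ← conj_zpow]
    congr 1
    calc _ = b * a * t * (b * a)⁻¹ := by group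
      _ = _ := by rw [← hab.eq]; group
  · have h4 := S.hy.cmem haz hp'
    rw [conj_zpow, ← cjq (mul_mem h4 hp) hp' (by
      rw [M.π_mul h4 hp, S.π_conj haz hp', ← e', aac]) (hz.zpow_left ε)]
    calc _ = a * p' * a⁻¹ * (a * t * a⁻¹) * (a * p' * a⁻¹)⁻¹ := by group
      _ = _ := by rw [e1]; group

omit hz hr h3 in
theorem three {a₀ a b : G} (s₀ : a₀ * a₀ = 1) (s₁ : a * a = 1) (s₂ : b * b = 1) (z₀ : Commute a₀ z)
    (z₁ : Commute a z) (z₂ : Commute b z) (r₀ : r a₀ = s0) (r₁ : r a = aa) (r₂ : r b = a2) (c₁ : Commute a a₀)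
    (c₂ : Commute b a₀) (c₃ : Commute b a) : ∃ t, Commute t z ∧ r t = ρ0 ∧ t ^ 3 = 1 ∧
      a₀ * t * a₀⁻¹ = t ^ (-1 : ℤ) ∧ a * t * a⁻¹ = t ^ (1 : ℤ) ∧ b * t * b⁻¹ = t ^ (1 : ℤ) := by
  have cc : ∀ {t p : G}, Commute t z → r t = ρ0 → t ^ 3 = 1 → p ∈ QQ z →
      Commute (p * t * p⁻¹) z ∧ r (p * t * p⁻¹) = ρ0 ∧ (p * t * p⁻¹) ^ 3 = 1 := fun hz hr h3 hp =>
    ⟨((S.hy.cz hp).mul_left hz).mul_left (S.hy.cz hp).inv_left,
      by rw [S.r_conj (S.hy.cz hp) hz, S.r_Q hp, hr]; simp, by rw [conj_pow, h3]; simp⟩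
  obtain ⟨t, hz, hr, h3, e0⟩ : ∃ t, Commute t z ∧ r t = ρ0 ∧ t ^ 3 = 1 ∧ a₀ * t * a₀⁻¹ = t ^ (-1 : ℤ) := by
    obtain ⟨c, hc, e, h2⟩ := S.lift3 (w := ρ0) (by decide +kernel) (by decide +kernel)
    obtain ⟨v, v1, -, v3⟩ := step S hc e h2 s₀ z₀ (Or.inr rfl) (by rw [r₀]; decide +kernel)
    rw [r₀] at v1 v3
    obtain ⟨u, hu⟩ := l0 v v1
    obtain ⟨p, hp, rfl⟩ := M.surj u
    obtain ⟨c1, c2, c3⟩ := cc hc e h2 hp
    exact ⟨_, c1, c2, c3, v3 p hp hu⟩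
  obtain ⟨t, hz, hr, h3, e0, e1⟩ : ∃ t, Commute t z ∧ r t = ρ0 ∧ t ^ 3 = 1 ∧ a₀ * t * a₀⁻¹ = t ^ (-1 : ℤ) ∧
      a * t * a⁻¹ = t ^ (1 : ℤ) := by
    obtain ⟨v, v1, v2, v3⟩ := step S hz hr h3 s₁ z₁ (Or.inl rfl) (by rw [r₁]; decide +kernel)
    have v4 := v2 _ _ rfl z₀ c₁ e0
    rw [r₁] at v1 v3
    rw [r₀] at v4
    obtain ⟨u, hu, hu0⟩ := l1 v v1 v4
    obtain ⟨p, hp, rfl⟩ := M.surj u
    obtain ⟨c1, c2, c3⟩ := cc hz hr h3 hp
    exact ⟨_, c1, c2, c3, keep S hz z₀ hp (by rwa [r₀]) e0, v3 p hp hu⟩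
  obtain ⟨v, v1, v2, v3⟩ := step S hz hr h3 s₂ z₂ (Or.inl rfl) (by rw [r₂]; decide +kernel)
  have v4 := v2 _ _ rfl z₀ c₂ e0
  have v5 := v2 _ _ rfl z₁ c₃ e1
  rw [r₂] at v1 v3
  rw [r₀] at v4
  rw [r₁] at v5
  obtain ⟨u, hu, hu0, hu1⟩ := l2 v v1 v4 v5
  obtain ⟨p, hp, rfl⟩ := M.surj u
  obtain ⟨c1, c2, c3⟩ := cc hz hr h3 hp
  exact ⟨_, c1, c2, c3, keep S hz z₀ hp (by rwa [r₀]) e0, keep S hz z₁ hp (by rwa [r₁]) e1, v3 p hp hu⟩

end R2ax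

open R2ax in
theorem r2a : R2a.{u} := by
  intro G _ _ z x M r S h b m y c f a₀ a R
  have B := R.toB0
  have f2Q := S.hy.cmem B.hz R.fQ
  have πf2 : M.π (h * f * h⁻¹) = e 4 := by rw [S.π_conj B.hz R.fQ, B.rh, R.πf, act_hh]; decide +kernel
  have hc : ∀ g, h * (m * g * m) * h⁻¹ = m * (h * g * h⁻¹) * m := fun g => by
    calc _ = h * m * g * (m * h⁻¹) := by group
      _ = _ := by rw [B.hm.eq, ← B.hm.inv_left.eq]; group
  have e2 : h * a * h⁻¹ = m * (h * f * h⁻¹) * m := by rw [R.ha, hc]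
  have sq : ∀ {g}, g ∈ QQ z → qp (M.π g) = 0 → m * g * m * (m * g * m) = 1 := fun hg k => by
    rw [← B.mmul, (M.q_zero hg).1 k, mul_one, B.msq]
  have cm : ∀ {g k}, g ∈ QQ z → k ∈ QQ z → polar qp (M.π g) (M.π k) = 0 → Commute (m * g * m) (m * k * m) :=
    fun hg hk l => B.mcm ((M.b_zero hg hk).1 l)
  have z₂ : Commute (h * a * h⁻¹) z := (B.hz.mul_left R.az).mul_left B.hz.inv_left
  have r₂ : r (h * a * h⁻¹) = a2 := by rw [S.r_conj B.hz R.az, B.rh, R.ra]; rfl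
  have s₀ : a₀ * a₀ = 1 := R.ha₀ ▸ sq R.yQ (by rw [R.πy]; decide +kernel)
  obtain ⟨t, hz, hr, h3, e0, e1, e3⟩ := three S s₀ (R.ha ▸ sq R.fQ (by rw [R.πf]; decide +kernel))
    (e2 ▸ sq f2Q (by rw [πf2]; decide +kernel)) R.a₀z R.az z₂ R.ra₀ R.ra r₂
    (by rw [R.ha, R.ha₀]; exact cm R.fQ R.yQ (by rw [R.πf, R.πy, pol_app]; decide +kernel))
    (by rw [e2, R.ha₀]; exact cm f2Q R.yQ (by rw [πf2, R.πy, pol_app]; decide +kernel))
    (by rw [e2, R.ha]; exact cm f2Q R.fQ (by rw [πf2, R.πf, pol_app]; decide +kernel))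
  have t1 : Commute a t := mul_inv_eq_iff_eq_mul.1 (e1.trans (zpow_one t))
  have t2 : Commute (h * a * h⁻¹) t := mul_inv_eq_iff_eq_mul.1 (e3.trans (zpow_one t))
  refine ⟨t, hz, hr, h3, by rw [← zpow_neg_one, ← e0, inv_eq_of_mul_eq_one_right s₀], t1.symm, ?_⟩
  obtain ⟨p, hp, ep⟩ := T2 S hz hr h3 (t' := h * t * h⁻¹) ((B.hz.mul_left hz).mul_left B.hz.inv_left)
    (by rw [S.r_conj B.hz hz, B.rh, hr]; decide +kernel) (by rw [conj_pow, h3]; simp)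
  have hy : Commute h y := by
    refine B.hfix S R.yQ ?_ ?_ ?_ ?_ <;> rw [R.πy] <;> rfl
  have ha₀ : Commute h a₀ := R.ha₀ ▸ (B.hm.mul_right hy).mul_right B.hm
  have u2 : Commute (h * a * h⁻¹) (h * t * h⁻¹) := t1.conj h
  have u1 : Commute a (h * t * h⁻¹) := by
    have k1 : f * (h * f * h⁻¹ * (h * (h * f * h⁻¹) * h⁻¹)) = 1 := by
      calc _ = (f * h) ^ 3 * (h ^ 3)⁻¹ := by rw [pow_three, pow_three]; group
        _ = 1 := by rw [R.fh, B.h3, inv_one, one_mul]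
    have k2 : a * (h * a * h⁻¹ * (h * (h * a * h⁻¹) * h⁻¹)) = 1 := by
      rw [e2, hc, R.ha, ← B.mmul, ← B.mmul, k1, mul_one, B.msq]
    rw [eq_inv_of_mul_eq_one_left k2]
    exact (u2.mul_left (t2.conj h)).inv_left
  have v0 := both S hz hr (δ := -1) rfl R.a₀z hp e0 (by
    rw [ep, conj_zpow, ← e0]
    calc _ = a₀ * h * t * (a₀ * h)⁻¹ := by group
      _ = _ := by rw [← ha₀.eq]; group)
  have v1 := both S hz hr (δ := 1) rfl R.az hp e1 (by rw [ep, zpow_one, u1.eq, mul_inv_cancel_right])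
  have v2 := both S hz hr (δ := 1) rfl z₂ hp e3 (by rw [ep, zpow_one, u2.eq, mul_inv_cancel_right])
  rw [R.ra₀] at v0
  rw [R.ra] at v1
  rw [r₂] at v2
  rcases l3 _ v2 v0 v1 with k | k
  · rw [cjq hp (one_mem _) (k.trans M.π_one.symm) hz, one_mul, inv_one, mul_one] at ep
    exact (show Commute h t from mul_inv_eq_iff_eq_mul.1 ep.symm).symm
  · rw [cjq hp S.nb.mem (k.trans S.πx.symm) hz] at ep
    have hx : Commute h x := by
      refine B.hfix S S.nb.mem ?_ ?_ ?_ ?_ <;> rw [S.πx] <;> rfl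
    have k1 : h * (x * t * x⁻¹) * h⁻¹ = t := by
      calc _ = h * x * t * (h * x)⁻¹ := by group
        _ = x * (h * t * h⁻¹) * x⁻¹ := by rw [hx.eq]; group
        _ = x * x * t * (x * x)⁻¹ := by rw [← ep]; group
        _ = t := by rw [S.xx]; group
    have k2 : h ^ 3 * t * (h ^ 3)⁻¹ = h * (h * (h * t * h⁻¹) * h⁻¹) * h⁻¹ := by rw [pow_three]; group
    rw [B.h3, ← ep, k1, ← ep, one_mul, inv_one, mul_one] at k2
    have k3 := T1 S hz hr S.nb.mem (show Commute x t from mul_inv_eq_iff_eq_mul.1 k2.symm).symm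
    rw [S.πx] at k3
    exact absurd k3 (by decide +kernel)

end CL.N9.M8
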