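/-
Extraspecial `F*(C(z))` of order `2 ^ 9`, the case `S₃ × A₅` (helper38): the Levi complement.
-/
import Cfsg.Agent.N9.M8D

set_option autoImplicit false
set_option linter.unusedSectionVars false

namespace CL.N9.M8

open Cfsg Subgroup CL.Even CL.Grp CL.WC CL.Cls QuadraticMap Module Equiv

universe u

namespace R2bx

theorem fpf (v : V8) : (act ρ0 v = v → v = 0) ∧ act ρ0 v + act ρ0 (act ρ0 v) = v := by
  simp only [act_ρ0]
  revert v
  decide +kernel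

variable {G : Type u} [Group G] [Finite G] {z x : G} {M : OM qp z} {r : G → X} (S : St z x M r)
include S

theorem ne3 {t t' : G} (ht : Commute t z) (h : t ^ 3 = 1) (h' : t' ^ 3 = 1) : t' ≠ t * z := by
  rintro rfl
  rw [ht.mul_pow, h, one_mul, pow_succ, pow_two, S.zz, one_mul] at h'
  exact S.z1 h'

theorem four {c : G} (hc : Commute c z) (h : r c ^ 3 = 1) : r (c ^ 4) = r c ∧ (c ^ 4) ^ 3 = 1 := by
  refine ⟨by rw [S.r_pow hc, pow_succ, h, one_mul], ?_⟩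
  rw [← pow_mul, show 4 * 3 = 3 * 2 * 2 by rfl, pow_mul, pow_mul, pow_two (c ^ 3)]
  rcases S.hy.xe.sq_cases ((S.r_ker (hc.pow_left 3)).1 (by rw [S.r_pow hc, h])) with k | k <;> rw [k]
  exacts [one_pow 2, (pow_two z).trans S.zz]

variable {t : G} (hz : Commute t z) (hr : r t = ρ0)
include hz hr

theorem T1 {p : G} (hp : p ∈ QQ z) (h : Commute t p) : M.π p = 0 :=
  (fpf _).1 (by rw [← hr, ← S.π_conj hz hp, cfix h])

theorem uniq {a b : G} (ha : Commute a z) (hb : Commute b z) (ha' : Commute t a) (hb' : Commute t b)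
    (a3 : a ^ 3 = 1) (b3 : b ^ 3 = 1) (h : r a = r b) : a = b := by
  have hd := (S.r_eq ha hb).1 h
  rcases (M.π_zero hd).1 (T1 S hz hr hd (ha'.mul_right hb'.inv_right)) with e | e
  · exact mul_inv_eq_one.1 e
  · exact (ne3 S hb b3 a3 (by rw [hb.eq, ← e, inv_mul_cancel_right])).elim

theorem T2 (h3 : t ^ 3 = 1) {t' : G} (hz' : Commute t' z) (hr' : r t' = ρ0) (h3' : t' ^ 3 = 1) :
    ∃ p ∈ QQ z, p * t * p⁻¹ = t' := by
  have hd := (S.r_eq hz' hz).1 (hr'.trans hr.symm)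
  obtain ⟨p, hp, e⟩ := M.surj (act ρ0 (M.π (t' * t⁻¹)))
  have h1 := S.hy.cmem hz (inv_mem hp)
  have h2 : M.π (p * (t * p⁻¹ * t⁻¹)) = M.π (t' * t⁻¹) := by
    rw [M.π_mul hp h1, S.π_conj hz (inv_mem hp), M.π_inv hp, e, hr, (fpf _).2]
  refine ⟨p, hp, ?_⟩
  rcases (M.π_eq hd (mul_mem hp h1)).1 h2.symm with h | h
  · exact mul_right_cancel (b := t⁻¹) (by rw [← h]; group)
  · refine (ne3 S (t' := p * t * p⁻¹) hz' h3' (by rw [conj_pow, h3]; simp) (mul_right_cancel (b := t⁻¹) ?_)).elim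
    rw [mul_assoc t', ← hz.inv_left.eq, ← mul_assoc t', ← h]; group

theorem lift (h3 : t ^ 3 = 1) : ∃ k, Commute k z ∧ Commute t k ∧ r k = aa * nn ∧ k ^ 3 = 1 := by
  obtain ⟨c, hc, e⟩ := S.sur (aa * nn) (by decide +kernel)
  obtain ⟨p, hp, e'⟩ := T2 S hz hr h3 (t' := c * t * c⁻¹) ((hc.mul_left hz).mul_left hc.inv_left)
    (by rw [S.r_conj hc hz, e, hr]; decide +kernel) (by rw [conj_pow, h3]; simp)
  have h1 := (S.hy.cz hp).inv_left.mul_left hc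
  have h2 : r (p⁻¹ * c) = aa * nn := by rw [S.r_mul (S.hy.cz hp).inv_left hc, S.r_Q (inv_mem hp), one_mul, e]
  obtain ⟨h4, h5⟩ := four S h1 (by rw [h2]; decide +kernel)
  refine ⟨_, h1.pow_left 4, Commute.pow_right ?_ 4, h4.trans h2, h5⟩
  calc t * (p⁻¹ * c) = p⁻¹ * (p * t * p⁻¹) * c := by group
    _ = _ := by rw [e']; group

end R2bx

open R2bx in
theorem r2b : R2b.{u} := by
  intro G _ _ z x M r S h b m y c f a₀ a t R T
  have B := R.toB0
  have yy : y * y = 1 := (M.q_zero R.yQ).1 (by rw [R.πy]; decide +kernel)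
  have ff : f * f = 1 := (M.q_zero R.fQ).1 (by rw [R.πf]; decide +kernel)
  have yf : Commute y f := (M.b_zero R.yQ R.fQ).1 (by rw [R.πy, R.πf, pol_app]; decide +kernel)
  have a₀sq : a₀ * a₀ = 1 := by rw [R.ha₀, ← B.mmul, yy, mul_one, B.msq]
  have asq : a * a = 1 := by rw [R.ha, ← B.mmul, ff, mul_one, B.msq]
  have a₀i := inv_eq_of_mul_eq_one_right a₀sq
  have ai := inv_eq_of_mul_eq_one_right asq
  have a₀a : Commute a₀ a := by rw [R.ha₀, R.ha]; exact B.mcm yf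
  have hy : Commute h y := by refine B.hfix S R.yQ ?_ ?_ ?_ ?_ <;> rw [R.πy] <;> rfl
  have a₀h : Commute a₀ h := by rw [R.ha₀]; exact ((B.hm.mul_right hy).mul_right B.hm).symm
  obtain ⟨k, kz, tk, rk, k3⟩ := lift S T.tz T.rt T.t3
  have key : ∀ {g p q : G}, Commute g z → (g * t * g⁻¹ = t ∨ g * t * g⁻¹ = t⁻¹) → Commute p z → Commute t p →
      p ^ 3 = 1 → Commute q z → Commute t q → q ^ 3 = 1 → r g * r p * (r g)⁻¹ = r q → g * p * g⁻¹ = q := by
    intro g p q gz e p1 p2 p3 q1 q2 q3 hh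
    refine uniq S T.tz T.rt ((gz.mul_left p1).mul_left gz.inv_left) q1 ?_ q2 (by rw [conj_pow, p3]; simp) q3
      (by rw [S.r_conj gz p1, hh])
    have := p2.conj g
    rcases e with e | e <;> rw [e] at this
    exacts [this, by simpa using this.inv_left]
  have ak : a * k * a⁻¹ = k⁻¹ := key R.az (.inl (cfix T.ta.symm)) kz tk k3 kz.inv_left tk.inv_right
    (by rw [inv_pow, k3, inv_one]) (by rw [S.r_inv kz, R.ra, rk]; decide +kernel)
  have a₀k : Commute a₀ k := mul_inv_eq_iff_eq_mul.1 (key R.a₀z (.inr (by rw [a₀i, T.a₀t])) kz tk k3 kz tk k3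
    (by rw [R.ra₀, rk]; decide +kernel))
  have nz : Commute (a * k) z := R.az.mul_left kz
  have rn : r (a * k) = nn := by rw [S.r_mul R.az kz, R.ra, rk]; decide +kernel
  have nsq : a * k * (a * k) = 1 := by
    rw [← mul_assoc]
    nth_rewrite 2 [← ai]
    rw [ak, inv_mul_cancel]
  have nh : a * k * h * (a * k)⁻¹ = h⁻¹ := key nz (.inl (cfix (T.ta.mul_right tk).symm)) B.hz T.th B.h3
    B.hz.inv_left T.th.inv_right (by rw [inv_pow, B.h3, inv_one]) (by rw [S.r_inv B.hz, rn, B.rh]; decide +kernel)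
  have n₀z : Commute (a₀ * t) z := R.a₀z.mul_left T.tz
  have rn₀ : r (a₀ * t) = ν0 := by rw [S.r_mul R.a₀z T.tz, R.ra₀, T.rt]; decide +kernel
  have n₀sq : a₀ * t * (a₀ * t) = 1 := by rw [← mul_assoc, T.a₀t, inv_mul_cancel]
  have ord₀ : (a₀ * (a₀ * t)) ^ 3 = 1 := by rw [← mul_assoc, a₀sq, one_mul, T.t3]
  have ord : (a * (a * k)) ^ 3 = 1 := by rw [← mul_assoc, asq, one_mul, k3]
  have nh2 : (a * k * h) ^ 2 = 1 := by
    rw [pow_two, ← mul_assoc]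
    nth_rewrite 2 [← inv_eq_of_mul_eq_one_right nsq]
    rw [nh, inv_mul_cancel]
  have a₀n : Commute a₀ (a * k) := a₀a.mul_right a₀k
  have n₀a : Commute (a₀ * t) a := a₀a.mul_left T.ta
  have n₀h : Commute (a₀ * t) h := a₀h.mul_left T.th
  have n₀n : Commute (a₀ * t) (a * k) := a₀n.mul_left (T.ta.mul_right tk)
  generalize a₀ * t = n₀ at n₀z rn₀ n₀sq ord₀ n₀a n₀h n₀n
  generalize a * k = n at nz rn nsq ord nh2 a₀n n₀n
  have n₀i := inv_eq_of_mul_eq_one_right n₀sq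
  rcases (M.π_eq R.yQ (S.hy.cmem n₀z B.bQ)).1 (by
    rw [S.π_conj n₀z B.bQ, rn₀, B.πb, R.πy, act_ν0]; decide +kernel) with e | e
  · exact ⟨n₀, n, n₀sq, nsq, n₀z, nz, rn₀, rn, ord₀, ord, nh2, a₀n, n₀a, n₀h, n₀n, by rwa [n₀i] at e⟩
  have xQ := S.nb.mem
  have xi := inv_eq_of_mul_eq_one_right S.xx
  have xz := S.xz
  have xa₀ : x * a₀ * x⁻¹ = a₀ := cfix ((S.hy.nb S.nb).cz (R.ha₀ ▸ B.mQ.2 R.yQ)).symm
  have xa : x * a * x⁻¹ = a := cfix ((S.hy.nb S.nb).cz (R.ha ▸ B.mQ.2 R.fQ)).symm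
  have xh : x * h * x⁻¹ = h := cfix (by refine (B.hfix S xQ ?_ ?_ ?_ ?_).symm <;> rw [S.πx] <;> rfl)
  have xy : x * y * x⁻¹ = y := cfix ((M.b_zero xQ R.yQ).1 (by rw [S.πx, R.πy, pol_app]; decide +kernel))
  have xb : x⁻¹ * b * x = b * z := by
    have := S.conj_eq xQ B.bQ (by rw [S.πx, B.πb, pol_app]; decide +kernel)
    rwa [xi] at this ⊢
  refine ⟨x * n₀ * x⁻¹, x * n * x⁻¹, by rw [conj_mul, n₀sq, mul_one, mul_inv_cancel],
    by rw [conj_mul, nsq, mul_one, mul_inv_cancel], (xz.mul_left n₀z).mul_left xz.inv_left,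
    (xz.mul_left nz).mul_left xz.inv_left, by rw [S.r_conj xz n₀z, S.r_Q xQ, rn₀]; simp,
    by rw [S.r_conj xz nz, S.r_Q xQ, rn]; simp, ?_, ?_, ?_, ?_, ?_, ?_, n₀n.conj x, ?_⟩
  · rw [← xa₀, conj_mul, conj_pow, ord₀, mul_one, mul_inv_cancel]
  · rw [← xa, conj_mul, conj_pow, ord, mul_one, mul_inv_cancel]
  · rw [← xh, conj_mul, conj_pow, nh2, mul_one, mul_inv_cancel]
  · rw [← xa₀]; exact a₀n.conj x
  · rw [← xa]; exact n₀a.conj x
  · rw [← xh]; exact n₀h.conj x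
  · calc x * n₀ * x⁻¹ * b * (x * n₀ * x⁻¹) = x * (n₀ * (x⁻¹ * b * x) * n₀) * x⁻¹ := by group
      _ = x * (n₀ * b * n₀⁻¹ * z) * x⁻¹ := by rw [xb, n₀i, ← mul_assoc n₀, mul_assoc _ z, ← n₀z.eq, ← mul_assoc (n₀ * b)]
      _ = y := by rw [e, mul_assoc y, S.zz, mul_one, xy]

end CL.N9.M8
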