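/-
Extraspecial `F*(C(z))` of order `2 ^ 9`, the case `S₃ × A₅`: the action of the Weyl elements on the root elements.
-/
import Cfsg.Agent.N9.M8D

set_option autoImplicit false
set_option linter.unusedSectionVars false

namespace CL.N9.M8

open Cfsg Subgroup CL.Even CL.Grp CL.WC CL.Cls QuadraticMap Module Equiv

universe u

namespace M8R3a

variable {G : Type u} [Group G]

/-- conjugation by an involution is multiplicative -/
theorem cmul {n : G} (hn : n * n = 1) (g k : G) : n * (g * k) * n = n * g * n * (n * k * n) := by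
  rw [mul_assoc (n * g), ← mul_assoc n (n * k), ← mul_assoc n n, hn, one_mul]; group

theorem cfx {n g : G} (hn : n * n = 1) (c : Commute n g) : n * g * n = g := by
  rw [c.eq, mul_assoc, hn, mul_one]

theorem csq {g f : G} (hf : f * f = 1) : g * f * g⁻¹ * (g * f * g⁻¹) = 1 := by
  rw [conj_mul, hf]; group

theorem prod3 {b c f₁ f₂ f₃ : G} (hb : b * b = 1) (hc : c * c = 1) (bc : Commute b c) (b2 : Commute b f₂)
    (c2 : Commute c f₂) (h : f₁ * f₂ * f₃ = 1) : b * (f₁ * c * b) * (f₂ * c * b) * (f₃ * c * b) = c := by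
  have d2 : c * b * (c * b) = 1 := by rw [mul_assoc, ← mul_assoc b, bc.eq, mul_assoc c b, hb, mul_one, hc]
  have e : c * b * f₂ = f₂ * (c * b) := (c2.mul_left b2).eq
  calc _ = b * f₁ * (c * b * f₂) * (c * b) * f₃ * (c * b) := by simp only [mul_assoc]
    _ = b * (f₁ * f₂ * (c * b * (c * b)) * f₃) * (c * b) := by rw [e]; simp only [mul_assoc]
    _ = c := by rw [d2, mul_one, h, mul_one, ← mul_assoc, bc.eq, mul_assoc, hb, mul_one]

variable [Finite G] {z x : G} {M : OM qp z} {r : G → X} {h b m y c f a₀ a n₀ n : G} (S : St z x M r)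
  (R : RA z x M r h b m y c f a₀ a)
include S R

theorem ysq : y * y = 1 := (M.q_zero R.yQ).1 (by rw [R.πy]; decide +kernel)
theorem csq' : c * c = 1 := (M.q_zero R.cQ).1 (by rw [R.πc]; decide +kernel)
theorem fsq : f * f = 1 := (M.q_zero R.fQ).1 (by rw [R.πf]; decide +kernel)
theorem a₀sq : a₀ * a₀ = 1 := by rw [R.ha₀, ← R.toB0.mmul, ysq S R, mul_one, R.msq]
theorem asq : a * a = 1 := by rw [R.ha, ← R.toB0.mmul, fsq S R, mul_one, R.msq]
theorem ma₀ : m * a₀ * m = y := by rw [R.ha₀, R.toB0.mm]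
theorem ma : m * a * m = f := by rw [R.ha, R.toB0.mm]

theorem eq_x {g : G} (e : m * g * m = z) : g = x := by rw [← R.mz, ← e, R.toB0.mm]

theorem step1 : a₀ * c * a₀ * c = x := by
  refine eq_x S R ?_
  have k := S.conj_eq R.yQ R.cQ (by rw [R.πy, R.πc, pol_app]; decide +kernel)
  rw [inv_eq_of_mul_eq_one_right (ysq S R)] at k
  rw [R.toB0.mmul, R.toB0.mmul, R.toB0.mmul, ma₀ S R, R.mc, k, (S.hy.cz R.cQ).eq, mul_assoc, csq' S R, mul_one]

variable (L : LV z r h b y a₀ a n₀ n)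
include L

theorem ninv : n⁻¹ = n := inv_eq_of_mul_eq_one_right L.nsq

theorem step2 : n * y * n = x := by
  have k := (M.π_eq R.cQ (S.hy.cmem L.nz R.bQ)).1 (by
    rw [S.π_conj L.nz R.bQ, L.rn, act_nn, R.πb, R.πc]; decide +kernel)
  rw [ninv S R L] at k
  rw [← R.com₀, cmul L.nsq, cmul L.nsq, cmul L.nsq, cfx L.nsq L.a₀n.symm, ← step1 S R]
  rcases k with k | k
  · rw [k]
  · rw [k]
    calc _ = a₀ * c * (z * (a₀ * c)) * z := by simp only [mul_assoc]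
      _ = a₀ * c * a₀ * c * (z * z) := by rw [← (R.a₀z.mul_left (S.hy.cz R.cQ)).eq]; simp only [mul_assoc]
      _ = _ := by rw [S.zz, mul_one]

theorem step3 : n * f * n = f := by
  have k := (M.π_eq R.fQ (S.hy.cmem L.nz R.fQ)).1 (by
    rw [S.π_conj L.nz R.fQ, L.rn, act_nn, R.πf]; decide +kernel)
  rw [ninv S R L] at k
  refine k.resolve_right fun k => S.z1 ?_
  have h1 : n * h * n = h⁻¹ := eq_inv_of_mul_eq_one_left (by rw [← L.nh, pow_two]; simp only [mul_assoc])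
  have h2 : (f * z * h⁻¹) ^ 3 = 1 := by
    rw [← k, ← h1, ← cmul L.nsq]
    have := congrArg (fun g => n * g * n⁻¹) R.fh
    simp only [← conj_pow, mul_one, mul_inv_cancel] at this
    rwa [ninv S R L] at this
  have h3 : (f * h⁻¹) ^ 3 = 1 := by
    have e : f * h⁻¹ = f * (f * h)⁻¹ * f⁻¹ := by
      rw [mul_inv_rev, inv_eq_of_mul_eq_one_right (fsq S R), mul_assoc, mul_assoc, fsq S R, mul_one]
    rw [e, conj_pow, inv_pow, R.fh]; group
  have h4 : Commute (f * h⁻¹) z := (S.hy.cz R.fQ).mul_left R.hz.inv_left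
  rw [mul_assoc, ← R.hz.inv_left.eq, ← mul_assoc, h4.mul_pow, h3, one_mul, pow_three, S.zz, mul_one] at h2
  exact h2

theorem step4 : n₀ * c * n₀ = x := by
  have B := R.toB0
  have hc : Commute h c := by refine B.hfix S R.cQ ?_ ?_ ?_ ?_ <;> rw [R.πc] <;> rfl
  have hb := B.hb S
  obtain ⟨f₂, e₂⟩ : ∃ g, g = h * f * h⁻¹ := ⟨_, rfl⟩
  obtain ⟨f₃, e₃⟩ : ∃ g, g = h * f₂ * h⁻¹ := ⟨_, rfl⟩
  obtain ⟨a₂, d₂⟩ : ∃ g, g = h * a * h⁻¹ := ⟨_, rfl⟩
  obtain ⟨a₃, d₃⟩ : ∃ g, g = h * a₂ * h⁻¹ := ⟨_, rfl⟩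
  have Q2 : f₂ ∈ QQ z := e₂ ▸ S.hy.cmem R.hz R.fQ
  have Q3 : f₃ ∈ QQ z := e₃ ▸ S.hy.cmem R.hz Q2
  have p2 : M.π f₂ = e 4 := by rw [e₂, S.π_conj R.hz R.fQ, R.rh, act_hh, R.πf]; decide +kernel
  have p3 : M.π f₃ = e 2 + e 4 := by rw [e₃, S.π_conj R.hz Q2, R.rh, act_hh, p2]; decide +kernel
  have s1 := fsq S R
  have s2 : f₂ * f₂ = 1 := e₂ ▸ csq s1
  have s3 : f₃ * f₃ = 1 := e₃ ▸ csq s2
  have pr : f * f₂ * f₃ = 1 := by
    have : f * f₂ * f₃ * h ^ 3 = (f * h) ^ 3 := by rw [e₃, e₂, pow_three, pow_three]; group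
    rwa [R.h3, R.fh, mul_one] at this
  have f12 : f * f₂ = f₃ := by rw [eq_inv_of_mul_eq_one_left pr, inv_eq_of_mul_eq_one_right s3]
  have f23 : f₂ * f₃ = f := by
    rw [eq_inv_of_mul_eq_one_right ((mul_assoc _ _ _).symm.trans pr), inv_eq_of_mul_eq_one_right s1]
  have mh : ∀ g, m * (h * g * h⁻¹) * m = h * (m * g * m) * h⁻¹ := fun g => by
    rw [B.mmul, B.mmul, cfx R.msq R.hm.symm, cfx R.msq R.hm.symm.inv_right]
  have m2 : m * a₂ * m = f₂ := by rw [d₂, mh, ma S R, e₂]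
  have m3 : m * a₃ * m = f₃ := by rw [d₃, mh, m2, e₃]
  have hcj : ∀ {g k : G}, g * b * g = k * c * b → h * g * h⁻¹ * b * (h * g * h⁻¹) = h * k * h⁻¹ * c * b :=
    fun {g k} e => by
      have := congrArg (fun t => h * t * h⁻¹) e
      simp only [conj_mul.symm] at this
      rwa [hb.eq, hc.eq, mul_inv_cancel_right, mul_inv_cancel_right] at this
  have c1 : a * b * a = f * c * b := by rw [← R.com, mul_assoc _ b b, B.bsq S, mul_one]
  have c2 : a₂ * b * a₂ = f₂ * c * b := by rw [d₂, e₂]; exact hcj c1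
  have c3 : a₃ * b * a₃ = f₃ * c * b := by rw [d₃, e₃]; exact hcj c2
  have ec : b * (a * b * a) * (a₂ * b * a₂) * (a₃ * b * a₃) = c := by
    rw [c1, c2, c3]
    exact prod3 (B.bsq S) (csq' S R) ((M.b_zero R.bQ R.cQ).1 (by rw [R.πb, R.πc, pol_app]; decide +kernel))
      ((M.b_zero R.bQ Q2).1 (by rw [R.πb, p2, pol_app]; decide +kernel))
      ((M.b_zero R.cQ Q2).1 (by rw [R.πc, p2, pol_app]; decide +kernel)) pr
  have n2 : Commute n₀ a₂ := d₂ ▸ (L.n₀h.mul_right L.n₀a).mul_right L.n₀h.inv_right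
  have n3 : Commute n₀ a₃ := d₃ ▸ (L.n₀h.mul_right n2).mul_right L.n₀h.inv_right
  have en : n₀ * c * n₀ = y * (a * y * a) * (a₂ * y * a₂) * (a₃ * y * a₃) := by
    rw [← ec]
    simp only [cmul L.n₀sq, L.nb, cfx L.n₀sq L.n₀a, cfx L.n₀sq n2, cfx L.n₀sq n3]
  refine eq_x S R ?_
  have i0 : a₀⁻¹ = a₀ := inv_eq_of_mul_eq_one_right (a₀sq S R)
  have Q' := S.hy.cmem R.a₀z R.fQ
  have k := S.conj_eq Q' Q3 (by rw [S.π_conj R.a₀z R.fQ, R.ra₀, act_s0, R.πf, p3, pol_app]; decide +kernel)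
  rw [inv_eq_of_mul_eq_one_right (csq s1), i0] at k
  rw [en]
  simp only [B.mmul, ← R.ha₀, ma S R, m2, m3]
  calc _ = a₀ * f * a₀ * (f * f₂) * (a₀ * (f₂ * f₃) * a₀) * f₃ := by simp only [mul_assoc]
    _ = z := by rw [f12, f23, k, (S.hy.cz Q3).eq, mul_assoc, s3, mul_one]

theorem step5 : n * b * n = c := by
  have k : n₀ * (n * b * n) * n₀ = n₀ * c * n₀ := by
    rw [step4 S R L, ← step2 S R L, ← L.nb, cmul L.n₀sq, cmul L.n₀sq, cfx L.n₀sq L.n₀n]
  exact mul_left_cancel (mul_right_cancel k)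

end M8R3a

theorem r3a : R3a.{u} := fun _ _ _ _ _ _ _ S _ _ _ _ _ _ _ _ _ _ R L =>
  ⟨M8R3a.step2 S R L, M8R3a.step4 S R L, M8R3a.step5 S R L, M8R3a.step3 S R L⟩

end CL.N9.M8
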