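/-
Extraspecial `F*(C(z))` of order `2 ^ 9`, the case `S₃ × A₅`, part R3b: the braid relation of order three.
-/
import Cfsg.Agent.N9.M8D

set_option autoImplicit false
set_option linter.unusedSectionVars false

namespace CL.N9.M8

open Cfsg Subgroup CL.Even CL.Grp CL.WC CL.Cls QuadraticMap Module Equiv

universe u

namespace R3bx

variable {G : Type u} [Group G]

theorem hom {n : G} (hn : n * n = 1) : ∃ N : G →* G, (∀ g, N g = n * g * n) ∧ ∀ g, N (N g) = g :=
  ⟨(MulAut.conj n).toMonoidHom, fun g => by simp [inv_eq_of_mul_eq_one_right hn], fun g => by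
    simp [inv_eq_of_mul_eq_one_right hn, mul_assoc, hn, ← mul_assoc n n]⟩

theorem tri {n m p q t : G} (hn : n * n = 1) (hm : m * m = 1) (h1 : n * p * n = p) (h2 : n * q * n = t)
    (h3 : m * p * m = q) (h4 : m * t * m = t) :
    Commute ((n * m) ^ 3) p ∧ Commute ((n * m) ^ 3) q ∧ Commute ((n * m) ^ 3) t := by
  obtain ⟨N, hN, hN'⟩ := hom hn
  obtain ⟨M, hM, hM'⟩ := hom hm
  rw [← hN] at h1 h2
  rw [← hM] at h3 h4
  have h5 : N t = q := by rw [← h2, hN']
  have h6 : M q = p := by rw [← h3, hM']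
  have key : ∀ g, N (M (N (M (N (M g))))) = g → Commute ((n * m) ^ 3) g := fun g h => by
    refine mul_inv_eq_iff_eq_mul.1 (Eq.trans ?_ h)
    simp only [hN, hM, pow_succ, pow_zero, one_mul, mul_inv_rev, inv_eq_of_mul_eq_one_right hn,
      inv_eq_of_mul_eq_one_right hm, mul_assoc]
  refine ⟨key _ ?_, key _ ?_, key _ ?_⟩ <;> simp only [h1, h2, h3, h4, h5, h6]

theorem last {t c x z : G} (t3 : t ^ 3 = 1) (tw : (t * (c * x * z)) ^ 3 = 1) (cc : c * c = 1) (xx : x * x = 1)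
    (zz : z * z = 1) (cx : Commute c x) (cz : Commute c z) (xz : Commute x z) (tc : t * c * t⁻¹ = x)
    (tx : t * x * t⁻¹ = c * x) (tz : t * z * t⁻¹ = z) : z = 1 := by
  have can : ∀ {g : G}, g * g = 1 → ∀ h, g * (g * h) = h := fun e h => by rw [← mul_assoc, e, one_mul]
  have h1 : t * (c * x * z) * t⁻¹ = c * z := by
    rw [← conj_mul, ← conj_mul, tc, tx, tz]
    simp only [mul_assoc, cx.symm.left_comm, can xx]
  have h2 : t * (c * z) * t⁻¹ = x * z := by rw [← conj_mul, tc, tz]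
  have h3 : t⁻¹ * t⁻¹ = t := by
    rw [← mul_inv_rev, inv_eq_iff_mul_eq_one, ← t3, pow_three, mul_assoc]
  have h4 : c * z * (x * z) * (c * x * z) = 1 := by
    rw [← h2]
    nth_rewrite 2 [← h1]
    rw [← h1, ← tw]
    generalize c * x * z = w
    calc _ = t * w * (t * w * (t⁻¹ * t⁻¹ * w)) := by group
      _ = _ := by rw [h3, pow_three]
  simpa only [mul_assoc, cx.symm.left_comm, cz.symm.left_comm, xz.symm.left_comm, can cc, can xx, can zz, zz,
    mul_one] using h4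

theorem one : ∀ w : X, act w (e 7) = e 7 → act w (e 6) = e 6 → act w (e 2) = e 2 → act w (e 3) = e 3 →
    act w (e 4) = e 4 → w = 1 := by decide +kernel

theorem vec : ∀ v : V8, polar qp v (e 7) = 0 → polar qp v (e 6) = 0 → polar qp v (e 2) = 0 → polar qp v (e 3) = 0 →
    polar qp v (e 4) = 0 → polar qp v (e 5) = 0 → act ν0 v = v → v = 0 ∨ v = e 6 + e 7 := by
  simp only [pol_app, act_ν0]
  decide +kernel

end R3bx

open R3bx in
theorem r3b : R3b.{u} := by
  intro G _ _ z x M r S h b m y c f a₀ a n n' R L ncx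
  have B := R.toB0
  have nn := L.n₀sq
  have mm := R.msq
  have ni := inv_eq_of_mul_eq_one_right nn
  have can : ∀ {g : G}, g * g = 1 → ∀ h, g * (g * h) = h := fun e h => by rw [← mul_assoc, e, one_mul]
  have xQ := S.nb.mem
  have nQ : ∀ {p}, p ∈ QQ z → n * p * n ∈ QQ z ∧ M.π (n * p * n) = act ν0 (M.π p) := fun {p} hp => by
    have h1 := S.hy.cmem L.n₀z hp
    have h2 := S.π_conj L.n₀z hp
    rw [ni] at h1 h2
    exact ⟨h1, by rw [h2, L.rn₀]⟩
  have hQ : ∀ {p}, p ∈ QQ z → M.π (h * p * h⁻¹) = act hh (M.π p) := fun {p} hp => by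
    rw [S.π_conj R.hz hp, R.rh]
  have nx : n * x * n = c := by rw [← ncx]; simp only [mul_assoc, can nn, nn, mul_one]
  have nz : n * z * n = z := by rw [L.n₀z.eq, mul_assoc, nn, mul_one]
  have na : n * a * n = a := by rw [L.n₀a.eq, mul_assoc, nn, mul_one]
  obtain ⟨gQ, πg⟩ := nQ R.fQ
  rw [R.πf, show act ν0 (e 2) = e 3 by decide +kernel] at πg
  have mg : m * (n * f * n) * m = n * f * n := R.mg _ gQ ((S.E_iff gQ).2 (by rw [πg]; decide +kernel)) (by
    rw [show n * f * n * h = n * (f * h) * n⁻¹ by rw [ni, mul_assoc _ n h, L.n₀h.eq]; simp only [mul_assoc],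
      conj_pow, R.fh, mul_one, mul_inv_cancel])
  obtain ⟨c1, c2, c3⟩ := tri nn mm nz nx R.mz R.mc
  obtain ⟨-, c4, c5⟩ := tri nn mm na rfl (by rw [R.ha, B.mm]) mg
  have c6 : Commute ((n * m) ^ 3) h := (L.n₀h.mul_left R.hm.symm).pow_left 3
  have c7 := (c6.mul_right c4).mul_right c6.inv_right
  have c8 := (c6.mul_right c5).mul_right c6.inv_right
  have f2Q := S.hy.cmem R.hz R.fQ
  have g2Q := S.hy.cmem R.hz gQ
  have πf2 := hQ R.fQ
  have πg2 := hQ gQ
  rw [R.πf, show act hh (e 2) = e 4 by decide +kernel] at πf2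
  rw [πg, show act hh (e 3) = e 5 by decide +kernel] at πg2
  set w := (n * m) ^ 3 with hw
  have fx : ∀ {p : G} {l : Fin 8}, p ∈ QQ z → M.π p = e l → Commute w p → act (r w) (e l) = e l :=
    fun hp h h' => by rw [← h, ← S.π_conj c1 hp, h'.eq, mul_inv_cancel_right]
  have wQ : w ∈ QQ z :=
    (S.r_ker c1).1 (one _ (fx xQ S.πx c2) (fx R.cQ R.πc c3) (fx R.fQ R.πf c4) (fx gQ πg c5) (fx f2Q πf2 c7))
  have b0 : ∀ {p : G} {l : Fin 8}, p ∈ QQ z → M.π p = e l → Commute w p → polar qp (M.π w) (e l) = 0 :=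
    fun hp h h' => by rw [← h]; exact (M.b_zero wQ hp).2 h'
  have wi : w⁻¹ = (m * n) ^ 3 := by rw [hw, ← inv_pow, mul_inv_rev, ni, B.minv]
  have nw : n * w * n = w⁻¹ := by rw [wi, hw]; simp only [pow_succ, pow_zero, one_mul, mul_assoc, can nn]
  have mw : m * w * m = w⁻¹ := by
    rw [wi, hw]; simp only [pow_succ, pow_zero, one_mul, mul_assoc, mm, mul_one]
  have zz := S.zz
  have xx := S.xx
  rcases vec (M.π w) (b0 xQ S.πx c2) (b0 R.cQ R.πc c3) (b0 R.fQ R.πf c4) (b0 gQ πg c5) (b0 f2Q πf2 c7)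
    (b0 g2Q πg2 c8) (by rw [← (nQ wQ).2, nw, M.π_inv wQ]) with k | k
  · rcases (M.π_zero wQ).1 k with k | k
    · rw [← wi, k, inv_one]
    · rw [k, inv_eq_of_mul_eq_one_right zz, R.mz] at mw
      exact (S.nb.ne mw).elim
  have cc : c * c = 1 := (M.q_zero R.cQ).1 (by rw [R.πc]; decide +kernel)
  have yy : y * y = 1 := (M.q_zero R.yQ).1 (by rw [R.πy]; decide +kernel)
  have cx : Commute c x := (M.b_zero R.cQ xQ).1 (by rw [R.πc, S.πx, pol_app]; decide +kernel)
  rw [← R.πc, ← S.πx, ← M.π_mul R.cQ xQ, eq_comm, M.π_eq (mul_mem R.cQ xQ) wQ] at k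
  exfalso
  rcases k with k | k
  · rw [k, mul_inv_rev, inv_eq_of_mul_eq_one_right cc, inv_eq_of_mul_eq_one_right xx, ← cx.eq, B.mmul, R.mc,
      B.mx] at mw
    exact S.nb.ne (mul_left_cancel mw).symm
  have aa : a₀ * a₀ = 1 := by rw [R.ha₀, ← B.mmul, yy, mul_one, mm]
  have ai := inv_eq_of_mul_eq_one_right aa
  have ax : Commute a₀ x := by rw [R.ha₀, ← R.mz]; exact B.mcm (S.hy.cz R.yQ)
  have ac : a₀ * c * a₀ = c * x := by
    have := S.conj_eq R.yQ R.cQ (by rw [R.πy, R.πc, pol_app]; decide +kernel)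
    rw [inv_eq_of_mul_eq_one_right yy] at this
    rw [R.ha₀, ← R.mz]
    conv_lhs => rw [← R.mc]
    conv_rhs => rw [← R.mc]
    rw [← B.mmul, ← B.mmul, ← B.mmul, this]
  have tw : (a₀ * n * w) ^ 3 = 1 := by
    have e1 : a₀ * n * w = m * n * (b * m) * (m * n)⁻¹ := by
      rw [R.ha₀, ← L.nb, hw, mul_inv_rev, ni, B.minv]
      simp only [pow_succ, pow_zero, one_mul, mul_assoc, can nn, can mm]
    rw [e1, conj_pow, R.bm, mul_one, mul_inv_cancel]
  refine S.z1 (last L.ord₀ (k ▸ tw) cc xx zz cx (S.hy.cz R.cQ) S.xz ?_ ?_ ?_)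
  · rw [mul_inv_rev, ni, ai]
    calc _ = a₀ * (n * c * n) * a₀ := by simp only [mul_assoc]
      _ = _ := by rw [ncx, ax.eq, mul_assoc, aa, mul_one]
  · rw [mul_inv_rev, ni, ai]
    calc _ = a₀ * (n * x * n) * a₀ := by simp only [mul_assoc]
      _ = _ := by rw [nx, ac]
  · rw [(R.a₀z.mul_left L.n₀z).eq, mul_inv_cancel_right]

end CL.N9.M8
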