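/-
Extraspecial `F*(C(z))` of order `2 ^ 9`, the case `S₃ × A₅`: the relation `(m n)⁴ = 1`.
-/
import Cfsg.Agent.N9.M8D

set_option autoImplicit false
set_option linter.unusedSectionVars false

namespace CL.N9.M8

open Cfsg Subgroup CL.Even CL.Grp CL.WC CL.Cls QuadraticMap Module Equiv

universe u

namespace R3cx

theorem fx : ∀ w : X, act w (e 7) = e 7 → act w (e 1) = e 1 → act w (e 3) = e 3 → act w (e 5) = e 5 →
    w = 1 ∨ w = s0 := by decide +kernel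

variable {G : Type u} [Group G]

theorem cube {k g : G} (k2 : k * k = 1) (h : g ^ 3 = 1) : (k * g * k) ^ 3 = 1 := by
  have := conj_pow (a := k) (b := g) (i := 3)
  rwa [h, mul_one, mul_inv_cancel, inv_eq_of_mul_eq_one_right k2] at this

theorem cyc4 {k a b c d : G} (h1 : k * a * k⁻¹ = b) (h2 : k * b * k⁻¹ = c) (h3 : k * c * k⁻¹ = d)
    (h4 : k * d * k⁻¹ = a) : Commute (k ^ 4) a := by
  refine mul_inv_eq_iff_eq_mul.1 ?_
  calc k ^ 4 * a * (k ^ 4)⁻¹ = k * (k * (k * (k * a * k⁻¹) * k⁻¹) * k⁻¹) * k⁻¹ := by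
        simp only [pow_succ, pow_zero]; group
    _ = a := by rw [h1, h2, h3, h4]

end R3cx

open R3cx in
theorem r3c : R3c.{u} := by
  intro G _ _ z x M r S h b m y c f a₀ a n₀ n R L ny nf
  have B := R.toB0
  have hM : ∀ g, m * (m * g) = g := fun g => by rw [← mul_assoc, B.msq, one_mul]
  have hN : ∀ g, n * (n * g) = g := fun g => by rw [← mul_assoc, L.nsq, one_mul]
  have ni : n⁻¹ = n := inv_eq_of_mul_eq_one_right L.nsq
  have ni₀ : n₀⁻¹ = n₀ := inv_eq_of_mul_eq_one_right L.n₀sq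
  have φ : ∀ g, m * n * g * (m * n)⁻¹ = m * (n * g * n) * m := fun g => by
    rw [mul_inv_rev, ni, B.minv]; simp only [mul_assoc]
  have fixn : ∀ {g}, Commute n g → n * g * n = g := fun k => by rw [k.eq, mul_assoc, L.nsq, mul_one]
  have nx : n * x * n = y := by rw [← ny]; simp only [mul_assoc, hN, L.nsq, mul_one]
  have p1 : m * n * z * (m * n)⁻¹ = x := by rw [φ, fixn L.nz, B.mz]
  have p2 : m * n * x * (m * n)⁻¹ = a₀ := by rw [φ, nx, R.ha₀]
  have p3 : m * n * a₀ * (m * n)⁻¹ = y := by rw [φ, fixn L.a₀n.symm, R.ha₀, B.mm]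
  have p4 : m * n * y * (m * n)⁻¹ = z := by rw [φ, ny, B.mx]
  have wz := cyc4 p1 p2 p3 p4
  have wx := cyc4 p2 p3 p4 p1
  have wy := cyc4 p4 p1 p2 p3
  have nh : n * h * n = h⁻¹ := by
    refine eq_inv_of_mul_eq_one_left ?_
    rw [← L.nh, pow_two]; simp only [mul_assoc]
  have p5 : m * n * h * (m * n)⁻¹ = h⁻¹ := by
    rw [φ, nh, ← B.hm.inv_left.eq, mul_assoc, B.msq, mul_one]
  have p6 : m * n * h⁻¹ * (m * n)⁻¹ = h := by rw [← conj_inv, p5, inv_inv]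
  have wh := cyc4 p5 p6 p5 p6
  obtain ⟨g, hg⟩ : ∃ g, g = n₀ * f * n₀⁻¹ := ⟨_, rfl⟩
  have gQ : g ∈ QQ z := hg ▸ S.hy.cmem L.n₀z R.fQ
  have πg : M.π g = e 3 := by rw [hg, S.π_conj L.n₀z R.fQ, L.rn₀, R.πf]; decide +kernel
  have gP : g ∈ QQ x := (S.E_iff gQ).2 (by rw [πg]; decide +kernel)
  have gh : (g * h) ^ 3 = 1 := by
    rw [hg, mul_assoc, L.n₀h.inv_left.eq, ← mul_assoc, mul_assoc n₀, conj_pow, R.fh, mul_one, mul_inv_cancel]
  have ng : n * g * n = g := by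
    rw [hg, ni₀]
    calc n * (n₀ * f * n₀) * n = n * n₀ * f * (n₀ * n) := by simp only [mul_assoc]
      _ = n₀ * (n * f * n) * n₀ := by
        nth_rewrite 1 [← L.n₀n.eq]
        nth_rewrite 2 [L.n₀n.eq]
        simp only [mul_assoc]
      _ = _ := by rw [nf]
  have p7 : m * n * g * (m * n)⁻¹ = g := by rw [φ, ng, R.mg g gQ gP gh]
  have wg := cyc4 p7 p7 p7 p7
  have g2Q := S.hy.cmem B.hz gQ
  have πg2 : M.π (h * g * h⁻¹) = e 5 := by rw [S.π_conj B.hz gQ, B.rh, πg]; decide +kernel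
  have wg2 : Commute ((m * n) ^ 4) (h * g * h⁻¹) := (wh.mul_right wg).mul_right wh.inv_right
  have w4 : (m * n) ^ 4 = m * (n * (m * (n * (m * (n * (m * n)))))) := by
    simp only [pow_succ, pow_zero, one_mul, mul_assoc]
  have wi : ((m * n) ^ 4)⁻¹ = n * (m * (n * (m * (n * (m * (n * m)))))) := by
    rw [w4]; simp only [mul_inv_rev, ni, B.minv, mul_assoc]
  have mw : m * (m * n) ^ 4 * m = ((m * n) ^ 4)⁻¹ := by rw [wi, w4]; simp only [mul_assoc, hM]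
  have nw : n * (m * n) ^ 4 * n = ((m * n) ^ 4)⁻¹ := by rw [wi, w4]; simp only [mul_assoc, L.nsq, mul_one]
  have c3 : (a * n * ((m * n) ^ 4)⁻¹) ^ 3 = 1 := by
    have k := cube B.msq (cube L.nsq (cube B.msq L.ord))
    have e1 : m * (n * (m * (a * n) * m) * n) * m = a * n * ((m * n) ^ 4)⁻¹ := by
      rw [wi, R.ha]
      nth_rewrite 1 [← nf]
      simp only [mul_assoc, hM, hN]
    rwa [e1] at k
  generalize (m * n) ^ 4 = w at *
  have fix : ∀ {t}, t ∈ QQ z → Commute w t → act (r w) (M.π t) = M.π t := fun ht k => by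
    rw [← S.π_conj wz ht, k.eq, mul_inv_cancel_right]
  have wQ : w ∈ QQ z := (S.r_ker wz).1 <| (fx (r w) (S.πx ▸ fix S.nb.mem wx) (R.πy ▸ fix R.yQ wy) (πg ▸ fix gQ wg)
    (πg2 ▸ fix g2Q wg2)).resolve_right fun k => by
      have k1 := congrArg r c3
      rw [S.r_pow ((R.az.mul_left L.nz).mul_left wz.inv_left), S.r_mul (R.az.mul_left L.nz) wz.inv_left,
        S.r_mul R.az L.nz, S.r_inv wz, k, R.ra, L.rn, S.r_one] at k1
      revert k1
      decide +kernel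
  have b0 := (M.b_zero wQ S.nb.mem).2 wx
  have b6 := (M.b_zero wQ R.yQ).2 wy
  have b4 := (M.b_zero wQ gQ).2 wg
  have b2 := (M.b_zero wQ g2Q).2 wg2
  have bh := S.π_conj B.hz wQ
  rw [← wh.eq, mul_inv_cancel_right, B.rh] at bh
  rw [S.πx] at b0
  rw [R.πy] at b6
  rw [πg] at b4
  rw [πg2] at b2
  have k1 : ∀ v : V8, polar qp v (e 7) = 0 → polar qp v (e 1) = 0 → polar qp v (e 3) = 0 → polar qp v (e 5) = 0 →
      v = act hh v → qp v = 0 ∧ (v 1 = 0 → v = act nn v → v = 0) := by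
    simp only [pol_app, qp_app]
    decide +kernel
  obtain ⟨k2, k3⟩ := k1 _ b0 b6 b4 b2 bh
  have ww : w⁻¹ = w := inv_eq_of_mul_eq_one_right ((M.q_zero wQ).1 k2)
  rw [ww] at mw nw
  have bn := S.π_conj L.nz wQ
  rw [ni, nw, L.rn] at bn
  rcases (M.π_zero wQ).1 (k3 ((S.E_iff wQ).1 (mw ▸ B.mQ.2 wQ)).2.1 bn) with k | k
  · exact k
  · exact absurd (B.mz.symm.trans (k ▸ mw)) S.nb.ne

end CL.N9.M8
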