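/-
S1763, the configuration with 75 points (helper94): definitions and the statements of the steps.
-/
import Cfsg.Agent.N9.Data

set_option autoImplicit false

namespace CL.N9.HN

open Cfsg Subgroup CL.Even CL.Grp CL.WC CL.Cls QuadraticMap

universe u

/-- a singular vector `r` outside the points, `n = ω r`, a point `v` -/
def vr : V8 := dec 40
def vn : V8 := dec 52
def vv : V8 := dec 128
/-- the reflection over the field with four elements with centre `r` -/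
noncomputable def gs : OG qp := cO 0x8040080c20300201
/-- `g 0 * g 3` (order 3) and `g 1 * g 2 * g 4 * g 5` (order 5) in the generators `c75.gH` -/
noncomputable def ga : OG qp := cO 0x68c0201308070103
noncomputable def gb : OG qp := cO 0xc39d550f7d6eaaf5

/-- the perp of `⟨r, n⟩` -/
def U (x : V8) : Prop := polar qp vr x = 0 ∧ polar qp vn x = 0
/-- the span of `r, n` -/
def F (x : V8) : Prop := x = 0 ∨ x = vr ∨ x = vn ∨ x = vn + vr

theorem U.add {x y : V8} (h : U x) (k : U y) : U (x + y) :=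
  ⟨by rw [polar_add_right, h.1, k.1, add_zero], by rw [polar_add_right, h.2, k.2, add_zero]⟩

section
variable (X : Subgroup (OG qp)) (O : Set V8) (E : V8 → Submodule (ZMod 2) V8)

structure L1 : Prop where
  qr : qp vr = 0
  r0 : vr ≠ 0
  qn : qp vn = 1
  qnr : qp (vn + vr) = 1
  rn : polar qp vr vn = 0
  vO : vv ∈ O
  vU : U vv
  rE : vr ∈ E vv
  aO : ∀ g ∈ X, ∀ x ∈ O, g.1 x ∈ O
  perp : ∀ x, (∀ u, U u → polar qp x u = 0) → F x
  FO : ∀ x, F x → x ∉ O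
  sing : ∀ x, U x → qp x = 0 → x = 0 ∨ x = vr ∨ x ∈ O ∨ x + vr ∈ O
  sx : ∀ x, gs.1 x = x + polar qp vn x • vn + polar qp (vn + vr) x • (vn + vr)
  sU : ∀ x, gs.1 x = x ↔ U x
  sF : ∀ x, F x ↔ ∃ y, x = y + gs.1 y
  ss : gs * gs = 1
  aX : ga ∈ X
  bX : gb ∈ X
  ar : ga.1 vr = vr
  br : gb.1 vr = vr
  an : ga.1 vn = vn
  bn : gb.1 vn = vn
  a15 : ga ^ 15 = 1
  b15 : gb ^ 15 = 1
  gen : ∀ u, U u → ∃ x y, U x ∧ U y ∧ u = x + ga.1 x + (y + gb.1 y)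

structure L2 : Prop where
  nn : ∀ g ∈ X, g.1 vr = vr → g.1 vn = vn ∨ g.1 vn = vn + vr
  fx : ∀ g ∈ X, (∀ x ∈ O, U x → g.1 x = x) → g = 1 ∨ g = gs
  tv : ∀ g ∈ X, (∀ x, U x → F (x + g.1 x)) → g = 1 ∨ g = gs

def L3 : Prop := ∃ L : Subgroup (OG qp), (∀ g ∈ X, ∀ k ∈ X, g * k ∈ L ↔ (g ∈ L ↔ k ∈ L)) ∧ gs ∉ L

structure L4 : Prop where
  orb : ∀ T : V8 → Prop, (∀ x, T x → T (ga.1 x)) → (∀ x, T x → T (gb.1 x)) → ∀ x ∈ O, U x → T x →
    ∀ y ∈ O, U y → T y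
  odd : Odd (Nat.card {x : V8 // x ∈ O ∧ U x})
  tr : ∀ x, qp x = 0 → x ≠ 0 → x ∉ O → ∃ g ∈ X, g.1 x = vr

end

section
variable {G : Type*} [Group G]

/-- the elements `t`, `w` of `Q` over `r` and `n` -/
structure G0 (z t w : G) (Q : Subgroup G) : Prop where
  xe : XE z Q
  card : Nat.card Q = 512
  tQ : t ∈ Q
  tt : t * t = 1
  t1 : t ≠ 1
  tz : t ≠ z
  nc : ∀ g : G, g * z * g⁻¹ ≠ z * t
  wQ : w ∈ Q
  ww : w * w = z
  wt : Commute w t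
  nw : ∀ c, Commute c z → Commute c t →
    c * w * c⁻¹ = w ∨ c * w * c⁻¹ = w * z ∨ c * w * c⁻¹ = w * t ∨ c * w * c⁻¹ = w * z * t
  stab : ∀ c, Commute c z → Commute c t →
    (∀ x ∈ Q, Commute x t → Commute x w → c * x * c⁻¹ * x⁻¹ ∈ closure ({w, t} : Set G)) → c ∈ Q

def Gen (t w : G) (Q : Subgroup G) : Prop :=
  ∀ x ∈ Q, Commute x t → Commute x w → x ∈ pResidualOf 2 (centralizer ({t} : Set G))

def Nrm (z t : G) (Q : Subgroup G) : Prop := ∀ K : Subgroup G, (∀ k ∈ K, Commute k z ∧ Commute k t) →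
  (∀ c ∈ pResidualOf 2 (centralizer ({t} : Set G)), Commute c z → ∀ k ∈ K, c * k * c⁻¹ ∈ K) → IsPGroup 2 K → K ≤ Q

def All (z t w : G) (Q : Subgroup G) : Prop := ∀ x ∈ Q, Commute x t → Commute x w → x * x = 1 →
  x = 1 ∨ x = t ∨ ∃ g, Commute g t ∧ (g * z * g⁻¹ = x ∨ g * z * g⁻¹ = x * t)

/-- the situation in `C(t) / ⟨t⟩` -/
structure Nd (z w : G) (Q : Subgroup G) : Prop where
  xe : XE z Q
  card : Nat.card Q = 128
  wQ : w ∈ Q
  ww : w * w = z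
  nw : ∀ c, Commute c z → Commute c w ∨ c * w * c⁻¹ = w⁻¹
  stab : ∀ c, Commute c z → (∀ x ∈ Q, Commute x w → c * x * c⁻¹ * x⁻¹ ∈ zpowers w) → c ∈ Q
  gen : ∀ x ∈ Q, Commute x w → x ∈ pResidual 2 G
  nrm : ∀ K : Subgroup G, (∀ k ∈ K, Commute k z) →
    (∀ c ∈ pResidual 2 G, Commute c z → ∀ k ∈ K, c * k * c⁻¹ ∈ K) → IsPGroup 2 K → K ≤ Q
  all : ∀ x ∈ Q, Commute x w → x * x = 1 → x = 1 ∨ IsConj z x

/-- `φ` is the projection of `C(t)` onto `C(t) / ⟨t⟩` -/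
structure Pj {N : Type*} [Group N] (t : G) (φ : centralizer ({t} : Set G) →* N) : Prop where
  surj : Function.Surjective φ
  ker : ∀ x, φ x = 1 ↔ (x : G) = 1 ∨ (x : G) = t

/-- isometries of odd order that fix `r` lift into `O²(C(t))` -/
def Lift {z : G} (M : OM qp z) (t : G) : Prop := ∀ g ∈ M.X, g.1 vr = vr → g ^ 15 = 1 →
  ∃ c ∈ pResidualOf 2 (centralizer ({t} : Set G)), Commute c z ∧ Commute c t ∧ M.ρ c = g

end

/-! ### the jobs -/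

def JL1 : Prop := ∀ X O E L, LD qp X O E L → Cfg d75 X O E L → L1 X O E
def JL2 : Prop := ∀ X O E L, LD qp X O E L → Cfg d75 X O E L → L2 X O
def JL3 : Prop := ∀ X O E L, Cfg d75 X O E L → L3 X
def JL4 : Prop := ∀ X O E L, Cfg d75 X O E L → L4 X O

def K1 : Prop := ∀ (G : Type u) [Group G] [Finite G] (z : G), Hy z → ∀ M : OM qp z, L1 M.X M.O M.E → gs ∈ M.X →
  ∃ c, Commute c z ∧ M.ρ c = gs ∧ c * c = 1

def K3 : Prop := ∀ (G : Type u) [Group G] [Finite G] (z : G), Hy z → ∀ c d : G, Commute c z → c * c = 1 →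
  ∃ b ∈ QQ z, Commute b c ∧ b ≠ 1 ∧ b ≠ z ∧ b ≠ d ∧ b ≠ d * z

def KS : Prop := ∀ (G : Type u) [Group G] [Finite G] (z : G), Hy z → ∀ M : OM qp z, L1 M.X M.O M.E → L2 M.X M.O →
  L3 M.X → ∃ y, IsConj z y ∧ Commute y z ∧ M.ρ y = gs ∨ gs ∉ M.X

def KY : Prop := ∀ (G : Type u) [Group G] [Finite G] (z : G), Hy z → ∀ M : OM qp z, L1 M.X M.O M.E → L2 M.X M.O →
  ∀ y, IsConj z y → Commute y z → M.ρ y ≠ gs

def JKS : Prop := K1.{u} → KS.{u}
def JKY : Prop := K3.{u} → KY.{u}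

def GA : Prop := ∀ (G : Type u) [Group G] [Finite G] (z : G), Hy z → ∀ M : OM qp z, L1 M.X M.O M.E → L2 M.X M.O →
  gs ∉ M.X → ∀ t ∈ QQ z, ∀ w ∈ QQ z, M.π t = vr → M.π w = vn → G0 z t w (QQ z) ∧ Lift M t

def GG : Prop := ∀ (G : Type u) [Group G] [Finite G] (z : G), Hy z → ∀ M : OM qp z, L1 M.X M.O M.E →
  ∀ t ∈ QQ z, ∀ w ∈ QQ z, M.π t = vr → M.π w = vn → Lift M t → Gen t w (QQ z)

def GB : Prop := ∀ (G : Type u) [Group G] [Finite G] (z : G), Hy z → ∀ M : OM qp z, L1 M.X M.O M.E → L2 M.X M.O →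
  L4 M.X M.O → gs ∉ M.X → ∀ t ∈ QQ z, M.π t = vr → Lift M t → Nrm z t (QQ z)

def GC : Prop := ∀ (G : Type u) [Group G] [Finite G] (z : G), Hy z → ∀ M : OM qp z, L1 M.X M.O M.E →
  L4 M.X M.O → ∀ t ∈ QQ z, ∀ w ∈ QQ z, M.π t = vr → M.π w = vn → Lift M t → All z t w (QQ z)

def BN1 : Prop := ∀ (G N : Type u) [Group G] [Finite G] [Group N] (z t w : G) (Q : Subgroup G)
  (φ : centralizer ({t} : Set G) →* N) (z' : centralizer ({t} : Set G)), (z' : G) = z → G0 z t w Q → Pj t φ →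
  XE (φ z') ((Q.subgroupOf _).map φ) ∧ Nat.card ((Q.subgroupOf _).map φ) = 128

def BN2 : Prop := ∀ (G N : Type u) [Group G] [Finite G] [Group N] (z t w : G) (Q : Subgroup G)
  (φ : centralizer ({t} : Set G) →* N) (z' w' : centralizer ({t} : Set G)), (z' : G) = z → (w' : G) = w →
  G0 z t w Q → Gen t w Q → Nrm z t Q → All z t w Q → Pj t φ →
  XE (φ z') ((Q.subgroupOf _).map φ) → Nat.card ((Q.subgroupOf _).map φ) = 128 →
  Nd (φ z') (φ w') ((Q.subgroupOf _).map φ)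

def AB1 : Prop := ∀ (N : Type u) [Group N] [Finite N] (z w : N) (Q : Subgroup N), Nd z w Q → ¬ Q ≤ pResidual 2 N

/-- the situation in `O²(C(t) / ⟨t⟩)` -/
structure Md {M : Type*} [Group M] (z w : M) (R : Subgroup M) : Prop where
  ne : z ≠ 1
  zz : z * z = 1
  ww : w * w = z
  wR : w ∈ R
  card : Nat.card R = 64
  cw : ∀ x ∈ R, Commute x w
  nR : ∀ c, Commute c z → ∀ x ∈ R, c * x * c⁻¹ ∈ R
  nw : ∀ c, Commute c z → Commute c w ∨ c * w * c⁻¹ = w⁻¹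
  sq : ∀ x ∈ R, x * x = 1 ∨ x * x = z
  cm : ∀ y ∈ R, ∀ x ∈ R, Commute y x ∨ y * x * y⁻¹ = x * z
  cen : ∀ x ∈ R, (∀ y ∈ R, Commute x y) → x ∈ zpowers w
  stab : ∀ c, Commute c z → (∀ x ∈ R, c * x * c⁻¹ * x⁻¹ ∈ zpowers w) → c ∈ R
  nrm : ∀ K : Subgroup M, (∀ k ∈ K, Commute k z) → (∀ c, Commute c z → ∀ k ∈ K, c * k * c⁻¹ ∈ K) →
    IsPGroup 2 K → K ≤ R
  all : ∀ x ∈ R, x * x = 1 → x = 1 ∨ IsConj z x

def AB2 : Prop := ∀ (N : Type u) [Group N] [Finite N] (z w : N) (Q : Subgroup N) (z' w' : pResidual 2 N),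
  (z' : N) = z → (w' : N) = w → Nd z w Q → ¬ Q ≤ pResidual 2 N → Md z' w' (Q.subgroupOf (pResidual 2 N))

def ABH : Prop := ∀ (M : Type u) [Group M] [Finite M] (z w : M) (R : Subgroup M), Md z w R → Spor.IsoHS M

def AB3 : Prop := ∀ (N : Type u) [Group N] [Finite N] (z w : N) (Q : Subgroup N), Nd z w Q → ¬ Q ≤ pResidual 2 N →
  Spor.IsoHS (pResidual 2 N) → (pResidual 2 N).index = 2 ∧ centralizer (pResidual 2 N : Set N) = ⊥

def FIN : Prop := ∀ (G N : Type u) [Group G] [Finite G] [IsSimpleGroup G] [Group N] (t : G)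
  (φ : centralizer ({t} : Set G) →* N), orderOf t = 2 → Pj t φ → t ∈ pResidualOf 2 (centralizer ({t} : Set G)) →
  Spor.IsoHS (pResidual 2 N) → (pResidual 2 N).index = 2 → centralizer (pResidual 2 N : Set N) = ⊥ → Spor.IsoHN G

theorem case75 (l1 : JL1) (l2 : JL2) (l3 : JL3) (l4 : JL4) (ks : KS.{u}) (ky : KY.{u}) (a : GA.{u}) (g : GG.{u})
    (b : GB.{u}) (c : GC.{u}) (n1 : BN1.{u}) (n2 : BN2.{u}) (a1 : AB1.{u}) (a2 : AB2.{u}) (ah : ABH.{u})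
    (a3 : AB3.{u}) (f : FIN.{u}) : Case.{u} d75 := by
  intro G _ _ _ _ z h M k
  have p1 := l1 _ _ _ _ (M.ld h) k
  have p2 := l2 _ _ _ _ (M.ld h) k
  have p3 := l3 _ _ _ _ k
  have p4 := l4 _ _ _ _ k
  have hs : gs ∉ M.X := by
    obtain ⟨y, e | e⟩ := ks G z h M p1 p2 p3
    · exact (ky G z h M p1 p2 y e.1 e.2.1 e.2.2).elim
    · exact e
  obtain ⟨t, ht, et⟩ := M.surj vr
  obtain ⟨w, hw, ew⟩ := M.surj vn
  obtain ⟨g0, li⟩ := a G z h M p1 p2 hs t ht w hw et ew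
  have g1 := g G z h M p1 t ht w hw et ew li
  let t' : centralizer ({t} : Set G) := ⟨t, cm_iff.2 (Commute.refl t)⟩
  let z' : centralizer ({t} : Set G) := ⟨z, cm_iff.2 (h.cz ht).symm⟩
  let w' : centralizer ({t} : Set G) := ⟨w, cm_iff.2 g0.wt⟩
  haveI : (zpowers t').Normal := ⟨fun x hx y => by
    obtain ⟨i, rfl⟩ := hx
    have : Commute y t' := Subtype.ext (cm_iff.1 y.2).eq
    rw [(this.zpow_right i).eq, mul_inv_cancel_right]
    exact ⟨i, rfl⟩⟩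
  have ot : orderOf t = 2 := ord2 g0.tt g0.t1
  have pj : Pj t (QuotientGroup.mk' (zpowers t')) := ⟨QuotientGroup.mk'_surjective _, fun x => by
    rw [QuotientGroup.mk'_apply, QuotientGroup.eq_one_iff,
      mem_zpowers_two (by rw [← Subgroup.orderOf_coe]; exact ot)]
    exact or_congr Subtype.ext_iff Subtype.ext_iff⟩
  obtain ⟨x1, x2⟩ := n1 G _ z t w _ _ z' rfl g0 pj
  have nd := n2 G _ z t w _ _ z' w' rfl rfl g0 g1 (b G z h M p1 p2 p4 hs t ht et li)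
    (c G z h M p1 p4 t ht w hw et ew li) pj x1 x2
  have q1 := a1 _ _ _ _ nd
  have hw' := nd.gen _ nd.wQ (Commute.refl _)
  have iso := ah _ _ _ _ (a2 _ _ _ _ ⟨_, nd.ww ▸ mul_mem hw' hw'⟩ ⟨_, hw'⟩ rfl rfl nd q1)
  obtain ⟨i1, i2⟩ := a3 _ _ _ _ nd q1 iso
  have := f G _ t _ ot pj (g1 t ht (Commute.refl t) g0.wt.symm) iso i1 i2
  unfold Concl
  tauto

end CL.N9.HN
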