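/-
S1763, the configuration with 75 points: passage to `O²(C(t) / ⟨t⟩)`.
-/
import Cfsg.Agent.N9.NDefs

set_option autoImplicit false

namespace CL.N9.HN

open Cfsg Subgroup CL.Even CL.Grp CL.WC CL.Cls QuadraticMap

universe u

namespace AB12

variable {N : Type u} [Group N]

theorem cc {H : Subgroup N} {x y : H} : Commute x y ↔ Commute (x : N) y := Subtype.ext_iff

variable {z w : N} {Q : Subgroup N} (h : Nd z w Q)
include h

theorem nc {c : N} (e : c * w * c⁻¹ = w⁻¹) (k : Commute c w) : False :=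
  h.xe.ne_one (by rw [cfix k] at e; rw [← h.ww]; exact mul_eq_one_iff_eq_inv.2 e)

theorem it {a b : N} (ha : Commute a z) (hb : Commute b z) : Commute (a * b) w ↔ (Commute a w ↔ Commute b w) := by
  rcases h.nw a ha with c | c <;> rcases h.nw b hb with d | d
  · exact iff_of_true (c.mul_left d) (iff_of_true c d)
  · exact iff_of_false (fun e => nc h d (by simpa using c.inv_left.mul_left e)) fun e => nc h d (e.1 c)
  · exact iff_of_false (fun e => nc h c (by simpa using e.mul_left d.inv_left)) fun e => nc h c (e.2 d)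
  · refine iff_of_true (mul_inv_eq_iff_eq_mul.1 ?_) (iff_of_false (nc h c) (nc h d))
    rw [show a * b * w * (a * b)⁻¹ = a * (b * w * b⁻¹) * a⁻¹ by group, d, ← conj_inv, c, inv_inv]

/-- a conjugate of `z` is conjugate to `z` under `O²(N)` -/
theorem cjr [Finite N] (g : N) : ∃ a ∈ pResidual 2 N, g * z * g⁻¹ = a * z * a⁻¹ := by
  obtain ⟨S, hS⟩ := h.xe.isPGroup.exists_le_sylow
  obtain ⟨a, ha, b, hb, rfl⟩ := exists_pResidual_mul_sylow S g
  haveI : Nontrivial (S : Subgroup N) := (nontrivial_iff_ne_bot _).2 fun e => h.xe.ne_one (mem_bot.1 (e ▸ hS h.xe.mem))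
  haveI := S.isPGroup'.center_nontrivial
  obtain ⟨s, hs⟩ := exists_ne (1 : center (S : Subgroup N))
  have k : ∀ x ∈ (S : Subgroup N), x * s.1.1 = s.1.1 * x := fun x hx => congrArg Subtype.val (mem_center_iff.1 s.2 ⟨x, hx⟩)
  have e : s.1.1 = z := (h.xe.mem_Z.1 (h.xe.cent_eq ▸ fun x hx => k x (hS hx))).resolve_left
    fun e => hs (Subtype.ext (Subtype.ext e))
  exact ⟨a, ha, by rw [show a * b * z * (a * b)⁻¹ = a * (b * z * b⁻¹) * a⁻¹ by group,
    cfix (g := b) (d := z) (by rw [← e]; exact k b hb)]⟩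

end AB12

open AB12

theorem ab1 : AB1.{u} := by
  intro N _ _ z w Q h hQ
  have x : XE (⟨z, hQ h.xe.mem⟩ : pResidual 2 N) (Q.subgroupOf _) :=
    xe_of (extra_of_mulEquiv h.xe.extra (subgroupOfEquivOfLe hQ).symm) ((orderOf_mk _ _).trans h.xe.ord)
      (fun x hx => Subtype.ext (h.xe.comm hx)) (fun c hc => h.xe.cent_le fun x hx =>
        congrArg Subtype.val (hc ⟨x, hQ hx⟩ hx)) fun c hc => mem_normalizer_fintype fun x hx =>
          h.xe.cmem (cc.1 (cm_iff.1 hc)) hx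
  have k := XE.le_of_it pResidual_pResidual x (K := centralizer {_} ⊓ centralizer {⟨w, hQ h.wQ⟩})
    ⟨inf_le_left, fun a ha b hb => by
      simp only [mem_inf, ha, hb, mul_mem ha hb, true_and, cm_iff, cc]
      exact it h (cc.1 (cm_iff.1 ha)) (cc.1 (cm_iff.1 hb))⟩ (n := 3) (by norm_num)
    ((Nat.card_congr (subgroupOfEquivOfLe hQ).toEquiv).trans h.card)
  have := h.ww
  rcases h.xe.central h.wQ fun y hy => cc.1 (cm_iff.1 (k (x := ⟨y, hQ hy⟩) hy).2) with e | e
  · exact h.xe.ne_one (by rw [← this, e, one_mul])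
  · exact h.xe.ne_one (by rw [← this, e, h.xe.mul_self])

theorem ab2 : AB2.{u} := by
  rintro N _ _ _ _ Q z w rfl rfl h hQ
  have m : ∀ x ∈ Q, x ∈ pResidual 2 N → Commute x w := fun x hx k => by_contra fun n => hQ fun y hy => by
    by_cases c : Commute y w
    · exact h.gen y hy c
    · exact (mul_mem_cancel_left k).1 (h.gen _ (mul_mem hx hy) (h.xe.cm_mul hx hy h.wQ n c))
  have ww : w * w = z := Subtype.ext h.ww
  refine ⟨fun e => h.xe.ne_one (congrArg Subtype.val e), Subtype.ext h.xe.mul_self, ww, h.wQ, ?_,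
    fun x hx => cc.2 (m x hx x.2), fun c hc x hx => h.xe.cmem (cc.1 hc) hx,
    fun c hc => (h.nw c (cc.1 hc)).imp cc.2 Subtype.ext, fun x hx => (h.xe.sq_cases hx).imp Subtype.ext Subtype.ext,
    fun y hy x hx => (h.xe.cj_cases hy hx).imp cc.2 fun e => Subtype.ext (e.trans (h.xe.cz hx).eq.symm),
    fun x hx k => ?_, fun c hc k => h.stab c (cc.1 hc) fun x hx e => ?_,
    fun K k1 k2 k3 => map_le_iff_le_comap.1 (h.nrm (K.map (pResidual 2 N).subtype) ?_ ?_ (k3.map _)),
    fun x hx e => (h.all x hx (m x hx x.2) (congrArg Subtype.val e)).imp Subtype.ext fun k => ?_⟩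
  · obtain ⟨x, hx, n⟩ := SetLike.not_le_iff_exists.1 hQ
    have := h.xe.card_inf le_rfl h.wQ hx fun c => n (h.gen x hx c)
    rw [h.card, show Q ⊓ centralizer {(w : N)} = Q ⊓ pResidual 2 N from Subgroup.ext fun y =>
      and_congr_right fun hy => ⟨fun c => h.gen y hy (cm_iff.1 c), fun c => cm_iff.2 (m y hy c)⟩,
      ← subgroupOf_map_subtype, card_map_of_injective (subtype_injective _)] at this
    omega
  · have w1 := mem_zpowers w
    rcases h.xe.cm_or h.wQ hx fun y hy c => (cc.1 (k ⟨y, h.gen y hy c⟩ hy)).symm with (e | e) | e | e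
    · exact (Subtype.ext e : x = 1) ▸ one_mem _
    · exact (Subtype.ext e : x = z) ▸ ww ▸ mul_mem w1 w1
    · exact (Subtype.ext e : x = w) ▸ w1
    · exact (Subtype.ext e : x = z * w) ▸ mul_mem (ww ▸ mul_mem w1 w1) w1
  · obtain ⟨i, e⟩ := k ⟨x, h.gen x hx e⟩ hx
    exact ⟨i, congrArg Subtype.val e⟩
  · rintro _ ⟨k, hk, rfl⟩
    exact cc.1 (k1 k hk)
  · rintro c hc e _ ⟨k, hk, rfl⟩
    exact ⟨_, k2 ⟨c, hc⟩ (cc.2 e) k hk, rfl⟩
  · obtain ⟨g, e⟩ := isConj_iff.1 k
    obtain ⟨a, ha, e'⟩ := cjr h g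
    exact isConj_iff.2 ⟨⟨a, ha⟩, Subtype.ext (e'.symm.trans e)⟩

end CL.N9.HN
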