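/-
S1763, the configuration with 75 points: the extraspecial group in `C(t) / ⟨t⟩`.
-/
import Cfsg.Agent.N9.NDefs

set_option autoImplicit false

namespace CL.N9.HN

open Cfsg Subgroup CL.Even CL.Grp CL.WC CL.Cls QuadraticMap
open scoped commutatorElement

universe u

theorem bn1 : BN1.{u} := by
  intro G N _ _ _ z t w Q φ z' hz g pj
  subst hz
  have : Finite N := Finite.of_surjective φ pj.surj
  have := Fact.mk Nat.prime_two
  have xe := g.xe
  have eqv : ∀ a b, φ a = φ b → (a : G) = b ∨ (a : G) = b * t := fun a b e =>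
    ((pj.ker (b⁻¹ * a)).1 (by rw [map_mul, map_inv, e, inv_mul_cancel])).imp (fun k => (inv_mul_eq_one.1 k).symm)
      fun k => inv_mul_eq_iff_eq_mul.1 k
  have cq : ∀ x y, Commute (φ x) (φ y) → Commute (x : G) y ∨ (x : G) * y * (x : G)⁻¹ = y * t := fun x y e =>
    (eqv (x * y * x⁻¹) y (by rw [map_mul, map_mul, map_inv, e.eq, mul_inv_cancel_right])).imp_left
      mul_inv_eq_iff_eq_mul.1
  have kz : ∀ c, Commute (φ c) (φ z') → Commute (c : G) z' := fun c e => (cq c z' e).resolve_right (g.nc c)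
  have cm : ∀ x y : centralizer ({t} : Set G), (x : G) ∈ Q → (y : G) ∈ Q → Commute (φ x) (φ y) → Commute (x : G) y :=
      fun x y hx hy e => by
    by_contra n
    exact g.tz (mul_left_cancel (((cq x y e).resolve_left n).symm.trans ((xe.cj_of_not hx hy n).trans (xe.comm hy).symm)))
  let t' : centralizer ({t} : Set G) := ⟨t, cm_iff.2 (Commute.refl t)⟩
  have ot : orderOf t' = 2 := by rw [← Subgroup.orderOf_coe]; exact ord2 g.tt g.t1
  have kr : φ.ker = zpowers t' := Subgroup.ext fun x => by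
    rw [MonoidHom.mem_ker, pj.ker, mem_zpowers_two ot]
    exact ⟨Or.imp (fun e => Subtype.ext e) fun e => Subtype.ext e, Or.imp (congrArg Subtype.val) (congrArg Subtype.val)⟩
  have cd : Nat.card ((Q.subgroupOf _).map φ) = 128 := by
    have h1 := card_comap_of_surjective pj.surj ((Q.subgroupOf _).map φ)
    rw [comap_map_eq_self (by rw [kr]; exact zpowers_le.2 g.tQ), kr, Nat.card_zpowers, ot, ← card_map_subtype,
      subgroupOf_map_subtype, inf_comm, ← subgroupOf_map_subtype, card_map_subtype] at h1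
    obtain ⟨a, ha, na⟩ : ∃ a ∈ Q, ¬ Commute a t := by
      by_contra! k
      exact (xe.central g.tQ k).elim g.t1 g.tz
    have h2 : (centralizer ({t} : Set G)).relIndex Q = 2 := relIndex_eq_two_iff_exists_notMem_and.2
      ⟨a, ha, mt cm_iff.1 na, fun b hb => or_iff_not_imp_right.2 fun nb => xe.toXS.mul_mem_cent g.tQ hb ha nb (mt cm_iff.1 na)⟩
    have h3 := card_mul_index ((centralizer ({t} : Set G)).subgroupOf Q)
    rw [← relIndex, h2, h1, g.card] at h3
    omega
  have zC : φ z' ∈ 𝒞((Q.subgroupOf _).map φ) := by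
    rintro _ ⟨x, hx, rfl⟩
    rw [← map_mul, ← map_mul]
    exact congrArg φ (Subtype.ext (xe.comm hx))
  have oz : orderOf (φ z') = 2 := ord2 (by rw [← map_mul, show z' * z' = 1 from Subtype.ext xe.mul_self, map_one])
    fun e => ((pj.ker _).1 e).elim xe.ne_one g.tz.symm
  have cen : (Q.subgroupOf _).map φ ⊓ 𝒞((Q.subgroupOf _).map φ) = zpowers (φ z') := by
    refine le_antisymm ?_ (zpowers_le.2 ⟨⟨z', xe.mem, rfl⟩, zC⟩)
    rintro _ ⟨⟨x, hx, rfl⟩, hc⟩
    have := xe.cent_inf_cent_le g.tQ (by rw [pow_two, g.tt]) (x := x) fun y hy =>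
      cm ⟨y, hy.2⟩ x hy.1 hx (hc _ ⟨⟨y, hy.2⟩, hy.1, rfl⟩)
    have pt : φ t' = 1 := (pj.ker _).2 (.inr rfl)
    rcases (mem_closure_pair_two xe.mul_self g.tt (xe.comm g.tQ).symm).1 this with e | e | e | e
    · rw [show x = 1 from Subtype.ext e, map_one]; exact one_mem _
    · rw [show x = z' from Subtype.ext e]; exact mem_zpowers _
    · rw [show x = t' from Subtype.ext e, pt]; exact one_mem _
    · rw [show x = z' * t' from Subtype.ext e, map_mul, pt, mul_one]; exact mem_zpowers _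
  refine ⟨xe_of (isExtraspecial_subgroup_of (xe.isPGroup.comap_subtype.map φ) (by rw [cen, Nat.card_zpowers, oz])
    (commutator_le.2 ?_) fun e => ?_) oz zC (fun c hc => ?_) fun c hc => ?_, cd⟩
  · rintro _ ⟨x, hx, rfl⟩ _ ⟨y, hy, rfl⟩
    rw [← map_commutatorElement]
    rcases xe.mem_Z.1 (xe.comm_mem hx hy) with e | e
    · rw [show ⁅x, y⁆ = 1 from Subtype.ext e, map_one]; exact one_mem _
    · rw [show ⁅x, y⁆ = z' from Subtype.ext e]; exact zC
  · rw [← inf_eq_left.2 (le_centralizer_iff_isMulCommutative.2 e), cen, Nat.card_zpowers, oz] at cd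
    omega
  · obtain ⟨c, rfl⟩ := pj.surj c
    refine ⟨c, g.stab c (kz c (hc _ ⟨z', xe.mem, rfl⟩).symm) (cm_iff.1 c.2) fun x hx xt _ => ?_, rfl⟩
    rcases cq c ⟨x, cm_iff.2 xt⟩ (hc _ ⟨_, hx, rfl⟩).symm with e | e
    · rw [show c * x = x * c from e, mul_inv_cancel_right, mul_inv_cancel]; exact one_mem _
    · rw [show c * x * (c : G)⁻¹ = x * t from e, xt.eq, mul_inv_cancel_right]; exact subset_closure (by simp)
  · obtain ⟨c, rfl⟩ := pj.surj c
    exact le_normalizer_map φ ⟨c, le_normalizer_comap (Subgroup.subtype _) (xe.norm (cm_iff.2 (kz c (cm_iff.1 hc)))), rfl⟩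

end CL.N9.HN
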