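/-
S1763, the configuration with 75 points: the passage to `C(t) / ⟨t⟩`.
-/
import Cfsg.Agent.N9.NDefs

set_option autoImplicit false

namespace CL.N9.HN

open Cfsg Subgroup CL.Even CL.Grp CL.WC CL.Cls QuadraticMap

universe u

namespace BN2x

variable {G N : Type*} [Group G] [Group N] {t : G} {φ : centralizer ({t} : Set G) →* N}

theorem eq_or (p : Pj t φ) {a b : centralizer ({t} : Set G)} (e : φ a = φ b) : (a : G) = b ∨ (a : G) = t * b :=
  ((p.ker (a * b⁻¹)).1 (by rw [map_mul, map_inv, e, mul_inv_cancel])).imp mul_inv_eq_one.1 mul_inv_eq_iff_eq_mul.1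

theorem of_or (p : Pj t φ) {a b : centralizer ({t} : Set G)} (e : (a : G) = b ∨ (a : G) = b * t) : φ a = φ b := by
  rw [← inv_mul_eq_one, ← map_inv, ← map_mul, ← inv_eq_one, ← map_inv, p.ker]
  refine e.imp (fun e => ?_) fun e => ?_ <;> simp [e]

theorem cj_eq {a b : centralizer ({t} : Set G)} (e : Commute (φ a) (φ b)) : φ (a * b * a⁻¹) = φ b := by
  rw [map_mul, map_mul, map_inv, e.eq, mul_inv_cancel_right]

end BN2x

open BN2x

theorem bn2 : BN2.{u} := by
  intro G N _ _ _ z t w Q φ z' w' ez ew g ge nr al p xe cd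
  subst ez ew
  have ct : ∀ c : centralizer ({t} : Set G), Commute (c : G) t := fun c => cm_iff.1 c.2
  have cz : ∀ {c}, Commute (φ c) (φ z') → Commute (c : G) z' := fun {c} e =>
    (eq_or p (cj_eq e)).elim mul_inv_eq_iff_eq_mul.1 fun k => absurd (k.trans (ct z').eq.symm) (g.nc c)
  have cw : ∀ {x}, x ∈ Q.subgroupOf _ → Commute (φ x) (φ w') → Commute (x : G) w' := fun {x} hx e =>
    (eq_or p (cj_eq e)).elim mul_inv_eq_iff_eq_mul.1 fun k => (g.xe.cj_cases hx g.wQ).resolve_right fun k' =>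
      g.tz (mul_right_cancel (k.symm.trans k'))
  have mc : ∀ {a b : centralizer ({t} : Set G)}, Commute (a : G) b → Commute (φ a) (φ b) := fun e =>
    Commute.map (Subtype.ext e.eq) φ
  have ww : φ w' * φ w' = φ z' := by rw [← map_mul]; exact congrArg φ (Subtype.ext g.ww)
  refine ⟨xe, cd, mem_map_of_mem φ g.wQ, ww, fun c hc => ?_, fun c hc h => ?_, ?_, fun K h1 h2 h3 k hk => ?_, ?_⟩
  · obtain ⟨c, rfl⟩ := p.surj c
    have wz : φ (w' * z') = (φ w')⁻¹ :=
      eq_inv_of_mul_eq_one_right (by rw [map_mul, ← mul_assoc, ww, xe.mul_self])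
    rw [← map_inv φ c, ← map_mul, ← map_mul, ← wz]
    have k : φ (c * w' * c⁻¹) = φ w' → Commute (φ c) (φ w') := fun e => by
      rw [map_mul, map_mul, map_inv] at e
      exact mul_inv_eq_iff_eq_mul.1 e
    rcases g.nw c (cz hc) (ct c) with e | e | e | e
    exacts [.inl (k (of_or p (.inl e))), .inr (of_or p (.inl e)), .inl (k (of_or p (.inr e))), .inr (of_or p (.inr e))]
  · obtain ⟨c, rfl⟩ := p.surj c
    refine mem_map_of_mem φ (g.stab c (cz hc) (ct c) fun x hx xt xw => ?_)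
    obtain ⟨i, e⟩ := h (φ ⟨x, cm_iff.2 xt⟩) (mem_map_of_mem φ hx) (mc xw)
    have hw : ((w' ^ i : centralizer ({t} : Set G)) : G) ∈ closure ({(w' : G), t} : Set G) :=
      zpow_mem (subset_closure (Set.mem_insert _ _)) i
    rcases eq_or p (a := c * ⟨x, cm_iff.2 xt⟩ * c⁻¹ * (⟨x, cm_iff.2 xt⟩ : centralizer ({t} : Set G))⁻¹) (b := w' ^ i)
      (by rw [map_mul, map_mul, map_mul, map_inv, map_inv, map_zpow]; exact e.symm) with k | k
    · exact (show (c : G) * x * (c : G)⁻¹ * x⁻¹ = _ from k).symm ▸ hw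
    · exact (show (c : G) * x * (c : G)⁻¹ * x⁻¹ = _ from k).symm ▸
        mul_mem (subset_closure (Set.mem_insert_of_mem _ rfl)) hw
  · rintro _ ⟨x, hx, rfl⟩ e
    obtain ⟨y, hy, k⟩ := ge x hx (ct x) (cw hx e)
    exact map_pResidual_le φ ⟨y, hy, congrArg φ (Subtype.ext k)⟩
  · obtain ⟨k, rfl⟩ := p.surj k
    refine mem_map_of_mem φ (nr ((K.comap φ).map (centralizer ({t} : Set G)).subtype) ?_ ?_
      ((h3.comap_of_ker_isPGroup φ fun x => ⟨1, Subtype.ext (Subtype.ext ?_)⟩).map _) ⟨k, hk, rfl⟩)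
    · rintro _ ⟨a, ha, rfl⟩
      exact ⟨cz (h1 _ ha), ct a⟩
    · rintro _ ⟨c, hc, rfl⟩ e _ ⟨a, ha, rfl⟩
      refine ⟨c * a * c⁻¹, ?_, rfl⟩
      rw [SetLike.mem_coe, mem_comap, map_mul, map_mul, map_inv]
      exact h2 _ (map_pResidual_le φ ⟨c, hc, rfl⟩) (mc e) _ ha
    · change (x.1 : G) ^ 2 ^ 1 = 1
      rcases (p.ker x.1).1 x.2 with e | e
      · rw [e, one_pow]
      · rw [e, pow_one, pow_two, g.tt]
  · rintro _ ⟨x, hx, rfl⟩ e k
    have xx : (x : G) * x = 1 := (g.xe.sq_cases hx).resolve_right fun a =>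
      ((p.ker (x * x)).1 ((map_mul φ x x).trans k)).elim (fun b => g.xe.ne_one (a.symm.trans b))
        fun b => g.tz (b.symm.trans a)
    rcases al x hx (ct x) (cw hx e) xx with a | a | ⟨c, hc, a⟩
    · exact .inl ((p.ker x).2 (.inl a))
    · exact .inl ((p.ker x).2 (.inr a))
    · refine .inr (isConj_iff.2 ⟨φ ⟨c, cm_iff.2 hc⟩, ?_⟩)
      rw [← map_inv, ← map_mul, ← map_mul]
      exact of_or p a

end CL.N9.HN
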