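/-
S1763, the configuration with 75 points: the elements `t`, `w` over `r`, `n` and lifts into `O²(C(t))`.
-/
import Cfsg.Agent.N9.NDefs

set_option autoImplicit false

namespace CL.N9.HN

open Cfsg Subgroup CL.Even CL.Grp CL.WC CL.Cls QuadraticMap

universe u

namespace GAx

theorem F_add {x y : V8} (h : F x) (k : F y) : F (x + y) := by
  have e1 : vr + (vn + vr) = vn := by rw [add_comm vn, aac]
  have e2 : vn + vr + vr = vn := aac' _ _
  have e3 : vn + vr + vn = vr := by rw [add_comm vn, aac']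
  unfold F at *
  rcases h with h | h | h | h <;> rcases k with k | k | k | k <;> rw [h, k] <;>
    simp only [aa, aac, e1, e2, e3, zero_add, add_zero, true_or, or_true, add_comm vr vn]

theorem pow16 {H : Type*} [Group H] {g : H} (h : g ^ 15 = 1) (k : ℕ) : g ^ 16 ^ k = g := by
  induction k with
  | zero => simp
  | succ k ih => rw [pow_succ, pow_mul, ih, show 16 = 15 + 1 from rfl, pow_succ, h, one_mul]

variable {G : Type*} [Group G] [Finite G] {z t w : G} (h : Hy z) (M : OM qp z)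

omit [Finite G] in
theorem clos (ht : t ∈ QQ z) (hw : w ∈ QQ z) (et : M.π t = vr) (ew : M.π w = vn) {x : G}
    (hx : x ∈ closure ({w, t} : Set G)) : x ∈ QQ z ∧ F (M.π x) := by
  induction hx using closure_induction with
  | mem x hx =>
    rcases hx with rfl | rfl
    exacts [⟨hw, .inr (.inr (.inl ew))⟩, ⟨ht, .inr (.inl et)⟩]
  | one => exact ⟨one_mem _, .inl M.π_one⟩
  | mul x y _ _ a b => exact ⟨mul_mem a.1 b.1, by rw [M.π_mul a.1 b.1]; exact F_add a.2 b.2⟩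
  | inv x _ a => exact ⟨inv_mem a.1, by rw [M.π_inv a.1]; exact a.2⟩

include h in
theorem lift (r0 : vr ≠ 0) (ht : t ∈ QQ z) (et : M.π t = vr) : Lift M t := by
  intro g hg gr g15
  obtain ⟨c0, c0z, rfl⟩ := M.mem_X.1 hg
  obtain ⟨c, cz, ct, e⟩ : ∃ c, Commute c z ∧ Commute c t ∧ M.ρ c = M.ρ c0 := by
    rcases (M.π_eq ht (h.cmem c0z ht)).1 (by rw [M.π_conj c0z ht, et, gr]) with e | e
    · exact ⟨c0, c0z, mul_inv_eq_iff_eq_mul.1 e, rfl⟩
    · obtain ⟨y, hy⟩ := not_forall.1 fun k => r0 (eq_zero_of_pol M.nd k)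
      obtain ⟨x, hx, rfl⟩ := M.surj y
      rw [← et, M.b_zero ht hx] at hy
      have k := h.xe.cj_of_not hx ht fun c => hy c.symm
      refine ⟨x * c0, (h.cz hx).mul_left c0z, mul_inv_eq_iff_eq_mul.1 ?_,
        by rw [M.ρ_mul (h.cz hx) c0z, M.ρ_Q h hx, one_mul]⟩
      calc x * c0 * t * (x * c0)⁻¹ = x * (c0 * t * c0⁻¹) * x⁻¹ := by group
        _ = x * t * x⁻¹ * (x * z * x⁻¹) := by rw [e]; group
        _ = t := by rw [k, cfix (h.cz hx), ← (h.cz ht).eq, mul_assoc, h.zz, mul_one]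
  have : Fact (Nat.Prime 2) := ⟨Nat.prime_two⟩
  obtain ⟨k, hk⟩ := exists_pow_mem_res (p := 2) (cm_iff.2 ct)
  refine ⟨c ^ 16 ^ k, ?_, cz.pow_left _, ct.pow_left _, ?_⟩
  · rw [show 16 ^ k = 2 ^ k * 8 ^ k from mul_pow 2 8 k, pow_mul]
    exact pow_mem hk _
  · exact (map_pow M.hom ⟨c, cm_iff.2 cz⟩ (16 ^ k)).trans ((congrArg (· ^ 16 ^ k) e).trans (pow16 g15 k))

end GAx

open GAx

theorem ga' : GA.{u} := by
  intro G _ _ z h M l1 l2 hs t ht w hw et ew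
  have t1 : t ≠ 1 := fun e => l1.r0 (et ▸ (M.π_zero ht).2 (.inl e))
  have fr : ∀ {c}, Commute c z → Commute c t → (M.ρ c).1 vr = vr := fun hc ct => by
    rw [← et, ← M.π_conj hc ht, cfix ct]
  refine ⟨⟨h.xe, h.card, ht, (M.q_zero ht).1 (et ▸ l1.qr), t1, fun e => l1.r0 (et ▸ (M.π_zero ht).2 (.inr e)),
    fun g e => l1.FO vr (.inr (.inl rfl)) ⟨z * t, ⟨isConj_iff.2 ⟨g, e⟩, mul_mem h.zQ ht,
      fun k => t1 (by simpa using k)⟩, by rw [M.π_zmul h ht, et]⟩, hw,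
    (h.xe.sq_cases hw).resolve_left fun e => ?_, (M.b_zero hw ht).1 (by rw [et, ew, polar_comm, l1.rn]),
    fun c cz ct => ?_, fun c cz ct k => ?_⟩, lift h M l1.r0 ht et⟩
  · have := (M.q_zero hw).2 e
    rw [ew, l1.qn] at this
    exact one_ne_zero this
  · rcases l2.nn _ (M.ρ_mem cz) (fr cz ct) with e | e
    · rcases (M.π_eq hw (h.cmem cz hw)).1 (by rw [M.π_conj cz hw, ew, e]) with k | k
      exacts [.inl k, .inr (.inl k)]
    · rcases (M.π_eq (mul_mem hw ht) (h.cmem cz hw)).1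
        (by rw [M.π_conj cz hw, M.π_mul hw ht, ew, et, e]) with k | k
      exacts [.inr (.inr (.inl k)), .inr (.inr (.inr (by rw [k, mul_assoc, (h.cz ht).eq, mul_assoc])))]
  · refine (M.ker cz).1 ((l2.tv _ (M.ρ_mem cz) fun x hx => ?_).resolve_right fun e => hs (e ▸ M.ρ_mem cz))
    obtain ⟨a, ha, rfl⟩ := M.surj x
    have := (clos M ht hw et ew (k a ha ((M.b_zero ht ha).1 (et ▸ hx.1)).symm
      ((M.b_zero hw ha).1 (ew ▸ hx.2)).symm)).2
    rwa [M.π_mul (h.cmem cz ha) (inv_mem ha), M.π_conj cz ha, M.π_inv ha, add_comm] at this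

theorem gg : GG.{u} := by
  intro G _ _ z h M l1 t ht w hw et ew li
  have nO : ∀ {b a : G}, Commute b t → a ∈ pResidualOf 2 (centralizer ({t} : Set G)) →
      b * a * b⁻¹ ∈ pResidualOf 2 (centralizer ({t} : Set G)) := fun hb ha =>
    (mem_normalizer_iff.1 (self_le_norm_res _ (cm_iff.2 hb)) _).1 ha
  have ct : ∀ {a}, a ∈ QQ z → U (M.π a) → Commute a t := fun ha k => ((M.b_zero ht ha).1 (et ▸ k.1)).symm
  have k1 : ∀ g ∈ M.X, g.1 vr = vr → g ^ 15 = 1 → ∀ x, U x →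
      ∃ a ∈ pResidualOf 2 (centralizer ({t} : Set G)), a ∈ QQ z ∧ M.π a = x + g.1 x := by
    intro g hg g1 g2 x hx
    obtain ⟨c, c1, c2, -, rfl⟩ := li g hg g1 g2
    obtain ⟨a, ha, rfl⟩ := M.surj x
    exact ⟨a * c * a⁻¹ * c⁻¹, mul_mem (nO (ct ha hx) c1) (inv_mem c1), h.xe.cmt_mem c2 ha, M.π_cmt h c2 ha⟩
  have k2 : ∀ x, U x → ∃ a ∈ pResidualOf 2 (centralizer ({t} : Set G)), a ∈ QQ z ∧ M.π a = x := by
    intro u hu
    obtain ⟨x, y, hx, hy, rfl⟩ := l1.gen u hu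
    obtain ⟨a, a1, a2, a3⟩ := k1 _ l1.aX l1.ar l1.a15 x hx
    obtain ⟨b, b1, b2, b3⟩ := k1 _ l1.bX l1.br l1.b15 y hy
    exact ⟨a * b, mul_mem a1 b1, mul_mem a2 b2, by rw [M.π_mul a2 b2, a3, b3]⟩
  have zO : z ∈ pResidualOf 2 (centralizer ({t} : Set G)) := by
    obtain ⟨a, a1, a2, a3⟩ := k2 vv l1.vU
    obtain ⟨u, hu⟩ := not_forall.1 fun k => l1.FO vv (l1.perp vv k) l1.vO
    obtain ⟨u1, u2⟩ := Classical.not_imp.1 hu
    obtain ⟨b, hb, rfl⟩ := M.surj u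
    rw [← a3, M.b_zero a2 hb] at u2
    have := mul_mem (nO (ct hb u1) a1) (inv_mem a1)
    rwa [h.xe.cj_of_not hb a2 fun c => u2 c.symm, mul_inv_cancel_right] at this
  intro x hx xt xw
  obtain ⟨a, a1, a2, a3⟩ := k2 (M.π x) ⟨et ▸ (M.b_zero ht hx).2 xt.symm, ew ▸ (M.b_zero hw hx).2 xw.symm⟩
  rcases (M.π_eq a2 hx).1 a3 with rfl | rfl
  exacts [a1, mul_mem a1 zO]

end CL.N9.HN
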