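/-
S1763, the configuration with 75 points: the steps `GB` and `GC` (helper10).
-/
import Cfsg.Agent.N9.NDefs

set_option autoImplicit false

namespace CL.N9.HN

open Cfsg Subgroup CL.Even CL.Grp CL.WC CL.Cls QuadraticMap

universe u

namespace NGB

theorem presU {X : Subgroup (OG qp)} {O : Set V8} (p2 : L2 X O) {g : OG qp} (hg : g ∈ X) (hr : g.1 vr = vr)
    {x : V8} (hx : U x) : U (g.1 x) := by
  have hi : (g⁻¹).1 vr = vr := by
    conv_lhs => rw [← hr]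
    exact OG.inv_app_app g vr
  refine ⟨by rw [OG.polar_app_right, hi, hx.1], ?_⟩
  rw [OG.polar_app_right]
  rcases p2.nn _ (inv_mem hg) hi with e | e <;> rw [e]
  · exact hx.2
  · rw [polar_add_left, hx.1, hx.2, add_zero]

end NGB

open NGB

theorem gb' : GB.{u} := by
  intro G _ _ z h M p1 p2 p4 hs t ht et li K hK hN h2
  have fr : ∀ k ∈ K, (M.ρ k).1 vr = vr := fun k hk => by
    rw [← et, ← M.π_conj (hK k hk).1 ht, cfix (hK k hk).2]
  let inst : MulAction K {x : V8 // x ∈ M.O ∧ U x} :=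
    { smul := fun k x => ⟨(M.ρ k).1 x, p1.aO _ (M.ρ_mem (hK k k.2).1) _ x.2.1,
        presU p2 (M.ρ_mem (hK k k.2).1) (fr k k.2) x.2.2⟩
      one_smul := fun x => Subtype.ext (show (M.ρ ((1 : K) : G)).1 x = x by
        rw [OneMemClass.coe_one, M.ρ_one]; rfl)
      mul_smul := fun k l x => Subtype.ext (show (M.ρ ((k * l : K) : G)).1 x = (M.ρ k).1 ((M.ρ l).1 x) by
        rw [Subgroup.coe_mul, M.ρ_mul (hK k k.2).1 (hK l l.2).1]; rfl) }
  haveI : Fact (Nat.Prime 2) := ⟨Nat.prime_two⟩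
  obtain ⟨x0, hx0⟩ := h2.nonempty_fixed_point_of_prime_not_dvd_card {x : V8 // x ∈ M.O ∧ U x}
    (fun e => (Nat.not_even_iff_odd.2 p4.odd) (even_iff_two_dvd.2 e))
  have cl : ∀ g ∈ M.X, g.1 vr = vr → g ^ 15 = 1 → ∀ x, (∀ k ∈ K, (M.ρ k).1 x = x) →
      ∀ k ∈ K, (M.ρ k).1 (g.1 x) = g.1 x := by
    intro g hg hr h15 x hx k hk
    obtain ⟨c, c1, c2, -, rfl⟩ := li g hg hr h15
    have k1 := hx _ (hN c⁻¹ (inv_mem c1) c2.inv_left k hk)
    rw [M.ρ_conj c2.inv_left (hK k hk).1, M.ρ_inv c2, inv_inv, OG.mul_app, OG.mul_app] at k1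
    conv_rhs => rw [← k1]
    rw [OG.app_inv_app]
  have all := p4.orb (fun x => ∀ k ∈ K, (M.ρ k).1 x = x) (cl ga p1.aX p1.ar p1.a15) (cl gb p1.bX p1.br p1.b15)
    x0.1 x0.2.1 x0.2.2 (fun k hk => congrArg Subtype.val (hx0 ⟨k, hk⟩))
  intro k hk
  rcases p2.fx _ (M.ρ_mem (hK k hk).1) (fun x h1 h2 => all x h1 h2 k hk) with e | e
  · exact (M.ker (hK k hk).1).1 e
  · exact (hs (e ▸ M.ρ_mem (hK k hk).1)).elim

theorem gc : GC.{u} := by
  intro G _ _ z h M p1 p4 t ht w hw et ew li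
  have tt : t * t = 1 := (M.q_zero ht).1 (et ▸ p1.qr)
  have t1 : t ≠ 1 := fun e => p1.r0 (by rw [← et, e, M.π_one])
  have tz : t ≠ z := fun e => p1.r0 (by rw [← et, e, M.π_z h])
  have rO : vr ∉ M.O := p1.FO _ (.inr (.inl rfl))
  have zz : ∀ a ∈ QQ z, a * z = z * a := fun a ha => (h.cz ha).eq
  let T : V8 → Prop := fun y => ∀ a ∈ QQ z, M.π a = y → ∃ g, Commute g t ∧ g * z * g⁻¹ = a
  have cl : ∀ g ∈ M.X, g.1 vr = vr → g ^ 15 = 1 → ∀ x, T x → T (g.1 x) := by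
    intro g hg hr h15 x hx a ha e
    obtain ⟨c, -, c2, c3, rfl⟩ := li g hg hr h15
    obtain ⟨g, g1, g2⟩ := hx _ (h.cmem c2.inv_left ha)
      (by rw [M.π_conj c2.inv_left ha, e, M.ρ_inv c2, OG.inv_app_app])
    exact ⟨c * g, c3.mul_left g1, by rw [show c * g * z * (c * g)⁻¹ = c * (g * z * g⁻¹) * c⁻¹ by group, g2]; group⟩
  have base : T vv := by
    obtain ⟨a0, n, e0⟩ := p1.vO
    have tq : t ∈ QQ a0 := (M.mem_E h n ht).1 (by rw [et, e0]; exact p1.rE)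
    obtain ⟨g, rfl⟩ := isConj_iff.1 n.ic
    have te : t = g * (g⁻¹ * t * g) * g⁻¹ := by group
    have tq' : g⁻¹ * t * g ∈ QQ z := by rw [← conj_mem_QQ (g := g), ← te]; exact tq
    set t' := g⁻¹ * t * g with ht'
    have q' : qp (M.π t') = 0 := (M.q_zero tq').2 (by
      rw [ht', show g⁻¹ * t * g * (g⁻¹ * t * g) = g⁻¹ * (t * t) * g by group, tt]; group)
    have nb : ¬ IsConj z t' := fun c => rO ⟨t, ⟨te ▸ ic_conj c g, ht, tz⟩, et⟩
    have n0 : M.π t' ≠ 0 := fun e => by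
      rcases (M.π_zero tq').1 e with e | e
      · exact t1 (by rw [te, e]; group)
      · exact nb (e ▸ IsConj.refl z)
    have nO : M.π t' ∉ M.O := by
      rintro ⟨s, ns, e⟩
      rcases (M.π_eq ns.mem tq').1 e with e | e
      · exact nb (e ▸ ns.ic)
      · exact nb (by rw [e, zz s ns.mem]; exact (h.third ns).ic)
    obtain ⟨k, hk, e⟩ := p4.tr _ q' n0 nO
    obtain ⟨c, hc, rfl⟩ := M.mem_X.1 hk
    rw [← M.π_conj hc tq', ← et] at e
    obtain ⟨x, hx, ex⟩ : ∃ x ∈ QQ z, x * t * x⁻¹ = z * t :=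
      h.exists_conj_eq_mul ht (h.not_mem_cent ht (by rw [pow_two, tt]) t1 tz)
    obtain ⟨d, hd, ed⟩ : ∃ d, Commute d z ∧ d * t' * d⁻¹ = t := by
      rcases (M.π_eq ht (h.cmem hc tq')).1 e.symm with e | e
      · exact ⟨c, hc, e⟩
      · refine ⟨x * c, (h.cz hx).mul_left hc, ?_⟩
        rw [show x * c * t' * (x * c)⁻¹ = x * (c * t' * c⁻¹) * x⁻¹ by group, e,
          show x * (t * z) * x⁻¹ = x * t * x⁻¹ * (x * z * x⁻¹) by group, ex, cfix (h.cz hx), mul_assoc,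
          zz t ht, ← mul_assoc, h.zz, one_mul]
    have k1 : Commute (g * d⁻¹) t := by
      rw [Commute, SemiconjBy]
      have : d⁻¹ * t * d = g⁻¹ * t * g := by rw [← ht']; conv_lhs => rw [← ed]
                                             group
      calc g * d⁻¹ * t = g * (d⁻¹ * t * d) * d⁻¹ := by group
        _ = t * (g * d⁻¹) := by rw [this]; group
    have k2 : g * d⁻¹ * z * (g * d⁻¹)⁻¹ = g * z * g⁻¹ := by
      rw [show g * d⁻¹ * z * (g * d⁻¹)⁻¹ = g * (d⁻¹ * z * d⁻¹⁻¹) * g⁻¹ by group, cfix hd.inv_left]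
    intro a ha ea
    rcases (M.π_eq n.mem ha).1 (e0.trans ea.symm) with e | e
    · exact ⟨_, k1, k2.trans e.symm⟩
    · obtain ⟨v, hv, pv⟩ : ∃ v, U v ∧ polar qp vv v ≠ 0 := by
        by_contra hc
        push Not at hc
        exact p1.FO _ (p1.perp vv hc) p1.vO
      obtain ⟨b, hb, rfl⟩ := M.surj v
      have bt : Commute b t := ((M.b_zero ht hb).1 (et ▸ hv.1)).symm
      have nc : ¬ Commute b (g * z * g⁻¹) := fun c => pv (e0 ▸ (M.b_zero n.mem hb).2 c.symm)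
      refine ⟨b * (g * d⁻¹), bt.mul_left k1, ?_⟩
      rw [show b * (g * d⁻¹) * z * (b * (g * d⁻¹))⁻¹ = b * (g * d⁻¹ * z * (g * d⁻¹)⁻¹) * b⁻¹ by group, k2,
        h.xe.cj_of_not hb n.mem nc, e, zz _ n.mem]
  have all := p4.orb T (cl ga p1.aX p1.ar p1.a15) (cl gb p1.bX p1.br p1.b15) vv p1.vO p1.vU base
  intro x hx xt xw xx
  have ux : U (M.π x) := ⟨et ▸ (M.b_zero ht hx).2 xt.symm, ew ▸ (M.b_zero hw hx).2 xw.symm⟩
  rcases p1.sing _ ux ((M.q_zero hx).2 xx) with e | e | e | e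
  · rcases (M.π_zero hx).1 e with e | e
    · exact .inl e
    · exact .inr (.inr ⟨1, Commute.one_left t, .inl (by rw [e]; group)⟩)
  · rcases (M.π_eq ht hx).1 (et.trans e.symm) with e | e
    · exact .inr (.inl e)
    · refine .inr (.inr ⟨1, Commute.one_left t, .inr ?_⟩)
      rw [e, zz t ht, mul_assoc z, tt]; group
  · obtain ⟨g, g1, g2⟩ := all _ e ux x hx rfl
    exact .inr (.inr ⟨g, g1, .inl g2⟩)
  · have ur : U vr := ⟨pp vr, by rw [polar_comm]; exact p1.rn⟩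
    obtain ⟨g, g1, g2⟩ := all _ e (ux.add ur) (x * t) (mul_mem hx ht) (by rw [M.π_mul hx ht, et])
    exact .inr (.inr ⟨g, g1, .inr g2⟩)

end CL.N9.HN
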