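/-
S1763, the configuration with 75 points: the steps `K1` and `K3`.
-/
import Cfsg.Agent.N9.NDefs

set_option autoImplicit false

namespace CL.N9.HN

open Cfsg Subgroup CL.Even CL.Grp CL.WC CL.Cls QuadraticMap

universe u

namespace NK1

variable {G : Type u} [Group G] [Finite G] {z : G} (h : Hy z) {q : QuadraticForm (ZMod 2) V8} (M : OM q z)
include h

theorem fx {c a : G} (hc : Commute c z) (ha : a ∈ QQ z) (e : (M.ρ c).1 (M.π a) = M.π a) :
    c * a * c⁻¹ = a ∨ c * a * c⁻¹ = a * z :=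
  (M.π_eq ha (h.cmem hc ha)).1 (by rw [M.π_conj hc ha, e])

theorem sq {c a : G} (hc : Commute c z) (cc : c * c ∈ QQ z) (ha : a ∈ QQ z)
    (e : M.π (c * c) = M.π a + (M.ρ c).1 (M.π a)) : c * a * (c * a) = 1 ∨ c * a * (c * a) = z := by
  have e1 : c * a * (c * a) = c * a * c⁻¹ * (c * c) * a := by group
  have m1 := h.cmem hc ha
  rw [e1, ← M.π_zero (mul_mem (mul_mem m1 cc) ha), M.π_mul (mul_mem m1 cc) ha, M.π_mul m1 cc, M.π_conj hc ha, e,
    add_comm (M.π a), aac, aa]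

theorem ρ_mul' {c a : G} (hc : Commute c z) (ha : a ∈ QQ z) : M.ρ (c * a) = M.ρ c := by
  rw [M.ρ_mul hc (h.cz ha), M.ρ_Q h ha, mul_one]

omit h in
theorem cnt (σ : OG q) (hσ : σ * σ = 1) (δ u : V8) (H : ∀ x, σ.1 x = x → x = 0 ∨ x = δ ∨ x = u ∨ x = u + δ) :
    False := by
  classical
  have s2 : ∀ x, σ.1 (σ.1 x) = x := fun x => by rw [← OG.mul_app, hσ, OG.one_app]
  let S : Finset V8 := {0, δ, u, u + δ}
  have hS : ∀ x, σ.1 x = x → x ∈ S := fun x hx => by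
    simp only [S, Finset.mem_insert, Finset.mem_singleton]; exact H x hx
  have c4 : S.card ≤ 4 := Finset.card_le_four
  have h1 := Finset.card_le_mul_card_image (f := fun x : V8 => x + σ.1 x) Finset.univ 4 fun a ha => by
    obtain ⟨y, -, rfl⟩ := Finset.mem_image.1 ha
    refine le_trans (Finset.card_le_card (t := S.image (y + ·)) fun x hx => ?_) (Finset.card_image_le.trans c4)
    have k : x + σ.1 x = y + σ.1 y := (Finset.mem_filter.1 hx).2
    refine Finset.mem_image.2 ⟨y + x, hS _ ?_, aac y x⟩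
    rw [map_add, ← aac x (σ.1 x), k, add_left_comm, add_comm y, aac, add_comm]
  have h2 : (Finset.univ.image fun x : V8 => x + σ.1 x).card ≤ 4 := by
    refine le_trans (Finset.card_le_card fun a ha => ?_) c4
    obtain ⟨y, -, rfl⟩ := Finset.mem_image.1 ha
    exact hS _ (by rw [map_add, s2, add_comm])
  have h3 : (Finset.univ : Finset V8).card = 256 := by simp
  omega

end NK1

open NK1

theorem k1 : K1.{u} := by
  intro G _ _ z h M l hs
  have A : ∃ c, Commute c z ∧ M.ρ c = gs ∧ (c * c = 1 ∨ c * c = z) := by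
    obtain ⟨c, hc, e⟩ := M.mem_X.1 hs
    have cc : c * c ∈ QQ z := (M.ker (hc.mul_left hc)).1 (by rw [M.ρ_mul hc hc, e, l.ss])
    have hF : F (M.π (c * c)) := l.perp _ fun u hu => by
      obtain ⟨a, ha, rfl⟩ := M.surj u
      refine (M.b_zero cc ha).2 (mul_inv_eq_iff_eq_mul.1 ?_)
      have e1 : c * c * a * (c * c)⁻¹ = c * (c * a * c⁻¹) * c⁻¹ := by group
      rcases fx h M hc ha (by rw [e, (l.sU _).2 hu]) with k | k
      · rw [e1, k, k]
      · rw [e1, k, show c * (a * z) * c⁻¹ = c * a * c⁻¹ * (c * z * c⁻¹) by group, k, cfix hc, mul_assoc, h.zz, mul_one]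
    obtain ⟨y, hy⟩ := (l.sF _).1 hF
    obtain ⟨a, ha, rfl⟩ := M.surj y
    exact ⟨c * a, hc.mul_left (h.cz ha), by rw [ρ_mul' h M hc ha, e], sq h M hc cc ha (by rw [e, hy])⟩
  obtain ⟨c, hc, e, k | k⟩ := A
  · exact ⟨c, hc, e, k⟩
  have B : ∀ a ∈ QQ z, U (M.π a) → c * a * (c * a) = 1 ∨ c * a = a⁻¹ * c := fun a ha hu =>
    (sq h M hc (k ▸ h.zQ) ha (by rw [k, M.π_z h, e, (l.sU _).2 hu, aa])).imp_right fun k1 => by
      rw [← k, mul_assoc, mul_right_inj] at k1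
      rw [eq_inv_mul_iff_mul_eq, k1]
  have C : ∀ a ∈ QQ z, c * a * (c * a) = 1 → ∃ c, Commute c z ∧ M.ρ c = gs ∧ c * c = 1 := fun a ha k1 =>
    ⟨c * a, hc.mul_left (h.cz ha), by rw [ρ_mul' h M hc ha, e], k1⟩
  obtain ⟨u, hu, hp⟩ : ∃ u, U u ∧ polar qp vv u ≠ 0 := by
    by_contra hn
    exact l.FO _ (l.perp _ fun u hu => by_contra fun k1 => hn ⟨u, hu, k1⟩) l.vO
  obtain ⟨a, ha, ea⟩ := M.surj vv
  obtain ⟨b, hb, rfl⟩ := M.surj u
  rcases B a ha (ea ▸ l.vU) with k1 | k1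
  · exact C a ha k1
  rcases B b hb hu with k2 | k2
  · exact C b hb k2
  have k3 : a * b = z * b * a := mul_inv_eq_iff_eq_mul.1
    (h.xe.cj_of_not ha hb fun k4 => hp (ea ▸ (M.b_zero ha hb).2 k4))
  refine C (a * b) (mul_mem ha hb) ?_
  calc c * (a * b) * (c * (a * b)) = c * a * b * c * (a * b) := by group
    _ = a⁻¹ * (c * b) * c * (a * b) := by rw [k1]; group
    _ = a⁻¹ * b⁻¹ * (c * c) * (a * b) := by rw [k2]; group
    _ = a⁻¹ * b⁻¹ * (z * z) * b * a := by rw [k, k3]; group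
    _ = 1 := by rw [h.zz]; group

theorem k3 : K3.{u} := by
  intro G _ _ z h c d hc cc
  obtain ⟨q, ⟨M⟩⟩ := h.nonempty_om
  by_contra hn
  have P : ∀ b ∈ QQ z, c * b * c⁻¹ = b → M.π b = 0 ∨ M.π b = M.π d := fun b hb k => by
    by_contra k1
    rw [not_or, M.π_zero hb, not_or] at k1
    refine hn ⟨b, hb, (show Commute c b from mul_inv_eq_iff_eq_mul.1 k).symm, k1.1.1, k1.1.2,
      fun k2 => k1.2 (by rw [k2]), fun k2 => k1.2 ?_⟩
    have hd : d ∈ QQ z := (mul_mem_cancel_right h.zQ).1 (k2 ▸ hb)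
    rw [k2, M.π_mul hd h.zQ, M.π_z h, add_zero]
  have hσ : M.ρ c * M.ρ c = 1 := by rw [← M.ρ_mul hc hc, cc, M.ρ_one]
  by_cases h0 : ∃ a ∈ QQ z, c * a * c⁻¹ = a * z
  · obtain ⟨a0, ha0, e0⟩ := h0
    refine cnt (M.ρ c) hσ (M.π d) (M.π a0) fun x hx => ?_
    obtain ⟨a, ha, rfl⟩ := M.surj x
    rcases fx h M hc ha hx with k | k
    · exact (P a ha k).imp_right Or.inl
    · have k1 := P (a0 * a) (mul_mem ha0 ha) (by
        rw [show c * (a0 * a) * c⁻¹ = c * a0 * c⁻¹ * (c * a * c⁻¹) by group, e0, k, (h.cz ha).eq,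
          show a0 * z * (z * a) = a0 * (z * z) * a by group, h.zz, mul_one])
      rw [M.π_mul ha0 ha] at k1
      refine Or.inr (Or.inr (k1.imp (fun k2 => (add_eq_zero2.1 k2).symm) fun k2 => ?_))
      rw [← k2, aac]
  · refine cnt (M.ρ c) hσ (M.π d) 0 fun x hx => ?_
    obtain ⟨a, ha, rfl⟩ := M.surj x
    exact (P a ha ((fx h M hc ha hx).resolve_right fun k => h0 ⟨a, ha, k⟩)).imp_right Or.inl

end CL.N9.HN
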