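/-
S1763, the configuration with 75 points: the transfer for the reflection.
-/
import Cfsg.Agent.N9.NDefs

set_option autoImplicit false

namespace CL.N9.HN

open Cfsg Subgroup CL.Even CL.Grp CL.WC CL.Cls QuadraticMap

universe u

theorem jks : JKS.{u} := by
  intro k1 G _ _ z h M l1 l2 l3
  by_cases hs : gs ∈ M.X
  swap
  · exact ⟨1, Or.inr hs⟩
  obtain ⟨c, hc, hρ, hcc⟩ := k1 G z h M l1 hs
  obtain ⟨L, hL, hsL⟩ := l3
  obtain ⟨g, hne, hR, hcy, -⟩ := exists_fixed2 h.res (M.it_pre hL) (R := QQ z ⊓ centralizer {c})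
    (h.xe.isPGroup.to_le inf_le_left) (fun r hr => h.cz hr.1) (fun r hr => cm_iff.1 hr.2) hc
    (fun e => hsL (hρ ▸ (M.mem_pre.1 e).2)) hcc
  have hic : IsConj z (g * z * g⁻¹) := isConj_iff.2 ⟨g, rfl⟩
  generalize g * z * g⁻¹ = y at hne hR hcy hic
  have hR' : ∀ a ∈ QQ z, Commute a c → Commute a y := fun a ha e => hR a ⟨ha, cm_iff.2 e⟩
  have hyz : Commute y z := (hR' z h.zQ hc.symm).symm
  have ci : c⁻¹ = c := inv_eq_of_mul_eq_one_right hcc
  have hJ : ∀ f, F f → ∃ j ∈ QQ z, M.π j = f ∧ c * j * c⁻¹ = j⁻¹ := fun f hf => by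
    obtain ⟨x, rfl⟩ := (l1.sF f).1 hf
    obtain ⟨a, ha, rfl⟩ := M.surj x
    refine ⟨a⁻¹ * (c * a * c⁻¹), mul_mem (inv_mem ha) (h.cmem hc ha), ?_, ?_⟩
    · rw [M.π_mul (inv_mem ha) (h.cmem hc ha), M.π_inv ha, M.π_conj hc ha, hρ]
    · calc c * (a⁻¹ * (c * a * c⁻¹)) * c⁻¹ = c * a⁻¹ * c * a * (c * c)⁻¹ := by group
        _ = c * a⁻¹ * c⁻¹ * a := by rw [hcc, ci]; group
        _ = _ := by group
  have gr : ∃ a ∈ QQ z, Commute a c ∧ M.π a = vr := by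
    obtain ⟨j, hj, e1, e2⟩ := hJ vr (Or.inr (Or.inl rfl))
    rw [inv_eq_of_mul_eq_one_right ((M.q_zero hj).1 (by rw [e1, l1.qr]))] at e2
    exact ⟨j, hj, (show Commute c j from mul_inv_eq_iff_eq_mul.1 e2).symm, e1⟩
  have gU : ∀ x, U x → (∃ a ∈ QQ z, Commute a c ∧ M.π a = x) ∨ ∃ a ∈ QQ z, Commute a c ∧ M.π a = x + vn := by
    intro x hx
    obtain ⟨j, hj, e1, e2⟩ := hJ vn (Or.inr (Or.inr (Or.inl rfl)))
    have e3 : j * j = z := (h.xe.sq_cases hj).resolve_left fun e => by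
      have := (M.q_zero hj).2 e
      rw [e1, l1.qn] at this
      exact one_ne_zero this
    rw [show j⁻¹ = z * j from inv_eq_of_mul_eq_one_left (by rw [mul_assoc, e3, h.zz])] at e2
    obtain ⟨a, ha, rfl⟩ := M.surj x
    rcases (M.π_eq ha (h.cmem hc ha)).1 (by rw [M.π_conj hc ha, hρ, (l1.sU _).2 hx]) with e | e
    · exact Or.inl ⟨a, ha, (show Commute c a from mul_inv_eq_iff_eq_mul.1 e).symm, rfl⟩
    · refine Or.inr ⟨a * j, mul_mem ha hj, (show Commute c (a * j) from mul_inv_eq_iff_eq_mul.1 ?_).symm,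
        by rw [M.π_mul ha hj, e1]⟩
      calc c * (a * j) * c⁻¹ = c * a * c⁻¹ * (c * j * c⁻¹) := by group
        _ = a * (z * z) * j := by rw [e, e2]; group
        _ = _ := by rw [h.zz, mul_one]
  have fx : ∀ x, (∃ a ∈ QQ z, Commute a c ∧ M.π a = x) → (M.ρ y).1 x = x := by
    rintro _ ⟨a, ha, e, rfl⟩
    rw [← M.π_conj hyz ha, cfix (hR' a ha e).symm]
  have hX := M.ρ_mem hyz
  have hF : ∀ x, U x → F (x + (M.ρ y).1 x) := fun x hx => by
    rcases gU x hx with e | e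
    · rw [fx x e, aa]; exact Or.inl rfl
    · have e1 := fx _ e
      rw [map_add] at e1
      have e2 : x + (M.ρ y).1 x = vn + (M.ρ y).1 vn := by
        rw [← add_eq_zero2, show x + (M.ρ y).1 x + (vn + (M.ρ y).1 vn) =
          (M.ρ y).1 x + (M.ρ y).1 vn + (x + vn) by abel, e1, aa]
      rw [e2]
      rcases l2.nn _ hX (fx _ gr) with e3 | e3 <;> rw [e3]
      · rw [aa]; exact Or.inl rfl
      · rw [aac]; exact Or.inr (Or.inl rfl)
  refine ⟨y, Or.inl ⟨hic, hyz, (l2.tv _ hX hF).resolve_left fun e => ?_⟩⟩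
  have hy : y ∈ QQ z := (M.ker hyz).1 e
  have hU : U (M.π y) := (l1.sU _).1 (by rw [← hρ, ← M.π_conj hc hy, cfix hcy])
  have pz : ∀ x, (∃ a ∈ QQ z, Commute a c ∧ M.π a = x) → polar qp (M.π y) x = 0 := by
    rintro _ ⟨a, ha, e, rfl⟩
    exact (M.b_zero hy ha).2 (hR' a ha e).symm
  refine l1.FO _ (l1.perp _ fun u hu => ?_) ⟨y, ⟨hic, hy, hne⟩, rfl⟩
  rcases gU u hu with e | e
  · exact pz u e
  · have := pz _ e
    rwa [polar_add_right, polar_comm _ _ vn, hU.2, add_zero] at this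

end CL.N9.HN
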