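/-
S1763, the configuration with 75 points: no conjugate of `z` induces the reflection.
-/
import Cfsg.Agent.N9.NDefs

set_option autoImplicit false

namespace CL.N9.HN

open Cfsg Subgroup CL.Even CL.Grp CL.WC CL.Cls QuadraticMap

universe u

namespace KYJ

variable {G : Type u} [Group G] [Finite G] {z y : G} (h : Hy z) (M : OM qp z) (l : L1 M.X M.O M.E)
  (hy : IsConj z y) (c : Commute y z) (e : M.ρ y = gs)
include h l hy c e

theorem lift {f : V8} (hf : F f) : ∃ j ∈ QQ z, M.π j = f ∧ y * j * y⁻¹ = j⁻¹ := by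
  obtain ⟨x, rfl⟩ := (l.sF f).1 hf
  obtain ⟨a, ha, rfl⟩ := M.surj x
  refine ⟨a⁻¹ * (y * a * y⁻¹), mul_mem (inv_mem ha) (h.cmem c ha), ?_, ?_⟩
  · rw [M.π_mul (inv_mem ha) (h.cmem c ha), M.π_inv ha, M.π_conj c ha, e]
  · rw [show y * (a⁻¹ * (y * a * y⁻¹)) * y⁻¹ = y * a⁻¹ * y⁻¹ * (y * y) * a * (y * y)⁻¹ by group, (h.of hy).zz]
    group

theorem znot : z ∉ QQ y := fun k => by
  have hn : y ∉ QQ z := fun k => by
    obtain ⟨x, hx⟩ := (l.sF vr).1 (Or.inr (Or.inl rfl))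
    rw [← e, M.ρ_Q h k] at hx
    exact l.r0 (hx.trans (aa x))
  exact hn ((h.of hy).symm ⟨hy.symm, k, fun k => hn (k ▸ h.zQ)⟩).mem

theorem star {x : V8} (hx : U x) : ∃ a ∈ QQ z, Commute a y ∧ (M.π a = x ∨ M.π a = x + vn) := by
  obtain ⟨a, ha, rfl⟩ := M.surj x
  rcases (M.π_eq ha (h.cmem c ha)).1 (by rw [M.π_conj c ha, e, (l.sU _).2 hx]) with k | k
  · exact ⟨a, ha, (mul_inv_eq_iff_eq_mul.1 k).symm, Or.inl rfl⟩
  obtain ⟨j, hj, j1, j2⟩ := lift h M l hy c e (Or.inr (Or.inr (Or.inl rfl)))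
  have j3 : j * j = z := (h.xe.sq_cases hj).resolve_left fun k => by
    have := (M.q_zero hj).2 k
    rw [j1, l.qn] at this
    exact one_ne_zero this
  refine ⟨a * j, mul_mem ha hj, (mul_inv_eq_iff_eq_mul.1 ?_).symm, Or.inr (by rw [M.π_mul ha hj, j1])⟩
  rw [← conj_mul, k, j2, ← j3, mul_assoc, mul_inv_cancel_right]

theorem inter {d : G} (h1 : d ∈ QQ z) (h2 : d ∈ QQ y) : M.π d = 0 ∨ M.π d = vr := by
  have hz := znot h M l hy c e
  have hU : U (M.π d) := (l.sU _).1 (by rw [← e, ← M.π_conj c h1, cfix ((h.of hy).cz h2).symm])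
  have hF := l.perp (M.π d) fun u hu => by
    obtain ⟨a, ha, k1, k2⟩ := star h M l hy c e hu
    have k := (M.b_zero h1 ha).2 ((h.xe.cj_cases ha h1).resolve_right fun k =>
      hz ((mul_mem_cancel_right h2).1 (k ▸ (h.of hy).cmem k1 h2))).symm
    rcases k2 with k2 | k2
    · rwa [k2] at k
    · rwa [k2, polar_add_right, polar_comm _ _ vn, hU.2, add_zero] at k
  have hq := (M.q_zero h1).2 ((h.xe.sq_cases h1).resolve_right fun k => hz (k ▸ mul_mem h2 h2))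
  rcases hF with k | k | k | k
  · exact Or.inl k
  · exact Or.inr k
  · rw [k, l.qn] at hq; exact absurd hq one_ne_zero
  · rw [k, l.qnr] at hq; exact absurd hq one_ne_zero

theorem two : ∃ d : G, ∀ x ∈ QQ z, x ∈ QQ y → x = 1 ∨ x = d := by
  have hz := znot h M l hy c e
  obtain ⟨t, ht, t1⟩ := M.surj vr
  have k : ∀ x ∈ QQ z, x ∈ QQ y → x = 1 ∨ x = t ∨ x = t * z := fun x h1 h2 =>
    (inter h M l hy c e h1 h2).imp (fun k => ((M.π_zero h1).1 k).resolve_right fun k => hz (k ▸ h2))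
      fun k => (M.π_eq ht h1).1 (t1.trans k.symm)
  by_cases h1 : t ∈ QQ y
  · exact ⟨t, fun x h2 h3 => (k x h2 h3).imp_right fun k =>
      k.resolve_right fun k => hz ((mul_mem_cancel_left h1).1 (k ▸ h3))⟩
  · exact ⟨t * z, fun x h2 h3 => (k x h2 h3).imp_right fun k => k.resolve_left fun k => h1 (k ▸ h3)⟩

end KYJ

open KYJ in
theorem jky : JKY.{u} := by
  intro k3 G _ _ z h M l l2 y hy c e
  have h' := h.of hy
  obtain ⟨d, hd⟩ := two h M l hy c e
  obtain ⟨b, hb, cb, b1, b2, b3, b4⟩ := k3 G y h' z d c.symm h.zz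
  have k : ∀ a ∈ QQ z, Commute a y → M.π a + (M.ρ b).1 (M.π a) = 0 ∨ M.π a + (M.ρ b).1 (M.π a) = vr :=
    fun a ha ca => M.π_cmt h cb ha ▸ inter h M l hy c e (h.xe.cmt_mem cb ha) (mul_mem (h'.cmem ca hb) (inv_mem hb))
  have hr : (M.ρ b).1 vr = vr := by
    obtain ⟨t, ht, t1, t2⟩ := lift h M l hy c e (Or.inr (Or.inl rfl))
    rw [inv_eq' ((M.q_zero ht).1 (t1 ▸ l.qr))] at t2
    rcases t1 ▸ k t ht (mul_inv_eq_iff_eq_mul.1 t2).symm with k | k
    · exact (add_eq_zero2.1 k).symm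
    · exact absurd ((M.ρ b).1.map_eq_zero_iff.1 (add_eq_left.1 k)) l.r0
  have hF : ∀ x, U x → F (x + (M.ρ b).1 x) := fun x hx => by
    obtain ⟨a, ha, k1, k2 | k2⟩ := star h M l hy c e hx
    · exact (k2 ▸ k a ha k1).imp_right Or.inl
    have k4 := k2 ▸ k a ha k1
    rw [map_add, add_add_add_comm] at k4
    rcases l2.nn _ (M.ρ_mem cb) hr with k5 | k5
    · rw [k5, aa, add_zero] at k4
      exact k4.imp_right Or.inl
    · rw [k5, aac] at k4
      exact k4.elim (fun k => Or.inr (Or.inl (add_eq_zero2.1 k))) fun k => Or.inl (add_eq_right.1 k)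
  rcases l2.tv _ (M.ρ_mem cb) hF with k | k
  · exact (hd b ((M.ker cb).1 k) hb).elim b1 b3
  · rcases hd (b * y) ((M.ker (cb.mul_left c)).1 (by rw [M.ρ_mul cb c, k, e, l.ss])) (mul_mem hb h'.zQ) with k | k
    · exact b2 (by rw [← inv_eq' h'.zz, eq_inv_of_mul_eq_one_left k])
    · exact b4 (by rw [← k, mul_assoc, h'.zz, mul_one])

end CL.N9.HN
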