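/-
S1763, the configuration with 75 points: the linear facts `L1`.
-/
import Cfsg.Agent.N9.NDefs

set_option autoImplicit false

namespace CL.N9.HN

open Cfsg Subgroup CL.Even CL.Grp CL.WC CL.Cls QuadraticMap

namespace L1J

def cs : ℕ := 0x8040080c20300201
def ca : ℕ := 0x68c0201308070103
def cb : ℕ := 0xc39d550f7d6eaaf5
/-- the codes of the elements of `U` -/
def uN (x : ℕ) : Bool := !bN 40 x && !bN 52 x
def fN (x : ℕ) : Prop := x = 0 ∨ x = 40 ∨ x = 52 ∨ x = 28

instance (x : ℕ) : Decidable (fN x) := by unfold fN; infer_instance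

theorem is_s : Is gs cs := is_cO (by decide +kernel)
theorem is_a : Is ga ca := is_cO (by decide +kernel)
theorem is_b : Is gb cb := is_cO (by decide +kernel)

theorem fx {g : OG qp} {c x : ℕ} (h : Is g c) (e : ap c x = x) : g.1 (dec x) = dec x := by rw [h, e]

theorem nr : vn + vr = dec 28 := (dec_xor 52 40).symm

theorem U_dec {x : ℕ} : U (dec x) ↔ uN x = true := by
  rw [U, vr, vn, pol_dec0, pol_dec0, uN]
  cases bN 40 x <;> cases bN 52 x <;> simp

theorem dec_eq {x y : ℕ} (hx : x < 256) (hy : y < 256) : dec x = dec y ↔ x = y := ⟨dec_inj hx hy, congrArg dec⟩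

theorem F_dec {x : ℕ} (hx : x < 256) : F (dec x) ↔ fN x := by
  rw [F, nr, vr, vn, ← dec_zero, dec_eq hx (by norm_num), dec_eq hx (by norm_num), dec_eq hx (by norm_num),
    dec_eq hx (by norm_num), fN]

theorem xor_lt {x y : ℕ} (hx : x < 256) (hy : y < 256) : x ^^^ y < 256 := Nat.xor_lt_two_pow (n := 8) hx hy

theorem P_dec {x : ℕ} (hx : x < 256) : dec x ∈ d75.P ↔ x ∈ c75.P := by
  have k : ∀ y ∈ c75.P, y < 256 := by decide +kernel
  refine ⟨fun h => ?_, List.mem_map_of_mem⟩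
  obtain ⟨y, hy, e⟩ := List.mem_map.1 h
  rwa [← dec_inj (k y hy) hx e]

theorem a3 : ga ^ 3 = 1 := by
  have k : mulc (mulc ca ca) ca = idc := by decide +kernel
  rw [pow_three']
  exact (k ▸ (is_a.mul is_a).mul is_a).ext is_one

theorem b5 : gb ^ 5 = 1 := by
  have k : mulc (mulc (mulc (mulc cb cb) cb) cb) cb = idc := by decide +kernel
  rw [pow_succ, pow_succ, pow_three']
  exact (k ▸ (((is_b.mul is_b).mul is_b).mul is_b).mul is_b).ext is_one

theorem gen : ∀ u < 256, uN u = true → ∃ x, uN x = true ∧ ∃ y, uN y = true ∧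
    u = (x ^^^ ap ca x) ^^^ (y ^^^ ap cb y) := by
  have k : ((List.range 256).filter uN).all (fun u => [0, 1, 2, 3].any fun x =>
      uN x && ((List.range 256).filter uN).any fun y => u == (x ^^^ ap ca x) ^^^ (y ^^^ ap cb y)) = true := by
    decide +kernel
  intro u hu hU
  obtain ⟨x, -, k⟩ := List.any_eq_true.1
    (List.all_eq_true.1 k u (List.mem_filter.2 ⟨List.mem_range.2 hu, hU⟩))
  obtain ⟨k1, k2⟩ := Bool.and_eq_true_iff.1 k
  obtain ⟨y, hy, e⟩ := List.any_eq_true.1 k2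
  exact ⟨x, k1, y, (List.mem_filter.1 hy).2, beq_iff_eq.1 e⟩

theorem sx : ∀ x < 256, ap cs x = (x ^^^ (bif bN 52 x then 52 else 0)) ^^^ (bif bN 28 x then 28 else 0) := by
  decide +kernel

end L1J

open L1J in
theorem jl1 : JL1 := by
  intro X O E L ld c
  have hO : ∀ {x}, x < 256 → (dec x ∈ O ↔ x ∈ c75.P) := fun hx => (c.O_iff _).trans (P_dec hx)
  have hH : ∀ g ∈ c75.gH, cO g ∈ X ∧ Is (cO g) g := fun g hg => ⟨c.H_le _ (List.mem_map_of_mem hg),
    is_cO ((by decide +kernel : ∀ g ∈ c75.gH, okc g = true) g hg)⟩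
  have h0 := hH 0x80c02030080c0203 (by decide +kernel)
  have h1 := hH 0x8040a05008048a45 (by decide +kernel)
  have h2 := hH 0x8040201088c4a271 (by decide +kernel)
  have h3 := hH 0xe8402031080d0301 (by decide +kernel)
  have h4 := hH 0xb960201109070201 (by decide +kernel)
  have h5 := hH 0xa548211208050201 (by decide +kernel)
  refine ⟨qp_dec0.2 (by decide +kernel), by rw [vr, ← dec_zero, Ne, dec_eq (by norm_num) (by norm_num)]; norm_num,
    (qp_dec 52).trans (by decide +kernel), nr ▸ (qp_dec 28).trans (by decide +kernel), pol_dec0.2 (by decide +kernel),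
    (hO (x := 128) (by norm_num)).2 (by decide +kernel), (U_dec (x := 128)).2 (by decide +kernel), ?_, ld.aO, fun x hx => ?_, fun x hx => ?_,
    fun x hx hq => ?_, fun x => ?_, fun x => ?_, fun x => ?_, ?_, ?_, ?_, by rw [vr]; exact fx is_a (by decide +kernel),
    by rw [vr]; exact fx is_b (by decide +kernel), by rw [vn]; exact fx is_a (by decide +kernel),
    by rw [vn]; exact fx is_b (by decide +kernel), by rw [show 15 = 3 * 5 from rfl, pow_mul, a3, one_pow],
    by rw [show 15 = 5 * 3 from rfl, pow_mul, b5, one_pow], fun u hu => ?_⟩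
  · have e : E vv = _ := c.E_eq
    rw [e, vr, show 40 = 32 ^^^ 8 from rfl, dec_xor]
    exact add_mem (Submodule.subset_span (by simp [d75, DC.dat])) (Submodule.subset_span (by simp [d75, DC.dat]))
  · obtain ⟨x, h, rfl⟩ := ex_dec x
    have k : ∀ x < 256, (∀ u ∈ [1, 2, 65, 95, 104, 128], bN x u = false) → fN x := by decide +kernel
    have k' : ∀ u ∈ [1, 2, 65, 95, 104, 128], uN u = true := by decide +kernel
    exact (F_dec h).2 (k x h fun u hu => pol_dec0.1 (hx _ (U_dec.2 (k' u hu))))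
  · obtain ⟨x, h, rfl⟩ := ex_dec x
    have k : ∀ x < 256, fN x → x ∉ c75.P := by decide +kernel
    exact fun e => k x h ((F_dec h).1 hx) ((hO h).1 e)
  · obtain ⟨x, h, rfl⟩ := ex_dec x
    have k : ∀ x < 256, (uN x && !qN x) = true → (x = 0 ∨ x = 40) ∨ (c75.P.elem x || c75.P.elem (x ^^^ 40)) = true := by
      decide +kernel
    rw [vr, ← dec_xor, hO h, hO (xor_lt h (by norm_num)), ← dec_zero, dec_eq h (by norm_num), dec_eq h (by norm_num)]
    have := k x h (by rw [U_dec.1 hx, qp_dec0.1 hq]; rfl)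
    rwa [Bool.or_eq_true, List.elem_iff, List.elem_iff, or_assoc] at this
  · obtain ⟨x, h, rfl⟩ := ex_dec x
    rw [is_s, nr, vn, pol_dec, pol_dec, sx x h, dec_xor, dec_xor, dec_cond, dec_cond]
  · obtain ⟨x, h, rfl⟩ := ex_dec x
    have k : ∀ x < 256, ap cs x = x ↔ uN x = true := by decide +kernel
    rw [is_s, dec_eq (ap_lt _ _) h, U_dec, k x h]
  · obtain ⟨x, h, rfl⟩ := ex_dec x
    have k : ∀ x < 256, fN x → ∃ y < 256, x = y ^^^ ap cs y := by decide +kernel
    have k' : ∀ y < 256, fN (y ^^^ ap cs y) := by decide +kernel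
    rw [F_dec h]
    refine ⟨fun e => ?_, fun ⟨y, e⟩ => ?_⟩
    · obtain ⟨y, -, rfl⟩ := k x h e
      exact ⟨dec y, by rw [is_s, dec_xor]⟩
    · obtain ⟨y, hy, rfl⟩ := ex_dec y
      rw [dec_inj h (xor_lt hy (ap_lt cs y)) (by rw [e, dec_xor, is_s y])]
      exact k' y hy
  · have k : mulc cs cs = idc := by decide +kernel
    exact (k ▸ is_s.mul is_s).ext is_one
  · have k : mulc 0x80c02030080c0203 0xe8402031080d0301 = ca := by decide +kernel
    rw [is_a.ext (k ▸ h0.2.mul h3.2)]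
    exact mul_mem h0.1 h3.1
  · have k : mulc (mulc (mulc 0x8040a05008048a45 0x8040201088c4a271) 0xb960201109070201) 0xa548211208050201 = cb := by
      decide +kernel
    rw [is_b.ext (k ▸ ((h1.2.mul h2.2).mul h4.2).mul h5.2)]
    exact mul_mem (mul_mem (mul_mem h1.1 h2.1) h4.1) h5.1
  · obtain ⟨u, h, rfl⟩ := ex_dec u
    obtain ⟨x, hx, y, hy, rfl⟩ := gen u h (U_dec.1 hu)
    exact ⟨dec x, dec y, U_dec.2 hx, U_dec.2 hy, by rw [is_a, is_b, dec_xor, dec_xor, dec_xor]⟩

end CL.N9.HN
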