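/-
S1763, the configuration with 75 points: the stabilisers of `r` and of the points perpendicular to `r` and `n`.
-/
import Cfsg.Agent.N9.NDefs

set_option autoImplicit false

namespace CL.N9.HN

open Cfsg Subgroup CL.Even CL.Grp CL.WC CL.Cls QuadraticMap

universe u

namespace NL2x

/-- a basis of `U` consisting of points -/
def bs : List ℕ := [1, 2, 65, 95, 104, 128]
/-- the codes of `F` -/
def fl : List ℕ := [0, 40, 52, 28]

theorem P_lt : ∀ a ∈ c75.P, a < 256 := by decide +kernel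
theorem d1 : ∀ x ∈ c75.P, bN 40 x = false → x ^^^ 40 ∉ c75.P → bN 52 x = false := by decide +kernel
theorem d2 : ∀ x ∈ bs, x ∈ c75.P ∧ bN 40 x = false ∧ bN 52 x = false ∧ x ^^^ 40 ∉ c75.P ∧
    ap 0x8040080c20300201 x = x := by decide +kernel
theorem d3 : ∀ y < 256, (∀ x ∈ bs, bN y x = false) → y ∈ fl := by decide +kernel
theorem d4 : ∀ f ∈ fl, ∀ f' ∈ fl, f ^^^ 4 ∈ c75.P → f' ^^^ 17 ∈ c75.P → f ^^^ 4 ^^^ (f' ^^^ 17) ∈ c75.P →
    f = 0 ∧ f' = 0 ∨ f = 52 ∧ f' = 28 := by decide +kernel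
theorem d5 : ∀ y ∈ c75.P, bN 40 y = false → bN 52 y = false →
    y ^^^ 40 ∉ c75.P ∧ y ^^^ 52 ∉ c75.P ∧ y ^^^ (52 ^^^ 40) ∉ c75.P := by decide +kernel
theorem d6 : ∀ f ∈ fl, qN f = false ∨ f = 52 ∨ f = 52 ^^^ 40 := by decide +kernel
theorem d7 : ∀ f ∈ fl, f < 256 := by decide +kernel
theorem oks : okc 0x8040080c20300201 = true := by decide +kernel

theorem xlt {x y : ℕ} (hx : x < 256) (hy : y < 256) : x ^^^ y < 256 := Nat.xor_lt_two_pow (n := 8) hx hy

theorem memO {O : Set V8} (h : ∀ v, v ∈ O ↔ v ∈ d75.P) {x : ℕ} (hx : x < 256) : dec x ∈ O ↔ x ∈ c75.P := by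
  rw [h]
  refine List.mem_map.trans ⟨fun ⟨a, ha, e⟩ => ?_, fun k => ⟨x, k, rfl⟩⟩
  rwa [← dec_inj (P_lt a ha) hx e]

/-- two isometries that agree on a basis are equal -/
theorem ext8 {g k : OG qp} (h : ∀ x ∈ bs, g.1 (dec x) = k.1 (dec x)) (t4 : g.1 (dec 4) = k.1 (dec 4))
    (t17 : g.1 (dec 17) = k.1 (dec 17)) : g = k := by
  have xo : ∀ {a b : ℕ} (c : ℕ), g.1 (dec a) = k.1 (dec a) → g.1 (dec b) = k.1 (dec b) → a ^^^ b = c →
      g.1 (dec c) = k.1 (dec c) := fun c ha hb e => by rw [← e, dec_xor, map_add, map_add, ha, hb]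
  have t1 := h 1 (by decide)
  have t2 := h 2 (by decide)
  have t65 := h 65 (by decide)
  have t95 := h 95 (by decide)
  have t104 := h 104 (by decide)
  have t128 := h 128 (by decide)
  have t16 := xo 16 t1 t17 (by decide)
  have t64 := xo 64 t1 t65 (by decide)
  have t72 := xo 72 (xo 93 t2 t95 (by decide)) (xo 21 t4 t17 (by decide)) (by decide)
  have t8 := xo 8 t72 t64 (by decide)
  have t32 := xo 32 t72 t104 (by decide)
  have e : ∀ j : Fin 8, dec (2 ^ j.val) = Pi.single j 1 := by decide +kernel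
  have m : g.1.toLinearMap = k.1.toLinearMap := (Pi.basisFun (ZMod 2) (Fin 8)).ext fun j => by
    rw [Pi.basisFun_apply, ← e]
    fin_cases j
    exacts [t1, t2, t4, t8, t16, t32, t64, t128]
  exact OG.ext' fun v => LinearMap.congr_fun m v

/-- an isometry fixing `U` moves vectors by elements of `F` -/
theorem mv {g : OG qp} (h : ∀ x ∈ bs, g.1 (dec x) = dec x) (y : ℕ) : ∃ f ∈ fl, g.1 (dec y) = dec (f ^^^ y) := by
  obtain ⟨f, hf, e⟩ := ex_dec (g.1 (dec y) + dec y)
  refine ⟨f, d3 f hf fun x hx => pol_dec0.1 ?_, by rw [dec_xor, e, aac']⟩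
  have := OG.polar_app g (dec y) (dec x)
  rw [h x hx] at this
  rw [e, polar_add_left, this, z2_add]

end NL2x

open NL2x in
theorem jl2 : JL2 := by
  intro X O E L ld c
  have mO : ∀ {x}, x < 256 → (dec x ∈ O ↔ x ∈ c75.P) := memO c.O_iff
  have fx : ∀ g ∈ X, (∀ x ∈ O, U x → g.1 x = x) → g = 1 ∨ g = gs := fun g hg h => by
    have hb : ∀ x ∈ bs, g.1 (dec x) = dec x := fun x hx =>
      have k := d2 x hx
      h _ ((mO (P_lt x k.1)).2 k.1) ⟨pol_dec0.2 k.2.1, pol_dec0.2 k.2.2.1⟩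
    obtain ⟨f, hf, e⟩ := mv hb 4
    obtain ⟨f', hf', e'⟩ := mv hb 17
    have l := xlt (d7 f hf) (show 4 < 256 by decide)
    have l' := xlt (d7 f' hf') (show 17 < 256 by decide)
    have k1 := ld.aO g hg _ ((mO (show 4 < 256 by decide)).2 (by decide +kernel))
    have k2 := ld.aO g hg _ ((mO (show 17 < 256 by decide)).2 (by decide +kernel))
    have k3 := ld.aO g hg _ ((mO (show 4 ^^^ 17 < 256 by decide)).2 (by decide +kernel))
    rw [dec_xor, map_add, e, e', ← dec_xor] at k3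
    rw [e] at k1
    rw [e'] at k2
    rcases d4 f hf f' hf' ((mO l).1 k1) ((mO l').1 k2) ((mO (xlt l l')).1 k3) with ⟨rfl, rfl⟩ | ⟨rfl, rfl⟩
    · exact .inl (ext8 hb (by rw [e, Nat.zero_xor]; rfl) (by rw [e', Nat.zero_xor]; rfl))
    · refine .inr (ext8 (fun x hx => ?_) ?_ ?_)
      · rw [hb x hx, gs, cO_dec oks, (d2 x hx).2.2.2.2]
      · rw [e, gs, cO_dec oks]; exact congrArg dec (by decide +kernel)
      · rw [e', gs, cO_dec oks]; exact congrArg dec (by decide +kernel)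
  refine ⟨fun g hg hr => ?_, fx, fun g hg h => fx g hg fun x hx hU => ?_⟩
  · obtain ⟨t, ht, e⟩ := ex_dec (g.1 vn)
    have m : t ∈ fl := d3 t ht fun x hx => pol_dec0.1 (by
      have k := d2 x hx
      have lx := P_lt x k.1
      obtain ⟨y, hy, ey⟩ := ex_dec ((g⁻¹).1 (dec x))
      have yO : y ∈ c75.P := (mO hy).1 (ey ▸ ld.aO _ (inv_mem hg) _ ((mO lx).2 k.1))
      rw [e, OG.polar_app_left, ← ey]
      refine pol_dec0.2 (d1 y yO (pol_dec0.1 ?_) fun n => k.2.2.2.1 ?_)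
      · rw [ey, ← OG.polar_app_left]
        exact (congrArg (polar qp · (dec x)) hr).trans (pol_dec0.2 k.2.1)
      · have := ld.aO g hg _ ((mO (xlt hy (by decide))).2 n)
        rw [dec_xor, map_add, ey, OG.app_inv_app] at this
        rw [← mO (xlt lx (by decide)), dec_xor]
        exact (congrArg (dec x + · ∈ O) hr).mp this)
    rcases d6 t m with k | rfl | rfl
    · have := OG.map_app g vn
      rw [← e, qp_dec0.2 k, eq_comm, vn, qp_dec0] at this
      exact absurd this (by decide +kernel)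
    · exact .inl e.symm
    · exact .inr (e.symm.trans (dec_xor 52 40))
  · have gO := ld.aO g hg x hx
    have hF := h x hU
    obtain ⟨y, hy, rfl⟩ := ex_dec x
    have k := d5 y ((mO hy).1 hx) (pol_dec0.1 hU.1) (pol_dec0.1 hU.2)
    have no : ∀ f < 256, dec y + g.1 (dec y) = dec f → y ^^^ f ∈ c75.P := fun f hf e => by
      rw [← mO (xlt hy hf), dec_xor, ← e, aac]
      exact gO
    rcases hF with e | e | e | e
    · exact (add_eq_zero2.1 e).symm
    · exact (k.1 (no 40 (by decide) e)).elim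
    · exact (k.2.1 (no 52 (by decide) e)).elim
    · exact (k.2.2 (no _ (by decide) (e.trans (dec_xor 52 40).symm))).elim

end CL.N9.HN
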