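/-
S1763, the configuration with 75 points: the two families of lines give a subgroup of index two.
-/
import Cfsg.Agent.N9.NDefs

set_option autoImplicit false

namespace CL.N9.HN

open Cfsg Subgroup CL.Even CL.Grp CL.WC CL.Cls QuadraticMap

universe u

namespace L3x

def T1 : ℕ := 0xff9f3ffe7ff9ebfffbeff5ffebfeffffb5ff3ff9ffffc3ffffbfcffcfeff5fff3ffe7ebf5ff9ffffcebfeffe7fe7fffbffae7fe7ffd7f3fffbefffe79ffeffffbffcffafcffcffd7313ffffff2e2ffffffffffffffffff0000008d1fff000007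
def T2 : ℕ := 0xffbefffd7ffaeffffbebf5ffe7fe7fffc9ff3ff3ffffc9ffffafd7fe7f3f5ffebffe7f3f3ff3ffffbeffe7fe7feffffbffbefff3ffe7effffbf3ffe75ffebfff9ff9ffafd7fcffcf000ffffff000ffffffffffffffffff88b4cc000fff8d1007

def dg (T x : ℕ) : ℕ := (T >>> (3 * x)) % 8
/-- the line of the family `b` through the point with code `x` -/
def lab (b : Bool) (x : ℕ) : ℕ := dg (bif b then T2 else T1) x

/-- `g` keeps (`e = false`) or swaps (`e = true`) the two families -/
def Pk (e : Bool) (g : OG qp) : Prop := ∀ (b : Bool) (x y : V8),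
  lab b (enc x) = lab b (enc y) ↔ lab (b ^^ e) (enc (g.1 x)) = lab (b ^^ e) (enc (g.1 y))

theorem Pk.one : Pk false 1 := fun b x y => by rw [Bool.xor_false]; rfl

theorem Pk.mul {e e' : Bool} {g k : OG qp} (h : Pk e g) (h' : Pk e' k) : Pk (e' ^^ e) (g * k) := fun b x y => by
  rw [h' b x y, h, Bool.xor_assoc]; rfl

theorem Pk.inv {e : Bool} {g : OG qp} (h : Pk e g) : Pk e g⁻¹ := fun b x y => by
  rw [h (b ^^ e), OG.app_inv_app, OG.app_inv_app, Bool.xor_assoc, Bool.xor_self, Bool.xor_false]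

theorem Pk.excl {g : OG qp} (h : Pk false g) (h' : Pk true g) : False := by
  have e := (h.mul h'.inv) false (dec 1) (dec 4)
  rw [mul_inv_cancel, OG.one_app, OG.one_app] at e
  revert e
  decide +kernel

theorem Pk.iff {e : Bool} {g : OG qp} (h : Pk e g) : Pk false g ↔ e = false := by
  cases e
  · exact iff_of_true h rfl
  · exact iff_of_false (fun k => k.excl h) (by simp)

def chk (c : ℕ) (e : Bool) (s : Bool → ℕ) : Prop := okc c = true ∧ ∀ b : Bool,
  (∀ x < 256, lab (b ^^ e) (ap c x) = dg (s b) (lab b x)) ∧ ∀ i < 8, ∀ j < 8, dg (s b) i = dg (s b) j → i = j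

instance (c : ℕ) (e : Bool) (s : Bool → ℕ) : Decidable (chk c e s) := by unfold chk; infer_instance

theorem of_chk {c : ℕ} {e : Bool} (s t : ℕ) (h : chk c e fun b => bif b then t else s) : Pk e (cO c) := fun b x y => by
  obtain ⟨x, hx, rfl⟩ := ex_dec x
  obtain ⟨y, hy, rfl⟩ := ex_dec y
  rw [cO_dec h.1, cO_dec h.1, enc_dec _ hx, enc_dec _ hy, enc_dec _ (ap_lt _ _), enc_dec _ (ap_lt _ _), (h.2 b).1 x hx,
    (h.2 b).1 y hy]
  exact ⟨congrArg _, (h.2 b).2 _ (Nat.mod_lt _ (by norm_num)) _ (Nat.mod_lt _ (by norm_num))⟩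

theorem ps : Pk true gs := of_chk 16426592 16422672 (by decide +kernel)

theorem gens : ∀ g ∈ d75.gN, ∃ e, Pk e g := by
  simp only [d75, DC.dat, c75, List.cons_append, List.nil_append, List.map_cons, List.map_nil, List.forall_mem_cons,
    List.not_mem_nil, false_imp_iff, implies_true, and_true]
  exact ⟨⟨true, of_chk 16426760 16426760 (by decide +kernel)⟩, ⟨true, of_chk 16434817 16434817 (by decide +kernel)⟩,
    ⟨true, of_chk 16422420 16418402 (by decide +kernel)⟩, ⟨true, of_chk 16434768 16434768 (by decide +kernel)⟩,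
    ⟨false, of_chk 16425752 16422112 (by decide +kernel)⟩, ⟨false, of_chk 16431184 16431184 (by decide +kernel)⟩,
    ⟨true, ps⟩⟩

end L3x

open L3x in
theorem jl3 : JL3 := by
  intro X O E L h
  have all : ∀ g ∈ X, ∃ e, Pk e g := fun g hg => by
    refine closure_induction gens ⟨_, Pk.one⟩ ?_ ?_ (h.le_N hg)
    · rintro _ _ - - ⟨e, a⟩ ⟨e', b⟩
      exact ⟨_, a.mul b⟩
    · rintro _ - ⟨e, a⟩
      exact ⟨_, a.inv⟩
  refine ⟨{ carrier := {g | Pk false g}, one_mem' := Pk.one, mul_mem' := fun a b => a.mul b, inv_mem' := fun a => a.inv },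
    fun g hg k hk => ?_, fun k => Pk.excl k ps⟩
  obtain ⟨e, a⟩ := all g hg
  obtain ⟨e', b⟩ := all k hk
  change Pk false (g * k) ↔ (Pk false g ↔ Pk false k)
  rw [(a.mul b).iff, a.iff, b.iff]
  cases e <;> cases e' <;> simp

end CL.N9.HN
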