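/-
S1763, the configuration with 75 points: orbits (job N9HN-L4, helper65).
-/
import Cfsg.Agent.N9.NDefs

set_option autoImplicit false

namespace CL.N9.HN

open Cfsg Subgroup CL.Even CL.Grp CL.WC CL.Cls QuadraticMap

universe u

namespace NL4x

def step (gs l : List ℕ) : List ℕ := (l ++ gs.flatMap fun c => l.map (ap c)).eraseDups

def st5 (gs l : List ℕ) : List ℕ := step gs (step gs (step gs (step gs (step gs l))))

theorem step_T {T : V8 → Prop} {gs l : List ℕ} (h : ∀ c ∈ gs, ∀ x, T (dec x) → T (dec (ap c x)))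
    (k : ∀ x ∈ l, T (dec x)) : ∀ x ∈ step gs l, T (dec x) := fun x hx => by
  rw [step, List.mem_eraseDups, List.mem_append, List.mem_flatMap] at hx
  rcases hx with hx | ⟨c, hc, hx⟩
  · exact k x hx
  · obtain ⟨y, hy, rfl⟩ := List.mem_map.1 hx
    exact h c hc y (k y hy)

theorem st5_T {T : V8 → Prop} {gs : List ℕ} {v : ℕ} (h : ∀ c ∈ gs, ∀ x, T (dec x) → T (dec (ap c x)))
    (k : T (dec v)) : ∀ x ∈ st5 gs [v], T (dec x) :=
  step_T h (step_T h (step_T h (step_T h (step_T h fun x hx => by rwa [List.mem_singleton.1 hx]))))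

def Pr : List ℕ := [1, 2, 3, 65, 95, 104, 118, 128, 159, 170, 181, 195, 222, 232, 245]

theorem k1 : ∀ x ∈ c75.P, bN 40 x = false → bN 52 x = false → x ∈ Pr := by decide +kernel
theorem k2 : ∀ x ∈ Pr, x ∈ c75.P ∧ bN 40 x = false ∧ bN 52 x = false := by decide +kernel
theorem k3 : ∀ v ∈ Pr, (fun l => Pr.all l.contains) (st5 [0x68c0201308070103, 0xc39d550f7d6eaaf5] [v]) = true := by
  decide +kernel
theorem k4 : (fun l : List ℕ => (List.range 256).all fun x => qN x || x == 0 || c75.P.contains x || l.contains x)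
    (st5 c75.gH [40]) = true := by decide +kernel
theorem k5 : (Pr.map dec).toFinset.card = 15 := by decide +kernel
theorem k6 : ∀ c ∈ c75.gH, okc c = true ∧ mulc c c = idc := by decide +kernel
theorem k7 : okc 0x68c0201308070103 = true ∧ okc 0xc39d550f7d6eaaf5 = true := by decide +kernel

end NL4x

open NL4x

theorem jl4 : JL4 := by
  intro X O E L C
  have hO : ∀ v, v ∈ O ↔ v ∈ c75.P.map dec := C.O_iff
  have hP : ∀ v, v ∈ O ∧ U v ↔ v ∈ Pr.map dec := fun v => by
    rw [hO, List.mem_map, List.mem_map]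
    constructor
    · rintro ⟨⟨x, hx, rfl⟩, h1, h2⟩
      exact ⟨x, k1 x hx (pol_dec0.1 h1) (pol_dec0.1 h2), rfl⟩
    · rintro ⟨x, hx, rfl⟩
      exact ⟨⟨x, (k2 x hx).1, rfl⟩, pol_dec0.2 (k2 x hx).2.1, pol_dec0.2 (k2 x hx).2.2⟩
  refine ⟨fun T ha hb x xO xU hx y yO yU => ?_, ?_, fun x hq h0 xO => ?_⟩
  · obtain ⟨x, mx, rfl⟩ := List.mem_map.1 ((hP x).1 ⟨xO, xU⟩)
    obtain ⟨y, my, rfl⟩ := List.mem_map.1 ((hP y).1 ⟨yO, yU⟩)
    refine st5_T (fun c hc z hz => ?_) hx y (List.contains_iff_mem.1 (List.all_eq_true.1 (k3 x mx) y my))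
    unfold ga at ha
    unfold gb at hb
    rcases List.mem_pair.1 hc with rfl | rfl
    · rw [← cO_dec k7.1]; exact ha _ hz
    · rw [← cO_dec k7.2]; exact hb _ hz
  · rw [Nat.subtype_card (Pr.map dec).toFinset fun v => by rw [List.mem_toFinset, hP], k5]
    decide
  · obtain ⟨x, lt, rfl⟩ := ex_dec x
    have k := List.all_eq_true.1 k4 x (List.mem_range.2 lt)
    simp only [Bool.or_eq_true, beq_iff_eq, List.contains_iff_mem] at k
    rcases k with ((k | k) | k) | k
    · rw [qp_dec0.1 hq] at k; cases k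
    · exact (h0 (by rw [k, dec_zero])).elim
    · exact (xO ((hO _).2 (List.mem_map_of_mem k))).elim
    · refine st5_T (T := fun x => ∃ g ∈ X, g.1 x = vr) (fun c hc z ⟨g, hg, e⟩ => ?_) ⟨1, one_mem _, rfl⟩ x k
      refine ⟨g * (cO c)⁻¹, mul_mem hg (inv_mem (C.H_le _ (List.mem_map_of_mem hc))), ?_⟩
      rw [← cO_dec (k6 c hc).1, OG.mul_app, OG.inv_app_app, e]

end CL.N9.HN
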