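/-
S1763, case d81 (helper26): block maps of `P8.V` with their sign, and the recovery of the blocks from the vectors
of support four.
-/
import Cfsg.Agent.P8.CSA
import Cfsg.Agent.P8.CSB
import Cfsg.Agent.P8.Dich

set_option autoImplicit false

namespace CL.P8
open Cfsg Subgroup CsB

/-- `g` permutes the blocks, and the product of the signs of its block maps is `ε` -/
def BlkM (g : V → V) (ε : ℤˣ) : Prop := ∃ (σ : Equiv.Perm (Fin 4)) (f : Fin 4 → P2 → P2),
  (∀ k p q, f k (p + q) = f k p + f k q) ∧ (∀ k p, f k p = 0 ↔ p = 0) ∧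
  (g = fun v k => f k (v (σ.symm k))) ∧ ∏ k, eps (f k) = ε

namespace Br

theorem sg_add (k : Fin 4) (p q : P2) : sg k (p + q) = sg k p + sg k q := by revert k p q; decide +kernel

theorem blk_of {g : V → V} (add : ∀ v w, g (v + w) = g v + g w) (inj : Function.Injective g)
    (h1 : ∀ v, sup v = 1 → sup (g v) = 1) (h2 : ∀ v, coc (g v) (g v) = coc v v) : ∃ ε, BlkM g ε := by
  obtain ⟨σ, hσ⟩ := CsA.blocks add inj h1 h2
  have hσ' : ∀ v k, g v k = 0 ↔ v (σ.symm k) = 0 := fun v k => by rw [← hσ v, Equiv.apply_symm_apply]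
  refine ⟨_, σ, fun k p => g (sg (σ.symm k) p) k, fun k p q => by beta_reduce; rw [sg_add, add]; rfl,
    fun k p => by beta_reduce; rw [hσ']; simp [sg], funext fun v => funext fun k => ?_, rfl⟩
  have e : v = sg (σ.symm k) (v (σ.symm k)) + (v + sg (σ.symm k) (v (σ.symm k))) := by
    rw [add_comm v, ← add_assoc, V_add_self, zero_add]
  conv_lhs => rw [e, add]
  rw [Pi.add_apply, show g (v + sg (σ.symm k) (v (σ.symm k))) k = 0 from (hσ' _ k).2 (by
    simpa [sg] using congrFun (V_add_self v) (σ.symm k)), add_zero]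

theorem comp {g g' : V → V} {ε ε' : ℤˣ} (h : BlkM g ε) (h' : BlkM g' ε') : BlkM (fun v => g (g' v)) (ε * ε') := by
  obtain ⟨σ, f, a, n, rfl, rfl⟩ := h
  obtain ⟨τ, f', a', n', rfl, rfl⟩ := h'
  refine ⟨σ * τ, fun k p => f k (f' (σ.symm k) p), fun k p q => by beta_reduce; rw [a', a],
    fun k p => by beta_reduce; rw [n, n'], rfl, ?_⟩
  rw [← Equiv.prod_comp σ.symm fun k => eps (f' k), ← Finset.prod_mul_distrib]
  exact Finset.prod_congr rfl fun k _ => eps_mul (a k) (a' _) (n k) (n' _)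

theorem bsup {g : V → V} {ε : ℤˣ} (h : BlkM g ε) (v : V) : sup (g v) = sup v := by
  obtain ⟨σ, f, -, n, rfl, -⟩ := h
  have e : ∀ w : V, sup w = ∑ k, if w k = 0 then 0 else 1 := fun w => by rw [Fin.sum_univ_four]; rfl
  rw [e, e, ← Equiv.sum_comp σ.symm (fun k => if v k = 0 then 0 else 1)]
  exact Finset.sum_congr rfl fun k _ => by simp only [n]

theorem badd {g : V → V} {ε : ℤˣ} (h : BlkM g ε) (v w : V) : g (v + w) = g v + g w := by
  obtain ⟨σ, f, a, -, rfl, -⟩ := h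
  exact funext fun k => a _ _ _

/-- the sign computed without the permutation -/
def sgn (g : V → V) : ℤˣ := ∏ j, eps fun p => ∑ k, g (sg j p) k

theorem sgn_eq {g : V → V} {ε : ℤˣ} (h : BlkM g ε) : sgn g = ε := by
  obtain ⟨σ, f, -, n, rfl, rfl⟩ := h
  rw [sgn, ← Equiv.prod_comp σ fun k => eps (f k)]
  refine Finset.prod_congr rfl fun j _ => congrArg eps (funext fun p => ?_)
  rw [Finset.sum_eq_single (σ j)]
  · simp [sg]
  · intro k _ hk
    exact (n _ _).2 (if_neg fun e => hk (by rw [← e, Equiv.apply_symm_apply]))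
  · simp

theorem coc_of_sup {v w : V} (h : sup v % 2 = sup w % 2) : coc v v = coc w w := by
  have e1 := coc_self v
  have e2 := coc_self w
  rw [h, ← e2] at e1
  revert e1
  generalize coc v v = a, coc w w = b
  revert a b; decide

theorem binv {g g' : V → V} {ε : ℤˣ} (h : BlkM g ε) (l : ∀ v, g' (g v) = v) (r : ∀ v, g (g' v) = v) : BlkM g' ε := by
  have s : ∀ v, sup (g' v) = sup v := fun v => by rw [← bsup h, r]
  obtain ⟨δ, k⟩ := blk_of (g := g') (fun v w => Function.LeftInverse.injective l (by rw [badd h, r, r, r]))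
    (Function.LeftInverse.injective r) (fun v hv => by rw [s, hv]) fun v => coc_of_sup (by rw [s])
  have e := sgn_eq (comp h k)
  rw [show (fun v => g (g' v)) = id from funext r, show sgn id = 1 by decide +kernel] at e
  rwa [eq_inv_of_mul_eq_one_right e.symm, Int.units_inv_eq_self] at k

theorem tr2 : ∀ v : V, sup v = 2 → ∃ i j k a b, CsA.F i j k a b v = ![(1, 1), (1, 1), 0, 0] ∨
    CsA.F i j k a b v = ![(1, 1), 0, (1, 1), 0] ∨ CsA.F i j k a b v = ![(1, 1), 0, 0, (1, 1)] := by decide +kernel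

section
variable {A : V → V} (add : ∀ v w, A (v + w) = A v + A w) (inj : Function.Injective A)
  (hc : ∀ v, coc (A v) (A v) = coc v v)
  (c0 : ∀ t : Fin 4 → ZMod 3, t 0 - t 1 - t 2 + t 3 = 0 → ∀ v, sup (A v) = 4 → sup (A (rot t v)) = 4)
  (c1 : ∀ v, sup (A v) = 4 → sup (A fun k => v (![2, 3, 0, 1] k)) = 4)
  (c2 : ∀ v, sup (A v) = 4 → sup (A fun k => v (![1, 0, 3, 2] k)) = 4) (hz : sup (A qzp.v) = 4)

include add in
theorem fano {p q r : V} (h1 : sup (A p) = 4) (h2 : sup (A q) = 4) (h3 : sup (A r) = 4) (h4 : sup (A (p + q)) = 4)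
    (h5 : sup (A (p + r)) = 4) (h6 : sup (A (q + r)) = 4) (h7 : sup (A (p + q + r)) = 4) : False := by
  have n : ∀ v : V, sup v = 4 → v 0 ≠ 0 := by decide +kernel
  have k : ∀ a b c : P2, ¬ (a ≠ 0 ∧ b ≠ 0 ∧ c ≠ 0 ∧ a + b ≠ 0 ∧ a + c ≠ 0 ∧ b + c ≠ 0 ∧ a + b + c ≠ 0) := by
    decide +kernel
  simp only [add] at h4 h5 h6 h7
  exact k _ _ _ ⟨n _ h1, n _ h2, n _ h3, n _ h4, n _ h5, n _ h6, n _ h7⟩

include add c0 hz in
theorem fano' {p r : V} (t : Fin 4 → ZMod 3) (h1 : sup (A p) = 4) (h3 : sup (A r) = 4)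
    (e : t 0 - t 1 - t 2 + t 3 = 0 ∧ p + rot t p = rot t (rot t p) ∧ p + r = qzp.v ∧ rot t p + r = rot t qzp.v ∧
      p + rot t p + r = rot t (rot t qzp.v)) : False := by
  obtain ⟨ht, e1, e2, e3, e4⟩ := e
  exact fano add h1 (c0 t ht _ h1) h3 (e1 ▸ c0 t ht _ (c0 t ht _ h1)) (e2 ▸ hz) (e3 ▸ c0 t ht _ hz)
    (e4 ▸ c0 t ht _ (c0 t ht _ hz))

include add inj hc c0 c1 c2 hz in
theorem sup4 (v : V) : sup (A v) = 4 ↔ sup v = 4 := by
  have A0 : A 0 = 0 := (AddMonoidHom.mk' A add).map_zero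
  have cF : ∀ i j k a b v, sup (A v) = 4 → sup (A (CsA.F i j k a b v)) = 4 := fun i j k a b v hv =>
    CsA.iter (U := fun v => sup (A v) = 4) c1 _ _ (CsA.iter (U := fun v => sup (A v) = 4) c2 _ _
      (CsA.iter (U := fun v => sup (A v) = 4) (c0 _ (by decide)) _ _
        (CsA.iter (U := fun v => sup (A v) = 4) (c0 _ (by decide)) _ _
          (CsA.iter (U := fun v => sup (A v) = 4) (c0 _ (by decide)) _ _ hv))))
  have sub : A ⁻¹' {v | sup v = 4} ⊆ {v | sup v = 4} := fun v (hv : sup (A v) = 4) => by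
    have ev : sup v % 2 = 0 := (coc_self v).1 (hc v ▸ (coc_self _).2 (by rw [hv]))
    have : ∀ v : V, sup v % 2 = 0 → v = 0 ∨ sup v = 2 ∨ sup v = 4 := by decide +kernel
    rcases this v ev with e | e | e
    · rw [e, A0] at hv; exact absurd hv (by decide)
    · exfalso
      obtain ⟨i, j, k, a, b, l⟩ := tr2 v e
      have u := cF i j k a b v hv
      rcases l with l | l | l <;> rw [l] at u
      · exact fano' add c0 hz ![1, 1, 0, 0] u (c1 _ u) (by decide +kernel)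
      · exact fano' add c0 hz ![1, 0, 1, 0] u (c2 _ u) (by decide +kernel)
      · exact fano' add c0 hz ![1, 0, 0, 2] u (c2 _ u) (by decide +kernel)
    · exact e
  have e := Set.eq_of_subset_of_ncard_le sub (by
    rw [← Set.ncard_image_of_injective (A ⁻¹' {v | sup v = 4}) inj, Set.image_preimage_eq _ (Finite.injective_iff_surjective.1 inj)])
  exact Set.ext_iff.1 e v

include add inj hc c0 c1 c2 hz in
theorem blkA : ∃ ε, BlkM A ε := by
  have A0 : A 0 = 0 := (AddMonoidHom.mk' A add).map_zero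
  have s4 := sup4 add inj hc c0 c1 c2 hz
  have par : ∀ v, sup (A v) % 2 = 0 ↔ sup v % 2 = 0 := fun v => by rw [← coc_self, ← coc_self, hc]
  have le : ∀ v : V, sup v ≤ 4 ∧ (sup v = 0 ↔ v = 0) := by decide +kernel
  have s2 : ∀ v, sup (A v) = 2 → sup v = 2 := fun v hv => by
    have a := (par v).1 (by rw [hv])
    have b := s4 v
    have c := (le v).1
    have d : sup v ≠ 0 := fun e => by rw [(le v).2.1 e, A0] at hv; exact absurd hv (by decide)
    omega
  refine blk_of add inj (fun v hv => ?_) hc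
  by_contra n
  have a := par v
  have b := (le (A v)).1
  have k : ∀ w : V, sup w = 3 → ∃ j k, sup (w + (sg j (1, 1) + sg k (R2 (w k)))) = 4 ∧
      sup (sg j (1, 1) + sg k (R2 (w k))) = 2 := by decide +kernel
  obtain ⟨j, k, e1, e2⟩ := k (A v) (by omega)
  obtain ⟨d, e⟩ := Finite.injective_iff_surjective.1 inj (sg j (1, 1) + sg k (R2 (A v k)))
  rw [← e] at e1 e2
  rw [← add, s4] at e1
  have k2 : ∀ v : V, sup v = 1 → ∀ d : V, sup d = 2 → sup (v + d) ≠ 4 := by decide +kernel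
  exact k2 v hv d (s2 d e2) e1

end

/-- a single rotation stays a single rotation -/
theorem rot_conj {A : V → V} {ε : ℤˣ} (h : BlkM A ε) :
    ∃ t : Fin 4 → ZMod 3, t 0 - t 1 - t 2 + t 3 ≠ 0 ∧ ∀ v, A (rot t v) = rot ![1, 0, 0, 0] (A v) := by
  obtain ⟨σ, f, a, n, rfl, -⟩ := h
  obtain ⟨s, s0, hs⟩ : ∃ s : ZMod 3, s ≠ 0 ∧ ∀ p, f 0 (R2^[s.val] p) = R2 (f 0 p) := by
    have n0 := n 0
    rw [lin_eq (a 0)] at n0 ⊢
    generalize f 0 (1, 0) = u, f 0 (0, 1) = w at n0 ⊢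
    revert u w; decide +kernel
  refine ⟨fun k => if k = σ.symm 0 then s else 0, ?_, fun v => funext fun k => ?_⟩
  · generalize σ.symm 0 = j
    clear hs
    revert s j; decide +kernel
  · by_cases hk : k = 0
    · subst hk
      simp only [rot, if_true]
      exact hs _
    · have e : (![1, 0, 0, 0] : Fin 4 → ZMod 3) k = 0 := by clear * - hk; revert k; decide +kernel
      simp [rot, e, hk]

variable {G : Type*} [Group G] {ι : Γ0 →* G}

theorem yel_of (h : St0 ι) {x : G} (c : Commute x (ι z)) {t : Fin 4 → ZMod 3} (e : act (ι.comp φ) x = rot t)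
    (n : t 0 - t 1 - t 2 + t 3 ≠ 0) : ∃ y, Yel ι y := by
  obtain ⟨x1, c1, t1, e1, l1⟩ : ∃ x1, Commute x1 (ι z) ∧ ∃ t, act (ι.comp φ) x1 = rot t ∧ t 0 - t 1 - t 2 + t 3 = 1 := by
    have : t 0 - t 1 - t 2 + t 3 = 1 ∨ (-t) 0 - (-t) 1 - (-t) 2 + (-t) 3 = 1 := by clear e; revert t; decide +kernel
    exact this.elim (fun l => ⟨_, c, t, e, l⟩) fun l => ⟨_, c.inv_left, -t, h.act_inv c e, l⟩
  obtain ⟨d, hd, e'⟩ := h.exists_d (t := t1 - ![0, 0, 0, 1]) (by clear e1; revert t1; decide +kernel)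
  have cd := (C0_z (DD_le hd)).map ι
  have e2 := Dic.act_div h c1 cd e1 e'
  have c2 := c1.mul_left cd.inv_left
  rw [sub_sub_cancel] at e2
  generalize x1 * (ι d)⁻¹ = u at e2 c2
  obtain ⟨q, hq⟩ := (psi_range ι).ge (h.mem_Q (c2.pow_left 3) ((h.act_pow c2 e2 3).trans (congrArg rot (by decide))))
  refine Dic.yel h (c2.pow_left 4) ?_ ((h.act_pow c2 e2 4).trans (congrArg rot (by decide)))
  rw [← pow_mul, mul_comm, pow_mul, ← hq, ← map_pow, show q ^ 4 = 1 by clear hq; revert q; decide +kernel, map_one]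

theorem ex_rot (h : St0 ι) {y : G} (hy : Yel ι y) (t : Fin 4 → ZMod 3) :
    ∃ c, Commute c (ι z) ∧ act (ι.comp φ) c = rot t := by
  obtain ⟨d, hd, e⟩ := h.exists_d (t := t - (t 0 - t 1 - t 2 + t 3).val • ![0, 0, 0, 1]) (by revert t; decide +kernel)
  have cd := (C0_z (DD_le hd)).map ι
  refine ⟨ι d * y ^ (t 0 - t 1 - t 2 + t 3).val, cd.mul_left (hy.z.pow_left _), ?_⟩
  rw [h.act_mul cd (hy.z.pow_left _), e, h.act_pow hy.z (hy.act h.inj)]
  exact funext fun v => by rw [rot_rot, sub_add_cancel]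

theorem fus_of (h : St0 ι) {y : G} (hy : Yel ι y)
    (hs : ∀ q : QM, IsConj (ι z) (ι (φ q)) → q = zq ∨ sup q.v = 4) : Fus ι := fun q hq => by
  refine (hs q hq).imp_right fun s => ?_
  obtain ⟨t, ht⟩ : ∃ t, rot t q.v = qzp.v := by
    have k : ∀ p : P2, p ≠ 0 → ∃ s : ZMod 3, R2^[s.val] p = (1, 1) := by decide +kernel
    have n : ∀ v : V, sup v = 4 → ∀ k, v k ≠ 0 := by decide +kernel
    choose t ht using fun j => k _ (n _ s j)
    exact ⟨t, funext fun j => (ht j).trans (by revert j; decide +kernel)⟩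
  obtain ⟨c, hc, e⟩ := ex_rot h hy t
  obtain ⟨f, e1⟩ := h.xq.spec (cz' hc) q
  rw [e, ht] at e1
  rw [← φ_zp]
  rcases QM.eq_or (p := ⟨qzp.v, f⟩) (q := qzp) rfl with l | l <;> rw [l] at e1
  · exact ⟨c, hc, e1⟩
  · refine ⟨(ι.comp φ) (aq 0) * c, (psi_z ι ▸ comm_z _ _ : Commute _ (ι z)).mul_left hc, ?_⟩
    change _ * (ι.comp φ) q * _ = (ι.comp φ) qzp
    rw [← show aq 0 * (qzp * zq) * (aq 0)⁻¹ = qzp by decide, map_mul, map_mul, map_inv, ← e1]
    group

end Br
end CL.P8
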