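/-
S1763, case d81 (helper29): the local hypothesis on `C(E) ∩ C(z)` used for the quadrangle relation.
-/
import Cfsg.Agent.P8.Blk

set_option autoImplicit false

namespace CL.P8
open Cfsg Subgroup

variable {G : Type*} [Group G]

/-- rotations of the blocks `2`, `3`, composed with the reflection of both if `e = 1` -/
def Fv (s t : ZMod 3) (e : Fin 2) (v : V) : V := rot ![0, 0, s, t] ![v 0, v 1, Sw^[e] (v 2), Sw^[e] (v 3)]

/-- the action of `w1` -/
def Wf (v : V) : V := fun k => Fw (v (![1, 0, 3, 2] k))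

/-- the local hypothesis -/
structure LN (ι : Γ0 →* G) : Prop where
  fm : ∀ x ∈ NN ι, Commute x (ι z) → ∃ s t e, act (ι.comp φ) x = Fv s t e ∨ act (ι.comp φ) x = fun v => Fv s t e (Wf v)
  sup : ∀ q : QM, IsConj (ι z) (ι (φ q)) → q = zq ∨ sup q.v = 4
  nc : ∀ x ∈ NN ι, IsConj (ι z) x → Commute x (ι z) → ∀ s t, act (ι.comp φ) x ≠ Fv s t 1

end CL.P8
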