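/-
Extraspecial `F*(C(z))` of order `2 ^ 9` (S1763, helper14): the configurations with 27 and 81 points
(`Ω₈⁺(2)`, `PΩ₈⁺(3)`): definitions and the steps.
-/
import Cfsg.Agent.N9.Data
import Cfsg.Agent.N9.M8KB
import Cfsg.Agent.Spor.O8D
import Cfsg.Agent.P8.Blk

set_option autoImplicit false
set_option linter.unusedSectionVars false

namespace CL.N9.P

open Cfsg Subgroup CL.Even CL.Grp CL.WC CL.Cls CL.P8 Equiv

universe u

variable {G : Type u} [Group G]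

/-! ### the Curtis–Tits system -/

/-- `c` centralises `z` and acts as `w` -/
def Ac {z : G} (M : OM qp z) (c : G) (w : O8.X) : Prop := Commute c z ∧ ∀ v, (M.ρ c).1 v = O8.act w v

/-- the facts common to both configurations -/
structure St (z x : G) (M : OM qp z) : Prop where
  hy : Hy z
  nb : Nb z x
  πx : M.π x = O8.e 7
  sur : ∀ w, ∃ c, Ac M c w
  L_in : ∀ {y}, y ∈ QQ x → Commute y z → ∃ w, O8.InA w ∧ Ac M y w
  L_sur : ∀ i, ∃ y ∈ QQ x, Ac M y (O8.s i)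
  O0 : O8.e 0 ∈ M.O
  On : ∀ k : Fin 8, k = 3 ∨ k = 5 ∨ k = 6 → O8.e 0 + O8.e k ∉ M.O

section
variable {z : G} {M : OM qp z} {c d : G} {v w : O8.X}

theorem Ac.mul (h : Ac M c v) (k : Ac M d w) : Ac M (c * d) (v * w) :=
  ⟨h.1.mul_left k.1, fun x => by rw [M.ρ_mul h.1 k.1, O8.act_mul, Module.End.mul_apply, ← k.2, ← h.2]; rfl⟩
theorem Ac.of_Q [Finite G] (H : Hy z) (h : c ∈ QQ z) : Ac M c 1 :=
  ⟨H.cz h, fun x => by rw [M.ρ_Q H h, O8.act_one]; rfl⟩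
theorem Ac.one : Ac M 1 1 := ⟨.one_left _, fun x => by rw [M.ρ_one, O8.act_one]; rfl⟩
theorem Ac.inv (h : Ac M c v) : Ac M c⁻¹ v⁻¹ := ⟨h.1.inv_left, fun x => by
  apply (M.ρ c).1.injective
  rw [h.2 (O8.act _ _), ← Module.End.mul_apply, ← O8.act_mul, mul_inv_cancel, O8.act_one, M.ρ_inv h.1]
  exact (M.ρ c).1.apply_symm_apply x⟩
theorem Ac.pow (h : Ac M c v) : ∀ n : ℕ, Ac M (c ^ n) (v ^ n)
  | 0 => by rw [pow_zero, pow_zero]; exact Ac.one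
  | n + 1 => by rw [pow_succ, pow_succ]; exact (h.pow n).mul h
theorem Ac.conj (h : Ac M c v) (k : Ac M d w) : Ac M (c * d * c⁻¹) (v * w * v⁻¹) := (h.mul k).mul h.inv
theorem Ac.mem_Q (h : Ac M c 1) : c ∈ QQ z := (M.ker h.1).1 (OG.ext' fun x => by rw [h.2, O8.act_one]; rfl)
theorem Ac.div (h : Ac M c v) (k : Ac M d v) : c * d⁻¹ ∈ QQ z := Ac.mem_Q (mul_inv_cancel v ▸ h.mul k.inv)
theorem Ac.π (h : Ac M c v) {a : G} (ha : a ∈ QQ z) : M.π (c * a * c⁻¹) = O8.act v (M.π a) := by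
  rw [M.π_conj h.1 ha, h.2]
theorem pol_B0 (x y : V8) : QuadraticMap.polar qp x y = O8.B0 x y := by rw [M8.pol_app, O8.B0_apply]
theorem qp_q0 (x : V8) : qp x = O8.q0 x := rfl
end

/-- the central node and the root elements of the outer nodes -/
structure RA {z : G} (M : OM qp z) (b m : G) (a f : Fin 3 → G) : Prop where
  bQ : b ∈ QQ z
  πb : M.π b = O8.e 0
  msq : m * m = 1
  ord : (b * m) ^ 3 = 1
  xQ : m * z * m ∈ QQ z
  πx : M.π (m * z * m) = O8.e 7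
  fQ : ∀ i, f i ∈ QQ z
  πf : ∀ i, M.π (f i) = O8.e (O8.sg i)
  ha : ∀ i, a i = m * f i * m
  ac : ∀ i, Ac M (a i) (O8.s i)
  com : ∀ i, a i * b * a i * b = f i

/-- a Levi complement -/
structure LV {z : G} (M : OM qp z) (a n : Fin 3 → G) : Prop where
  nsq : ∀ i, n i * n i = 1
  ac : ∀ i, Ac M (n i) (O8.ν i)
  ord : ∀ i, (a i * n i) ^ 3 = 1
  an : ∀ i j, i ≠ j → Commute (a i) (n j)
  nn : ∀ i j, Commute (n i) (n j)

/-- quantification over the setting -/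
abbrev AllS (p : ∀ (G : Type u) [Group G] [Finite G] (z : G) (_ : OM qp z), Prop) : Prop :=
  ∀ (G : Type u) [Group G] [Finite G] (z x : G) (M : OM qp z), St z x M → p G z M

def STC : Prop := ∀ (G : Type u) [Group G] [Finite G] (z : G) (M : OM qp z), Hy z →
  Cfg d27 M.X M.O M.E M.L ∨ Cfg d81 M.X M.O M.E M.L → ∃ x, St z x M
def RR1 : Prop := AllS.{u} fun _ _ _ _ M => ∃ b m a f, RA M b m a f
def RR2 : Prop := AllS.{u} fun G _ _ _ M => ∀ a : Fin 3 → G, (∀ i, a i * a i = 1) → (∀ i, Ac M (a i) (O8.s i)) →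
  (∀ i j, Commute (a i) (a j)) → ∃ n, LV M a n
def RR2x : Prop := AllS.{u} fun _ _ _ _ M => ∀ b m a f, RA M b m a f → ∃ n, LV M a n ∧ (∀ i, n i * b * n i = f i) ∧
  ((∀ i, n i * m * n i = m * n i * m) → O8.CT b m a n)
def RR3 : Prop := AllS.{u} fun _ _ _ z M => ∀ b m a f n, RA M b m a f → LV M a n → (∀ i, n i * b * n i = f i) →
  (∀ i, n i * m * n i = m * n i * m) ∧ n 0 * (n 1 * (n 2 * b * n 2) * n 1) * n 0 = m * z * m
def FF1 : Prop := AllS.{u} fun _ _ _ z M => ∀ b m a f n, RA M b m a f → LV M a n →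
  QQ z ≤ O8.gen b m a n ∧ center (O8.gen b m a n) = ⊥

/-! ### the embedding of `Γ0` -/

def βx : Ex := qx ⟨![(1, 1), (1, 0), (1, 0), (0, 1)], 0⟩
def μx : Ex := qx ⟨![(1, 0), (0, 1), (1, 0), (0, 1)], 1⟩ * X.n0
def αx : Fin 3 → Ex := ![qx ⟨![(1, 0), (1, 0), (1, 0), (1, 0)], 0⟩ * X.s1, X.z * X.s2,
  qx ⟨![(1, 0), (1, 0), (0, 1), (0, 1)], 0⟩ * X.s1 * X.s2 * X.s3]
def νx : Fin 3 → Ex := ![qx ⟨![(1, 1), (1, 1), (0, 1), (0, 1)], 0⟩ * X.d1 * X.d3 ^ 2 * X.s1,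
  qx ⟨![(1, 0), (1, 1), (0, 1), (1, 0)], 1⟩ * X.d1 ^ 2 * X.d2 ^ 2 * X.d3 ^ 2 * X.s2,
  qx ⟨![(1, 1), (1, 1), (1, 0), (1, 0)], 0⟩ * X.d1 * X.d3 * X.s1 * X.s2 * X.s3]
noncomputable def β0 : Γ0 := βx.ev g
noncomputable def μ0 : Γ0 := μx.ev g
noncomputable def α0 (i : Fin 3) : Γ0 := (αx i).ev g
noncomputable def ν0 (i : Fin 3) : Γ0 := (νx i).ev g

/-- the coordinates of `N9` from those of `P8` -/
def κ (v : V) : V8 := (v 0).1 • dec 233 + (v 0).2 • dec 151 + ((v 1).1 • dec 109 + (v 1).2 • dec 219) +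
  ((v 2).1 • dec 107 + (v 2).2 • dec 189) + ((v 3).1 • dec 231 + (v 3).2 • dec 121)

theorem κ_add (v w : V) : κ (v + w) = κ v + κ w := by
  simp only [κ, Pi.add_apply, Prod.fst_add, Prod.snd_add, add_smul]; abel
theorem κ_zero {v : V} (h : κ v = 0) : v = 0 := by revert v; decide +kernel
theorem κ_inj : Function.Injective κ := fun v w h => by
  rw [← add_zero v, ← V_add_self w, ← add_assoc, κ_zero (v := v + w) (by rw [κ_add, h, aa]), zero_add]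
theorem κ_surj : Function.Surjective κ :=
  ((Nat.bijective_iff_injective_and_card κ).2 ⟨κ_inj, by rw [card_V]; simp⟩).2

/-- the embedding -/
structure Io {z : G} (M : OM qp z) (ι : Γ0 →* G) : Prop where
  st : St0 ι
  hz : ι P8.z = z
  hQ : (ι.comp φ).range = QQ z
  hπ : ∀ q, M.π (ι (φ q)) = κ q.v
  hact : ∀ c, Commute c z → ∀ v, κ (act (ι.comp φ) c v) = (M.ρ c).1 (κ v)
  hα : ∀ i, Ac M (ι (α0 i)) (O8.s i)
  hν : ∀ i, Ac M (ι (ν0 i)) (O8.ν i)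

def IO1 : Prop := O8.CT β0 μ0 α0 ν0 ∧ O8.gen β0 μ0 α0 ν0 = ⊤ ∧
  C0 = Qg ⊔ closure (Set.range α0 ∪ Set.range ν0)
def IO2 : Prop := ∀ (G : Type u) [Group G] [Finite G] (b m : G) (a n : Fin 3 → G), O8.CT b m a n → b ≠ 1 →
  center (O8.gen b m a n) = ⊥ →
  ∃ ι : Γ0 →* G, Function.Injective ι ∧ ι β0 = b ∧ ι μ0 = m ∧ (∀ i, ι (α0 i) = a i) ∧ ∀ i, ι (ν0 i) = n i
def IO3 : Prop := AllS.{u} fun G _ _ z M => ∀ b m a f n, RA M b m a f → LV M a n →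
  n 0 * (n 1 * (n 2 * b * n 2) * n 1) * n 0 = m * z * m → ∀ ι : Γ0 →* G, Function.Injective ι → ι β0 = b → ι μ0 = m →
  (∀ i, ι (α0 i) = a i) → (∀ i, ι (ν0 i) = n i) → Io M ι

/-- `C(z)` normalises `⟨C, n0⟩` -/
def NORM : Prop := ∀ (G : Type u) [Group G] [Finite G] (ι : Γ0 →* G), St0 ι → Hy (ι P8.z) →
  (ι.comp φ).range = QQ (ι P8.z) → ∀ C : Subgroup G, C0.map ι ≤ C →
  (∀ x, Commute x (ι P8.z) → ∀ c ∈ C, x * c * x⁻¹ ∈ C) → (∀ c ∈ C, Commute c (ι P8.z)) →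
  (∀ t, Nb (ι P8.z) t → ∃ c ∈ C, c * ι zp * c⁻¹ = t) →
  ∀ x, Commute x (ι P8.z) → x ∈ normalizer ((C ⊔ zpowers (ι n0) : Subgroup G) : Set G)
def D27A : Prop := ∀ (G : Type u) [Group G] [Finite G] (z : G) (M : OM qp z), Hy z → Cfg d27 M.X M.O M.E M.L →
  ∀ ι : Γ0 →* G, Io M ι → (∀ x, Commute x z → ∀ c ∈ C0.map ι, x * c * x⁻¹ ∈ C0.map ι) ∧
    ∀ t, Nb z t → ∃ c ∈ C0.map ι, c * ι zp * c⁻¹ = t
def D27B : Prop := ∀ (G : Type u) [Group G] [Finite G] [IsSimpleGroup G] (ι : Γ0 →* G), St0 ι → Hy (ι P8.z) →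
  (ι.comp φ).range = QQ (ι P8.z) → (∀ x, Commute x (ι P8.z) → x ∈ normalizer (ι.range : Set G)) → Concl G

/-! ### monomial coordinates -/

/-- a monomial map -/
def mon (σ : Perm (Fin 4)) (s : Fin 4 → ZMod 2) (t : Fin 4 → ZMod 3) (v : V) : V :=
  fun k => R2^[(t k).val] (Sw^[(s k).val] (v (σ⁻¹ k)))

theorem mon_mul (σ σ' : Perm (Fin 4)) (s s' : Fin 4 → ZMod 2) (t t' : Fin 4 → ZMod 3) (v : V) :
    mon σ s t (mon σ' s' t' v) = mon (σ * σ') (fun k => s k + s' (σ⁻¹ k))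
      (fun k => t k + (if s k = 0 then 1 else -1) * t' (σ⁻¹ k)) v := funext fun k =>
  (by decide +kernel : ∀ (s s' : ZMod 2) (t t' : ZMod 3) (p : P2), R2^[t.val] (Sw^[s.val] (R2^[t'.val] (Sw^[s'.val] p))) =
    R2^[(t + (if s = 0 then 1 else -1) * t').val] (Sw^[(s + s').val] p)) _ _ _ _ _
theorem mon_add (σ : Perm (Fin 4)) (s : Fin 4 → ZMod 2) (t : Fin 4 → ZMod 3) (v w : V) :
    mon σ s t (v + w) = mon σ s t v + mon σ s t w := funext fun k =>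
  (by decide +kernel : ∀ (s : ZMod 2) (t : ZMod 3) (p q : P2), R2^[t.val] (Sw^[s.val] (p + q)) =
    R2^[t.val] (Sw^[s.val] p) + R2^[t.val] (Sw^[s.val] q)) _ _ _ _
theorem mon_rot (t : Fin 4 → ZMod 3) : mon 1 0 t = rot t := rfl
theorem mon_one (v : V) : mon 1 0 0 v = v := rfl
theorem mon_zero_iff (σ : Perm (Fin 4)) (s : Fin 4 → ZMod 2) (t : Fin 4 → ZMod 3) (v : V) (k : Fin 4) :
    mon σ s t v k = 0 ↔ v (σ⁻¹ k) = 0 :=
  (by decide +kernel : ∀ (s : ZMod 2) (t : ZMod 3) (p : P2), R2^[t.val] (Sw^[s.val] p) = 0 ↔ p = 0) _ _ _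
theorem bp_mon {ψ : QM →* G} {x : G} {σ s t} (h : act ψ x = mon σ s t) : Bp ψ x σ := fun v k => by
  rw [h, mon_zero_iff, show σ⁻¹ (σ k) = k by simp]
theorem mon_inj {σ σ' : Perm (Fin 4)} {s s' : Fin 4 → ZMod 2} {t t' : Fin 4 → ZMod 3} (h : mon σ s t = mon σ' s' t') :
    σ = σ' ∧ s = s' ∧ t = t' := by
  obtain rfl : σ = σ' := inv_injective (Equiv.ext fun k => by
    by_contra n
    have h1 := (mon_zero_iff σ' s' t' (sg (σ⁻¹ k) (1, 0)) k).2 (if_neg fun e => n e.symm)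
    rw [← h, mon_zero_iff] at h1
    simp [sg] at h1)
  have k : ∀ k, s k = s' k ∧ t k = t' k := fun k =>
    (by decide +kernel : ∀ (s s' : ZMod 2) (t t' : ZMod 3), (∀ p : P2, R2^[t.val] (Sw^[s.val] p) =
      R2^[t'.val] (Sw^[s'.val] p)) → s = s' ∧ t = t') _ _ _ _ fun p => congrFun (congrFun h fun _ => p) k
  exact ⟨rfl, funext fun i => (k i).1, funext fun i => (k i).2⟩

/-- monomial coordinates for the configuration with 81 points -/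
structure W (z : G) (ψ : QM →* G) : Prop where
  hy : Hy z
  xq : XQ ψ
  hz : ψ zq = z
  hQ : ψ.range = QQ z
  mono : ∀ x, Commute x z → ∃ σ s t, s 0 + s 1 + s 2 + s 3 = 0 ∧ act ψ x = mon σ s t
  hrot : ∀ t, ∃ x, Commute x z ∧ act ψ x = rot t
  hneg : ∃ x, Commute x z ∧ act ψ x = mon 1 1 0
  hsup : ∀ q, IsConj z (ψ q) ↔ q = zq ∨ P8.sup q.v = 4

/-- no element acts as a reflection of `W(D₄)` or its negative -/
def NR (z : G) (ψ : QM →* G) : Prop := ∀ x, Commute x z → ∀ σ s t, act ψ x = mon σ s t → σ.IsSwap →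
  ∀ k l, k ≠ l → σ k = k → σ l = l → s k ≠ s l

def swp (v : V) : V := ![v 1, v 0, v 2, v 3]
def dd (v : V) : V := ![v 0, v 1, Sw (v 2), Sw (v 3)]
def tt (v : V) : V := ![v 1, v 0, v 3, v 2]
abbrev τ0 : Perm (Fin 4) := swap 0 1 * swap 2 3

abbrev AllW (p : ∀ (G : Type u) [Group G] [Finite G] (_ : G) (_ : QM →* G), Prop) : Prop :=
  ∀ (G : Type u) [Group G] [Finite G] (z : G) (ψ : QM →* G), W z ψ → p G z ψ

/-- change of coordinates -/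
def RE : Prop := AllW.{u} fun G _ _ z ψ => ∀ σ s t, ∃ ψ' : QM →* G, W z ψ' ∧
  ∀ x, Commute x z → ∀ v, act ψ x (mon σ s t v) = mon σ s t (act ψ' x v)
/-- the counting lemma: `D` is the image of `Q ∩ Q_y`, `F` the set of the actions of `C_{Q_y}(z)` -/
def CNT : Prop := AllW.{u} fun _ _ _ z ψ => ∀ y, IsConj z y → Commute y z → y ∉ QQ z →
  ∃ (D : AddSubgroup V) (F : Set (V → V)), 16 ≤ Nat.card D * Nat.card F ∧
    (∀ d ∈ D, (∃ e, ψ ⟨d, e⟩ ∈ QQ y) ∧ coc d d = 0 ∧ act ψ y d = d ∧ ∀ q, Commute y (ψ q) → B q.v d = 0) ∧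
    ∀ f ∈ F, (∃ r, Commute r z ∧ act ψ r = f) ∧ (∀ d ∈ D, f d = d) ∧ ∀ q, Commute y (ψ q) → f q.v + q.v ∈ D
def A1 : Prop := AllW.{u} fun _ _ _ z ψ => ∀ x, Commute x z → act ψ x = swp → ∃ y, IsConj z y ∧ Commute y z ∧ y ∉ QQ z ∧
  ∀ q : QM, q.v 0 = q.v 1 → (q.v 2).2 = 0 → Commute y (ψ q)
def A2 : Prop := AllW.{u} fun _ _ _ z ψ => ∀ y, IsConj z y → Commute y z → y ∉ QQ z →
  ¬ ∀ q : QM, q.v 0 = q.v 1 → (q.v 2).2 = 0 → Commute y (ψ q)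
def NR0 : Prop := AllW.{u} fun _ _ _ z ψ => ∀ x, Commute x z → act ψ x ≠ swp
def NRW : Prop := AllW.{u} fun _ _ _ z ψ => NR z ψ
def C2 : Prop := AllW.{u} fun _ _ _ z ψ => ∀ y, IsConj z y → Commute y z → act ψ y ≠ dd
def A4 : Prop := AllW.{u} fun _ _ _ z ψ => ∀ y, IsConj z y → Commute y z → act ψ y = tt → ∃ t, Nb z t ∧ y ∈ QQ t

theorem nr0_of (a : A1.{u}) (b : A2.{u}) : NR0.{u} := fun G _ _ z ψ w x hx e =>
  let ⟨y, h1, h2, h3, h4⟩ := a G z ψ w x hx e; b G z ψ w y h1 h2 h3 h4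

/-- inner action -/
def In (ι : Γ0 →* G) (x : G) : Prop := ∃ σ c t, InV4 σ ∧ act (ι.comp φ) x = mon σ (fun _ => c) t

structure S81 (ι : Γ0 →* G) : Prop where
  st : St0 ι
  w : W (ι P8.z) (ι.comp φ)
  Lz : ∀ r ∈ QQ (ι zp), Commute r (ι P8.z) → In ι r

abbrev AllI (p : ∀ (G : Type u) [Group G] [Finite G] (_ : Γ0 →* G), Prop) : Prop :=
  ∀ (G : Type u) [Group G] [Finite G] (ι : Γ0 →* G), S81 ι → p G ι

def S81C : Prop := ∀ (G : Type u) [Group G] [Finite G] (z : G) (M : OM qp z), Hy z → Cfg d81 M.X M.O M.E M.L →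
  ∀ ι : Γ0 →* G, Io M ι → S81 ι
/-- the conjugates of `z` in `C(z)` are inner -/
def Ty (ι : Γ0 →* G) : Prop := ∀ y, IsConj (ι P8.z) y → Commute y (ι P8.z) → In ι y
def TY : Prop := AllI.{u} fun _ _ _ ι => Ty ι
/-- the inner elements -/
def INN : Prop := AllI.{u} fun _ _ _ ι => Fus ι ∧ ∃ y, Yel ι y ∧
  (∀ x, x ∈ C0.map ι ⊔ zpowers y ↔ Commute x (ι P8.z) ∧ In ι x) ∧
  (∀ x, Commute x (ι P8.z) → ∀ c ∈ C0.map ι ⊔ zpowers y, x * c * x⁻¹ ∈ C0.map ι ⊔ zpowers y) ∧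
  ∀ t, Nb (ι P8.z) t → ∃ c ∈ C0.map ι ⊔ zpowers y, c * ι zp * c⁻¹ = t

/-! ### the centraliser of the four-group -/

/-- local facts -/
structure NL (ι : Γ0 →* G) : Prop where
  nz : ∀ e ∈ closure {ι e1, ι e2}, IsConj (ι P8.z) (ι P8.z * e) → e = 1
  nE : ∀ t, IsConj (ι P8.z) t → t ∉ closure {ι e1, ι e2}
  ty : ∀ x ∈ NN ι, Commute x (ι P8.z) → ∃ c t2 t3, act (ι.comp φ) x = mon 1 ![0, 0, c, c] ![0, 0, t2, t3] ∨
    act (ι.comp φ) x = mon τ0 ![1, 1, c, c] ![2, 2, t2, t3]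
  u : ∀ t ∈ NN ι, Commute t (ι P8.z) →
    (∀ p ∈ [a 2, b 2, a 3, b 3], t * ι p * t⁻¹ * (ι p)⁻¹ ∈ closure {ι e1, ι e2}) →
    t ∈ closure {ι e1, ι e2} ∨ t * ι P8.z ∈ closure {ι e1, ι e2}
  cmk : ∀ x : NN ι, (x : NB ι) * zb ι = zb ι * x → Commute (x : G) (ι P8.z)
  wc : ∀ n ∈ NN ι, n * ι P8.z * n⁻¹ ∈ (ι.comp φ).range → n * ι P8.z * n⁻¹ = ι P8.z

/-- the image of `TT` -/
noncomputable def Tb (ι : Γ0 →* G) : Subgroup (NB ι) := (TT.subgroupOf CE).map (ν ι)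

structure SylM (ι : Γ0 →* G) : Prop where
  iso : ∀ P : Sylow 2 (alternatingGroup (Fin 8)), Nonempty (Tb ι ≃* (P : Subgroup (alternatingGroup (Fin 8))))
  card : Nat.card (Tb ι) = 64
  ord : orderOf (zb ι) = 2
  mem : zb ι ∈ Tb ι
  cen : ∀ s ∈ Tb ι, s * zb ι = zb ι * s
  uniq : ∀ t ∈ Tb ι, (∀ s ∈ Tb ι, s * t = t * s) → t = 1 ∨ t = zb ι

/-- `O²(N / E)` -/
abbrev MB (ι : Γ0 →* G) : Subgroup (NB ι) := pResidual 2 (NB ι)

structure SY (ι : Γ0 →* G) : Prop where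
  le : Tb ι ≤ MB ι
  odd : ¬ 2 ∣ (Tb ι).relIndex (MB ι)
  cnj : ∀ a, IsConj (zb ι) a → ∃ m ∈ MB ι, m * zb ι * m⁻¹ = a

def NLT : Prop := AllI.{u} fun _ _ _ ι => NR (ι P8.z) (ι.comp φ) → NL ι
def NAT : Prop := AllI.{u} fun _ _ _ ι => NL ι → SylM ι
def SOL : Prop := AllI.{u} fun _ _ _ ι => NL ι → IsSolvable (centralizer ({zb ι} : Set (NB ι)))
def TR1 : Prop := AllI.{u} fun _ _ _ ι => NL ι → ∃ P : Sylow 2 (NB ι), Tb ι ≤ P ∧ (∀ s ∈ P, s * zb ι = zb ι * s) ∧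
  (∀ r ∈ P, ∀ s ∈ P, r ∉ Tb ι → s ∉ Tb ι → r * s ∈ Tb ι) ∧
  ((P : Subgroup (NB ι)) ≠ Tb ι → ∃ x ∈ NN ι, Commute x (ι P8.z) ∧ ¬ In ι x)
def TR2 : Prop := AllI.{u} fun _ _ _ ι => NL ι → Ty ι → ∀ x ∈ NN ι, Commute x (ι P8.z) → ¬ In ι x → MB ι ≠ ⊤
def TR3 : Prop := AllI.{u} fun _ _ _ ι => NL ι → Ty ι → ∀ k, Kap ι k → SY ι
def NBT : Prop := AllI.{u} fun _ _ _ ι => NL ι → SylM ι → SY ι → ∀ y k, Yel ι y → Commute y (ι d3) → Kap ι k →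
  pCore 2 (MB ι) = ⊥ ∧ oddCore (MB ι) = ⊥ ∧ 9 ∣ Nat.card (centralizer {zb ι} ⊓ MB ι : Subgroup (NB ι))
def GQ1 : Prop := AllI.{u} fun _ _ _ ι => SylM ι → SY ι → IsSolvable (centralizer ({zb ι} : Set (NB ι))) →
  pCore 2 (MB ι) = ⊥ → oddCore (MB ι) = ⊥ → 9 ∣ Nat.card (centralizer {zb ι} ⊓ MB ι : Subgroup (NB ι)) →
  (∀ a b c, IsConj (zb ι) a → IsConj (zb ι) b → IsConj (zb ι) c → b ≠ c → Commute b c →
    ∃ d, IsConj (zb ι) d ∧ Commute d a ∧ Commute d b ∧ Commute d c) ∧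
  ∀ b c, IsConj (zb ι) b → IsConj (zb ι) c → b ≠ c → Commute b c →
    {d | IsConj (zb ι) d ∧ Commute d b ∧ Commute d c}.ncard ≤ 5
def GQ2 : Prop := AllI.{u} fun _ _ _ ι => NL ι → ∀ k, Kap ι k →
  (∀ a b c, IsConj (zb ι) a → IsConj (zb ι) b → IsConj (zb ι) c → b ≠ c → Commute b c →
    ∃ d, IsConj (zb ι) d ∧ Commute d a ∧ Commute d b ∧ Commute d c) →
  (∀ b c, IsConj (zb ι) b → IsConj (zb ι) c → b ≠ c → Commute b c →
    {d | IsConj (zb ι) d ∧ Commute d b ∧ Commute d c}.ncard ≤ 5) →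
  Commute (k * ι x1 * k⁻¹) (ι x1) ∨ Commute (k * ι x1 * k⁻¹) (ι x2)
def K1T : Prop := ∀ (G : Type u) [Group G] [Finite G] (ι : Γ0 →* G), St0 ι → ∀ y k, Yel ι y → Kap ι k →
  Commute (k * ι x1 * k⁻¹) (ι x1) ∨ Commute (k * ι x1 * k⁻¹) (ι x2) →
  Nonempty ((C0.map ι ⊔ zpowers y ⊔ zpowers (ι n0) : Subgroup G) ≃* POmega (ZMod 3) (quadFormPlus 4 (ZMod 3)))
/-- control of fusion -/
def FUS : Prop := AllI.{u} fun G _ _ ι => Ty ι → Fus ι → ∀ H : Subgroup G, ι.range ≤ H →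
  (∀ x, Commute x (ι P8.z) → x ∈ H) → ∀ y, IsConj (ι P8.z) y → Commute y (ι P8.z) → ∃ k ∈ H, k * ι P8.z * k⁻¹ = y
/-- the theorem of Holt -/
def HOL : Prop := ∀ (G : Type u) [Group G] [Finite G] [IsSimpleGroup G], ¬ IsMulCommutative G → ∀ z : G, Hy z →
  ∀ K : Subgroup G, Nonempty (K ≃* POmega (ZMod 3) (quadFormPlus 4 (ZMod 3))) → z ∈ K →
  (∀ x, Commute x z → x ∈ normalizer (K : Set G)) →
  (∀ y, IsConj z y → Commute y z → ∃ k ∈ normalizer (K : Set G), k * z * k⁻¹ = y) →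
  (∃ t, orderOf t = 2 ∧ ¬ IsConj z t) → K = ⊤

end CL.N9.P
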