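/-
Extraspecial `F*(C(z))` of order `2 ^ 9` (S1763), job PA1: the transfer for an element acting as a reflection.
-/
import Cfsg.Agent.N9.PD

set_option autoImplicit false
set_option linter.unusedSectionVars false

namespace CL.N9.P

open Cfsg Subgroup CL.Even CL.Grp CL.WC CL.Cls CL.P8 Equiv

universe u

namespace PA1x

def u1 : QM := ⟨ea 0 + ea 1, 0⟩
def u2 : QM := ⟨eb 0 + eb 1, 0⟩

theorem ex_p : ∀ e1 e2 e3 e4 e5 e6 : ZMod 2, ∃ v : V, e1 + B v u1.v = 0 ∧ e2 + B v u2.v = 0 ∧ e3 + B v (aq 2).v = 0 ∧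
    e4 + B v (bq 2).v = 0 ∧ e5 + B v (aq 3).v = 0 ∧ e6 + B v (bq 3).v = 0 := fun e1 e2 e3 e4 e5 e6 =>
  ⟨![(e2, e1), (0, 0), (e4, e3), (e6, e5)], by revert e1 e2 e3 e4 e5 e6; decide +kernel⟩

theorem gens : ∀ v : V, v 0 = v 1 → v = (u1 ^ (v 0).1.val * u2 ^ (v 0).2.val * aq 2 ^ (v 2).1.val * bq 2 ^ (v 2).2.val *
    aq 3 ^ (v 3).1.val * bq 3 ^ (v 3).2.val).v := by decide +kernel

theorem swp2 : ∀ v : V, swp (swp v) = v := by decide +kernel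
theorem swpB : ∀ k, B (ea k) (swp (ea k)) = 0 ∧ B (eb k) (swp (eb k)) = 0 := by decide +kernel
theorem swpP : ∀ (v : V) (k : Fin 4), swp v (swap (0 : Fin 4) 1 k) = 0 ↔ v k = 0 := by decide +kernel
theorem Ba : ∀ v : V, (v 2).2 = 0 → B (ea 2) v = 0 := by decide +kernel
theorem sup4 : ∀ v : V, B (ea 3) v = 0 → B (eb 3) v = 0 → P8.sup v ≠ 4 := by decide +kernel

def R0 : Subgroup QM where
  carrier := {q | q.v 0 = q.v 1 ∧ (q.v 2).2 = 0}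
  one_mem' := ⟨rfl, rfl⟩
  mul_mem' := fun {a b} ha hb => ⟨show a.v 0 + b.v 0 = a.v 1 + b.v 1 by rw [ha.1, hb.1],
    show (a.v 2).2 + (b.v 2).2 = 0 by rw [ha.2, hb.2, add_zero]⟩
  inv_mem' := fun ha => ha

variable {G : Type u} [Group G] {ψ : QM →* G}

theorem cmψ {p q : QM} (h : B p.v q.v = 0) : Commute (ψ p) (ψ q) := Commute.map ((QM.comm_iff p q).2 h) ψ

theorem step1 (h : XQ ψ) {x : G} (hx : Commute x (ψ zq)) (e : act ψ x = swp) :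
    ∃ s, Commute s (ψ zq) ∧ act ψ s = swp ∧ ∀ q : QM, q.v 0 = q.v 1 → Commute s (ψ q) := by
  have k : ∀ q : QM, swp q.v = q.v → q.e = 0 → ∃ t, ∀ v, t + B v q.v = 0 → Commute (ψ ⟨v, 0⟩ * x) (ψ q) := fun q h1 h2 => by
    obtain ⟨t, ht⟩ := h.spec hx q
    refine ⟨t, fun v hv => mul_inv_eq_iff_eq_mul.1 ?_⟩
    rw [show ψ ⟨v, 0⟩ * x * ψ q * (ψ ⟨v, 0⟩ * x)⁻¹ = ψ ⟨v, 0⟩ * (x * ψ q * x⁻¹) * (ψ ⟨v, 0⟩)⁻¹ by group, ht, ← map_inv,
      ← map_mul, ← map_mul, QM.conj, e, h1]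
    exact congrArg ψ (QM.ext rfl (hv.trans h2.symm))
  obtain ⟨e1, k1⟩ := k u1 (by decide +kernel) rfl
  obtain ⟨e2, k2⟩ := k u2 (by decide +kernel) rfl
  obtain ⟨e3, k3⟩ := k (aq 2) (by decide +kernel) rfl
  obtain ⟨e4, k4⟩ := k (bq 2) (by decide +kernel) rfl
  obtain ⟨e5, k5⟩ := k (aq 3) (by decide +kernel) rfl
  obtain ⟨e6, k6⟩ := k (bq 3) (by decide +kernel) rfl
  obtain ⟨v, v1, v2, v3, v4, v5, v6⟩ := ex_p e1 e2 e3 e4 e5 e6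
  have sz := (comm_z ψ ⟨v, 0⟩).mul_left hx
  refine ⟨_, sz, funext fun w => by rw [h.act_mul (comm_z ψ _) hx, h.act_psi, e], fun q hq => ?_⟩
  have c := (((((((k1 v v1).pow_right (q.v 0).1.val).mul_right ((k2 v v2).pow_right (q.v 0).2.val)).mul_right
    ((k3 v v3).pow_right (q.v 2).1.val)).mul_right ((k4 v v4).pow_right (q.v 2).2.val)).mul_right
    ((k5 v v5).pow_right (q.v 3).1.val)).mul_right ((k6 v v6).pow_right (q.v 3).2.val))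
  simp only [← map_pow, ← map_mul] at c
  rcases QM.eq_or (gens q.v hq) with r | r <;> rw [r]
  · exact c
  · rw [map_mul]; exact c.mul_right sz

theorem step2 (h : XQ ψ) {s : G} (hs : Commute s (ψ zq)) (e : act ψ s = swp)
    (c : ∀ q : QM, q.v 0 = q.v 1 → Commute s (ψ q)) : s * s = 1 ∨ s * s = ψ zq := by
  have k : ∀ q : QM, B q.v (swp q.v) = 0 → Commute (s * s) (ψ q) := fun q hq => by
    obtain ⟨t, ht⟩ := h.spec hs q
    rw [e] at ht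
    have c1 := cfix (c (q * ⟨swp q.v, t⟩) (add_comm (q.v 0) (q.v 1)))
    rw [map_mul, ← conj_mul, ht, (cmψ (p := q) (q := ⟨swp q.v, t⟩) hq).eq, mul_right_inj, ← ht] at c1
    exact mul_inv_eq_iff_eq_mul.1 (Eq.trans (by group) c1)
  exact h.cent fun j => ⟨k _ (swpB j).1, k _ (swpB j).2⟩

theorem step3 (h : XQ ψ) {x : G} (hx : Commute x (ψ zq)) (e : act ψ x = swp) :
    ∃ s, Commute s (ψ zq) ∧ act ψ s = swp ∧ s * s = 1 ∧ ∀ q ∈ R0, Commute s (ψ q) := by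
  obtain ⟨s, hs, es, c⟩ := step1 h hx e
  rcases step2 h hs es c with k | k
  · exact ⟨s, hs, es, k, fun q hq => c q hq.1⟩
  · refine ⟨s * ψ (aq 2), hs.mul_left (comm_z ψ _), funext fun w => by rw [h.act_mul hs (comm_z ψ _), h.act_psi, es], ?_,
      fun q hq => (c q hq.1).mul_left (cmψ (Ba _ hq.2))⟩
    rw [← pow_two, (c (aq 2) rfl).mul_pow, pow_two, k, ← map_pow, ← map_mul,
      show zq * aq 2 ^ 2 = 1 by decide +kernel, map_one]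

end PA1x

open PA1x in
theorem a1 : A1.{u} := by
  intro G _ _ z ψ w x hx e
  obtain rfl := w.hz
  have h := w.xq
  obtain ⟨s, hs, es, s2, c⟩ := step3 h hx e
  let K : Subgroup G :=
    { carrier := {c | Commute c (ψ zq) ∧ ∃ σ, Perm.sign σ = 1 ∧ Bp ψ c σ}
      one_mem' := ⟨.one_left _, 1, Perm.sign_one, h.bp_one⟩
      mul_mem' := fun ⟨ha, σ, a1, a2⟩ ⟨hb, τ, b1, b2⟩ =>
        ⟨ha.mul_left hb, σ * τ, by rw [map_mul, a1, b1, mul_one], h.bp_mul ha hb a2 b2⟩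
      inv_mem' := fun ⟨ha, σ, a1, a2⟩ => ⟨ha.inv_left, σ⁻¹, by rw [Perm.sign_inv, a1], h.bp_inv ha a2⟩ }
  have mK : ∀ {c σ}, Commute c (ψ zq) → Bp ψ c σ → (c ∈ K ↔ Perm.sign σ = 1) := fun hc b =>
    ⟨fun ⟨_, _, a1, a2⟩ => a2.unique b ▸ a1, fun k => ⟨hc, _, k, b⟩⟩
  have hK : IT (ψ zq) K := ⟨fun _ hc => cm_iff.2 hc.1, fun a ha b hb => by
    have ha := cm_iff.1 ha
    have hb := cm_iff.1 hb
    obtain ⟨σ, _, _, -, a1⟩ := w.mono a ha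
    obtain ⟨τ, _, _, -, b1⟩ := w.mono b hb
    rw [mK (ha.mul_left hb) (h.bp_mul ha hb (bp_mon a1) (bp_mon b1)), mK ha (bp_mon a1), mK hb (bp_mon b1), map_mul]
    generalize Perm.sign σ = i, Perm.sign τ = j
    rcases Int.units_eq_one_or i with rfl | rfl <;> rcases Int.units_eq_one_or j with rfl | rfl <;> decide⟩
  have : Fact (Nat.Prime 2) := ⟨Nat.prime_two⟩
  have bs : Bp ψ s (swap 0 1) := fun v k => by rw [es]; exact swpP v k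
  obtain ⟨g, g1, g2, -⟩ := exists_fixed2 w.hy.res (R := R0.map ψ) hK
    (((IsPGroup.of_card (n := 9) card_QM).to_subgroup R0).map ψ) (by rintro _ ⟨q, -, rfl⟩; exact comm_z ψ q)
    (by rintro _ ⟨q, hq, rfl⟩; exact (c q hq).symm) hs (fun k => absurd ((mK hs bs).1 k) (by decide +kernel)) s2
  have g3 : ∀ q ∈ R0, Commute (ψ q) (g * ψ zq * g⁻¹) := fun q hq => g2 _ ⟨q, hq, rfl⟩
  have ic : IsConj (ψ zq) (g * ψ zq * g⁻¹) := isConj_iff.2 ⟨g, rfl⟩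
  refine ⟨_, ic, (g3 zq ⟨rfl, rfl⟩).symm, fun m => ?_, fun q h1 h2 => (g3 q ⟨h1, h2⟩).symm⟩
  rw [← w.hQ] at m
  obtain ⟨p, hp⟩ := m
  rw [← hp] at ic g1 g3
  have k : ∀ q ∈ R0, B q.v p.v = 0 := fun q hq => (QM.comm_iff q p).1 (h.inj (by rw [map_mul, map_mul, (g3 q hq).eq]))
  exact ((w.hsup p).1 ic).elim (fun r => g1 (by rw [r])) (sup4 _ (k (aq 3) ⟨rfl, rfl⟩) (k (bq 3) ⟨rfl, rfl⟩))

end CL.N9.P
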