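/-
Extraspecial `F*(C(z))` of order `2 ^ 9` (S1763): no conjugate of `z` centralises the fixed space of a transposition.
-/
import Cfsg.Agent.N9.PD

set_option autoImplicit false
set_option linter.unusedSectionVars false

namespace CL.N9.P

open Cfsg Subgroup CL.Even CL.Grp CL.WC CL.Cls CL.P8 Equiv

universe u

namespace PA2

/-- the diagonal of the first two blocks -/
def dg (p : P2) : V := ![p, p, 0, 0]
/-- the map on one block -/
def bl (c : ZMod 2) (r : ZMod 3) (p : P2) : P2 := R2^[r.val] (Sw^[c.val] p)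
/-- the admissible block maps -/
def adm (A : Finset P2) : Finset (ZMod 2 × ZMod 3) :=
  Finset.univ.filter fun x => (∀ p ∈ A, bl x.1 x.2 p = p) ∧ ∀ p, bl x.1 x.2 p + p ∈ A
/-- the admissible maps -/
def mm (x : Bool × ZMod 2 × ZMod 3) : V → V :=
  mon (if x.1 then swap 0 1 else 1) ![x.2.1, x.2.1, 0, 0] ![x.2.2, x.2.2, 0, 0]

theorem cnt : ∀ A : Finset P2, A.card * (2 * (adm A).card) ≤ 8 := by decide +kernel

theorem shape : ∀ d : V, coc d d = 0 → B (dg (1, 0)) d = 0 → B (dg (0, 1)) d = 0 → B (ea 2) d = 0 → B (ea 3) d = 0 →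
    B (eb 3) d = 0 → d = dg (d 0) := by decide +kernel

theorem perm : ∀ σ : Perm (Fin 4), σ⁻¹ 2 = 2 → σ⁻¹ 3 = 3 → σ = 1 ∨ σ = swap 0 1 := by decide +kernel

theorem form {σ : Perm (Fin 4)} {s : Fin 4 → ZMod 2} {t : Fin 4 → ZMod 3} (h0 : s 0 + s 1 + s 2 + s 3 = 0)
    (h : ∀ u : V, u 0 = u 1 → (u 2).2 = 0 → ∃ p, mon σ s t u + u = dg p) :
    ∃ b, mon σ s t = mm (b, s 0, t 0) := by
  have k : ∀ i : Fin 4, i = 2 ∨ i = 3 → ∀ u : V, u 0 = u 1 → (u 2).2 = 0 → mon σ s t u i = u i := fun i hi u a b => by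
    obtain ⟨p, e⟩ := h u a b
    have : mon σ s t u i + u i = 0 := (congrFun e i).trans (by rcases hi with rfl | rfl <;> rfl)
    exact (by decide : ∀ x y : P2, x + y = 0 → x = y) _ _ this
  have k' : ∀ i : Fin 4, i = 2 ∨ i = 3 → σ⁻¹ i = i := fun i hi => by
    by_contra n
    have h1 := (mon_zero_iff σ s t (ea i) i).2 (if_neg n)
    rw [k i hi _ (by rcases hi with rfl | rfl <;> rfl) (by rcases hi with rfl | rfl <;> rfl)] at h1
    simp [ea, sg] at h1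
  have s2 := k' 2 (Or.inl rfl)
  have s3 := k' 3 (Or.inr rfl)
  have b3 : s 3 = 0 ∧ t 3 = 0 :=
    (by decide +kernel : ∀ c r, (∀ p, bl c r p = p) → c = 0 ∧ r = 0) _ _ fun p => by
      have := k 3 (Or.inr rfl) (sg 3 p) rfl rfl
      rwa [mon, s3] at this
  have b2 : bl (s 2) (t 2) (1, 0) = (1, 0) := by
    have := k 2 (Or.inl rfl) (ea 2) rfl rfl
    rwa [mon, s2] at this
  have b1 : s 1 = s 0 ∧ t 1 = t 0 :=
    (by decide +kernel : ∀ c r c' r', (∀ p, bl c r p + p = bl c' r' p + p) → c = c' ∧ r = r') _ _ _ _ fun p => by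
      obtain ⟨q, e⟩ := h (dg p) rfl rfl
      have := (congrFun e 1).trans (congrFun e 0).symm
      rcases perm σ s2 s3 with rfl | rfl <;> exact this
  have c2 : s 2 = 0 := by
    rw [b1.1, b3.1] at h0
    exact (by decide : ∀ x y : ZMod 2, x + x + y + 0 = 0 → y = 0) _ _ h0
  have d2 : t 2 = 0 := (by decide +kernel : ∀ r, bl 0 r (1, 0) = (1, 0) → r = 0) _ (c2 ▸ b2)
  have hs : s = ![s 0, s 0, 0, 0] := funext fun i => by fin_cases i; exacts [rfl, b1.1, c2, b3.1]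
  have ht : t = ![t 0, t 0, 0, 0] := funext fun i => by fin_cases i; exacts [rfl, b1.2, d2, b3.2]
  rcases perm σ s2 s3 with rfl | rfl
  · exact ⟨false, by rw [mm, ← hs, ← ht]; rfl⟩
  · exact ⟨true, by rw [mm, ← hs, ← ht]; rfl⟩

theorem mm_dg (x : Bool × ZMod 2 × ZMod 3) (p : P2) : mm x (dg p) 0 = bl x.2.1 x.2.2 p := by
  obtain ⟨_ | _, c, r⟩ := x <;> rfl

theorem comb (D : AddSubgroup V) (F : Set (V → V))
    (hD : ∀ d ∈ D, coc d d = 0 ∧ ∀ u : V, u 0 = u 1 → (u 2).2 = 0 → B u d = 0)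
    (hF : ∀ f ∈ F, (∃ σ s t, s 0 + s 1 + s 2 + s 3 = 0 ∧ f = mon σ s t) ∧ (∀ d ∈ D, f d = d) ∧
      ∀ u : V, u 0 = u 1 → (u 2).2 = 0 → f u + u ∈ D) : Nat.card D * Nat.card F ≤ 8 := by
  classical
  have h1 : ∀ d ∈ D, d = dg (d 0) := fun d hd => shape d (hD d hd).1 ((hD d hd).2 _ rfl rfl) ((hD d hd).2 _ rfl rfl)
    ((hD d hd).2 _ rfl rfl) ((hD d hd).2 _ rfl rfl) ((hD d hd).2 _ rfl rfl)
  let A : Finset P2 := Finset.univ.filter fun p => dg p ∈ D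
  have hA : ∀ p, p ∈ A ↔ dg p ∈ D := fun p => by simp [A]
  refine le_trans (Nat.mul_le_mul ?_ ?_) (cnt A)
  · refine le_trans ?_ (Finset.card_image_le (s := A) (f := dg))
    rw [← Set.ncard_coe_finset]
    exact Set.ncard_le_ncard (s := (D : Set V)) fun d hd => Finset.mem_coe.2
      (Finset.mem_image.2 ⟨d 0, (hA _).2 (h1 d hd ▸ hd), (h1 d hd).symm⟩)
  · refine le_trans ?_ ((Finset.card_image_le (s := Finset.univ ×ˢ adm A) (f := mm)).trans (by simp))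
    rw [← Set.ncard_coe_finset]
    refine Set.ncard_le_ncard (s := F) fun f hf => Finset.mem_coe.2 (Finset.mem_image.2 ?_)
    obtain ⟨⟨σ, s, t, h0, rfl⟩, h2, h3⟩ := hF f hf
    obtain ⟨b, hb⟩ := form h0 fun u a b => ⟨_, h1 _ (h3 u a b)⟩
    refine ⟨_, Finset.mem_product.2 ⟨Finset.mem_univ _, Finset.mem_filter.2 ⟨Finset.mem_univ _, fun p hp => ?_,
      fun p => (hA _).2 ?_⟩⟩, hb.symm⟩
    · rw [← mm_dg, ← hb, h2 _ ((hA p).1 hp)]; rfl
    · have := h3 (dg p) rfl rfl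
      rw [h1 _ this, Pi.add_apply, hb, mm_dg] at this
      exact this

end PA2

theorem a2 (h : CNT.{u}) : A2.{u} := fun G _ _ z ψ w y h1 h2 h3 k => by
  obtain ⟨D, F, c, hD, hF⟩ := h G z ψ w y h1 h2 h3
  have := PA2.comb D F (fun d hd => ⟨(hD d hd).2.1, fun u a b => (hD d hd).2.2.2 ⟨u, 0⟩ (k _ a b)⟩) fun f hf => by
    obtain ⟨⟨r, r1, rfl⟩, f2, f3⟩ := hF f hf
    exact ⟨w.mono r r1, f2, fun u a b => f3 ⟨u, 0⟩ (k _ a b)⟩
  omega

end CL.N9.P
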