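/-
S1763, the configuration with 81 points: a conjugate of `z` that acts as the double transposition.
-/
import Cfsg.Agent.N9.PD

set_option autoImplicit false
set_option linter.unusedSectionVars false

namespace CL.N9.P

open Cfsg Subgroup CL.Even CL.Grp CL.WC CL.Cls CL.P8 Equiv

universe u

namespace PA4

/-- the map on one block -/
def gm (c : ZMod 2) (r : ZMod 3) (p : P2) : P2 := R2^[r.val] (Sw^[c.val] p)

theorem gm_inj : ∀ (s s' : ZMod 2) (t t' : ZMod 3), (∀ p, gm s t p + p = gm s' t' p + p) → s = s' ∧ t = t' := by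
  decide +kernel

theorem gm_one : ∀ (s : ZMod 2) (t : ZMod 3), (∀ p, gm s t p + p = 0) → s = 0 ∧ t = 0 := by decide +kernel

theorem fin : ∀ T : Finset P2, T.card * (Finset.univ.filter fun x : ZMod 2 × ZMod 3 =>
    (∀ p ∈ T, gm x.1 x.2 p = p) ∧ ∀ p, gm x.1 x.2 p + p ∈ T).card ≤ 4 := by decide +kernel

theorem count (D : AddSubgroup V) (F : Set (V → V)) (i : Fin 4) (m : Bool × ZMod 2 × ZMod 3 → V → V)
    (hD : ∀ d ∈ D, d i = 0 → d = 0) (hF : ∀ f ∈ F, ∃ b c r, m (b, c, r) = f ∧ (∀ d ∈ D, gm c r (d i) = d i) ∧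
      ∀ p, ∃ d ∈ D, d i = gm c r p + p) : Nat.card D * Nat.card F ≤ 8 := by
  classical
  let T : Finset P2 := Finset.univ.filter fun p => ∃ d ∈ D, d i = p
  have hT : ∀ p, p ∈ T ↔ ∃ d ∈ D, d i = p := fun p => by simp [T]
  have h := fin T
  set S := Finset.univ.filter fun x : ZMod 2 × ZMod 3 => (∀ p ∈ T, gm x.1 x.2 p = p) ∧ ∀ p, gm x.1 x.2 p + p ∈ T
  have h1 : Nat.card D ≤ T.card := by
    rw [← Nat.card_eq_finsetCard]
    exact Nat.card_le_card_of_injective (fun d => ⟨d.1 i, (hT _).2 ⟨d, d.2, rfl⟩⟩) fun d d' e =>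
      Subtype.ext (sub_eq_zero.1 (hD _ (sub_mem d.2 d'.2) (sub_eq_zero.2 (congrArg Subtype.val e))))
  have h2 : Nat.card F ≤ 2 * S.card := by
    have : F ⊆ (((Finset.univ : Finset Bool) ×ˢ S).image m : Finset (V → V)) := fun f hf => by
      obtain ⟨b, c, r, rfl, k1, k2⟩ := hF f hf
      refine Finset.mem_coe.2 (Finset.mem_image_of_mem _ (Finset.mem_product.2 ⟨Finset.mem_univ _,
        Finset.mem_filter.2 ⟨Finset.mem_univ _, fun p hp => ?_, fun p => (hT _).2 (k2 p)⟩⟩))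
      obtain ⟨d, hd, rfl⟩ := (hT p).1 hp
      exact k1 d hd
    refine (Set.ncard_le_ncard this).trans ?_
    rw [Set.ncard_coe_finset]
    exact Finset.card_image_le.trans (by simp)
  calc _ ≤ T.card * (2 * S.card) := Nat.mul_le_mul h1 h2
    _ ≤ 8 := by rw [mul_left_comm]; omega

theorem shape : ∀ d : V, tt d = d → P8.sup d ≠ 4 → d 0 = d 1 ∧ d 2 = d 3 ∧ (d 0 = 0 ∨ d 2 = 0) := by decide +kernel

abbrev P4 (σ : Perm (Fin 4)) : Prop := σ = 1 ∨ σ = τ0 ∨ σ = swap 0 1 ∨ σ = swap 2 3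

theorem pA : ∀ σ : Perm (Fin 4), (![(1, 0), (1, 0), 0, 0] : V) (σ⁻¹ 2) = 0 → (![(1, 0), (1, 0), 0, 0] : V) (σ⁻¹ 3) = 0 →
    P4 σ := by decide +kernel
theorem pB : ∀ σ : Perm (Fin 4), (![0, 0, (1, 0), (1, 0)] : V) (σ⁻¹ 0) = 0 → (![0, 0, (1, 0), (1, 0)] : V) (σ⁻¹ 1) = 0 →
    P4 σ := by decide +kernel
theorem pC : ∀ σ : Perm (Fin 4), P4 σ → ∀ (p r : P2) k, (![p, p, r, r] : V) (σ⁻¹ k) = (![p, p, r, r] : V) k := by
  decide +kernel

theorem form {D : AddSubgroup V} (hD : ∀ d ∈ D, d 0 = d 1 ∧ d 2 = d 3) {σ s t} (h4 : P4 σ)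
    (nr : σ.IsSwap → ∀ k l, k ≠ l → σ k = k → σ l = l → s k ≠ s l) (h1 : ∀ d ∈ D, mon σ s t d = d)
    (h2 : ∀ p r, mon σ s t ![p, p, r, r] + ![p, p, r, r] ∈ D) :
    (∃ b : Bool, mon (if b then τ0 else 1) ![s 0, s 0, s 2, s 2] ![t 0, t 0, t 2, t 2] = mon σ s t) ∧
      (∀ d ∈ D, ∀ k, gm (s k) (t k) (d k) = d k) ∧
      ∀ p r, ∃ d ∈ D, d 0 = gm (s 0) (t 0) p + p ∧ d 2 = gm (s 2) (t 2) r + r := by
  have k : ∀ p r k, (mon σ s t ![p, p, r, r] + ![p, p, r, r]) k = gm (s k) (t k) (![p, p, r, r] k) + ![p, p, r, r] k :=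
    fun p r k => by rw [Pi.add_apply, mon, pC σ h4]; rfl
  obtain ⟨a1, a2⟩ := gm_inj (s 0) (s 1) (t 0) (t 1) fun p => (k p 0 0).symm.trans ((hD _ (h2 p 0)).1.trans (k p 0 1))
  obtain ⟨a3, a4⟩ := gm_inj (s 2) (s 3) (t 2) (t 3) fun p => (k 0 p 2).symm.trans ((hD _ (h2 0 p)).2.trans (k 0 p 3))
  have e1 : ![s 0, s 0, s 2, s 2] = s := by ext k; fin_cases k <;> simp [a1, a3]
  have e2 : ![t 0, t 0, t 2, t 2] = t := by ext k; fin_cases k <;> simp [a2, a4]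
  refine ⟨?_, fun d hd j => ?_, fun p r => ⟨_, h2 p r, k p r 0, k p r 2⟩⟩
  · rw [e1, e2]
    rcases h4 with rfl | rfl | rfl | rfl
    · exact ⟨false, rfl⟩
    · exact ⟨true, rfl⟩
    · exact absurd a3 (nr ⟨0, 1, by decide, rfl⟩ 2 3 (by decide) (by decide) (by decide))
    · exact absurd a1 (nr ⟨2, 3, by decide, rfl⟩ 0 1 (by decide) (by decide) (by decide))
  · have e : ![d 0, d 0, d 2, d 2] = d := by funext k; fin_cases k <;> simp [(hD d hd).1, (hD d hd).2]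
    have := pC σ h4 (d 0) (d 2) j
    rw [e] at this
    have h3 := congrFun (h1 d hd) j
    rwa [mon, this] at h3

theorem main (D : AddSubgroup V) (F : Set (V → V)) (hD : ∀ d ∈ D, tt d = d ∧ P8.sup d ≠ 4)
    (hF : ∀ f ∈ F, (∃ σ s t, f = mon σ s t ∧ (σ.IsSwap → ∀ k l, k ≠ l → σ k = k → σ l = l → s k ≠ s l)) ∧
      (∀ d ∈ D, f d = d) ∧ ∀ p r, f ![p, p, r, r] + ![p, p, r, r] ∈ D) : Nat.card D * Nat.card F ≤ 8 := by
  have h := fun d hd => shape d (hD d hd).1 (hD d hd).2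
  have h' := fun d hd => And.intro (h d hd).1 (h d hd).2.1
  have z : ∀ d ∈ D, d 0 = 0 → d 2 = 0 → d = 0 := fun d hd h0 h2 => by
    funext k; fin_cases k <;> simp [← (h d hd).1, ← (h d hd).2.1, h0, h2]
  have cs : (∀ d ∈ D, d 2 = 0) ∨ ∀ d ∈ D, d 0 = 0 := by
    by_contra! hn
    obtain ⟨⟨d, hd, d2⟩, d', hd', d0⟩ := hn
    have := (h _ (add_mem hd hd')).2.2
    rw [Pi.add_apply, Pi.add_apply, (h d hd).2.2.resolve_right d2, (h d' hd').2.2.resolve_left d0, zero_add, add_zero] at this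
    exact this.elim d0 d2
  rcases cs with c | c
  · refine count D F 0 (fun x => mon (if x.1 then τ0 else 1) ![x.2.1, x.2.1, 0, 0] ![x.2.2, x.2.2, 0, 0])
      (fun d hd k => z d hd k (c d hd)) fun f hf => ?_
    obtain ⟨⟨σ, s, t, rfl, nr⟩, h1, h2⟩ := hF f hf
    have k := h2 (1, 0) 0
    obtain ⟨⟨b, f1⟩, f2, f3⟩ := form h' (pA σ ((mon_zero_iff σ s t _ 2).1 (by simpa using c _ k))
      ((mon_zero_iff σ s t _ 3).1 (by simpa using (h' _ k).2.symm.trans (c _ k)))) nr h1 h2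
    obtain ⟨a1, a2⟩ := gm_one (s 2) (t 2) fun r => let ⟨d, hd, _, e⟩ := f3 0 r; e.symm.trans (c d hd)
    rw [a1, a2] at f1
    exact ⟨b, s 0, t 0, f1, fun d hd => f2 d hd 0, fun p => let ⟨d, hd, e, _⟩ := f3 p 0; ⟨d, hd, e⟩⟩
  · refine count D F 2 (fun x => mon (if x.1 then τ0 else 1) ![0, 0, x.2.1, x.2.1] ![0, 0, x.2.2, x.2.2])
      (fun d hd k => z d hd (c d hd) k) fun f hf => ?_
    obtain ⟨⟨σ, s, t, rfl, nr⟩, h1, h2⟩ := hF f hf
    have k := h2 0 (1, 0)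
    obtain ⟨⟨b, f1⟩, f2, f3⟩ := form h' (pB σ ((mon_zero_iff σ s t _ 0).1 (by simpa using c _ k))
      ((mon_zero_iff σ s t _ 1).1 (by simpa using (h' _ k).1.symm.trans (c _ k)))) nr h1 h2
    obtain ⟨a1, a2⟩ := gm_one (s 0) (t 0) fun p => let ⟨d, hd, e, _⟩ := f3 p 0; e.symm.trans (c d hd)
    rw [a1, a2] at f1
    exact ⟨b, s 2, t 2, f1, fun d hd => f2 d hd 2, fun r => let ⟨d, hd, _, e⟩ := f3 0 r; ⟨d, hd, e⟩⟩

theorem half : ∀ p r : P2, B ![p, 0, r, 0] (tt ![p, 0, r, 0]) = 0 ∧ ![p, 0, r, 0] + tt ![p, 0, r, 0] = ![p, p, r, r] := by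
  decide +kernel

end PA4

open PA4 in
theorem a4 (h : CNT.{u}) (n : NRW.{u}) : A4.{u} := by
  intro G _ _ z ψ w y hy c e
  have h' := w.hy.of hy
  have cz : Commute y (ψ zq) := w.hz ▸ c
  have hn : y ∉ QQ z := fun k => by
    obtain ⟨q, rfl⟩ := w.hQ.ge k
    exact absurd ((congrFun e (ea 0)).symm.trans (w.xq.act_psi q _)) (by decide)
  have cm : ∀ (p r : P2) (q : QM), q.v = ![p, p, r, r] → Commute y (ψ q) := fun p r q hq => by
    obtain ⟨a, ha⟩ : ∃ a : QM, a.v = ![p, 0, r, 0] := ⟨⟨_, 0⟩, rfl⟩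
    obtain ⟨b, hb, hj⟩ : ∃ b : QM, b.v = tt ![p, 0, r, 0] ∧ y * ψ a * y⁻¹ = ψ b := by
      obtain ⟨j, hj⟩ := w.xq.spec cz a
      exact ⟨_, by rw [e, ha], hj⟩
    have cab : Commute (ψ a) (ψ b) := Commute.map ((QM.comm_iff a b).2 (by rw [ha, hb]; exact (half p r).1)) ψ
    have hi : y * ψ b * y⁻¹ = ψ a := by
      rw [← hj, show y * (y * ψ a * y⁻¹) * y⁻¹ = y * y * ψ a * (y * y)⁻¹ by group, h'.zz, one_mul, inv_one, mul_one]
    have k : Commute y (ψ (a * b)) := mul_inv_eq_iff_eq_mul.1 (by rw [map_mul, ← conj_mul, hj, hi, cab.eq])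
    rcases QM.eq_or (p := q) (q := a * b) (by rw [hq, QM.mul_v, ha, hb, (half p r).2]) with rfl | rfl
    · exact k
    · rw [map_mul]; exact k.mul_right cz
  obtain ⟨D, F, hc, hD, hF⟩ := h G z ψ w y hy c hn
  by_cases hs : ∃ d ∈ D, P8.sup d = 4
  · obtain ⟨d, hd, hs⟩ := hs
    obtain ⟨⟨j, hj⟩, -⟩ := hD d hd
    have k1 := (w.hsup ⟨d, j⟩).2 (Or.inr hs)
    have k2 : ψ ⟨d, j⟩ ∈ QQ z := w.hQ.le ⟨_, rfl⟩
    refine ⟨_, ⟨k1, k2, fun k => ?_⟩, (h'.symm ⟨hy.symm.trans k1, hj, fun k => hn (k ▸ k2)⟩).mem⟩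
    rw [show d = 0 from congrArg QM.v (w.xq.inj (k.trans w.hz.symm))] at hs
    exact absurd hs (by decide)
  push Not at hs
  refine absurd (hc.trans (main D F (fun d hd => ⟨e ▸ (hD d hd).2.2.1, hs d hd⟩) fun f hf => ?_)) (by decide)
  obtain ⟨⟨r, cr, rfl⟩, f1, f2⟩ := hF f hf
  obtain ⟨σ, s, t, -, k⟩ := w.mono r cr
  exact ⟨⟨σ, s, t, k, n G z ψ w r cr σ s t k⟩, f1, fun p r => f2 ⟨_, 0⟩ (cm p r _ rfl)⟩

end CL.N9.P
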