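/-
Extraspecial `F*(C(z))` of order `2 ^ 9` (S1763, helper14): assembly of the configurations with 27 and 81 points.
-/
import Cfsg.Agent.N9.PD
import Cfsg.Agent.P8.Beta

set_option autoImplicit false

namespace CL.N9.P

open Cfsg Subgroup CL.Even CL.Grp CL.WC CL.Cls CL.P8 Equiv

universe u

def IOT : Prop := ∀ (G : Type u) [Group G] [Finite G] (z : G) (M : OM qp z), Hy z →
  Cfg d27 M.X M.O M.E M.L ∨ Cfg d81 M.X M.O M.E M.L → ∃ ι : Γ0 →* G, Io M ι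

theorem iot_of (h0 : STC.{u}) (h1 : RR1.{u}) (h2 : RR2x.{u}) (h3 : RR3.{u}) (h4 : FF1.{u}) (h5 : IO2.{u})
    (h6 : IO3.{u}) : IOT.{u} := fun G _ _ z M h c => by
  obtain ⟨x, S⟩ := h0 G z M h c
  obtain ⟨b, m, a, f, R⟩ := h1 G z x M S
  obtain ⟨n, L, nb, ct⟩ := h2 G z x M S b m a f R
  obtain ⟨br, e⟩ := h3 G z x M S b m a f n R L nb
  obtain ⟨ι, hi, e1, e2, e3, e4⟩ := h5 G b m a n (ct br) (fun k => by
    have := R.πb
    rw [k, M.π_one] at this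
    exact absurd this (by decide +kernel)) (h4 G z x M S b m a f n R L).2
  exact ⟨ι, h6 G z x M S b m a f n R L e ι hi e1 e2 e3 e4⟩

theorem range_eq {G : Type u} [Group G] (ι : Γ0 →* G) : C0.map ι ⊔ zpowers (ι n0) = ι.range := by
  refine le_antisymm (sup_le (map_le_range _ _) (zpowers_le.2 ⟨_, rfl⟩)) ?_
  rintro _ ⟨γ, rfl⟩
  refine (show ⊤ ≤ (C0.map ι ⊔ zpowers (ι n0)).comap ι from gen_all ▸ gen_le fun i hi => ?_) (mem_top γ)
  by_cases e : i = 14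
  · exact e ▸ mem_sup_right (mem_zpowers _)
  · exact mem_sup_left ⟨_, mem_gen (List.mem_range.2 (by have := List.mem_range.1 hi; omega)), rfl⟩

theorem case27_of (h0 : IOT.{u}) (h1 : NORM.{u}) (h2 : D27A.{u}) (h3 : D27B.{u}) : Case.{u} d27 :=
  fun G _ _ _ _ z h M c => by
    obtain ⟨ι, I⟩ := h0 G z M h (Or.inl c)
    obtain ⟨k1, k2⟩ := h2 G z M h c ι I
    obtain rfl := I.hz
    refine h3 G ι I.st h I.hQ fun x hx => ?_
    rw [← range_eq]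
    exact h1 G ι I.st h I.hQ _ le_rfl k1 (fun _ ⟨_, m, e⟩ => e ▸ (C0_z m).map ι) k2 x hx

/-- the commuting relation -/
def CMT : Prop := AllI.{u} fun _ _ _ ι => Ty ι → ∀ y k, Yel ι y → Commute y (ι d3) → Kap ι k →
  Commute (k * ι x1 * k⁻¹) (ι x1) ∨ Commute (k * ι x1 * k⁻¹) (ι x2)

theorem cmt_of (n : NRW.{u}) (h1 : NLT.{u}) (h2 : NAT.{u}) (h3 : SOL.{u}) (h4 : TR3.{u}) (h5 : NBT.{u}) (h6 : GQ1.{u})
    (h7 : GQ2.{u}) : CMT.{u} := fun G _ _ ι S T y k hy hd hk => by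
  have L := h1 G ι S (n G _ _ S.w)
  have A := h2 G ι S L
  have B := h4 G ι S L T k hk
  obtain ⟨c1, c2, c3⟩ := h5 G ι S L A B y k hy hd hk
  obtain ⟨g1, g2⟩ := h6 G ι S A B (h3 G ι S L) c1 c2 c3
  exact h7 G ι S L k hk g1 g2

theorem case81_of (h0 : IOT.{u}) (h1 : S81C.{u}) (h2 : TY.{u}) (h3 : INN.{u}) (h4 : CMT.{u}) (h5 : K1T.{u})
    (h6 : NORM.{u}) (h7 : FUS.{u}) (h8 : HOL.{u}) : Case.{u} d81 := fun G _ _ _ hG z h M c => by
  obtain ⟨ι, I⟩ := h0 G z M h (Or.inr c)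
  have S := h1 G z M h c ι I
  obtain rfl := I.hz
  have T := h2 G ι S
  obtain ⟨F, y, hy, i1, i2, i3⟩ := h3 G ι S
  obtain ⟨hd, hk⟩ := beta S.st hy
  obtain ⟨e⟩ := h5 G ι S.st y _ hy hk (h4 G ι S T y _ hy hd hk)
  have N := h6 G ι S.st h I.hQ _ le_sup_left i2 (fun c hc => ((i1 c).1 hc).1) i3
  have R : ι.range ≤ C0.map ι ⊔ zpowers y ⊔ zpowers (ι n0) := range_eq ι ▸ sup_le_sup_right le_sup_left _
  have k := h8 G hG _ h _ ⟨e⟩ (R ⟨_, rfl⟩) N (h7 G ι S T F _ (R.trans le_normalizer) N)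
    ⟨(ι.comp φ) (aq 0 * aq 1), by
      rw [orderOf_injective _ S.w.xq.inj]
      exact orderOf_eq_prime (by decide +kernel) (by decide +kernel),
    fun k => absurd ((S.w.hsup _).1 k) (by decide +kernel)⟩
  exact Or.inr (Or.inr (Or.inr (Or.inl ⟨ZMod 3, inferInstance, inferInstance, ZMod.card 3,
    ⟨(topEquiv.symm.trans (MulEquiv.subgroupCongr k.symm)).trans e⟩⟩)))

end CL.N9.P
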