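/-
Extraspecial `F*(C(z))` of order `2 ^ 9` (S1763): no conjugate of `z` in `C(z)` acts as `dd` (helper72, job N9-PC2).
-/
import Cfsg.Agent.N9.PD

set_option autoImplicit false
set_option linter.unusedSectionVars false

namespace CL.N9.P

open Cfsg Subgroup CL.Even CL.Grp CL.WC CL.Cls CL.P8 Equiv

universe u

namespace PC2

def cv (k : Fin 4) : V := sg k (1, 1)
def c23 : V := cv 2 + cv 3
def ls : List V := [ea 0, eb 0, ea 1, eb 1]

section
variable {G : Type u} [Group G] {ψ : QM →* G} {y : G}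

/-- conjugation by `y` -/
def R (ψ : QM →* G) (y : G) (p q : QM) : Prop := y * ψ p * y⁻¹ = ψ q

theorem R.mul {p q p' q' : QM} (h : R ψ y p q) (k : R ψ y p' q') : R ψ y (p * p') (q * q') := by
  unfold R at *
  rw [map_mul, map_mul, ← h, ← k]; group

theorem R.comm {p : QM} (h : R ψ y p p) : Commute y (ψ p) := mul_inv_eq_iff_eq_mul.1 h

theorem R.symm (yy : y * y = 1) {p q : QM} (h : R ψ y p q) : R ψ y q p := by
  unfold R at *
  rw [← h, inv_eq_of_mul_eq_one_right yy]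
  calc y * (y * ψ p * y) * y = (y * y) * ψ p * (y * y) := by group
    _ = ψ p := by rw [yy, one_mul, mul_one]

theorem zz_cancel (p q : QM) : p * zq * (q * zq) = p * q := by
  rw [mul_assoc, ← mul_assoc zq, ← zq_comm, mul_assoc q, zq_sq, mul_one]

theorem conj_c (xq : XQ ψ) (hy : Commute y (ψ zq)) (yy : y * y = 1) (k : Fin 4) (ha : act ψ y (ea k) = eb k) :
    ∃ p : QM, p.v = cv k ∧ R ψ y p (p * zq) := by
  obtain ⟨e, h1⟩ := xq.spec hy (aq k)
  change R ψ y (aq k) ⟨act ψ y (ea k), e⟩ at h1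
  rw [ha] at h1
  have h2 := h1.mul (h1.symm yy)
  have h3 : ∀ (k : Fin 4) (e : ZMod 2), (aq k * ⟨eb k, e⟩).v = cv k ∧
      (⟨eb k, e⟩ * aq k : QM) = aq k * ⟨eb k, e⟩ * zq := by decide +kernel
  exact ⟨_, (h3 k e).1, (h3 k e).2 ▸ h2⟩

theorem cent (xq : XQ ψ) (hy : Commute y (ψ zq)) (yy : y * y = 1) (ha : act ψ y = dd) :
    (∃ q : QM, Commute y (ψ q) ∧ q.v = c23) ∧
      ∀ v ∈ ls, ∃ q : QM, Commute y (ψ q) ∧ (q.v = v ∨ q.v = v + cv 2) := by
  obtain ⟨p2, e2, r2⟩ := conj_c xq hy yy 2 (by rw [ha]; decide +kernel)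
  obtain ⟨p3, e3, r3⟩ := conj_c xq hy yy 3 (by rw [ha]; decide +kernel)
  refine ⟨⟨p2 * p3, R.comm (zz_cancel p2 p3 ▸ r2.mul r3), by rw [QM.mul_v, e2, e3]; rfl⟩, fun v hv => ?_⟩
  have h0 : dd v = v := (by decide +kernel : ∀ v ∈ ls, dd v = v) v hv
  obtain ⟨e, h1⟩ := xq.spec hy ⟨v, 0⟩
  change R ψ y ⟨v, 0⟩ ⟨act ψ y v, e⟩ at h1
  rw [ha, h0] at h1
  rcases QM.eq_or (p := ⟨v, e⟩) (q := ⟨v, 0⟩) rfl with h | h <;> rw [h] at h1
  · exact ⟨_, h1.comm, Or.inl rfl⟩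
  · exact ⟨⟨v, 0⟩ * p2, R.comm (zz_cancel _ p2 ▸ h1.mul r2), Or.inr (by rw [QM.mul_v, e2])⟩

end

theorem card_le {α β : Type*} [Finite β] (S : Set α) (g : β → α) (h : ∀ x ∈ S, ∃ b, g b = x) :
    Nat.card S ≤ Nat.card β :=
  (Nat.card_mono (Set.finite_range g) h).trans (Finite.card_range_le g)

theorem dD : ∀ d : V, dd d = d → coc d d = 0 → (∀ v ∈ ls, B v d = 0 ∨ B (v + cv 2) d = 0) → d = 0 ∨ d = c23 := by
  decide +kernel

set_option synthInstance.maxSize 2000 in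
set_option synthInstance.maxHeartbeats 200000 in
theorem b01 : ∀ k : Fin 4, k = 0 ∨ k = 1 → ∀ (j : Fin 4) (s : ZMod 2) (t : ZMod 3),
    (∀ v ∈ ls, R2^[t.val] (Sw^[s.val] (v j)) + v k = 0 ∨ R2^[t.val] (Sw^[s.val] ((v + cv 2) j)) + (v + cv 2) k = 0) →
    j = k ∧ s = 0 ∧ t = 0 := by
  decide +kernel

theorem b23 : ∀ k : Fin 4, k = 2 ∨ k = 3 → ∀ j : Fin 4, j ≠ 0 → j ≠ 1 → ∀ (s : ZMod 2) (t : ZMod 3),
    (R2^[t.val] (Sw^[s.val] (c23 j)) + c23 k = (0 : V) k ∨ R2^[t.val] (Sw^[s.val] (c23 j)) + c23 k = c23 k) →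
    t = 0 := by
  decide +kernel

theorem perm23 : ∀ σ : Perm (Fin 4), σ⁻¹ 0 = 0 → σ⁻¹ 1 = 1 → σ = 1 ∨ σ = swap 2 3 := by decide +kernel

theorem fF {σ : Perm (Fin 4)} {s : Fin 4 → ZMod 2} {t : Fin 4 → ZMod 3} (hs : s 0 + s 1 + s 2 + s 3 = 0)
    (h1 : mon σ s t c23 + c23 = 0 ∨ mon σ s t c23 + c23 = c23)
    (h2 : ∀ v ∈ ls, ∃ x, (x = v ∨ x = v + cv 2) ∧ (mon σ s t x + x = 0 ∨ mon σ s t x + x = c23)) :
    ∃ p : Bool × ZMod 2, mon (if p.1 then swap 2 3 else 1) ![0, 0, p.2, p.2] 0 = mon σ s t := by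
  have a : ∀ k : Fin 4, k = 0 ∨ k = 1 → σ⁻¹ k = k ∧ s k = 0 ∧ t k = 0 := fun k hk => b01 k hk _ _ _ fun v hv => by
    obtain ⟨x, hx, h⟩ := h2 v hv
    have h3 : (mon σ s t x + x) k = 0 := by
      rcases h with h | h <;> rw [h]
      · rfl
      · rcases hk with rfl | rfl <;> decide +kernel
    rcases hx with rfl | rfl
    exacts [Or.inl h3, Or.inr h3]
  obtain ⟨a0, s0, t0⟩ := a 0 (Or.inl rfl)
  obtain ⟨a1, s1, t1⟩ := a 1 (Or.inr rfl)
  have b : ∀ k : Fin 4, k = 2 ∨ k = 3 → t k = 0 := fun k hk => b23 k hk (σ⁻¹ k)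
    (fun e => by
      have := σ⁻¹.injective (e.trans a0.symm)
      rcases hk with rfl | rfl <;> exact absurd this (by decide))
    (fun e => by
      have := σ⁻¹.injective (e.trans a1.symm)
      rcases hk with rfl | rfl <;> exact absurd this (by decide)) (s k) _
    (h1.imp (fun e => congrFun e k) fun e => congrFun e k)
  have ht : t = 0 := funext fun k => by
    fin_cases k
    exacts [t0, t1, b 2 (Or.inl rfl), b 3 (Or.inr rfl)]
  have s3 : s 3 = s 2 := by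
    rw [s0, s1] at hs
    exact (by decide : ∀ a b : ZMod 2, 0 + 0 + a + b = 0 → b = a) _ _ hs
  have hs' : s = ![0, 0, s 2, s 2] := funext fun k => by
    fin_cases k
    exacts [s0, s1, rfl, s3]
  rcases perm23 σ a0 a1 with e | e
  · exact ⟨(false, s 2), by rw [e, ht, ← hs']; rfl⟩
  · exact ⟨(true, s 2), by rw [e, ht, ← hs']; rfl⟩

end PC2

open PC2 in
theorem c2 (h : CNT.{u}) : C2.{u} := fun G _ _ z ψ w y hzy hc ha => by
  have yy : y * y = 1 := (w.hy.of hzy).zz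
  have hc' : Commute y (ψ zq) := w.hz.symm ▸ hc
  have hn : y ∉ QQ z := fun hm => by
    rw [← w.hQ] at hm
    obtain ⟨q, rfl⟩ := hm
    have := w.xq.act_psi q (ea 2)
    rw [ha] at this
    exact absurd this (by decide +kernel)
  obtain ⟨D, F, hcard, hD, hF⟩ := h G z ψ w y hzy hc hn
  obtain ⟨⟨q0, c0, v0⟩, c1⟩ := cent w.xq hc' yy ha
  have d1 : ∀ d ∈ D, d = 0 ∨ d = c23 := fun d hd => by
    obtain ⟨-, e1, e2, e3⟩ := hD d hd
    refine dD d (ha ▸ e2) e1 fun v hv => ?_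
    obtain ⟨q, cq, hq⟩ := c1 v hv
    have := e3 q cq
    rcases hq with e | e <;> rw [e] at this
    exacts [Or.inl this, Or.inr this]
  have d2 : Nat.card D ≤ Nat.card Bool := card_le (D : Set V) (fun b : Bool => if b then c23 else 0) fun d hd =>
    (d1 d hd).elim (fun e => ⟨false, e.symm⟩) fun e => ⟨true, e.symm⟩
  have f2 : Nat.card F ≤ Nat.card (Bool × ZMod 2) :=
    card_le F (fun p : Bool × ZMod 2 => mon (if p.1 then swap 2 3 else 1) ![0, 0, p.2, p.2] 0) fun f hf => by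
      obtain ⟨⟨r, cr, rfl⟩, -, e3⟩ := hF f hf
      obtain ⟨σ, s, t, hs, em⟩ := w.mono r cr
      rw [em] at e3 ⊢
      refine fF hs (v0 ▸ d1 _ (e3 q0 c0)) fun v hv => ?_
      obtain ⟨q, cq, hq⟩ := c1 v hv
      exact ⟨q.v, hq, d1 _ (e3 q cq)⟩
  rw [Nat.card_eq_fintype_card (α := Bool), Fintype.card_bool] at d2
  rw [Nat.card_eq_fintype_card (α := Bool × ZMod 2), show Fintype.card (Bool × ZMod 2) = 4 from rfl] at f2
  have := Nat.mul_le_mul d2 f2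
  omega

end CL.N9.P
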