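/-
Extraspecial `F*(C(z))` of order `2 ^ 9` (S1763): the counting lemma for a conjugate of `z` in `C(z) - Q`.
-/
import Cfsg.Agent.N9.PD

set_option autoImplicit false
set_option linter.unusedSectionVars false

namespace CL.N9.P

open Cfsg Subgroup CL.Even CL.Grp CL.WC CL.Cls CL.P8 Equiv

universe u

theorem cnt : CNT.{u} := by
  intro G _ _ z ψ w y ic cy ny
  obtain rfl := w.hz
  have xq := w.xq
  have hy := w.hy.of ic
  have nz : ψ zq ∉ QQ y := fun m => by
    have n : Nb y (ψ zq) := ⟨ic.symm, m, fun e => ny (e ▸ w.hy.zQ)⟩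
    exact ny (hy.symm n).mem
  have mQ : ∀ {a}, a ∈ QQ (ψ zq) ↔ ∃ q, ψ q = a := fun {a} => by rw [← w.hQ]; rfl
  let D : AddSubgroup V :=
    { carrier := {v | ∃ e, ψ ⟨v, e⟩ ∈ QQ y}
      zero_mem' := ⟨0, (map_one ψ).symm ▸ one_mem (QQ y)⟩
      add_mem' := fun ⟨_, h1⟩ ⟨_, h2⟩ => ⟨_, (map_mul ψ _ _).symm ▸ mul_mem h1 h2⟩
      neg_mem' := fun {v} h => (neg_eq_of_add_eq_zero_left (V_add_self v)).symm ▸ h }
  have mD : ∀ q : QM, ψ q ∈ QQ y → q.v ∈ D := fun q h => ⟨q.e, h⟩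
  obtain ⟨K, hK⟩ : ∃ K, K = QQ y ⊓ centralizer ({ψ zq} : Set G) := ⟨_, rfl⟩
  have k1 : ∀ {r}, r ∈ K → r ∈ QQ y := fun h => (hK ▸ h).1
  have k2 : ∀ {r}, r ∈ K → Commute r (ψ zq) := fun h => mem_centralizer_singleton_iff.1 (hK ▸ h).2
  let F : Set (V → V) := {f | ∃ r ∈ K, act ψ r = f}
  have kb : 16 ≤ Nat.card K := hK ▸ M8.kb G _ y w.hy ic cy
  refine ⟨D, F, kb.trans ?_, ?_, ?_⟩
  · choose! s s1 s2 using fun f (h : f ∈ F) => h
    have mF : ∀ r : K, act ψ r ∈ F := fun r => ⟨r, r.2, rfl⟩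
    choose q hq using fun r : K => show ∃ q, ψ q = (s (act ψ r))⁻¹ * r from
      (xq.cq _ (k2 (mul_mem (inv_mem (s1 _ (mF r))) r.2)) fun v => by
        rw [xq.act_mul (k2 (s1 _ (mF r))).inv_left (k2 r.2), ← congrFun (s2 _ (mF r)) v,
          xq.act_inv (k2 (s1 _ (mF r)))])
    have qy : ∀ r : K, ψ (q r) ∈ QQ y := fun r => hq r ▸ k1 (mul_mem (inv_mem (s1 _ (mF r))) r.2)
    rw [← Nat.card_prod]
    refine Nat.card_le_card_of_injective (fun r : K => ((⟨(q r).v, mD _ (qy r)⟩ : D), (⟨act ψ r, mF r⟩ : F)))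
      fun r r' e => ?_
    have e1 : (q r).v = (q r').v := congrArg (fun x => (x.1 : V)) e
    have e2 : act ψ r = act ψ r' := congrArg (fun x => (x.2 : V → V)) e
    rcases QM.eq_or e1 with e3 | e3
    · have := hq r
      rw [e3, hq r', e2] at this
      exact Subtype.ext (mul_left_cancel this).symm
    · have := qy r
      rw [e3, map_mul] at this
      exact absurd ((mul_mem_cancel_left (qy r')).1 this) nz
  · rintro d ⟨e, h⟩
    refine ⟨⟨e, h⟩, ?_, act_eq xq.inj cy (q := ⟨d, e⟩) (q' := ⟨d, e⟩) (cfix (hy.cz h).symm), fun q c => ?_⟩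
    · have := mul_mem h h
      rw [← map_mul, QM.sq] at this
      rcases P8.z2_cases (coc d d) with e | e
      · exact e
      · rw [e] at this
        exact absurd this nz
    · have := mul_mem (hy.cmem c.symm h) (inv_mem h)
      rw [← map_inv, ← map_inv, ← map_mul, ← map_mul, ← map_mul, QM.conj] at this
      rcases P8.z2_cases (B q.v d) with e1 | e1
      · exact e1
      · rw [e1, show (⟨d, e + 1⟩ * (⟨d, e⟩ : QM)⁻¹ : QM) = zq from QM.ext (V_add_self _) (by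
          simp only [zq, QM.mul_e, QM.inv_e, QM.inv_v]
          linear_combination (z2_add_self e) + (z2_add_self (coc d d)))] at this
        exact absurd this nz
  · rintro _ ⟨r, hr, rfl⟩
    refine ⟨⟨r, k2 hr, rfl⟩, ?_, fun q c => ?_⟩
    · rintro d ⟨e, h⟩
      refine act_eq xq.inj (k2 hr) (q := ⟨d, e⟩) (q' := ⟨d, e⟩) ?_
      rcases hy.xe.cj_cases (k1 hr) h with c | c
      · exact cfix c
      · have := w.hy.cmem (k2 hr) (mQ.2 ⟨⟨d, e⟩, rfl⟩)
        rw [c] at this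
        exact absurd ((mul_mem_cancel_right (mQ.2 ⟨⟨d, e⟩, rfl⟩)).1 this) ny
    · obtain ⟨e, h⟩ := xq.spec (k2 hr) q
      have := hy.xe.cmt_mem c.symm (k1 hr)
      rw [h, ← map_inv, ← map_mul] at this
      exact mD _ this

end CL.N9.P
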