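/-
S1763: the configuration with 27 points, `C(z)` normalises the image of `C0`.
-/
import Cfsg.Agent.N9.PD

set_option autoImplicit false
set_option linter.unusedSectionVars false

namespace CL.N9.P

open Cfsg Subgroup CL.Even CL.Grp CL.WC CL.Cls CL.P8 Equiv

universe u

namespace PD27A

/-- the isometries induced by `S₃³` -/
def HX : Subgroup (OG qp) where
  carrier := {g | ∃ w : O8.X, ∀ v, g.1 v = O8.act w v}
  one_mem' := ⟨1, fun v => (O8.act_one v).symm⟩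
  mul_mem' := fun {a b} ⟨v, h⟩ ⟨w, k⟩ => ⟨v * w, fun x => by
    rw [O8.act_mul, Module.End.mul_apply, ← k, ← h]; rfl⟩
  inv_mem' := fun {a} ⟨v, h⟩ => ⟨v⁻¹, fun x => by
    apply a.1.injective
    rw [h (O8.act _ _), ← Module.End.mul_apply, ← O8.act_mul, mul_inv_cancel, O8.act_one]
    exact a.1.apply_symm_apply x⟩

theorem perm_norm {g : OG qp} (p : Fin 8 → Fin 8) (hp : ∀ k, p (p k) = k) (hg : ∀ v k, g.1 v k = v (p k))
    (f : O8.X → O8.X) (hf : ∀ w k l, O8.mat (f w) k l = O8.mat w (p k) (p l)) :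
    g ∈ normalizer (HX : Set (OG qp)) := by
  have gg : g * g = 1 := OG.ext' fun v => funext fun k => by
    change g.1 (g.1 v) k = v k
    rw [hg, hg, hp]
  have gi : g⁻¹ = g := inv_eq_of_mul_eq_one_right gg
  have c : ∀ h ∈ HX, g * h * g⁻¹ ∈ HX := fun h ⟨w, hw⟩ => ⟨f w, fun v => funext fun k => by
    rw [gi]
    change g.1 (h.1 (g.1 v)) k = _
    rw [hg, hw, O8.act, O8.act, Matrix.toLin'_apply, Matrix.toLin'_apply, Matrix.mulVec, Matrix.mulVec, dotProduct,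
      dotProduct, ← Equiv.sum_comp (Function.Involutive.toPerm p hp)]
    refine Finset.sum_congr rfl fun l _ => ?_
    change O8.mat w (p k) (p l) * g.1 v (p l) = _
    rw [hg, hp, hf]⟩
  refine mem_normalizer_iff.2 fun h => ⟨c h, fun e => ?_⟩
  have := c _ e
  rwa [show g * (g * h * g⁻¹) * g⁻¹ = (g * g) * h * (g * g)⁻¹ by group, gg, one_mul, inv_one, mul_one] at this

theorem ok27 : ∀ c ∈ c27.gH ++ c27.ex, okc c = true := List.all_eq_true.1 (Bool.and_eq_true_iff.1 c27_ok).1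

theorem gH27 : ∀ c ∈ c27.gH, ∃ i : Fin 3, cm c = O8.mat (O8.s i) ∨ cm c = O8.mat (O8.ν i * O8.s i * O8.ν i) := by
  decide +kernel

theorem pts27 : ∀ n ∈ c27.P, ∃ w : O8.X, ∀ k, O8.mat w k 7 = dec n k := by decide +kernel

def p1 : Fin 8 → Fin 8 := ![0, 4, 2, 6, 1, 5, 3, 7]
def p2 : Fin 8 → Fin 8 := ![0, 2, 1, 3, 4, 6, 5, 7]
theorem bit1 : ∀ k, O8.bit 0 (p1 k) = O8.bit 2 k ∧ O8.bit 1 (p1 k) = O8.bit 1 k ∧ O8.bit 2 (p1 k) = O8.bit 0 k := by
  decide +kernel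
theorem bit2 : ∀ k, O8.bit 0 (p2 k) = O8.bit 1 k ∧ O8.bit 1 (p2 k) = O8.bit 0 k ∧ O8.bit 2 (p2 k) = O8.bit 2 k := by
  decide +kernel

theorem le_norm : closure {g | g ∈ d27.gN} ≤ normalizer (HX : Set (OG qp)) := by
  refine (closure_le _).2 fun g hg => ?_
  obtain ⟨c, hc, rfl⟩ := List.mem_map.1 (show g ∈ (c27.gH ++ c27.ex).map cO from hg)
  have ok := ok27 c hc
  rcases List.mem_append.1 hc with h | h
  · refine le_normalizer (H := HX) ?_
    obtain ⟨i, e | e⟩ := gH27 c h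
    · exact ⟨_, fun v => by rw [cO_app ok, e, O8.act, Matrix.toLin'_apply]⟩
    · exact ⟨_, fun v => by rw [cO_app ok, e, O8.act, Matrix.toLin'_apply]⟩
  · have h' : c = 0x8008200240041001 ∨ c = 0x8020401008020401 := by simpa [c27] using h
    rcases h' with rfl | rfl
    · refine perm_norm p1 (by decide) (fun v k => ?_) (fun w => (w.2.2, w.2.1, w.1)) fun w k l => ?_
      · rw [cO_app ok]
        revert v k
        decide +kernel
      · simp only [O8.mat, (bit1 _).1, (bit1 _).2.1, (bit1 _).2.2]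
        ring
    · refine perm_norm p2 (by decide) (fun v k => ?_) (fun w => (w.2.1, w.1, w.2.2)) fun w k l => ?_
      · rw [cO_app ok]
        revert v k
        decide +kernel
      · simp only [O8.mat, (bit2 _).1, (bit2 _).2.1, (bit2 _).2.2]
        ring

variable {G : Type u} [Group G] [Finite G] {z : G} {M : OM qp z} {ι : Γ0 →* G}

theorem Q_le (io : Io M ι) : QQ z ≤ C0.map ι := by
  rw [← io.hQ, psi_range]; exact map_mono (Qg_le.trans S0_le)

theorem sur (h : IO1) (io : Io M ι) (w : O8.X) : ∃ c ∈ C0.map ι, Ac M c w := by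
  have hw : w ∈ closure (Set.range O8.s ∪ Set.range O8.ν) := O8.closure_sν ▸ mem_top w
  have hC : ∀ x ∈ Set.range α0 ∪ Set.range ν0, ι x ∈ C0.map ι := fun x hx =>
    mem_map_of_mem ι (h.2.2 ▸ mem_sup_right (subset_closure hx))
  induction hw using closure_induction with
  | mem x hx =>
    rcases hx with ⟨i, rfl⟩ | ⟨i, rfl⟩
    · exact ⟨_, hC _ (Or.inl ⟨i, rfl⟩), io.hα i⟩
    · exact ⟨_, hC _ (Or.inr ⟨i, rfl⟩), io.hν i⟩
  | one => exact ⟨1, one_mem _, Ac.one⟩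
  | mul x y _ _ hx hy =>
    obtain ⟨c, hc, e⟩ := hx
    obtain ⟨d, hd, k⟩ := hy
    exact ⟨c * d, mul_mem hc hd, e.mul k⟩
  | inv x _ hx =>
    obtain ⟨c, hc, e⟩ := hx
    exact ⟨c⁻¹, inv_mem hc, e.inv⟩

theorem mem_iff (h : IO1) (H : Hy z) (io : Io M ι) {c : G} : c ∈ C0.map ι ↔ ∃ w, Ac M c w := by
  constructor
  · let K : Subgroup G :=
      { carrier := {c | ∃ w, Ac M c w}
        one_mem' := ⟨1, Ac.one⟩
        mul_mem' := fun ⟨_, a⟩ ⟨_, b⟩ => ⟨_, a.mul b⟩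
        inv_mem' := fun ⟨_, a⟩ => ⟨_, a.inv⟩ }
    have : C0.map ι ≤ K := by
      rw [map_le_iff_le_comap, h.2.2]
      refine sup_le (fun q hq => ⟨1, Ac.of_Q H ?_⟩) ((closure_le _).2 ?_)
      · rw [← io.hQ, psi_range]; exact mem_map_of_mem ι hq
      · rintro _ (⟨i, rfl⟩ | ⟨i, rfl⟩)
        · exact ⟨_, io.hα i⟩
        · exact ⟨_, io.hν i⟩
    exact fun hc => this hc
  · rintro ⟨w, hw⟩
    obtain ⟨d, hd, k⟩ := sur h io w
    have := mul_mem (Q_le io (hw.div k)) hd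
    rwa [inv_mul_cancel_right] at this

end PD27A

open PD27A in
theorem d27a (h : IO1) : D27A.{u} := by
  intro G _ _ z M H cfg ι io
  refine ⟨fun x hx c hc => ?_, fun t n => ?_⟩
  · obtain ⟨w, hw⟩ := (mem_iff h H io).1 hc
    obtain ⟨w', hw'⟩ := (mem_normalizer_iff.1 (le_norm (cfg.le_N (M.ρ_mem hx))) (M.ρ c)).1 ⟨w, hw.2⟩
    exact (mem_iff h H io).2 ⟨w', (hx.mul_left hw.1).mul_left hx.inv_left, by rw [M.ρ_conj hx hw.1]; exact hw'⟩
  · obtain ⟨k, hk, e⟩ := List.mem_map.1 (show M.π t ∈ c27.P.map dec from (cfg.O_iff _).1 ⟨t, n, rfl⟩)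
    obtain ⟨w, hw⟩ := pts27 k hk
    obtain ⟨c, hc, a⟩ := sur h io w
    have hQ : ι zp ∈ QQ z := by rw [← io.hQ, ← φ_zp]; exact ⟨qzp, rfl⟩
    have hπ : M.π (ι zp) = O8.e 7 := by rw [← φ_zp, io.hπ]; decide +kernel
    have e2 : M.π t = M.π (c * ι zp * c⁻¹) := by
      rw [a.π hQ, hπ, ← e]
      exact funext fun l => by rw [O8.act_e, hw]
    rcases (M.π_eq n.mem (H.cmem a.1 hQ)).1 e2 with e3 | e3
    · exact ⟨c, hc, e3⟩
    · obtain ⟨x, hx, e4⟩ := H.swap n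
      refine ⟨x⁻¹ * c, mul_mem (inv_mem (Q_le io hx)) hc, ?_⟩
      rw [show x⁻¹ * c * ι zp * (x⁻¹ * c)⁻¹ = x⁻¹ * (c * ι zp * c⁻¹) * x by group, e3, ← (H.zt n).eq, ← e4]
      group

end CL.N9.P
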