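/-
Extraspecial `F*(C(z))` of order `2 ^ 9` (S1763): the Curtis–Tits subgroup contains `Q` and has trivial centre.
-/
import Cfsg.Agent.N9.PD

set_option autoImplicit false

namespace CL.N9.P

open Cfsg Subgroup CL.Even CL.Grp CL.WC CL.Cls CL.P8 Equiv

universe u

namespace PF1

variable {G : Type u} [Group G] [Finite G] {z : G} {M : OM qp z} {a n : Fin 3 → G}

/-- A subgroup normalised by the `n i` and containing a preimage of a basis vector contains `Q`. -/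
theorem le_of_mem (h : Hy z) (L : LV M a n) {N : Subgroup G} (hN : ∀ i, ∀ y ∈ N, n i * y * (n i)⁻¹ ∈ N)
    {b : G} (hb : b ∈ QQ z) (hb' : b ∈ N) {k : Fin 8} (hk : M.π b = O8.e k) : QQ z ≤ N := by
  let W : AddSubmonoid V8 :=
    { carrier := {v | ∃ y ∈ QQ z, y ∈ N ∧ M.π y = v}
      zero_mem' := ⟨1, one_mem _, one_mem _, M.π_one⟩
      add_mem' := by
        rintro _ _ ⟨x, h1, h2, rfl⟩ ⟨y, h3, h4, rfl⟩
        exact ⟨_, mul_mem h1 h3, mul_mem h2 h4, M.π_mul h1 h3⟩ }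
  have h1 : ∀ i, ∀ v ∈ W, O8.act (O8.ν i) v ∈ W := by
    rintro i _ ⟨y, h1, h2, rfl⟩
    exact ⟨_, h.cmem (L.ac i).1 h1, hN i y h2, (L.ac i).π h1⟩
  have h2 : ∀ (i : Fin 3) (k l : Fin 8), (∀ j, O8.mat (O8.ν i) j k = O8.e l j) → O8.e k ∈ W → O8.e l ∈ W :=
    fun i k l h2 h3 =>
      (funext fun j => (O8.act_e _ _ _).trans (h2 j) : O8.act (O8.ν i) (O8.e k) = O8.e l) ▸ h1 i _ h3
  have h3 : ∀ l, O8.e l ∈ W := fun l => by
    obtain ⟨i, j, m, o, x, y, w, e1, e2, e3, e4⟩ := (by decide +kernel : ∀ k l : Fin 8, ∃ i j m o x y w,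
      (x = k ∨ ∀ t, O8.mat (O8.ν i) t k = O8.e x t) ∧ (∀ t, O8.mat (O8.ν j) t x = O8.e y t) ∧
        (∀ t, O8.mat (O8.ν m) t y = O8.e w t) ∧ ∀ t, O8.mat (O8.ν o) t w = O8.e l t) k l
    have h0 : O8.e k ∈ W := ⟨b, hb, hb', hk⟩
    exact h2 _ _ _ e4 (h2 _ _ _ e3 (h2 _ _ _ e2 (e1.elim (· ▸ h0) fun e1 => h2 _ _ _ e1 h0)))
  have h4 : ∀ v, v ∈ W := fun v => by
    rw [← Finset.univ_sum_single v]
    refine sum_mem fun l _ => ?_
    rcases z2 (v l) with e1 | e1 <;> rw [e1]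
    · rw [Pi.single_zero]; exact zero_mem _
    · exact (funext fun j => (Pi.single_apply _ _ _).symm : O8.e l = Pi.single l 1) ▸ h3 l
  obtain ⟨x, x1, x2, x3⟩ := h3 0
  obtain ⟨y, y1, y2, y3⟩ := h3 7
  have hz : z ∈ N := (mul_mem_cancel_right x2).1 (h.xe.cj_of_not y1 x1 (fun c => by
    have := (M.b_zero y1 x1).mpr c
    rw [x3, y3, pol_B0, O8.B0_e] at this
    exact absurd this (by decide +kernel)) ▸ mul_mem (mul_mem y2 x2) (inv_mem y2))
  intro c hc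
  obtain ⟨d, d1, d2, d3⟩ := h4 (M.π c)
  rcases (M.π_eq d1 hc).1 d3 with rfl | rfl
  exacts [d2, mul_mem d2 hz]

end PF1

theorem ff1 : FF1.{u} := by
  intro G _ _ z x M S b m a f n R L
  have h := S.hy
  have hm : m⁻¹ = m := inv_eq_of_mul_eq_one_right R.msq
  have m1 : m ∈ O8.gen b m a n := subset_closure (by simp)
  have n1 : ∀ i, n i ∈ O8.gen b m a n := fun i => subset_closure (.inr ⟨i, rfl⟩)
  have hQ : QQ z ≤ O8.gen b m a n := PF1.le_of_mem h L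
    (fun i y hy => mul_mem (mul_mem (n1 i) hy) (inv_mem (n1 i))) R.bQ (subset_closure (by simp)) R.πb
  have hx : m * z * m⁻¹ ≠ z := fun e => by
    have := R.πx
    rw [show m * z * m = z by rwa [hm] at e, M.π_z h] at this
    exact absurd this (by decide +kernel)
  refine ⟨hQ, eq_bot_iff.2 fun t ht => ?_⟩
  have h2 : (t : G) ∈ zpowers z :=
    h.cent_eq ▸ fun y hy => congrArg Subtype.val (mem_center_iff.1 ht ⟨y, hQ hy⟩)
  refine Subtype.ext ((h.mem_Z.1 h2).resolve_right fun e => hx ?_)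
  rw [← e, mul_inv_eq_iff_eq_mul]
  exact congrArg Subtype.val (mem_center_iff.1 ht ⟨m, m1⟩)

end CL.N9.P
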