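/-
S1763, the configuration with 81 points: the step `FUS`.
-/
import Cfsg.Agent.N9.PD
import Cfsg.Agent.P8.NF
import Cfsg.Agent.P8.Inv1

set_option autoImplicit false
set_option linter.unusedSectionVars false

namespace CL.N9.P

open Cfsg Subgroup CL.Even CL.Grp CL.WC CL.Cls CL.P8 Equiv

universe u

namespace PFUS

theorem conj_mon (σ : Perm (Fin 4)) (c : ZMod 2) (t : Fin 4 → ZMod 3)
    (h : ∀ v, mon σ (fun _ => c) t (mon σ (fun _ => c) t v) = v) (v : V) :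
    rot t (mon σ (fun _ => c) t (rot (-t) v)) = mon σ (fun _ => c) 0 v := by
  have h1 := (mon_inj (σ' := 1) (s' := 0) (t' := 0) (funext fun v => (mon_mul _ _ _ _ _ _ v).symm.trans (h v))).2.2
  rw [← mon_rot, ← mon_rot, mon_mul, mon_mul, one_mul, mul_one]
  congr 1
  · funext k; simp
  · funext k
    have h2 := congrFun h1 k
    simp only [Pi.zero_apply, Pi.neg_apply, inv_one, Perm.one_apply, zero_add, if_true] at h2 ⊢
    have h3 : (3 : ZMod 3) = 0 := rfl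
    linear_combination -h2 + t k * h3

theorem mon_FS {σ : Perm (Fin 4)} (h : InV4 σ) (c : ZMod 2) : ∃ i j k, mon σ (fun _ => c) 0 = NF.FS i j k := by
  obtain ⟨i, j, e⟩ := (by decide +kernel : ∀ σ : Perm (Fin 4), InV4 σ → ∃ i j, ∀ l, σ⁻¹ l = NF.τS i j l) σ h
  exact ⟨i, j, c, funext fun v => funext fun l => by
    show _ = Sw^[c.val] (v (NF.τS i j l))
    rw [← e]; rfl⟩

end PFUS

open PFUS in
theorem fus : FUS.{u} := by
  intro G _ _ ι S ty hf H hR hC y hy hc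
  have h := S.st
  have hR' : ∀ γ, ι γ ∈ H := fun γ => hR ⟨γ, rfl⟩
  have yy : y * y = 1 := by
    obtain ⟨g, rfl⟩ := isConj_iff.1 hy
    rw [conj_mul, ← map_mul, q8s.zz, map_one, mul_one, mul_inv_cancel]
  obtain ⟨σ, c, t, hσ, e⟩ := ty y hy hc
  obtain ⟨x, hx, ex⟩ := S.w.hrot t
  obtain ⟨i, j, k, e1⟩ := mon_FS hσ c
  have c1 : Commute (x * y * x⁻¹) (ι P8.z) := (hx.mul_left hc).mul_left hx.inv_left
  have e2 : act (ι.comp φ) (x * y * x⁻¹) = act (ι.comp φ) (ι (NF.sS i j k)) := by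
    rw [NF.act_sS h.inj, ← e1, h.act_mul (hx.mul_left hc) hx.inv_left, h.act_mul hx hc, h.act_inv hx ex, ex, e]
    exact funext (conj_mon σ c t fun v => by rw [← e, ← h.xq.act_mul (cz' hc) (cz' hc), yy, h.xq.act_one])
  have c2 := cz ι (NF.sS_C0 i j k)
  obtain ⟨q0, e3⟩ := h.xq.cq (x * y * x⁻¹ * (ι (NF.sS i j k))⁻¹) ((cz' c1).mul_left c2.inv_left) fun v => by
    rw [h.xq.act_mul (cz' c1) c2.inv_left, e2, h.xq.act_inv' c2]
  have e4 : ι (φ q0 * NF.sS i j k) = x * y * x⁻¹ := by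
    rw [map_mul, ← MonoidHom.comp_apply, e3, inv_mul_cancel_right]
  obtain ⟨γ, q, e5⟩ := inv1 (φ q0 * NF.sS i j k) (h.inj (by
    rw [map_mul, e4, map_one, conj_mul, yy, mul_one, mul_inv_cancel]))
  have e6 : ι γ * x * y * (ι γ * x)⁻¹ = ι (φ q) := by
    rw [← e5, map_mul, map_mul, map_inv, e4]; group
  have m := mul_mem (hR' γ) (hC x hx)
  rcases hf q (hy.trans (isConj_iff.2 ⟨ι γ * x, e6⟩)) with rfl | ⟨d, d1, d2⟩
  · refine ⟨_, inv_mem m, ?_⟩
    calc _ = (ι γ * x)⁻¹ * ι (φ zq) * (ι γ * x) := by rw [φ_z, inv_inv]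
      _ = _ := by rw [← e6]; group
  · refine ⟨_, mul_mem (mul_mem (inv_mem m) (inv_mem (hC d d1))) (hR' n0), ?_⟩
    have e7 : ι n0 * ι P8.z * (ι n0)⁻¹ = ι zp := by
      rw [← map_inv, ← map_mul, ← map_mul]
      exact congrArg ι (rel (X.n0 * X.z * X.n0⁻¹) X.zp (by decide +kernel))
    calc _ = (ι γ * x)⁻¹ * (d⁻¹ * (ι n0 * ι P8.z * (ι n0)⁻¹) * d) * (ι γ * x) := by group
      _ = _ := by rw [e7, ← d2, ← e6]; group

end CL.N9.P
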