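/-
S1763, the configuration with 81 points: the elements of `C(z)` with inner action.
-/
import Cfsg.Agent.N9.PD
import Cfsg.Agent.P8.Dich

set_option autoImplicit false
set_option linter.unusedSectionVars false

namespace CL.N9.P

open Cfsg Subgroup CL.Even CL.Grp CL.WC CL.Cls CL.P8 Equiv

universe u

namespace PINN

variable {G : Type u} [Group G] [Finite G] {ι : Γ0 →* G}

theorem am (h : St0 ι) {x y : G} (hx : Commute x (ι P8.z)) (hy : Commute y (ι P8.z)) {σ s t σ' s' t'}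
    (e : act (ι.comp φ) x = mon σ s t) (e' : act (ι.comp φ) y = mon σ' s' t') : act (ι.comp φ) (x * y) =
    mon (σ * σ') (fun k => s k + s' (σ⁻¹ k)) (fun k => t k + (if s k = 0 then 1 else -1) * t' (σ⁻¹ k)) := by
  rw [h.act_mul hx hy, e, e']; exact funext (mon_mul _ _ _ _ _ _)

/-- the inner elements form a subgroup -/
theorem exK (h : St0 ι) : ∃ K : Subgroup G, ∀ x, x ∈ K ↔ Commute x (ι P8.z) ∧ In ι x := by
  let S : Submonoid G :=
    { carrier := {x | Commute x (ι P8.z) ∧ In ι x}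
      one_mem' := ⟨.one_left _, 1, 0, 0, Or.inl rfl, funext h.xq.act_one⟩
      mul_mem' := fun {x y} ⟨hx, σ, c, t, h1, h2⟩ ⟨hy, σ', c', t', h3, h4⟩ => ⟨hx.mul_left hy, σ * σ', c + c', _,
        (by decide +kernel : ∀ σ τ, InV4 σ → InV4 τ → InV4 (σ * τ)) _ _ h1 h3, am h hx hy h2 h4⟩ }
  exact ⟨⟨S, fun {x} hx => (Submonoid.powers_le (P := S)).2 hx
    (mem_powers_iff_mem_zpowers.2 (inv_mem (mem_zpowers x)))⟩, fun _ => Iff.rfl⟩

theorem m1 (h : St0 ι) : act (ι.comp φ) (ι s1) = mon (swap 0 2 * swap 1 3) (fun _ => 0) 0 :=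
  (act_s1 h.inj).trans (funext fun v => funext fun k => congrArg v (by revert k; decide +kernel))
theorem m2 (h : St0 ι) : act (ι.comp φ) (ι s2) = mon (swap 0 1 * swap 2 3) (fun _ => 0) 0 :=
  (act_s2 h.inj).trans (funext fun v => funext fun k => congrArg v (by revert k; decide +kernel))
theorem m3 (h : St0 ι) : act (ι.comp φ) (ι s3) = mon 1 (fun _ => 1) 0 := act_s3 h.inj

theorem cz0 {x : G} (hx : x ∈ C0.map ι) : Commute x (ι P8.z) := by
  obtain ⟨γ, hγ, rfl⟩ := hx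
  exact (C0_z hγ).map ι

theorem C0_le (h : St0 ι) {K : Subgroup G} (hK : ∀ x, x ∈ K ↔ Commute x (ι P8.z) ∧ In ι x) : C0.map ι ≤ K := by
  rw [map_le_iff_le_comap]
  refine gen_le fun i hi => (hK _).2 ⟨(C0_z (mem_gen hi)).map ι, ?_⟩
  have h1 : InV4 1 := Or.inl rfl
  have hq : ∀ q, In ι ((ι.comp φ) q) := fun q => ⟨1, 0, 0, h1, funext (h.xq.act_psi q)⟩
  have := List.mem_range.1 hi
  by_cases h4 : i < 4
  · have := hq (aq ⟨i, h4⟩)
    rwa [MonoidHom.comp_apply, φ_a] at this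
  by_cases h8 : i < 8
  · have := hq (bq ⟨i - 4, by omega⟩)
    rwa [MonoidHom.comp_apply, φ_b, b, show 4 + ((⟨i - 4, by omega⟩ : Fin 4) : ℕ) = i by simp; omega] at this
  obtain rfl | rfl | rfl | rfl | rfl | rfl : i = 8 ∨ i = 9 ∨ i = 10 ∨ i = 11 ∨ i = 12 ∨ i = 13 := by omega
  exacts [⟨1, 0, _, h1, act_d1 h.inj⟩, ⟨1, 0, _, h1, act_d2 h.inj⟩, ⟨1, 0, _, h1, act_d3 h.inj⟩,
    ⟨_, _, _, by decide, m1 h⟩, ⟨_, _, _, by decide, m2 h⟩, ⟨_, _, _, h1, m3 h⟩]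

/-- the permutations and signs induced by `⟨s1, s2, s3⟩` -/
theorem exS (h : St0 ι) {σ : Perm (Fin 4)} (hσ : InV4 σ) (c : ZMod 2) :
    ∃ s ∈ C0.map ι, ∃ t, act (ι.comp φ) s = mon σ (fun _ => c) t := by
  have mu : ∀ {σ σ' : Perm (Fin 4)} {c c' : ZMod 2}, (∃ s ∈ C0.map ι, ∃ t, act (ι.comp φ) s = mon σ (fun _ => c) t) →
      (∃ s ∈ C0.map ι, ∃ t, act (ι.comp φ) s = mon σ' (fun _ => c') t) →
      ∃ s ∈ C0.map ι, ∃ t, act (ι.comp φ) s = mon (σ * σ') (fun _ => c + c') t :=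
    fun ⟨s, hs, _, e⟩ ⟨s', hs', _, e'⟩ => ⟨s * s', mul_mem hs hs', _, am h (cz0 hs) (cz0 hs') e e'⟩
  have m : ∀ i < 14, ι (g i) ∈ C0.map ι := fun i hi => mem_map_of_mem ι (mem_gen (List.mem_range.2 hi))
  have p1 : ∃ s ∈ C0.map ι, ∃ t, act (ι.comp φ) s = mon _ (fun _ => 0) t := ⟨ι s1, m 11 (by norm_num), _, m1 h⟩
  have p2 : ∃ s ∈ C0.map ι, ∃ t, act (ι.comp φ) s = mon _ (fun _ => 0) t := ⟨ι s2, m 12 (by norm_num), _, m2 h⟩
  have pc : ∃ s ∈ C0.map ι, ∃ t, act (ι.comp φ) s = mon 1 (fun _ => c) t := by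
    rcases z2_cases c with rfl | rfl
    exacts [⟨1, one_mem _, 0, funext h.xq.act_one⟩, ⟨ι s3, m 13 (by norm_num), _, m3 h⟩]
  rcases hσ with rfl | rfl | rfl | rfl
  · exact pc
  · simpa only [mul_one, zero_add] using mu p2 pc
  · simpa only [mul_one, zero_add] using mu p1 pc
  · simpa only [mul_one, zero_add, show (swap 0 2 * swap 1 3 * (swap 0 1 * swap 2 3) : Perm (Fin 4)) =
      swap 0 3 * swap 1 2 by decide +kernel] using mu (mu p1 p2) pc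

theorem back (h : St0 ι) {y : G} (hy : Yel ι y) {x : G} (hx : Commute x (ι P8.z)) (hi : In ι x) :
    x ∈ C0.map ι ⊔ zpowers y := by
  obtain ⟨σ, c, t', hσ, e'⟩ := hi
  obtain ⟨s, hs, t'', es⟩ := exS h hσ c
  have cs := hx.mul_left (cz0 hs)
  obtain ⟨t, e⟩ : ∃ t, act (ι.comp φ) (x * s) = rot t := ⟨_, by
    rw [am h hx (cz0 hs) e' es, (by decide +kernel : ∀ σ, InV4 σ → σ * σ = 1) σ hσ, z2_add_self, ← mon_rot]; rfl⟩
  have ey := hy.act h.inj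
  have := Dic.mem_C0 h (cs.mul_left (hy.z.pow_left (t 0 - t 1 - t 2 + t 3).val).inv_left)
    (Dic.act_div h cs (hy.z.pow_left _) e (h.act_pow hy.z ey _)) (by clear e; revert t; decide +kernel)
  simpa using mul_mem (mul_mem (mem_sup_left this) (mem_sup_right (npow_mem_zpowers y (t 0 - t 1 - t 2 + t 3).val)))
    (mem_sup_left (inv_mem hs))

theorem exY (h : S81 ι) : ∃ y, Yel ι y := by
  obtain ⟨u, c2, e2⟩ := h.w.hrot ![0, 0, 0, 1]
  obtain ⟨q, hq⟩ := (psi_range ι).ge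
    (h.st.mem_Q (c2.pow_left 3) ((h.st.act_pow c2 e2 3).trans (congrArg rot (by decide))))
  refine Dic.yel h.st (c2.pow_left 4) ?_ ((h.st.act_pow c2 e2 4).trans (congrArg rot (by decide)))
  rw [← pow_mul, mul_comm, pow_mul, ← hq, ← map_pow, show q ^ 4 = 1 by clear hq; revert q; decide +kernel, map_one]

theorem conj (h : S81 ι) {x c : G} (hx : Commute x (ι P8.z)) (hc : Commute c (ι P8.z)) (hi : In ι c) :
    In ι (x * c * x⁻¹) := by
  obtain ⟨ρ, e, u, hρ, ec⟩ := hi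
  obtain ⟨σ, s, t, ev, ex⟩ := h.w.mono x hx
  have hd := (hx.mul_left hc).mul_left hx.inv_left
  obtain ⟨τ, s2, t2, -, ed⟩ := h.w.mono _ hd
  have k := am h.st hd hx ed ex
  rw [inv_mul_cancel_right, am h.st hx hc ex ec] at k
  obtain ⟨e1, e2, -⟩ := mon_inj k
  have hτ : InV4 τ := by
    rw [eq_mul_inv_of_mul_eq e1.symm]
    exact (by decide +kernel : ∀ σ ρ, InV4 ρ → InV4 (σ * ρ * σ⁻¹)) σ ρ hρ
  have l := (by decide +kernel : ∀ τ, InV4 τ → ∀ s : Fin 4 → ZMod 2, s 0 + s 1 + s 2 + s 3 = 0 →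
    ∀ k, s k - s (τ⁻¹ k) = s 0 - s (τ⁻¹ 0)) τ hτ s ev
  refine ⟨τ, s2 0, t2, hτ, ed.trans (congrArg (mon τ · t2) (funext fun k => ?_))⟩
  linear_combination congrFun e2 0 - congrFun e2 k + l k

/-- transitivity on the elements of full support -/
theorem trans (h : St0 ι) {C : Subgroup G} (hC : C0.map ι ≤ C)
    (hr : ∀ u, ∃ c ∈ C, Commute c (ι P8.z) ∧ act (ι.comp φ) c = rot u) {q : QM} (hq : P8.sup q.v = 4) :
    ∃ c ∈ C, c * ι zp * c⁻¹ = (ι.comp φ) q := by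
  have h1 : ∀ v : V, P8.sup v = 4 → ∀ k, v k ≠ 0 := by decide +kernel
  have h2 : ∀ p : P2, p ≠ 0 → ∃ a : ZMod 3, R2^[a.val] (1, 1) = p := by decide +kernel
  choose u hu using fun k => h2 _ (h1 _ hq k)
  obtain ⟨c, hc, cz, e⟩ := hr u
  obtain ⟨f, k⟩ := h.xq.spec (cz' cz) qzp
  have ev : rot u qzp.v = q.v := funext fun k => by
    rw [← hu, rot, (by decide +kernel : ∀ k, qzp.v k = (1, 1)) k]
  rw [e, ev] at k
  rw [← φ_zp]
  rcases QM.eq_or (p := ⟨q.v, f⟩) (q := q) rfl with l | l <;> rw [l] at k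
  · exact ⟨c, hc, k⟩
  · refine ⟨c * (ι.comp φ) (aq 0), mul_mem hc (hC (map_mono (Qg_le.trans S0_le) (psi_mem ι _))), ?_⟩
    calc _ = c * (ι.comp φ) (aq 0 * qzp * (aq 0)⁻¹) * c⁻¹ := by
          rw [map_mul, map_mul, map_inv, MonoidHom.comp_apply _ _ qzp]; group
      _ = c * (ι.comp φ) qzp * c⁻¹ * (c * (ι.comp φ) zq * c⁻¹) := by
          rw [show aq 0 * qzp * (aq 0)⁻¹ = qzp * zq by decide +kernel, map_mul]; group
      _ = _ := by rw [k, (cz' cz).eq, mul_inv_cancel_right, ← map_mul, mul_assoc, zq_sq, mul_one]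

end PINN

open PINN in
theorem inn : INN.{u} := by
  intro G _ _ ι h
  obtain ⟨y, hy⟩ := exY h
  obtain ⟨K, hK⟩ := exK h.st
  have iff : ∀ x, x ∈ C0.map ι ⊔ zpowers y ↔ Commute x (ι P8.z) ∧ In ι x := fun x =>
    ⟨fun hx => (hK x).1 (sup_le (C0_le h.st hK) (zpowers_le.2 ((hK y).2
      ⟨hy.z, 1, 0, _, Or.inl rfl, hy.act h.st.inj⟩)) hx), fun hx => back h.st hy hx.1 hx.2⟩
  have tr : ∀ {q : QM}, P8.sup q.v = 4 → ∃ c ∈ C0.map ι ⊔ zpowers y, c * ι zp * c⁻¹ = (ι.comp φ) q :=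
    trans h.st le_sup_left fun u => by
      obtain ⟨x, hx, e⟩ := h.w.hrot u
      exact ⟨x, (iff x).2 ⟨hx, 1, 0, u, Or.inl rfl, e⟩, hx, e⟩
  refine ⟨fun q hq => ((h.w.hsup q).1 hq).imp id fun k => ?_, y, hy, iff, fun x hx c hc => ?_, fun t n => ?_⟩
  · obtain ⟨c, hc, e⟩ := tr k
    exact ⟨c⁻¹, ((iff c).1 hc).1.inv_left, by rw [← MonoidHom.comp_apply, ← e]; group⟩
  · obtain ⟨c1, c2⟩ := (iff c).1 hc
    exact (iff _).2 ⟨(hx.mul_left c1).mul_left hx.inv_left, conj h hx c1 c2⟩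
  · obtain ⟨q, rfl⟩ := h.w.hQ.ge n.mem
    exact tr (((h.w.hsup q).1 n.ic).resolve_left fun e => n.ne (e ▸ h.w.hz))

end CL.N9.P
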