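/-
S1763: the configuration with 81 points, the elements of `C(z)` with inner action (helper76).
-/
import Cfsg.Agent.N9.PD
import Cfsg.Agent.P8.Dich
import Cfsg.Agent.P8.NF

set_option autoImplicit false
set_option linter.unusedSectionVars false

namespace CL.N9.P

open Cfsg Subgroup CL.Even CL.Grp CL.WC CL.Cls CL.P8 Equiv

universe u

namespace PINNb

variable {G : Type u} [Group G] {ι : Γ0 →* G}

theorem act_mon (h : St0 ι) {x y : G} (hx : Commute x (ι P8.z)) (hy : Commute y (ι P8.z)) {σ σ' : Perm (Fin 4)}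
    {s s' : Fin 4 → ZMod 2} {t t' : Fin 4 → ZMod 3}
    (e : act (ι.comp φ) x = mon σ s t) (e' : act (ι.comp φ) y = mon σ' s' t') :
    act (ι.comp φ) (x * y) = mon (σ * σ') (fun k => s k + s' (σ⁻¹ k))
      (fun k => t k + (if s k = 0 then 1 else -1) * t' (σ⁻¹ k)) := by
  rw [h.act_mul hx hy, e, e']; exact funext (mon_mul _ _ _ _ _ _)

theorem act_mon_inv (h : St0 ι) {x : G} (hx : Commute x (ι P8.z)) {σ : Perm (Fin 4)} {s : Fin 4 → ZMod 2}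
    {t : Fin 4 → ZMod 3} (e : act (ι.comp φ) x = mon σ s t) :
    ∃ t', act (ι.comp φ) x⁻¹ = mon σ⁻¹ (fun k => s (σ k)) t' := by
  refine ⟨fun k => -((if s (σ k) = 0 then 1 else -1) * t (σ k)), funext fun v => ?_⟩
  apply h.xq.act_inj (cz' hx)
  have k0 : ∀ k, σ (σ⁻¹ k) = k := fun k => by simp
  have k1 : (fun k => s k + s (σ (σ⁻¹ k))) = 0 := funext fun k => by rw [k0, z2_add_self]; rfl
  have k2 : (fun k => t k + (if s k = 0 then 1 else -1) *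
      -((if s (σ (σ⁻¹ k)) = 0 then 1 else -1) * t (σ (σ⁻¹ k)))) = 0 := funext fun k => by
    rw [k0]; split_ifs <;> simp
  rw [h.xq.act_inv' (cz' hx), e, mon_mul, k1, k2, mul_inv_cancel, mon_one]

/-- the elements with inner action -/
def II (h : St0 ι) : Subgroup G where
  carrier := {x | Commute x (ι P8.z) ∧ In ι x}
  one_mem' := ⟨.one_left _, 1, 0, 0, .inl rfl, funext h.xq.act_one⟩
  mul_mem' := fun {_ _} ⟨hx, σ, c, _, h1, h2⟩ ⟨hy, τ, d, _, h3, h4⟩ => ⟨hx.mul_left hy, σ * τ, c + d, _,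
    (by decide +kernel : ∀ σ τ, InV4 σ → InV4 τ → InV4 (σ * τ)) _ _ h1 h3, act_mon h hx hy h2 h4⟩
  inv_mem' := fun {_} ⟨hx, σ, c, _, h1, h2⟩ =>
    let ⟨t', e⟩ := act_mon_inv h hx h2
    ⟨hx.inv_left, σ⁻¹, c, t', (by decide +kernel : ∀ σ, InV4 σ → InV4 σ⁻¹) _ h1, e⟩

theorem C0_le (h : St0 ι) : C0.map ι ≤ II h := by
  rw [map_le_iff_le_comap]
  refine gen_le fun i hi => ⟨(C0_z (mem_gen hi)).map ι, ?_⟩
  have h1 : InV4 1 := Or.inl rfl
  have := List.mem_range.1 hi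
  by_cases h4 : i < 4
  · exact ⟨1, 0, 0, h1, by
      have := funext (h.xq.act_psi (aq ⟨i, h4⟩)); rwa [MonoidHom.comp_apply, φ_a] at this⟩
  by_cases h8 : i < 8
  · refine ⟨1, 0, 0, h1, ?_⟩
    have := funext (h.xq.act_psi (bq ⟨i - 4, by omega⟩))
    rwa [MonoidHom.comp_apply, φ_b, b, show 4 + ((⟨i - 4, by omega⟩ : Fin 4) : ℕ) = i by simp; omega] at this
  obtain rfl | rfl | rfl | rfl | rfl | rfl : i = 8 ∨ i = 9 ∨ i = 10 ∨ i = 11 ∨ i = 12 ∨ i = 13 := by omega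
  exacts [⟨1, 0, _, h1, act_d1 h.inj⟩, ⟨1, 0, _, h1, act_d2 h.inj⟩, ⟨1, 0, _, h1, act_d3 h.inj⟩,
    ⟨swap 0 2 * swap 1 3, 0, 0, by decide,
      (act_s1 h.inj).trans (funext fun v => funext fun k => congrArg v (by revert k; decide))⟩,
    ⟨swap 0 1 * swap 2 3, 0, 0, by decide,
      (act_s2 h.inj).trans (funext fun v => funext fun k => congrArg v (by revert k; decide))⟩,
    ⟨1, 1, 0, h1, act_s3 h.inj⟩]

theorem red (h : St0 ι) {x : G} (hx : x ∈ II h) : ∃ s ∈ C0.map ι, ∃ t, act (ι.comp φ) (x * s) = rot t := by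
  obtain ⟨hx, σ, c, t, h1, h2⟩ := hx
  obtain ⟨i, j, k, e1, e2⟩ : ∃ i j k : Fin 2, (∀ l, NF.τS i j l = σ l) ∧ (k : ℕ) = c.val := by
    clear h2; revert σ c; decide +kernel
  have e : act (ι.comp φ) (ι (NF.sS i j k)) = mon σ⁻¹ (fun _ => c) 0 := by
    rw [NF.act_sS h.inj]; funext v l; simp only [NF.FS, mon, e1, e2, inv_inv]; rfl
  have e3 := act_mon h hx ((C0_z (NF.sS_C0 i j k)).map ι) h2 e
  rw [mul_inv_cancel, show (fun _ : Fin 4 => c + c) = 0 from funext fun _ => z2_add_self c, mon_rot] at e3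
  exact ⟨_, mem_map_of_mem ι (NF.sS_C0 i j k), _, e3⟩

theorem le_sup (h : St0 ι) {y : G} (hy : Yel ι y) : II h ≤ C0.map ι ⊔ zpowers y := fun x hx => by
  have ey := hy.act h.inj
  obtain ⟨s, hs, t, e⟩ := red h hx
  have c := hx.1.mul_left (C0_le h hs).1
  have := Dic.mem_C0 h (c.mul_left (hy.z.pow_left (t 0 - t 1 - t 2 + t 3).val).inv_left)
    (Dic.act_div h c (hy.z.pow_left _) e (h.act_pow hy.z ey _)) (by clear e; revert t; decide +kernel)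
  simpa using mul_mem (mul_mem (mem_sup_left this) (mem_sup_right (npow_mem_zpowers y (t 0 - t 1 - t 2 + t 3).val)))
    (mem_sup_left (inv_mem hs))

theorem trans (h : St0 ι) (hrot : ∀ t, ∃ x, Commute x (ι P8.z) ∧ act (ι.comp φ) x = rot t) {q : QM}
    (hq : P8.sup q.v = 4) : ∃ c ∈ II h, c * ι zp * c⁻¹ = ι (φ q) := by
  obtain ⟨u, hu⟩ : ∃ u, rot u qzp.v = q.v := by
    generalize q.v = v at hq; revert v; decide +kernel
  obtain ⟨x, hx, e⟩ := hrot u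
  obtain ⟨f, k⟩ := h.xq.spec (cz' hx) qzp
  rw [e, hu, MonoidHom.comp_apply, φ_zp, MonoidHom.comp_apply] at k
  have mx : x ∈ II h := ⟨hx, 1, 0, u, .inl rfl, e⟩
  rcases QM.eq_or (p := ⟨q.v, f⟩) (q := q) rfl with l | l <;> rw [l] at k
  · exact ⟨x, mx, k⟩
  · refine ⟨x * ι (φ (aq 0)), mul_mem mx (C0_le h (mem_map_of_mem ι (NF.φ_C0 _))), ?_⟩
    have e1 : aq 0 * qzp * (aq 0)⁻¹ = qzp * zq := by decide +kernel
    have e2 : ι (φ (aq 0)) * ι zp * (ι (φ (aq 0)))⁻¹ = ι zp * ι P8.z := by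
      have := congrArg (fun p => ι (φ p)) e1
      simpa only [map_mul, map_inv, φ_zp, φ_z] using this
    have zz : ι P8.z * ι P8.z = 1 := by rw [← φ_z, ← map_mul, ← map_mul, zq_sq, map_one, map_one]
    rw [show x * ι (φ (aq 0)) * ι zp * (x * ι (φ (aq 0)))⁻¹ =
      x * (ι (φ (aq 0)) * ι zp * (ι (φ (aq 0)))⁻¹) * x⁻¹ by group, e2, ← mul_assoc, mul_assoc _ (ι P8.z),
      ← hx.inv_left.eq, ← mul_assoc, k, map_mul, map_mul, φ_z, mul_assoc, zz, mul_one]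

theorem nrm (h : St0 ι) (mono : ∀ x, Commute x (ι P8.z) → ∃ σ s t, s 0 + s 1 + s 2 + s 3 = 0 ∧
    act (ι.comp φ) x = mon σ s t) {x c : G} (hx : Commute x (ι P8.z)) (hc : c ∈ II h) : x * c * x⁻¹ ∈ II h := by
  obtain ⟨σ, s, t, hs, e⟩ := mono x hx
  obtain ⟨hc, ρ, d, u, h1, h2⟩ := hc
  obtain ⟨t', e'⟩ := act_mon_inv h hx e
  have e3 := act_mon h (hx.mul_left hc) hx.inv_left (act_mon h hx hc e h2) e'
  have h4 : InV4 (σ * ρ * σ⁻¹) := (by decide +kernel : ∀ σ ρ, InV4 ρ → InV4 (σ * ρ * σ⁻¹)) _ _ h1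
  have h5 := (by decide +kernel : ∀ τ, InV4 τ → ∀ s : Fin 4 → ZMod 2, s 0 + s 1 + s 2 + s 3 = 0 →
    ∀ k, s k + s (τ⁻¹ k) = s 0 + s (τ⁻¹ 0)) _ h4 s hs
  have h6 : (fun k => s k + d + s (σ ((σ * ρ)⁻¹ k))) = fun _ => s 0 + s ((σ * ρ * σ⁻¹)⁻¹ 0) + d := funext fun k => by
    rw [← h5 k, add_right_comm]; simp
  rw [h6] at e3
  exact ⟨(hx.mul_left hc).mul_left hx.inv_left, _, _, _, h4, e3⟩

end PINNb

open PINNb in
theorem innb : INN.{u} := by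
  intro G _ _ ι S
  have h := S.st
  refine ⟨fun q hq => ?_, ?_⟩
  · refine ((S.w.hsup q).1 hq).imp id fun l => ?_
    obtain ⟨c, hc, e⟩ := PINNb.trans h S.w.hrot l
    exact ⟨c⁻¹, hc.1.inv_left, by rw [← e]; group⟩
  obtain ⟨y, hy⟩ : ∃ y, Yel ι y := by
    obtain ⟨u, c2, e2⟩ := S.w.hrot ![0, 0, 0, 1]
    obtain ⟨q, hq⟩ := (psi_range ι).ge (h.mem_Q (c2.pow_left 3) ((h.act_pow c2 e2 3).trans (congrArg rot (by decide))))
    refine Dic.yel h (c2.pow_left 4) ?_ ((h.act_pow c2 e2 4).trans (congrArg rot (by decide)))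
    rw [← pow_mul, mul_comm, pow_mul, ← hq, ← map_pow, show q ^ 4 = 1 by clear hq; revert q; decide +kernel, map_one]
  have E : C0.map ι ⊔ zpowers y = II h :=
    le_antisymm (sup_le (PINNb.C0_le h) (zpowers_le.2 ⟨hy.z, 1, 0, _, .inl rfl, hy.act h.inj⟩)) (PINNb.le_sup h hy)
  refine ⟨y, hy, ?_⟩
  rw [E]
  refine ⟨fun x => Iff.rfl, fun x hx c hc => nrm h S.w.mono hx hc, fun t n => ?_⟩
  obtain ⟨q, rfl⟩ := S.w.hQ.ge n.mem
  exact PINNb.trans h S.w.hrot (((S.w.hsup q).1 n.ic).resolve_left fun e => n.ne (by rw [e, S.w.hz]))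

end CL.N9.P
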