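/-
S1763, the configurations with 27 and 81 points: the Curtis–Tits system inside `Γ0`.
-/
import Cfsg.Agent.N9.PD

set_option autoImplicit false

namespace CL.N9.P

open Cfsg Subgroup CL.Even CL.Grp CL.WC CL.Cls CL.P8 Equiv

universe u

namespace PIO1

theorem ct : O8.CT β0 μ0 α0 ν0 where
  bsq := rel (βx * βx) 1 (by decide +kernel)
  msq := rel (μx * μx) 1 (by decide +kernel)
  asq i := rel (αx i * αx i) 1 (by revert i; decide +kernel)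
  nsq i := rel (νx i * νx i) 1 (by revert i; decide +kernel)
  bm := (rel ((βx * μx) ^ 3) 1 (by decide +kernel) :)
  ord i := (rel ((αx i * νx i) ^ 3) 1 (by revert i; decide +kernel) :)
  aa i j := rel (αx i * αx j) (αx j * αx i) (by revert i j; decide +kernel)
  an i j h := rel (αx i * νx j) (νx j * αx i) (by revert i j; decide +kernel)
  nn i j := rel (νx i * νx j) (νx j * νx i) (by revert i j; decide +kernel)
  nb i := rel (νx i * βx * νx i) (αx i * βx * αx i * βx) (by revert i; decide +kernel)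
  ma i := rel (μx * αx i * μx) (αx i * βx * αx i * βx) (by revert i; decide +kernel)
  br i := rel (νx i * μx * νx i) (μx * νx i * μx) (by revert i; decide +kernel)

def E : Fin 8 → QM := ![⟨![(1, 1), (1, 0), (1, 0), (0, 1)], 0⟩, ⟨![(0, 1), (1, 1), (0, 1), (1, 1)], 0⟩,
  ⟨![(0, 1), (0, 1), (1, 1), (1, 1)], 0⟩, ⟨![(1, 0), (1, 0), (1, 0), (1, 0)], 0⟩, ⟨![(0, 1), (1, 1), (1, 1), (1, 0)], 0⟩,
  ⟨![(1, 0), (0, 1), (1, 0), (0, 1)], 1⟩, ⟨![(1, 0), (1, 0), (0, 1), (0, 1)], 0⟩, ⟨![(1, 1), (1, 1), (1, 1), (1, 1)], 0⟩]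

def cx (k : ℕ) : Ex := νx 2 ^ (k / 4) * νx 1 ^ (k / 2 % 2) * νx 0 ^ (k % 2)

def pr (n e : ℕ) : QM := E 0 ^ (n % 2) * E 1 ^ (n / 2 % 2) * E 2 ^ (n / 4 % 2) * E 3 ^ (n / 8 % 2) * E 4 ^ (n / 16 % 2) *
  E 5 ^ (n / 32 % 2) * E 6 ^ (n / 64 % 2) * E 7 ^ (n / 128) * (E 0 * E 7) ^ (2 * e)

theorem φQ (q : QM) : φ q ∈ Qg := φ_range ▸ ⟨q, rfl⟩

theorem Q_le {H : Subgroup Γ0} (hb : β0 ∈ H) (hn : ∀ i, ν0 i ∈ H) : Qg ≤ H := by
  have e : ∀ k, E k ∈ H.comap φ := fun k => by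
    have c : (cx k).ev g ∈ H := mul_mem (mul_mem (pow_mem (hn 2) _) (pow_mem (hn 1) _)) (pow_mem (hn 0) _)
    have r : (cx k).ev g * β0 * ((cx k).ev g)⁻¹ = φ (E k) :=
      rel (cx k * βx * (cx k)⁻¹) (qx (E k)) (by clear c; revert k; decide +kernel)
    exact mem_comap.2 (r ▸ mul_mem (mul_mem c hb) (inv_mem c))
  have p : ∀ n i, pr n i ∈ H.comap φ := fun n i =>
    mul_mem (mul_mem (mul_mem (mul_mem (mul_mem (mul_mem (mul_mem (mul_mem (pow_mem (e 0) _) (pow_mem (e 1) _))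
      (pow_mem (e 2) _)) (pow_mem (e 3) _)) (pow_mem (e 4) _)) (pow_mem (e 5) _)) (pow_mem (e 6) _)) (pow_mem (e 7) _))
      (pow_mem (mul_mem (e 0) (e 7)) _)
  rw [← φ_range]
  rintro _ ⟨q, rfl⟩
  refine QM.ind (H := H.comap φ) (fun k => ?_) q
  obtain ⟨⟨i, -, a⟩, j, -, b⟩ := (by decide +kernel : ∀ k : Fin 4, (∃ i < 2, pr (![233, 109, 107, 231] k) i = aq k) ∧
    ∃ j < 2, pr (![151, 219, 189, 121] k) j = bq k) k
  exact ⟨a ▸ p _ _, b ▸ p _ _⟩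

theorem C_le {H : Subgroup Γ0} (hQ : Qg ≤ H) (ha : ∀ i, α0 i ∈ H) (hn : ∀ i, ν0 i ∈ H) : C0 ≤ H := by
  have q : ∀ q, φ q ∈ H := fun q => hQ (φQ q)
  have m1 : s1 ∈ H := (mul_mem_cancel_left (q _)).1 (ha 0)
  have m2 : s2 ∈ H := (mul_mem_cancel_left (φ_z ▸ q zq : P8.z ∈ H)).1 (ha 1)
  have m3 : s3 ∈ H := (mul_mem_cancel_left (mul_mem (mul_mem (q _) m1) m2)).1 (ha 2)
  obtain ⟨p, a⟩ : ∃ p, φ p * d1 * d3 ^ 2 ∈ H := ⟨_, (mul_mem_cancel_right m1).1 (hn 0)⟩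
  obtain ⟨p', b⟩ : ∃ p, φ p * d1 * d3 ∈ H :=
    ⟨_, (mul_mem_cancel_right m1).1 ((mul_mem_cancel_right m2).1 ((mul_mem_cancel_right m3).1 (hn 2)))⟩
  obtain ⟨p'', c⟩ : ∃ p, φ p * d1 ^ 2 * d2 ^ 2 * d3 ^ 2 ∈ H := ⟨_, (mul_mem_cancel_right m2).1 (hn 1)⟩
  rw [mul_assoc, mul_mem_cancel_left (q _)] at a b
  have n3 : d3 ∈ H := (mul_mem_cancel_left b).1 (by rwa [mul_assoc, ← pow_two])
  have n1 : d1 ∈ H := (mul_mem_cancel_right n3).1 b
  rw [mul_mem_cancel_right (pow_mem n3 2), mul_mem_cancel_left (mul_mem (q _) (pow_mem n1 2))] at c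
  have n2 : d2 ∈ H := (show (d2 ^ 2) ^ 2 = d2 from (rel ((X.d2 ^ 2) ^ 2) X.d2 (by decide +kernel) :)) ▸ pow_mem c 2
  refine gen_le fun i hi => ?_
  have := List.mem_range.1 hi
  by_cases h : i < 8
  · exact hQ (mem_gen (List.mem_range.2 h))
  · obtain rfl | rfl | rfl | rfl | rfl | rfl : i = 8 ∨ i = 9 ∨ i = 10 ∨ i = 11 ∨ i = 12 ∨ i = 13 := by omega
    exacts [n1, n2, n3, m1, m2, m3]

end PIO1

open PIO1 in
theorem io1 : IO1 := by
  refine ⟨ct, ?_, le_antisymm (C_le le_sup_left (fun i => mem_sup_right (subset_closure (.inl ⟨i, rfl⟩)))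
    fun i => mem_sup_right (subset_closure (.inr ⟨i, rfl⟩))) (sup_le (Qg_le.trans S0_le) ((closure_le _).2 ?_))⟩
  · have hn : ∀ i, ν0 i ∈ O8.gen β0 μ0 α0 ν0 := fun i => subset_closure (.inr ⟨i, rfl⟩)
    have hQ := Q_le (subset_closure (.inl (.inl (.inl rfl)))) hn
    have hC := C_le hQ (fun i => subset_closure (.inl (.inr ⟨i, rfl⟩))) hn
    have hm : μ0 ∈ O8.gen β0 μ0 α0 ν0 := subset_closure (.inl (.inl (.inr rfl)))
    rw [eq_top_iff, ← gen_all]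
    refine gen_le fun i hi => ?_
    rcases Nat.lt_succ_iff_lt_or_eq.1 (List.mem_range.1 hi) with h | rfl
    · exact hC (mem_gen (List.mem_range.2 h))
    · exact (mul_mem_cancel_left (hQ (φQ _))).1 hm
  · have q : ∀ q, φ q ∈ C0 := fun q => S0_le (Qg_le (φQ q))
    have l : ∀ i, i < 14 → g i ∈ C0 := fun i hi => mem_gen (List.mem_range.2 hi)
    have a1 := l 8 (by decide)
    have a2 := l 9 (by decide)
    have a3 := l 10 (by decide)
    have b1 := l 11 (by decide)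
    have b2 := l 12 (by decide)
    have b3 := l 13 (by decide)
    rintro _ (⟨i, rfl⟩ | ⟨i, rfl⟩) <;> fin_cases i
    · exact mul_mem (q _) b1
    · exact mul_mem (φ_z ▸ q zq : P8.z ∈ C0) b2
    · exact mul_mem (mul_mem (mul_mem (q _) b1) b2) b3
    · exact mul_mem (mul_mem (mul_mem (q _) a1) (pow_mem a3 2)) b1
    · exact mul_mem (mul_mem (mul_mem (mul_mem (q _) (pow_mem a1 2)) (pow_mem a2 2)) (pow_mem a3 2)) b2
    · exact mul_mem (mul_mem (mul_mem (mul_mem (mul_mem (q _) a1) a3) b1) b2) b3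

end CL.N9.P
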