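/-
Extraspecial `F*(C(z))` of order `2 ^ 9` (S1763): the embedding of `Γ0` from the Curtis–Tits relations.
-/
import Cfsg.Agent.N9.PD
import Cfsg.Agent.Spor.O8CT

set_option autoImplicit false
set_option linter.unusedSectionVars false

namespace CL.N9.P

open Cfsg Subgroup CL.Even CL.Grp CL.WC CL.Cls CL.P8 Equiv

universe u

namespace PIO2

section
variable {A B : Type*} [Group A] [Group B]

theorem map_gen (f : A →* B) (b m : A) (a n : Fin 3 → A) :
    (O8.gen b m a n).map f = O8.gen (f b) (f m) (fun i => f (a i)) (fun i => f (n i)) := by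
  rw [O8.gen, O8.gen, MonoidHom.map_closure, Set.image_union, Set.image_union, Set.image_pair, ← Set.range_comp,
    ← Set.range_comp]
  rfl

theorem ct_of_inj (f : A →* B) (hf : Function.Injective f) {b m : A} {a n : Fin 3 → A}
    (h : O8.CT (f b) (f m) (fun i => f (a i)) (fun i => f (n i))) : O8.CT b m a n where
  bsq := hf (by simpa using h.bsq)
  msq := hf (by simpa using h.msq)
  asq i := hf (by simpa using h.asq i)
  nsq i := hf (by simpa using h.nsq i)
  bm := hf (by simpa using h.bm)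
  ord i := hf (by simpa using h.ord i)
  aa i j := hf (by simpa using (h.aa i j).eq)
  an i j hij := hf (by simpa using (h.an i j hij).eq)
  nn i j := hf (by simpa using (h.nn i j).eq)
  nb i := hf (by simpa using h.nb i)
  ma i := hf (by simpa using h.ma i)
  br i := hf (by simpa using h.br i)

theorem ct_prod {b m : A} {a n : Fin 3 → A} {b' m' : B} {a' n' : Fin 3 → B} (h : O8.CT b m a n)
    (k : O8.CT b' m' a' n') : O8.CT (b, b') (m, m') (fun i => (a i, a' i)) (fun i => (n i, n' i)) where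
  bsq := Prod.ext h.bsq k.bsq
  msq := Prod.ext h.msq k.msq
  asq i := Prod.ext (h.asq i) (k.asq i)
  nsq i := Prod.ext (h.nsq i) (k.nsq i)
  bm := Prod.ext h.bm k.bm
  ord i := Prod.ext (h.ord i) (k.ord i)
  aa i j := Prod.ext (h.aa i j).eq (k.aa i j).eq
  an i j hij := Prod.ext (h.an i j hij).eq (k.an i j hij).eq
  nn i j := Prod.ext (h.nn i j).eq (k.nn i j).eq
  nb i := Prod.ext (h.nb i) (k.nb i)
  ma i := Prod.ext (h.ma i) (k.ma i)
  br i := Prod.ext (h.br i) (k.br i)

theorem b_mem (b m : A) (a n : Fin 3 → A) : b ∈ O8.gen b m a n := subset_closure (by simp)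
theorem m_mem (b m : A) (a n : Fin 3 → A) : m ∈ O8.gen b m a n := subset_closure (by simp)
theorem a_mem (b m : A) (a n : Fin 3 → A) (i : Fin 3) : a i ∈ O8.gen b m a n := subset_closure (by simp)
theorem n_mem (b m : A) (a n : Fin 3 → A) (i : Fin 3) : n i ∈ O8.gen b m a n := subset_closure (by simp)

end

theorem cenΓ {x : Γ0} (h : ∀ γ, γ * x = x * γ) : x = 1 := by
  rcases (inferInstance : (center Γ0).Normal).eq_bot_or_eq_top with e | e
  · exact mem_bot.1 (e ▸ mem_center_iff.2 h)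
  · exfalso
    letI : CommGroup Γ0 := { (inferInstance : Group Γ0) with
      mul_comm := fun a b => mem_center_iff.1 (e ▸ mem_top b) a }
    have hp : (Nat.card Γ0).Prime := IsSimpleGroup.prime_card
    rw [card_Γ0] at hp
    norm_num at hp

end PIO2

open PIO2

theorem io2 (h : IO1) : IO2.{u} := by
  intro G _ _ b m a n hct hb hZ
  have hp := ct_prod hct h.1
  set J : Subgroup (G × Γ0) := O8.gen (b, β0) (m, μ0) (fun i => (a i, α0 i)) (fun i => (n i, ν0 i)) with hJ
  let bJ : J := ⟨_, b_mem _ _ _ _⟩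
  let mJ : J := ⟨_, m_mem _ _ _ _⟩
  let aJ : Fin 3 → J := fun i => ⟨_, a_mem _ _ _ _ i⟩
  let nJ : Fin 3 → J := fun i => ⟨_, n_mem _ _ _ _ i⟩
  have hc : O8.CT bJ mJ aJ nJ := ct_of_inj J.subtype J.subtype_injective hp
  have hg : O8.gen bJ mJ aJ nJ = ⊤ := by
    apply map_injective J.subtype_injective
    rw [map_gen, ← MonoidHom.range_eq_map, range_subtype]
    rfl
  have h1 : J.map (MonoidHom.fst G Γ0) = O8.gen b m a n := map_gen _ _ _ _ _
  have h2 : J.map (MonoidHom.snd G Γ0) = ⊤ := (map_gen _ _ _ _ _).trans h.2.1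
  have hzJ : center J = ⊥ := by
    rw [eq_bot_iff]
    intro x hx
    rw [mem_center_iff] at hx
    have e1 : (x : G × Γ0).1 = 1 := by
      have hm : (x : G × Γ0).1 ∈ O8.gen b m a n := h1 ▸ mem_map_of_mem (MonoidHom.fst G Γ0) x.2
      have : (⟨_, hm⟩ : O8.gen b m a n) ∈ center (O8.gen b m a n) := by
        rw [mem_center_iff]
        rintro ⟨y, hy⟩
        rw [← h1] at hy
        obtain ⟨w, hw, rfl⟩ := hy
        exact Subtype.ext (congrArg (fun t : J => (t : G × Γ0).1) (hx ⟨w, hw⟩))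
      rw [hZ, mem_bot] at this
      exact congrArg Subtype.val this
    have e2 : (x : G × Γ0).2 = 1 := cenΓ fun γ => by
      obtain ⟨w, hw, rfl⟩ : γ ∈ J.map (MonoidHom.snd G Γ0) := h2 ▸ mem_top γ
      exact congrArg (fun t : J => (t : G × Γ0).2) (hx ⟨w, hw⟩)
    exact mem_bot.2 (Subtype.ext (Prod.ext e1 e2))
  haveI : Nontrivial J := ⟨bJ, 1, fun e => hb (congrArg (fun t : J => (t : G × Γ0).1) e)⟩
  obtain ⟨e⟩ := O8.ct8 J bJ mJ aJ nJ hc hg hzJ
  obtain ⟨e'⟩ := iso_Γ0 (F := ZMod 2) (ZMod.card 2)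
  let s : J →* Γ0 := (MonoidHom.snd G Γ0).comp J.subtype
  have hs : Function.Surjective s := fun γ => by
    obtain ⟨w, hw, rfl⟩ : γ ∈ J.map (MonoidHom.snd G Γ0) := h2 ▸ mem_top γ
    exact ⟨⟨w, hw⟩, rfl⟩
  have hbij : Function.Bijective s :=
    (Nat.bijective_iff_surjective_and_card s).2 ⟨hs, Nat.card_congr (e.trans e'.symm).toEquiv⟩
  let σ : J ≃* Γ0 := MulEquiv.ofBijective s hbij
  let ι : Γ0 →* G := ((MonoidHom.fst G Γ0).comp J.subtype).comp σ.symm.toMonoidHom
  have key : ∀ w : J, ι (w : G × Γ0).2 = (w : G × Γ0).1 := fun w =>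
    congrArg (fun t : J => (t : G × Γ0).1) (σ.symm_apply_apply w)
  refine ⟨ι, ?_, key bJ, key mJ, fun i => key (aJ i), fun i => key (nJ i)⟩
  rcases (inferInstance : ι.ker.Normal).eq_bot_or_eq_top with k | k
  · exact (MonoidHom.ker_eq_bot_iff ι).1 k
  · exact absurd ((key bJ).symm.trans (MonoidHom.mem_ker.1 (k ▸ mem_top _))) hb

end CL.N9.P
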