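/-
Extraspecial `F*(C(z))` of order `2 ^ 9` (S1763): the coordinates of the embedding of `Γ0`.
-/
import Cfsg.Agent.N9.PD

set_option autoImplicit false
set_option linter.unusedSectionVars false

namespace CL.N9.P

open Cfsg Subgroup CL.Even CL.Grp CL.WC CL.Cls CL.P8 Equiv

universe u

namespace PIO3x

/-- the vectors with `κ (ee k) = e k` -/
def ee : Fin 8 → V := ![![(1, 1), (1, 0), (1, 0), (0, 1)], ![(0, 1), (1, 1), (0, 1), (1, 1)],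
  ![(0, 1), (0, 1), (1, 1), (1, 1)], ![(1, 0), (1, 0), (1, 0), (1, 0)], ![(0, 1), (1, 1), (1, 1), (1, 0)],
  ![(1, 0), (0, 1), (1, 0), (0, 1)], ![(1, 0), (1, 0), (0, 1), (0, 1)], ![(1, 1), (1, 1), (1, 1), (1, 1)]]

theorem κ_ee : ∀ k, κ (ee k) = O8.e k := by decide +kernel

theorem span (v : V) : v = (κ v 0).val • ee 0 + (κ v 1).val • ee 1 + (κ v 2).val • ee 2 + (κ v 3).val • ee 3 +
    (κ v 4).val • ee 4 + (κ v 5).val • ee 5 + (κ v 6).val • ee 6 + (κ v 7).val • ee 7 := by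
  revert v; decide +kernel

theorem z_eq : μ0 * (ν0 0 * (ν0 1 * (ν0 2 * β0 * ν0 2) * ν0 1) * ν0 0) * μ0 = P8.z :=
  rel (μx * (νx 0 * (νx 1 * (νx 2 * βx * νx 2) * νx 1) * νx 0) * μx) X.z (by decide +kernel)

/-- the steps `(i, j, k)`: conjugation by `ν0 i` maps `ee j` to `ee k` -/
def steps : List (Fin 3 × Fin 8 × Fin 8) :=
  [(0, 0, 1), (1, 0, 2), (0, 2, 3), (2, 0, 4), (0, 4, 5), (1, 4, 6), (0, 6, 7)]

theorem step_rel : ∀ t ∈ steps, ∃ e, ν0 t.1 * φ ⟨ee t.2.1, 0⟩ * (ν0 t.1)⁻¹ = φ ⟨ee t.2.2, e⟩ := by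
  have : ∀ t ∈ steps, ∃ e : ZMod 2, CL.P8.M.chk
      [((νx t.1 * qx ⟨ee t.2.1, 0⟩ * (νx t.1)⁻¹).wd, (qx ⟨ee t.2.2, e⟩).wd)] = true := by decide +kernel
  intro t ht
  obtain ⟨e, he⟩ := this t ht
  exact ⟨e, rel _ _ he⟩

theorem step_act : ∀ t ∈ steps, O8.act (O8.ν t.1) (O8.e t.2.1) = O8.e t.2.2 := by
  intro t ht
  funext k
  rw [O8.act_e]
  revert t k
  decide +kernel

variable {G : Type u} [Group G] [Finite G] {z : G} (M : OM qp z) (ψ : QM →* G)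

theorem all_e (H : Hy z) (hz : ψ zq = z) {v : V} {e : ZMod 2} (h : ψ ⟨v, e⟩ ∈ QQ z ∧ M.π (ψ ⟨v, e⟩) = κ v)
    (e' : ZMod 2) : ψ ⟨v, e'⟩ ∈ QQ z ∧ M.π (ψ ⟨v, e'⟩) = κ v := by
  rcases QM.eq_or (p := ⟨v, e'⟩) (q := ⟨v, e⟩) rfl with k | k
  · rw [k]; exact h
  · rw [k, map_mul, hz]
    exact ⟨mul_mem h.1 H.zQ, by rw [M.π_mul h.1 H.zQ, M.π_z H, add_zero, h.2]⟩

/-- the vectors with the right coordinates -/
def good : AddSubmonoid V where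
  carrier := {v | ∃ e, ψ ⟨v, e⟩ ∈ QQ z ∧ M.π (ψ ⟨v, e⟩) = κ v}
  zero_mem' := ⟨0, by
    rw [show (⟨0, 0⟩ : QM) = 1 from rfl, map_one]
    exact ⟨one_mem _, by rw [M.π_one]; decide +kernel⟩⟩
  add_mem' := fun {v w} ⟨e, h1, h2⟩ ⟨f, h3, h4⟩ => ⟨e + f + coc v w, by
    rw [show (⟨v + w, e + f + coc v w⟩ : QM) = ⟨v, e⟩ * ⟨w, f⟩ from rfl, map_mul]
    exact ⟨mul_mem h1 h3, by rw [M.π_mul h1 h3, h2, h4, κ_add]⟩⟩

theorem good_all (h : ∀ k, ee k ∈ good M ψ) (v : V) : v ∈ good M ψ := by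
  rw [span v]
  refine add_mem (add_mem (add_mem (add_mem (add_mem (add_mem (add_mem ?_ ?_) ?_) ?_) ?_) ?_) ?_) ?_ <;>
    exact nsmul_mem (h _) _

end PIO3x

open PIO3x

theorem io3 : IO3.{u} := by
  intro G _ _ z x M S b m a f n R L hx ι hi hb hm ha hn
  have H := S.hy
  have hz : ι P8.z = z := by
    rw [← z_eq]
    simp only [map_mul, hb, hm, hn]
    rw [hx, show m * (m * z * m) * m = (m * m) * z * (m * m) by group, R.msq, one_mul, mul_one]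
  have hz' : (ι.comp φ) zq = z := (psi_z ι).trans hz
  have st : ∀ t ∈ steps, ee t.2.1 ∈ good M (ι.comp φ) → ee t.2.2 ∈ good M (ι.comp φ) := by
    intro t ht ⟨e0, h0⟩
    obtain ⟨h1, h2⟩ := all_e M _ H hz' h0 0
    obtain ⟨e, he⟩ := step_rel t ht
    have k : (ι.comp φ) ⟨ee t.2.2, e⟩ = n t.1 * (ι.comp φ) ⟨ee t.2.1, 0⟩ * (n t.1)⁻¹ := by
      rw [MonoidHom.comp_apply, ← he, map_mul, map_mul, map_inv, hn]; rfl
    refine ⟨e, ?_⟩
    rw [k]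
    exact ⟨H.cmem (L.ac _).1 h1, by rw [(L.ac _).π h1, h2, κ_ee, κ_ee, step_act t ht]⟩
  have g0 : ee 0 ∈ good M (ι.comp φ) := ⟨0, by
    rw [show (ι.comp φ) ⟨ee 0, 0⟩ = b from hb]
    exact ⟨R.bQ, by rw [R.πb, κ_ee]⟩⟩
  have g1 := st (0, 0, 1) (by decide) g0
  have g2 := st (1, 0, 2) (by decide) g0
  have g3 := st (0, 2, 3) (by decide) g2
  have g4 := st (2, 0, 4) (by decide) g0
  have g5 := st (0, 4, 5) (by decide) g4
  have g6 := st (1, 4, 6) (by decide) g4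
  have g7 := st (0, 6, 7) (by decide) g6
  have ga : ∀ q : QM, (ι.comp φ) q ∈ QQ z ∧ M.π ((ι.comp φ) q) = κ q.v := fun q => by
    obtain ⟨e, he⟩ := good_all M (ι.comp φ) (fun k => by
      fin_cases k
      exacts [g0, g1, g2, g3, g4, g5, g6, g7]) q.v
    exact all_e M _ H hz' he q.e
  have inj : Function.Injective (ι.comp φ) := hi.comp φ_inj
  have hQ : (ι.comp φ).range = QQ z := by
    refine eq_of_le_of_card_ge (fun _ ⟨q, e⟩ => e ▸ (ga q).1) ?_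
    rw [H.card, ← card_QM]
    exact (Nat.card_congr (MonoidHom.ofInjective inj).toEquiv).le
  have nq : ∀ c, Commute c z → Nq (ι.comp φ) c := fun c hc q => by
    obtain ⟨q', e⟩ : c * (ι.comp φ) q * c⁻¹ ∈ (ι.comp φ).range := hQ ▸ H.cmem hc (ga q).1
    exact ⟨q', e.symm⟩
  have hact : ∀ c, Commute c z → ∀ v, κ (act (ι.comp φ) c v) = (M.ρ c).1 (κ v) := fun c hc v => by
    obtain ⟨e, he⟩ := act_spec inj (hz' ▸ hc) (nq c hc) ⟨v, 0⟩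
    have k := M.π_conj hc (ga ⟨v, 0⟩).1
    rw [he, (ga _).2, (ga _).2] at k
    exact k
  refine ⟨⟨hi, inj, fun c hc => nq c (hz' ▸ hc), fun c hc h => ?_⟩, hz, hQ, fun q => (ga q).2, hact,
    fun i => ha i ▸ R.ac i, fun i => hn i ▸ L.ac i⟩
  rw [hz'] at hc
  rw [hQ]
  refine (M.ker hc).1 (OG.ext' fun w => ?_)
  obtain ⟨v, rfl⟩ := κ_surj w
  rw [← hact c hc, h]; rfl

end CL.N9.P
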