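/-
Extraspecial `F*(C(z))` of order `2 ^ 9` (S1763), 81 points: the cores of `O²(C(E) / E)`.
-/
import Cfsg.Agent.N9.PD
import Cfsg.Agent.P8.NB
import Cfsg.Agent.Grp.SylowIn

set_option autoImplicit false

namespace CL.P8.PNBx

open Cfsg Subgroup CL.Grp NBa
open CL.N9.P (NL SylM SY MB Tb)

universe u

variable {G : Type u} [Group G] [Finite G] {ι : Γ0 →* G} {y k : G}

theorem core2 (h : St0 ι) (hS : SylM ι) (hY : SY ι) (hk : Kap ι k) : pCore 2 (MB ι) = ⊥ := by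
  rw [← pCoreOf_subgroupOf]
  suffices e : pCoreOf 2 (MB ι) = ⊥ by rw [e, bot_subgroupOf]
  by_contra hne
  have hT : IsPGroup 2 (Tb ι) := IsPGroup.of_card (n := 6) hS.card
  have hle : pCoreOf 2 (MB ι) ≤ Tb ι := IsSylowIn.le_of_normalized ⟨hY.le, hT, hY.odd⟩ (pCoreOf_isPGroup 2 _)
    (map_subtype_le _) le_normalizer_of_normal
  obtain ⟨⟨t, ht⟩, t1⟩ := ne_bot_iff_exists_ne_one.1
    (CL.Even.inf_cent_ne_bot (pCoreOf_isPGroup 2 _) hT le_normalizer_of_normal hne)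
  obtain rfl := (hS.uniq t (hle ht.1) ht.2).resolve_left fun e => t1 (Subtype.ext e)
  have h1 := w_ov hk ht.1
  have r1 : d3 * w1 * d3⁻¹ = x4 := rel (X.d3 * X.w1 * X.d3⁻¹) X.x4 (by decide +kernel)
  have h2 : w1 * x4 ∈ ov ι (pCoreOf 2 (MB ι)) := mul_mem h1 (by rw [← r1]; exact conj_ov (x := d3) mc h1)
  have h3 : (w1 * x4) ^ 3 = 1 := (rel ((X.w1 * X.x4) ^ (3 : ℕ)) 1 (by decide +kernel) :)
  have h4 := eq_one_of_coprime_of_mem (pCoreOf_isPGroup 2 _) ((mem_ov (mul_mem mc mc)).1 h2)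
    (cop (by rw [← map_pow, show (⟨w1 * x4, mul_mem mc mc⟩ : CE) ^ 3 = 1 from Subtype.ext h3, map_one]))
  have h5 : ι (w1 * x4) * ι (w1 * x4) = 1 :=
    E_sq ((QuotientGroup.eq_one_iff (N := EE ι) ⟨ι (w1 * x4), CE_NN ι (mul_mem mc mc)⟩).1 h4)
  rw [← map_mul, map_eq_one_iff _ h.inj] at h5
  rw [pow_succ, sq, h5, one_mul] at h3
  exact ne1 (X.w1 * X.x4) (by decide +kernel) h3

theorem fpf (h : St0 ι) (hL : NL ι) (hS : SylM ι) : oddCore (NB ι) ⊓ centralizer {zb ι} = ⊥ := by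
  refine eq_bot_iff.2 fun t ht => ?_
  obtain ⟨x, rfl⟩ := QuotientGroup.mk_surjective t
  have h2 : Commute (x : G) (ι z) := hL.cmk x (mem_centralizer_singleton_iff.1 ht.2)
  have h3 : ∀ q, φ q ∈ CE → x * ι (φ q) * (x : G)⁻¹ * (ι (φ q))⁻¹ ∈ closure {ι e1, ι e2} := fun q hq => by
    obtain ⟨q', e⟩ := h.xq.nq x (psi_z ι ▸ h2) q
    have h4 : (x * ι (φ q) * (x : G)⁻¹ * (ι (φ q))⁻¹) ^ 2 ^ 2 = 1 := by
      change ((x : G) * (ι.comp φ) q * (x : G)⁻¹ * ((ι.comp φ) q)⁻¹) ^ 2 ^ 2 = 1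
      rw [e, ← map_inv, ← map_mul, ← map_pow, sq 2, pow_mul, sq, sq, QM.sq (q' * q⁻¹), QM.sq, coc_zero_left]
      exact map_one _
    refine (QuotientGroup.eq_one_iff (N := EE ι) (x * ⟨_, CE_NN ι hq⟩ * x⁻¹ * (⟨_, CE_NN ι hq⟩ : NN ι)⁻¹)).1
      (odd_one ?_ (n := 2) ?_)
    · have := mul_mem ht.1 (Normal.conj_mem inferInstance _ (inv_mem ht.1) (ν ι ⟨_, hq⟩))
      rwa [← mul_assoc, ← mul_assoc] at this
    · rw [← QuotientGroup.mk_pow]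
      exact congrArg (QuotientGroup.mk (s := EE ι)) (Subtype.ext h4)
  rcases hL.u x x.2 h2 (by
    simp only [List.forall_mem_cons, ← φ_a, ← φ_b]
    exact ⟨h3 _ (φ_a 2 ▸ mc (i := 2)), h3 _ (φ_b 2 ▸ mc (i := 6)), h3 _ (φ_a 3 ▸ mc (i := 3)),
      h3 _ (φ_b 3 ▸ mc (i := 7)), by simp⟩) with e | e
  · exact (QuotientGroup.eq_one_iff _).2 e
  · have h4 : (x : NB ι) * zb ι = 1 := 
      (QuotientGroup.eq_one_iff (N := EE ι) (x * (⟨ι z, CE_NN ι z_CE⟩ : NN ι))).2 e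
    refine odd_one ht.1 (n := 1) ?_
    rw [eq_inv_of_mul_eq_one_left h4, pow_one, inv_pow, ← hS.ord, pow_orderOf_eq_one, inv_one]

theorem coreO (h : St0 ι) (hL : NL ι) (hS : SylM ι) (hk : Kap ι k) : oddCore (NB ι) = ⊥ := by
  have h0 := fpf h hL hS
  have h1 : ∀ t, IsConj (ν ι ⟨w1, mc⟩) t → ∀ x ∈ oddCore (NB ι), t * x * t⁻¹ = x⁻¹ := fun t ht x hx => by
    obtain ⟨c, rfl⟩ := isConj_iff.1 ((conj_zw hk).symm.trans ht)
    have := CL.Even.inverts_of_inf_cent_eq_bot (by rw [← sq, ← hS.ord, pow_orderOf_eq_one])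
      (le_normalizer_of_normal (mem_top _)) h0 (Normal.conj_mem' inferInstance x hx c)
    calc _ = c * (zb ι * (c⁻¹ * x * c) * (zb ι)⁻¹) * c⁻¹ := by group
      _ = _ := by rw [this]; group
  have h2 : ∀ {u v : Γ0} (hu : u ∈ CE) (hv : v ∈ CE), u * w1 * u⁻¹ = v → IsConj (ν ι ⟨w1, mc⟩) (ν ι ⟨v, hv⟩) :=
    fun hu hv e => (ν ι).map_isConj (isConj_iff.2 ⟨⟨_, hu⟩, Subtype.ext e⟩)
  have i1 := h1 _ (IsConj.refl _)
  have i2 := h1 _ (h2 (mc (i := 6)) (mc (i := 22)) (rel (X.b 2 * X.w1 * (X.b 2)⁻¹) X.w2 (by decide +kernel)))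
  have i3 := h1 _ (h2 (mc (i := 7)) (mc (i := 23)) (rel (X.b 3 * X.w1 * (X.b 3)⁻¹) X.w3 (by decide +kernel)))
  have i4 := h1 _ (h2 (mc (i := 2)) (mc (i := 24)) (rel (X.a 2 * X.w1 * (X.a 2)⁻¹) X.w4 (by decide +kernel)))
  have e : ν ι ⟨w1, mc⟩ * (ν ι ⟨w2, mc⟩ * (ν ι ⟨w3, mc⟩ * ν ι ⟨w4, mc⟩)) = zb ι := by
    rw [← map_mul, ← map_mul, ← map_mul]
    exact congrArg (ν ι) (Subtype.ext (rel (X.w1 * (X.w2 * (X.w3 * X.w4))) X.z (by decide +kernel)))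
  refine eq_bot_iff.2 fun x hx => h0.le ⟨hx, mem_centralizer_singleton_iff.2 (mul_inv_eq_iff_eq_mul.1 ?_).symm⟩
  have cj : ∀ s t : NB ι, s * t * x * (s * t)⁻¹ = s * (t * x * t⁻¹) * s⁻¹ := fun s t => by group
  rw [← e, cj, cj, cj, i4 x hx, i3 _ (inv_mem hx), inv_inv, i2 x hx, i1 _ (inv_mem hx), inv_inv]

theorem nine (h : St0 ι) (hy : Yel ι y) (hd : Commute y (ι d3)) :
    9 ∣ Nat.card (centralizer {zb ι} ⊓ MB ι : Subgroup (NB ι)) := by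
  have := Fact.mk Nat.prime_three
  have a0 := hy.ca 0 (by decide)
  have a1 := hy.ca 1 (by decide)
  have cz : Commute y (ι z) := by rw [← q8s.aa 0, map_mul]; exact a0.mul_right a0
  have yN : y ∈ NN ι := mem_NN.2 ⟨by
    rw [show e1 = a 0 * a 1 * z from rel X.e1 (X.a 0 * X.a 1 * X.z) (by decide +kernel), map_mul, map_mul]
    exact (a0.mul_right a1).mul_right cz, by
    rw [show e2 = b 0 * a 1 * b 1 from rel X.e2 (X.b 0 * X.a 1 * X.b 1) (by decide +kernel), map_mul, map_mul]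
    exact ((hy.cb 0 (by decide)).mul_right a1).mul_right (hy.cb 1 (by decide))⟩
  have key : ∀ (u : CE) (v : NN ι), ν ι u = v → ∀ p ∈ CE, ι (u * p * (u : Γ0)⁻¹) = v * ι p * (v : G)⁻¹ :=
    fun u v e p hp => by
      have := (EE_comm (e := (ι u)⁻¹ * v) 
        ((QuotientGroup.eq (s := EE ι) (a := ⟨ι u, CE_NN ι u.2⟩) (b := v)).1 e) (CE_NN ι hp)).eq
      calc _ = ι u * (ι p * ((ι u)⁻¹ * v)) * (v : G)⁻¹ := by rw [map_mul, map_mul, map_inv]; group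
        _ = _ := by rw [this]; group
  have n2 : ∀ u : CE, ∀ v : NN ι, Commute (v : G) (ι (a 2)) → u * a 2 * (u : Γ0)⁻¹ * (a 2)⁻¹ ≠ 1 → ν ι u ≠ v :=
    fun u v c m e => m (mul_inv_eq_one.2 (h.inj ((key u v e _ (mc (i := 2))).trans (mul_inv_eq_iff_eq_mul.2 c.eq))))
  have o3 : orderOf (ν ι ⟨d3, mc⟩) = 3 := orderOf_eq_prime d_cube
    (n2 ⟨d3, mc⟩ 1 (Commute.one_left _) (ne1 (X.d3 * X.a 2 * X.d3⁻¹ * (X.a 2)⁻¹) (by decide +kernel)))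
  have ny : ((⟨y, yN⟩ : NN ι) : NB ι) ∉ zpowers (ν ι ⟨d3, mc⟩) := fun m => by
    classical
    rw [mem_zpowers_iff_mem_range_orderOf, o3] at m
    obtain ⟨n, hn, e⟩ := Finset.mem_image.1 m
    rw [← map_pow] at e
    have hn := Finset.mem_range.1 hn
    interval_cases n
    · have m : a 3 * (b 3)⁻¹ ≠ 1 := ne1 (X.a 3 * (X.b 3)⁻¹) (by decide +kernel)
      refine m (mul_inv_eq_one.2 (h.inj ?_))
      have := (key _ _ e (a 3) (mc (i := 3))).trans hy.ya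
      rwa [pow_zero, coe_one, inv_one, one_mul, mul_one] at this
    · have m : d3 ^ 1 * a 2 * (d3 ^ 1)⁻¹ * (a 2)⁻¹ ≠ 1 :=
        (ne1 (X.d3 ^ (1 : ℕ) * X.a 2 * (X.d3 ^ (1 : ℕ))⁻¹ * (X.a 2)⁻¹) (by decide +kernel) :)
      exact n2 (⟨d3, mc⟩ ^ 1) ⟨y, yN⟩ (hy.ca 2 (by decide)) m e
    · have m : d3 ^ 2 * a 2 * (d3 ^ 2)⁻¹ * (a 2)⁻¹ ≠ 1 :=
        (ne1 (X.d3 ^ (2 : ℕ) * X.a 2 * (X.d3 ^ (2 : ℕ))⁻¹ * (X.a 2)⁻¹) (by decide +kernel) :)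
      exact n2 (⟨d3, mc⟩ ^ 2) ⟨y, yN⟩ (hy.ca 2 (by decide)) m e
  have cm : ∀ {u v : NN ι}, Commute (u : G) v → Commute (u : NB ι) v := fun c =>
    Commute.map (show Commute _ _ from Subtype.ext c.eq) (QuotientGroup.mk' (EE ι))
  have yc : ((⟨y, yN⟩ : NN ι) : NB ι) ^ 3 = 1 :=
    (QuotientGroup.mk_pow _ _ _).symm.trans (congrArg (QuotientGroup.mk (s := EE ι)) (Subtype.ext hy.cube))
  have hP := CL.Even.isPGroup_sup' (p := 3) (CL.Even.isPGroup_zpowers (k := 1) (d_cube (ι := ι)))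
    (CL.Even.isPGroup_zpowers (k := 1) (x := ((⟨y, yN⟩ : NN ι) : NB ι)) yc)
    (zpowers_le.2 (centralizer_le_normalizer _ fun t ⟨n, e⟩ => e ▸ ((cm hd).zpow_right n).symm.eq))
  obtain ⟨n, hn⟩ := hP.exists_card_eq
  have lt : Nat.card (zpowers (ν ι ⟨d3, mc⟩)) < 3 ^ n := hn ▸ lt_of_le_of_ne
    (card_le_of_le le_sup_left) fun e =>
      ny ((eq_of_le_of_card_ge le_sup_left e.ge).ge (mem_sup_right (mem_zpowers _)))
  rw [Nat.card_zpowers, o3] at lt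
  refine ((pow_dvd_pow 3 (show 2 ≤ n from (Nat.pow_lt_pow_iff_right (by decide)).1 (show 3 ^ 1 < _ from lt))).trans
    hn.symm.dvd).trans (card_dvd_of_le (sup_le
      (zpowers_le.2 ⟨mem_centralizer_singleton_iff.2 (cm ?_).eq, mem_pResidual_of_coprime (cop d_cube)⟩)
      (zpowers_le.2 ⟨mem_centralizer_singleton_iff.2 (cm cz).eq, mem_pResidual_of_coprime (cop yc)⟩)))
  exact Commute.map (rel (X.d3 * X.z) (X.z * X.d3) (by decide +kernel) : d3 * z = z * d3) ι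

end CL.P8.PNBx

namespace CL.N9.P

open Cfsg Subgroup CL.Grp CL.P8

universe u

theorem nbt : NBT.{u} := fun _ _ _ _ h hL hS hY _ _ hy hd hk =>
  ⟨PNBx.core2 h.st hS hY hk,
    pPrimeCore_eq_bot_of_isSubnormal (Normal.isSubnormal inferInstance) (PNBx.coreO h.st hL hS hk),
    PNBx.nine h.st hy hd⟩

end CL.N9.P
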