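/-
Extraspecial `F*(C(z))` of order `2 ^ 9` (S1763): local facts on the centraliser of the four-group.
-/
import Cfsg.Agent.N9.PD
import Cfsg.Agent.P8.NA

set_option autoImplicit false
set_option linter.unusedSectionVars false

namespace CL.N9.P

open Cfsg Subgroup CL.Even CL.Grp CL.WC CL.Cls CL.P8 CL.P8.NA Equiv

universe u

variable {G : Type u} [Group G] {ι : Γ0 →* G}

namespace PNL

variable (S : S81 ι)
include S

theorem nz {e : G} (he : e ∈ closure {ι e1, ι e2}) (hz : IsConj (ι P8.z) (ι P8.z * e)) : e = 1 := by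
  obtain ⟨q, hq, rfl⟩ := mem_E' he
  have := (S.w.hsup (zq * q)).1 (by rwa [map_mul, psi_z])
  obtain rfl : q = 1 := by clear hz he; revert q; decide +kernel
  exact map_one _

theorem nE {t : G} (ht : IsConj (ι P8.z) t) : t ∉ closure {ι e1, ι e2} := fun m => by
  obtain ⟨q, hq, rfl⟩ := mem_E' m
  have := (S.w.hsup q).1 ht
  clear ht m
  revert q; decide +kernel

theorem ty (nr : NR (ι P8.z) (ι.comp φ)) {x : G} (hx : x ∈ NN ι) (hz : Commute x (ι P8.z)) :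
    ∃ c t2 t3, act (ι.comp φ) x = mon 1 ![0, 0, c, c] ![0, 0, t2, t3] ∨
      act (ι.comp φ) x = mon τ0 ![1, 1, c, c] ![2, 2, t2, t3] := by
  obtain ⟨σ, s, t, hs, e⟩ := S.w.mono x hz
  obtain ⟨f1, f2⟩ := fixE S.st hx hz
  rw [e] at f1 f2
  have h3 : ∀ k, qe1.v k = 0 ↔ qe1.v (σ⁻¹ k) = 0 := fun k => by rw [← mon_zero_iff σ s t, f1]
  have fin : ∀ (c : ZMod 2) (d : ZMod 3), (s 0 = c ∧ t 0 = d) → (s 1 = c ∧ t 1 = d) →
      s 0 = s 1 ∧ s 2 = s 3 ∧ s = ![c, c, s 2, s 2] ∧ t = ![d, d, t 2, t 3] := fun c d h0 h1 => by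
    have h23 : s 2 = s 3 := (by decide : ∀ c a b : ZMod 2, c + c + a + b = 0 → a = b) c _ _ (by rwa [h0.1, h1.1] at hs)
    refine ⟨h0.1.trans h1.1.symm, h23, funext fun k => ?_, funext fun k => ?_⟩ <;> fin_cases k
    exacts [h0.1, h1.1, rfl, h23.symm, h0.2, h1.2, rfl, rfl]
  have ev : ∀ {v : V} {k l}, mon σ s t v = v → σ⁻¹ k = l → R2^[(t k).val] (Sw^[(s k).val] (v l)) = v k :=
    fun f i => by rw [← i]; exact congrFun f _
  have A : σ⁻¹ 0 = 0 → σ⁻¹ 1 = 1 → _ := fun i0 i1 => fin 0 0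
    ((by decide +kernel : ∀ (s : ZMod 2) (t : ZMod 3), R2^[t.val] (Sw^[s.val] (qe1.v 0)) = qe1.v 0 →
      R2^[t.val] (Sw^[s.val] (qe2.v 0)) = qe2.v 0 → s = 0 ∧ t = 0) _ _ (ev f1 i0) (ev f2 i0))
    ((by decide +kernel : ∀ (s : ZMod 2) (t : ZMod 3), R2^[t.val] (Sw^[s.val] (qe1.v 1)) = qe1.v 1 →
      R2^[t.val] (Sw^[s.val] (qe2.v 1)) = qe2.v 1 → s = 0 ∧ t = 0) _ _ (ev f1 i1) (ev f2 i1))
  have C : σ⁻¹ 0 = 1 → σ⁻¹ 1 = 0 → _ := fun i0 i1 => fin 1 2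
    ((by decide +kernel : ∀ (s : ZMod 2) (t : ZMod 3), R2^[t.val] (Sw^[s.val] (qe1.v 1)) = qe1.v 0 →
      R2^[t.val] (Sw^[s.val] (qe2.v 1)) = qe2.v 0 → s = 1 ∧ t = 2) _ _ (ev f1 i0) (ev f2 i0))
    ((by decide +kernel : ∀ (s : ZMod 2) (t : ZMod 3), R2^[t.val] (Sw^[s.val] (qe1.v 0)) = qe1.v 1 →
      R2^[t.val] (Sw^[s.val] (qe2.v 0)) = qe2.v 1 → s = 1 ∧ t = 2) _ _ (ev f1 i1) (ev f2 i1))
  obtain rfl | rfl | rfl | rfl : σ = 1 ∨ σ = swap 0 1 ∨ σ = swap 2 3 ∨ σ = τ0 := by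
    clear A C ev e f1 f2; revert σ; decide +kernel
  · obtain ⟨-, -, h1, h2⟩ := A rfl rfl
    exact ⟨s 2, t 2, t 3, Or.inl (by rw [← h1, ← h2, e])⟩
  · exact absurd (C (by decide) (by decide)).2.1 (nr x hz _ s t e ⟨0, 1, by decide, rfl⟩ 2 3 (by decide) (by decide)
      (by decide))
  · exact absurd (A (by decide) (by decide)).1 (nr x hz _ s t e ⟨2, 3, by decide, rfl⟩ 0 1 (by decide) (by decide)
      (by decide))
  · obtain ⟨-, -, h1, h2⟩ := C (by decide) (by decide)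
    exact ⟨s 2, t 2, t 3, Or.inr (by rw [← h1, ← h2, e])⟩

theorem lemU (nr : NR (ι P8.z) (ι.comp φ)) (t : G) (ht : t ∈ NN ι) (hz : Commute t (ι P8.z))
    (hp : ∀ p ∈ [a 2, b 2, a 3, b 3], t * ι p * t⁻¹ * (ι p)⁻¹ ∈ closure {ι e1, ι e2}) :
    t ∈ closure {ι e1, ι e2} ∨ t * ι P8.z ∈ closure {ι e1, ι e2} := by
  have h := S.st
  obtain ⟨σ, _, _, -, hσ⟩ := S.w.mono t hz
  replace hσ := bp_mon hσ
  have k : ∀ p ∈ [aq 2, bq 2, aq 3, bq 3], Commute t ((ι.comp φ) p) := fun p hp' => by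
    obtain ⟨e, he, h1⟩ := mem_E' (ι := ι) (e := t * (ι.comp φ) p * t⁻¹ * ((ι.comp φ) p)⁻¹) (hp (φ p) (by
      simp only [List.mem_cons, List.not_mem_nil, or_false] at hp' ⊢
      rcases hp' with rfl | rfl | rfl | rfl <;> simp [φ_a, φ_b]))
    have h2 : t * (ι.comp φ) p * t⁻¹ = (ι.comp φ) (e * p) := by rw [map_mul, ← h1, inv_mul_cancel_right]
    have h3 := hσ.sup p.v
    rw [act_eq h.xq.inj (cz' hz) h2] at h3
    obtain rfl : e = 1 := by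
      clear h1 h2; revert e p; decide +kernel
    rwa [one_mul, mul_inv_eq_iff_eq_mul] at h2
  have f1 := fixv h hz (k (aq 2) (by simp))
  have f2 := fixv h hz (k (aq 3) (by simp))
  have f3 := fixv h hz (k (bq 2) (by simp))
  obtain ⟨c, t2, t3, e | e⟩ := ty S nr ht hz <;> rw [e] at f1 f2 f3
  swap
  · exact absurd f1 (by clear e f2 f3; revert c t2 t3; decide +kernel)
  obtain ⟨rfl, rfl, rfl⟩ : c = 0 ∧ t2 = 0 ∧ t3 = 0 := by clear e; revert c t2 t3; decide +kernel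
  obtain ⟨q, rfl⟩ := h.xq.cq t (cz' hz) fun v => by
    rw [e]; funext k; fin_cases k <;> rfl
  have c := fun p hp => comm_B h (k p hp)
  have c1 := comm_B h (EE_comm (psi_E (q := qe1) (by simp)) ht)
  have c2 := comm_B h (EE_comm (psi_E (q := qe2) (by simp)) ht)
  have : q ∈ [1, qe1, qe2, qe1 * qe2] ∨ q * zq ∈ [1, qe1, qe2, qe1 * qe2] := by
    clear k e f1 f2 f3 hσ hp hz ht; revert q; decide +kernel
  exact this.imp psi_E fun m => by rw [← psi_z, ← map_mul]; exact psi_E m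

theorem cmk {x : NN ι} (e : (x : NB ι) * zb ι = zb ι * x) : Commute (x : G) (ι P8.z) := by
  rw [zb, ν_apply, ← QuotientGroup.mk_mul, ← QuotientGroup.mk_mul, eq_comm, QuotientGroup.eq] at e
  have e' : (ι P8.z * x)⁻¹ * (x * ι P8.z) ∈ closure {ι e1, ι e2} := e
  have c := EE_comm e' x.2
  have h1 := nz S e' (isConj_iff.2 ⟨x, by
    rw [mul_inv_eq_iff_eq_mul, mul_assoc, ← c.eq, ← mul_assoc, mul_inv_cancel_left]⟩)
  exact (inv_mul_eq_one.1 h1).symm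

theorem wc {n : G} (hn : n ∈ NN ι) (m : n * ι P8.z * n⁻¹ ∈ (ι.comp φ).range) : n * ι P8.z * n⁻¹ = ι P8.z := by
  obtain ⟨q, hq⟩ := m
  have hN : (ι.comp φ) q ∈ NN ι := hq ▸ mul_mem (mul_mem hn (CE_NN ι z_CE)) (inv_mem hn)
  have c1 := comm_B S.st (EE_comm (psi_E (q := qe1) (by simp)) hN)
  have c2 := comm_B S.st (EE_comm (psi_E (q := qe2) (by simp)) hN)
  rcases (S.w.hsup q).1 (hq ▸ isConj_iff.2 ⟨n, rfl⟩) with rfl | h4
  · rw [← hq, psi_z]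
  obtain ⟨e, he, e1, h5⟩ : ∃ e ∈ [1, qe1, qe2, qe1 * qe2], e ≠ 1 ∧ P8.sup (q * e).v = 4 := by
    clear hq hN; revert q; decide +kernel
  have h6 := (S.w.hsup _).2 (Or.inr h5)
  have h7 := EE_comm (psi_E (ι := ι) he) hn
  refine absurd (S.st.xq.inj ((nz S (psi_E he) (h6.trans (isConj_iff.2 ⟨n⁻¹, ?_⟩))).trans (map_one _).symm)) e1
  rw [map_mul, hq, inv_inv, mul_assoc _ _ n, mul_assoc _ _ n, ← h7.eq]
  group

end PNL

open PNL in
theorem nlt : NLT.{u} := fun _ _ _ _ S nr =>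
  ⟨fun _ => nz S, fun _ => nE S, fun _ => ty S nr, lemU S nr, fun _ => cmk S, fun _ => wc S⟩

end CL.N9.P
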