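/-
S1763, the configurations with 27 and 81 points: `C(z)` normalises `⟨C, n0⟩`.
-/
import Cfsg.Agent.N9.PD

set_option autoImplicit false

namespace CL.N9.P

open Cfsg Subgroup CL.Even CL.Grp CL.WC CL.Cls CL.P8 Equiv

universe u

namespace PNORM

theorem n0_z : n0 * P8.z * n0⁻¹ = zp := rel (X.n0 * X.z * X.n0⁻¹) X.zp (by decide +kernel)

theorem n0_eq : φ ⟨![(1, 0), (0, 1), (1, 0), (0, 1)], 1⟩ * n0 =
    (φ ⟨![(1, 1), (1, 0), (1, 0), (0, 1)], 0⟩ * (n0 * φ ⟨![(1, 1), (1, 0), (1, 0), (0, 1)], 0⟩ * n0⁻¹)) ^ 16 *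
      φ ⟨![(1, 1), (1, 0), (1, 0), (0, 1)], 0⟩ := by
  have h := rel μx (.mul (.pow (.mul βx (.mul (.mul X.n0 βx) (.inv X.n0))) 16) βx) (by decide +kernel)
  rw [Ex.ev, Ex.ev, Ex.ev, Ex.ev, Ex.ev, Ex.ev, Ex.ev] at h
  have h1 : μx.ev g = (qx ⟨![(1, 0), (0, 1), (1, 0), (0, 1)], 1⟩).ev g * n0 := rfl
  rwa [h1, βx, qx_ev, qx_ev] at h

theorem zp_ne : zp ≠ P8.z := fun e => by
  rw [← φ_zp, ← φ_z] at e
  exact absurd (congrArg QM.v (φ_inj e)) (by decide)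

end PNORM

open PNORM

theorem norm : NORM.{u} := by
  intro G _ _ ι st hy hQ C hC hn hz htr x hx
  have e0 : ι n0 * ι P8.z * (ι n0)⁻¹ = ι zp := by rw [← map_inv, ← map_mul, ← map_mul, n0_z]
  have mQ : ∀ q, ι (φ q) ∈ QQ (ι P8.z) := fun q => hQ ▸ ⟨q, rfl⟩
  have nb : Nb (ι P8.z) (ι zp) := ⟨isConj_iff.2 ⟨_, e0⟩, φ_zp ▸ mQ _, fun e => zp_ne (st.inj e)⟩
  have nb' := nb.conj x
  rw [hx.eq, mul_inv_cancel_right] at nb'
  obtain ⟨c, hc, e⟩ := htr _ nb'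
  have cz : Commute (c⁻¹ * x) (ι P8.z) := (hz c hc).inv_left.mul_left hx
  have cp : Commute (c⁻¹ * x) (ι zp) := by
    change c⁻¹ * x * ι zp = ι zp * (c⁻¹ * x)
    calc c⁻¹ * x * ι zp = c⁻¹ * (x * ι zp * x⁻¹) * x := by group
      _ = _ := by rw [← e]; group
  have QC : QQ (ι P8.z) ≤ C := by
    rw [← hQ]
    rintro _ ⟨q, rfl⟩
    refine hC ⟨φ q, ?_, rfl⟩
    exact (show Qg ≤ C0 from gen_le fun i hi => mem_gen (List.mem_range.2 (by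
      have := List.mem_range.1 hi; omega))) (φ_range.le ⟨q, rfl⟩)
  have n0K : ι n0 ∈ C ⊔ zpowers (ι n0) := mem_sup_right (mem_zpowers _)
  have YK : QQ (ι P8.z) ⊔ QQ (ι zp) ≤ C ⊔ zpowers (ι n0) := sup_le (QC.trans le_sup_left) fun y hy' => by
    have h1 : y = ι n0 * ((ι n0)⁻¹ * y * ι n0) * (ι n0)⁻¹ := by group
    rw [h1, ← e0, conj_mem_QQ] at hy'
    rw [h1]
    exact mul_mem (mul_mem n0K (mem_sup_left (QC hy'))) (inv_mem n0K)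
  have n0Y : ι n0 ∈ QQ (ι P8.z) ⊔ QQ (ι zp) := by
    have h1 := congrArg ι n0_eq
    simp only [map_mul, map_pow, map_inv] at h1
    rw [eq_inv_mul_iff_mul_eq.2 h1]
    refine mul_mem (inv_mem (mem_sup_left (mQ _))) (mul_mem (pow_mem (mul_mem (mem_sup_left (mQ _))
      (mem_sup_right ?_)) _) (mem_sup_left (mQ _)))
    rw [← e0]
    exact conj_mem_QQ.2 (mQ _)
  have xY : QQ (ι P8.z) ⊔ QQ (ι zp) ≤ (QQ (ι P8.z) ⊔ QQ (ι zp)).comap (MulAut.conj (c⁻¹ * x)).toMonoidHom :=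
    sup_le (fun _ m => mem_sup_left (hy.cmem cz m)) fun _ m => mem_sup_right ((hy.of nb.ic).cmem cp m)
  have key : c⁻¹ * x ∈ normalizer ((C ⊔ zpowers (ι n0) : Subgroup G) : Set G) :=
    mem_normalizer_fintype fun _ m =>
      (show C ⊔ zpowers (ι n0) ≤ (C ⊔ zpowers (ι n0)).comap (MulAut.conj (c⁻¹ * x)).toMonoidHom from
        sup_le (fun _ m => mem_sup_left (hn _ cz _ m)) (zpowers_le.2 (YK (xY n0Y)))) m
  have := mul_mem (le_normalizer (mem_sup_left hc)) key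
  rwa [mul_inv_cancel_left] at this

end CL.N9.P
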