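/-
S1763, the configuration with 81 points: no element acts as a reflection or its negative.
-/
import Cfsg.Agent.N9.PD

set_option autoImplicit false

namespace CL.N9.P

open Cfsg Subgroup CL.Even CL.Grp CL.WC CL.Cls CL.P8 Equiv

universe u

namespace PNRW

theorem mon_injective (σ : Perm (Fin 4)) (s : Fin 4 → ZMod 2) (t : Fin 4 → ZMod 3) {v w : V}
    (h : mon σ s t v = mon σ s t w) : v = w := by
  have h1 : mon σ s t (v + w) = 0 := by rw [mon_add, h, V_add_self]
  have h2 : v + w = 0 := funext fun k => by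
    have h3 := (mon_zero_iff σ s t (v + w) (σ k)).1 (congrFun h1 _)
    rwa [show σ⁻¹ (σ k) = k by simp] at h3
  rw [← add_zero v, ← V_add_self w, ← add_assoc, h2, zero_add]

theorem swp_eq (v : V) : swp v = mon (swap 0 1) 0 0 v := funext fun k => by fin_cases k <;> rfl

theorem par : ∀ i j k l : Fin 4, i ≠ j → k ≠ l → swap i j k = k → swap i j l = l → ∀ s : Fin 4 → ZMod 2, s k = s l →
    s 0 + s 1 + s 2 + s 3 = 0 → ∀ m, s k + s m + (if swap i j m = j then s k + s j else 0) =
      if m = j then s k + s j else 0 := by decide +kernel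

end PNRW

open PNRW in
theorem nrw (r : RE.{u}) (h : NR0.{u}) : NRW.{u} := by
  intro G _ _ z ψ w x hx σ s t e hσ k l hkl hk hl hs
  obtain ⟨i, j, hij, rfl⟩ := hσ
  have hmul : ∀ {a b : G}, Commute a z → Commute b z → ∀ v, act ψ (a * b) v = act ψ a (act ψ b v) := fun ha hb v =>
    w.xq.act_mul (w.hz.symm ▸ ha) (w.hz.symm ▸ hb) v
  have hsum : s 0 + s 1 + s 2 + s 3 = 0 := by
    obtain ⟨σ', s', t', h1, h2⟩ := w.mono x hx
    rw [(mon_inj (e.symm.trans h2)).2.1]
    exact h1
  obtain ⟨n, hn, en⟩ : ∃ n, Commute n z ∧ act ψ n = mon 1 (fun _ => s k) 0 := by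
    rcases z2 (s k) with h0 | h0
    · rw [h0]
      exact ⟨1, .one_left _, funext fun v => w.xq.act_one v⟩
    · rw [h0]
      exact w.hneg
  obtain ⟨ρ, hρ, eρ⟩ := w.hrot fun m => -((if s k = 0 then 1 else -1) * t m)
  have hx' : Commute (ρ * (n * x)) z := hρ.mul_left (hn.mul_left hx)
  have e1 : ∀ v, act ψ (ρ * (n * x)) v = mon (swap i j) (fun m => s k + s m) 0 v := fun v => by
    rw [hmul hρ (hn.mul_left hx), hmul hn hx, eρ, en, e, ← mon_rot, mon_mul, mon_mul]
    congr 1
    · funext m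
      simp
    · funext m
      simp
  obtain ⟨π, hπ⟩ := isConj_iff.1 (Perm.isConj_swap (show (0 : Fin 4) ≠ 1 by decide) hij)
  obtain ⟨ψ', w', e2⟩ := r G z ψ w π (fun m => if m = j then s k + s j else 0) 0
  refine h G z ψ' w' _ hx' (funext fun v => mon_injective π (fun m => if m = j then s k + s j else 0) 0 ?_)
  rw [← e2 _ hx', e1, swp_eq, mon_mul, mon_mul]
  congr 1
  · rw [← hπ, inv_mul_cancel_right]
  · funext m
    rw [swap_inv, par i j k l hij hkl hk hl s hs hsum m]
    simp

end CL.N9.P
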