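/-
S1763, the configurations with 27 and 81 points: the central node and the outer root elements (port of `Spor/O8R1`).
-/
import Cfsg.Agent.N9.PD
import Cfsg.Agent.Spor.O8R1

set_option autoImplicit false

namespace CL.N9.P

open Cfsg Subgroup CL.Even CL.Grp CL.WC CL.Cls
open scoped commutatorElement

universe u

theorem rr1 : RR1.{u} := by
  intro G _ _ z x M S
  have h := S.hy
  have N := S.nb
  have hπ := S.πx
  have h' : Hy x := h.nb N
  obtain ⟨k, k1, k2⟩ : ∃ k, k * z * k⁻¹ = x ∧ k * x * k⁻¹ = z := by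
    obtain ⟨g, rfl⟩ := isConj_iff.1 N.ic
    obtain ⟨k, -, k1, k2⟩ := h.xe.exists_conj_pair N.mem N.ne (u := g * z * g⁻¹) (v := z) (subset_closure (by simp))
      (subset_closure (by simp)) h'.ne_one h.ne_one N.ne
    exact ⟨k, k1, k2⟩
  obtain ⟨b, bQ, πb⟩ := M.surj (O8.e 0)
  have bb : b * b = 1 := (M.q_zero bQ).mp (by rw [πb, qp_q0]; decide +kernel)
  have bx : b * x * b⁻¹ = x * z := (h.xe.cj_of_not bQ N.mem fun c => by
    have := (M.b_zero bQ N.mem).mpr c
    rw [hπ, πb, pol_B0, O8.B0_e] at this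
    exact absurd this (by decide +kernel)).trans (h.zt N).eq
  have bi := inv_eq_of_mul_eq_one_right bb
  have yP : k * b * k⁻¹ ∈ QQ x := k1 ▸ conj_mem_QQ.2 bQ
  have yy : k * b * k⁻¹ * (k * b * k⁻¹) = 1 := by rw [conj_mul, bb, mul_one, mul_inv_cancel]
  have yz : k * b * k⁻¹ * z * (k * b * k⁻¹)⁻¹ = z * x := by
    calc _ = k * (b * x * b⁻¹) * k⁻¹ := by rw [← k2]; group
      _ = _ := by rw [bx, ← conj_mul, k1, k2]
  obtain ⟨m, mm, bm, m1, m2⟩ := O8.exists_swap (y := k * b * k⁻¹) bb yy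
    h.zz h'.zz (h.zt N) (h.cz bQ) bx (h'.cz yP) yz fun _ _ => by
      set y := k * b * k⁻¹
      have yi := inv_eq_of_mul_eq_one_right yy
      have e1 : b * y * b⁻¹ ∈ QQ (z * x) := by rw [(h.zt N).eq, ← bx]; exact conj_mem_QQ.2 yP
      have e2 : y * b * y⁻¹ ∈ QQ (z * x) := by rw [← yz]; exact conj_mem_QQ.2 bQ
      have e3 := mul_mem e1 e2
      rw [bi, yi, show b * y * b * (y * b * y) = (b * y) ^ 3 by rw [pow_three]; group] at e3
      have h3 := h.nb (h.third N)
      rw [show 8 = 2 * 2 * 2 from rfl, pow_mul, pow_mul, pow_two ((b * y) ^ 3)]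
      rcases h3.xe.sq_cases e3 with e4 | e4 <;> rw [e4]
      · rw [one_pow, one_pow]
      · rw [pow_two (z * x), h3.zz, one_pow]
  have mi := inv_eq_of_mul_eq_one_right mm
  have hmP : ∀ a ∈ QQ z, m * a * m⁻¹ ∈ QQ x := fun a ha => m1 ▸ conj_mem_QQ.2 ha
  have br : m * b * m⁻¹ = b * m * b⁻¹ := by
    rw [mi, bi, ← mul_left_inj (m * b * m)]
    calc _ = m * (b * (m * m) * b) * m := by group
      _ = (b * m) ^ 3 := by rw [mm, mul_one, bb, mul_one, mm, bm]
      _ = _ := by rw [pow_three]; group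
  choose f fQ πf using fun i => M.surj (O8.e (O8.sg i))
  have key : ∀ i, Ac M (m * f i * m) (O8.s i) ∧ m * f i * m * b * (m * f i * m) * b = f i := by
    intro i
    have ff : f i * f i = 1 := (M.q_zero (fQ i)).mp (by rw [πf, qp_q0]; clear * -; revert i; decide +kernel)
    have fb : Commute (f i) b :=
      (M.b_zero (fQ i) bQ).mp (by rw [πf, πb, pol_B0, O8.B0_e]; clear * -; revert i; decide +kernel)
    have fx : Commute (f i) x :=
      (M.b_zero (fQ i) N.mem).mp (by rw [πf, hπ, pol_B0, O8.B0_e]; clear * -; revert i; decide +kernel)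
    have fi := inv_eq_of_mul_eq_one_right ff
    have aP := hmP _ (fQ i)
    have az : Commute (m * f i * m⁻¹) z := m2 ▸ (CL.TT.commute_conj_iff m _ _).mpr fx
    have aa : m * f i * m⁻¹ * (m * f i * m⁻¹) = 1 := by rw [conj_mul, ff, mul_one, mul_inv_cancel]
    have e2 : b * (m * f i * m⁻¹) * b⁻¹ = m * b * m⁻¹ * f i * (m * b * m⁻¹)⁻¹ := by
      calc _ = b * m * b⁻¹ * (b * f i * b⁻¹) * (b * m * b⁻¹)⁻¹ := by group
        _ = _ := by rw [← br, ← fb.eq, mul_inv_cancel_right]
    have e3 : m * (b * (m * f i * m⁻¹) * b⁻¹) * m⁻¹ = b * (m * f i * m⁻¹) * b⁻¹ := by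
      calc _ = m * b * m⁻¹ * (m * m) * f i * (m * b * m⁻¹ * (m * m))⁻¹ := by group
        _ = _ := by rw [mm, mul_one, e2]
    have e4 : m * (m * f i * m⁻¹) * m⁻¹ = f i := by
      calc _ = m * m * f i * (m * m)⁻¹ := by group
        _ = _ := by rw [mm]; group
    rw [show m * f i * m = m * f i * m⁻¹ by rw [mi]]
    set a := m * f i * m⁻¹ with ha
    have ai := inv_eq_of_mul_eq_one_right aa
    set c := b * a * b⁻¹ with hc
    have dQ : a * c ∈ QQ z := by
      have := mul_mem (h.cmem az bQ) (inv_mem bQ)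
      rwa [ai, mul_assoc, mul_assoc, ← mul_assoc b] at this
    obtain ⟨w, hw, aw⟩ := S.L_in aP az
    have πd : M.π (a * c) = O8.act w (O8.e 0) + O8.e 0 := by
      rw [← πb, ← aw.π bQ, ← M.π_mul (h.cmem az bQ) bQ, ai, hc, bi]
      congr 1; group
    have yx : Commute (m * b * m⁻¹) x := h'.cz (hmP b bQ)
    have cx : Commute c x := e2 ▸ (yx.mul_left fx).mul_left yx.inv_left
    have dP : f i * (a * c) ∈ QQ x := by
      have h1 : c * f i ∈ QQ x := by
        have := mul_mem (hmP b bQ) (h'.cmem fx (inv_mem (hmP b bQ)))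
        rwa [fi, ← mul_assoc, ← mul_assoc, ← e2] at this
      have := h'.cmem cx.inv_left (mul_mem h1 aP)
      rwa [show c⁻¹ * (c * f i * a) * c⁻¹⁻¹ = f i * (a * c) by group] at this
    have ra : w = O8.s i := O8.key_s i _ hw fun l hl => by
      have := O8.key_E (M.π (f i * (a * c))) (fun j => by
        obtain ⟨y, hy, e1⟩ := S.L_sur j
        have dQ' := mul_mem (fQ i) dQ
        rw [← e1.π dQ', ← M.π_inv dQ', ← M.π_mul (h.cmem e1.1 dQ') (inv_mem dQ')]
        rcases h'.xe.mem_Z.mp (h'.xe.comm_mem hy dP) with e5 | e5 <;> rw [← commutatorElement_def, e5]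
        exacts [Or.inl M.π_one, Or.inr hπ]) l hl
      rwa [M.π_mul (fQ i) dQ, πd, πf, Pi.add_apply, Pi.add_apply, O8.act_e] at this
    have e5 : a * c = f i := ((M.π_eq (fQ i) dQ).mp (by
        rw [πd, ra, πf, funext_iff]
        simp only [Pi.add_apply, O8.act_e]
        clear * -; revert i; decide +kernel)).resolve_right fun e5 => N.ne (by
      have cc : c * c = 1 := by rw [hc, conj_mul, aa, mul_one, mul_inv_cancel]
      have fa : Commute a (f i) := by
        have e6 : a * f i = c * z := by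
          rw [← mul_left_inj z, mul_assoc, ← e5, ← mul_assoc, aa, one_mul, mul_assoc, h.zz, mul_one]
        have cz : Commute c z := ((h.cz bQ).mul_left az).mul_left (h.cz bQ).inv_left
        have e7 : a * f i * (a * f i) = 1 := by
          rw [e6, mul_assoc, ← mul_assoc z, ← cz.eq, mul_assoc c z, h.zz, mul_one, cc]
        have := inv_eq_of_mul_eq_one_right e7
        rw [mul_inv_rev, ai, fi] at this
        exact this.symm
      have e8 := congrArg (fun t => m * t * m⁻¹) e5
      simp only [← conj_mul, e3, e4, m1, ← ha] at e8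
      have e9 : a * f i * c = z := by rw [fa.eq, mul_assoc, e5, ← mul_assoc, ff, one_mul]
      rw [mul_assoc, e8, ← mul_assoc, aa, one_mul] at e9
      exact e9)
    refine ⟨ra ▸ aw, ?_⟩
    rw [← e5, hc, bi]; group
  rw [mi] at m1
  exact ⟨b, m, fun i => m * f i * m, f, bQ, πb, mm, bm, m1 ▸ N.mem, m1 ▸ hπ, fQ, πf, fun _ => rfl,
    fun i => (key i).1, fun i => (key i).2⟩

end CL.N9.P
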