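/-
S1763, the configurations with 27 and 81 points: the Levi complement (port of `Spor/O8R2`).
-/
import Cfsg.Agent.N9.PD
import Cfsg.Agent.Spor.O8R2

set_option autoImplicit false
set_option linter.unusedSectionVars false

namespace CL.N9.P

open Cfsg Subgroup CL.Even CL.Grp CL.WC CL.Cls Equiv

universe u

namespace PR2x

variable {G : Type u} [Group G] [Finite G] {z : G} {M : OM qp z} (H : Hy z)
include H

theorem four {c : G} {w : O8.X} (hc : Ac M c w) (h : w ^ 3 = 1) : Ac M (c ^ 4) w ∧ (c ^ 4) ^ 3 = 1 := by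
  refine ⟨by simpa only [pow_succ w 3, h, one_mul] using hc.pow 4, ?_⟩
  rw [← pow_mul, show 4 * 3 = 3 * 2 * 2 by rfl, pow_mul, pow_mul, pow_two (c ^ 3)]
  rcases H.xe.sq_cases (Ac.mem_Q (h ▸ hc.pow 3)) with k | k <;> rw [k]
  exacts [one_pow 2, (pow_two z).trans H.zz]

omit H in
theorem cjq {p p' : G} (hp : p ∈ QQ z) (hp' : p' ∈ QQ z) (h : M.π p = M.π p') {t : G} (ht : Commute t z) :
    p * t * p⁻¹ = p' * t * p'⁻¹ := by
  rcases (M.π_eq hp' hp).1 h.symm with rfl | rfl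
  · rfl
  · rw [mul_inv_rev, mul_assoc p', ← ht.eq]; group

theorem ne3 {t t' : G} (ht : Commute t z) (h : t ^ 3 = 1) (h' : t' ^ 3 = 1) : t' ≠ t * z := by
  rintro rfl
  rw [ht.mul_pow, h, one_mul, pow_succ, pow_two, H.zz, one_mul] at h'
  exact H.ne_one h'

variable {t : G} (hr : Ac M t (O8.ρ 0)) (h3 : t ^ 3 = 1)
include hr

theorem T1 {p : G} (hp : p ∈ QQ z) (h : Commute t p) : M.π p = 0 :=
  (O8.r2_fpf _).1 (by rw [← hr.π hp, h.eq, mul_inv_cancel_right])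

theorem T1' {p p' : G} (hp : p ∈ QQ z) (hp' : p' ∈ QQ z) {ε : ℤ} (hε : ε * ε = 1)
    (h : p * t ^ ε * p⁻¹ = p' * t ^ ε * p'⁻¹) : M.π p = M.π p' := by
  have h1 : Commute (t ^ ε) (p'⁻¹ * p) := by
    rw [Commute, SemiconjBy, ← mul_left_cancel_iff (a := p'), ← mul_right_cancel_iff (a := p⁻¹)]
    calc _ = p' * t ^ ε * p'⁻¹ := by group
      _ = _ := by rw [← h]; group
  have h2 := T1 H hr (mul_mem (inv_mem hp') hp) (by simpa [← zpow_mul, hε] using h1.zpow_left ε)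
  rw [M.π_mul (inv_mem hp') hp, M.π_inv hp'] at h2
  exact (add_eq_zero2.1 h2).symm

include h3

theorem T2 {t' : G} (hr' : Ac M t' (O8.ρ 0)) (h3' : t' ^ 3 = 1) : ∃ p ∈ QQ z, p * t * p⁻¹ = t' := by
  have hd := hr'.div hr
  obtain ⟨p, hp, e⟩ := M.surj (O8.act (O8.ρ 0) (M.π (t' * t⁻¹)))
  have h1 := H.cmem hr.1 (inv_mem hp)
  have h2 : M.π (p * (t * p⁻¹ * t⁻¹)) = M.π (t' * t⁻¹) := by
    rw [M.π_mul hp h1, hr.π (inv_mem hp), M.π_inv hp, e, (O8.r2_fpf _).2]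
  refine ⟨p, hp, ?_⟩
  rcases (M.π_eq hd (mul_mem hp h1)).1 h2.symm with h | h
  · exact mul_right_cancel (b := t⁻¹) (by rw [← h]; group)
  · refine (ne3 H (t' := p * t * p⁻¹) hr'.1 h3' (by rw [conj_pow, h3]; simp) (mul_right_cancel (b := t⁻¹) ?_)).elim
    rw [mul_assoc t', ← hr.1.inv_left.eq, ← mul_assoc t', ← h]; group

omit h3 in
theorem keep {a p : G} {w : O8.X} (ha : Ac M a w) (hp : p ∈ QQ z) (h : O8.act w (M.π p) = M.π p) {ε : ℤ}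
    (e : a * t * a⁻¹ = t ^ ε) : a * (p * t * p⁻¹) * a⁻¹ = (p * t * p⁻¹) ^ ε := by
  rw [conj_zpow, ← cjq (H.cmem ha.1 hp) hp ((ha.π hp).trans h) (hr.1.zpow_left ε), ← e]
  group

theorem step {a : G} {w : O8.X} (ha : a * a = 1) (haz : Ac M a w) {ε : ℤ} (hε : ε = 1 ∨ ε = -1)
    (h : w * O8.ρ 0 * w⁻¹ = O8.ρ 0 ^ ε) : ∃ v : V8, O8.act w v = v ∧
      (∀ (b : G) (w' : O8.X) (δ : ℤ), δ * δ = 1 → Ac M b w' → Commute a b → b * t * b⁻¹ = t ^ δ → O8.act w' v = v) ∧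
      ∀ p ∈ QQ z, O8.act w (M.π p) + M.π p = v → a * (p * t * p⁻¹) * a⁻¹ = (p * t * p⁻¹) ^ ε := by
  have h0 : ε * ε = 1 := by rcases hε with rfl | rfl <;> rfl
  have h1 := haz.conj hr
  obtain ⟨p, hp, e⟩ := T2 H hr h3 (t' := (a * t * a⁻¹) ^ ε) (by
    rcases hε with rfl | rfl
    · rwa [h, zpow_one, ← zpow_one (a * t * a⁻¹)] at h1
    · have := h1.inv
      rwa [h, zpow_neg_one, inv_inv, ← zpow_neg_one] at this) (by
    rw [← zpow_natCast, ← zpow_mul, mul_comm, zpow_mul, zpow_natCast, conj_pow, h3]; simp)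
  have e1 : a * t * a⁻¹ = p * t ^ ε * p⁻¹ := by rw [← conj_zpow, e, ← zpow_mul, h0, zpow_one]
  have h2 := H.cmem haz.1 hp
  have ha' := inv_eq_of_mul_eq_one_right ha
  refine ⟨M.π p, ?_, fun b w' δ hδ hb hab hbt => ?_, fun p' hp' e' => ?_⟩
  · rw [← haz.π hp, ← M.π_inv h2]
    refine T1' H hr (inv_mem h2) hp h0 ?_
    have e2 : t ^ ε = a * (p * t * p⁻¹) * a⁻¹ := by
      rw [e, conj_zpow, ha', ← mul_assoc, ← mul_assoc, ha, one_mul, mul_assoc, ha, mul_one]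
    rw [← e1, e2]; group
  · rw [← hb.π hp]
    refine T1' H hr (H.cmem hb.1 hp) hp hδ ?_
    have e2 : b * (p * t * p⁻¹) * b⁻¹ = (p * t * p⁻¹) ^ δ := by
      rw [e, ← zpow_mul, mul_comm ε, zpow_mul, conj_zpow (a := a) (i := δ), ← hbt, ← conj_zpow]
      congr 1
      calc _ = b * a * t * (b * a)⁻¹ := by group
        _ = _ := by rw [← hab.eq]; group
    rw [← conj_zpow (a := p), ← e2, ← hbt]; group
  · have h4 := H.cmem haz.1 hp'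
    rw [conj_zpow, ← cjq (mul_mem h4 hp) hp' (by
      rw [M.π_mul h4 hp, haz.π hp', ← e', aac]) (hr.1.zpow_left ε)]
    calc _ = a * p' * a⁻¹ * (a * t * a⁻¹) * (a * p' * a⁻¹)⁻¹ := by group
      _ = _ := by rw [e1]; group

omit h3 in
theorem uniq {x y : G} {w : O8.X} (hx : Ac M x w) (hy : Ac M y w) (hx' : Commute t x) (hy' : Commute t y)
    (x3 : x ^ 3 = 1) (y3 : y ^ 3 = 1) : x = y := by
  have hd := hx.div hy
  rcases (M.π_zero hd).1 (T1 H hr hd (hx'.mul_right hy'.inv_right)) with e | e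
  · exact mul_inv_eq_one.1 e
  · exact (ne3 H hy.1 y3 x3 (by rw [hy.1.eq, ← e, inv_mul_cancel_right])).elim

theorem lift (sur : ∀ w, ∃ c, Ac M c w) (i : Fin 3) : ∃ x, Ac M x (O8.ρ i) ∧ Commute t x ∧ x ^ 3 = 1 := by
  obtain ⟨c, hc⟩ := sur (O8.ρ i)
  obtain ⟨p, hp, e'⟩ := T2 H hr h3 (t' := c * t * c⁻¹) ((O8.r2_X.1 i).1 ▸ hc.conj hr) (by rw [conj_pow, h3]; simp)
  have h2 : Ac M (p⁻¹ * c) (O8.ρ i) := by simpa only [one_mul] using (Ac.of_Q H (inv_mem hp)).mul hc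
  obtain ⟨h4, h5⟩ := four H h2 (O8.r2_X.1 i).2.1
  refine ⟨_, h4, Commute.pow_right ?_ 4, h5⟩
  calc t * (p⁻¹ * c) = p⁻¹ * (p * t * p⁻¹) * c := by group
    _ = _ := by rw [e']; group

end PR2x

open PR2x in
theorem rr2 : RR2.{u} := by
  intro G _ _ z x M S a asq ac aa
  have H := S.hy
  have cc : ∀ {t p : G}, Ac M t (O8.ρ 0) → t ^ 3 = 1 → p ∈ QQ z →
      Ac M (p * t * p⁻¹) (O8.ρ 0) ∧ (p * t * p⁻¹) ^ 3 = 1 := fun hr h3 hp =>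
    ⟨by simpa only [one_mul, inv_one, mul_one] using (Ac.of_Q H hp).conj hr, by rw [conj_pow, h3]; simp⟩
  obtain ⟨t, hr, h3, e0⟩ : ∃ t, Ac M t (O8.ρ 0) ∧ t ^ 3 = 1 ∧ a 0 * t * (a 0)⁻¹ = t ^ (-1 : ℤ) := by
    obtain ⟨c, hc⟩ := S.sur (O8.ρ 0)
    obtain ⟨h1, h2⟩ := four H hc (O8.r2_X.1 0).2.1
    obtain ⟨v, v1, -, v3⟩ := step H h1 h2 (asq 0) (ac 0) (Or.inr rfl) (by decide +kernel)
    obtain ⟨u, hu⟩ := O8.r2_0 v v1
    obtain ⟨p, hp, rfl⟩ := M.surj u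
    obtain ⟨c1, c2⟩ := cc h1 h2 hp
    exact ⟨_, c1, c2, v3 p hp hu⟩
  obtain ⟨t, hr, h3, e0, e1⟩ : ∃ t, Ac M t (O8.ρ 0) ∧ t ^ 3 = 1 ∧ a 0 * t * (a 0)⁻¹ = t ^ (-1 : ℤ) ∧
      a 1 * t * (a 1)⁻¹ = t ^ (1 : ℤ) := by
    obtain ⟨v, v1, v2, v3⟩ := step H hr h3 (asq 1) (ac 1) (Or.inl rfl) (by decide +kernel)
    have v4 := v2 _ _ _ rfl (ac 0) (aa 1 0) e0
    obtain ⟨u, hu, hu0⟩ := O8.r2_1 v v1 v4
    obtain ⟨p, hp, rfl⟩ := M.surj u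
    obtain ⟨c1, c2⟩ := cc hr h3 hp
    exact ⟨_, c1, c2, keep H hr (ac 0) hp hu0 e0, v3 p hp hu⟩
  obtain ⟨t, hr, h3, e⟩ : ∃ t, Ac M t (O8.ρ 0) ∧ t ^ 3 = 1 ∧
      ∀ i, ∃ ε : ℤ, ε * ε = 1 ∧ a i * t * (a i)⁻¹ = t ^ ε := by
    obtain ⟨v, v1, v2, v3⟩ := step H hr h3 (asq 2) (ac 2) (Or.inl rfl) (by decide +kernel)
    have v4 := v2 _ _ _ rfl (ac 0) (aa 2 0) e0
    have v5 := v2 _ _ _ rfl (ac 1) (aa 2 1) e1
    obtain ⟨u, hu, hu0, hu1⟩ := O8.r2_2 v v1 v4 v5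
    obtain ⟨p, hp, rfl⟩ := M.surj u
    obtain ⟨c1, c2⟩ := cc hr h3 hp
    refine ⟨_, c1, c2, fun i => ?_⟩
    fin_cases i
    exacts [⟨_, rfl, keep H hr (ac 0) hp hu0 e0⟩, ⟨_, rfl, keep H hr (ac 1) hp hu1 e1⟩, ⟨_, rfl, v3 p hp hu⟩]
  choose y yr yt y3 using lift H hr h3 S.sur
  have key : ∀ {c d : G} {w : O8.X} {ε : ℤ} (j : Fin 3), Ac M c w → ε * ε = 1 → c * t * c⁻¹ = t ^ ε →
      Ac M d (w * O8.ρ j * w⁻¹) → Commute t d → d ^ 3 = 1 → c * y j * c⁻¹ = d := fun {c d w ε} j hc hε e d1 d2 d3 => by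
    refine uniq H hr (hc.conj (yr j)) d1 ?_ d2 (by rw [conj_pow, y3]; simp) d3
    have := ((yt j).conj c).zpow_left ε
    rwa [e, ← zpow_mul, hε, zpow_one] at this
  have h1 : ∀ i, a i * y i * (a i)⁻¹ = (y i)⁻¹ := fun i => by
    obtain ⟨ε, hε, e⟩ := e i
    exact key i (ac i) hε e ((O8.r2_X.1 i).2.2.1 ▸ (yr i).inv) (yt i).inv_right (by rw [inv_pow, y3, inv_one])
  have h2 : ∀ i j, i ≠ j → Commute (a i) (y j) := fun i j hij => by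
    obtain ⟨ε, hε, e⟩ := e i
    exact mul_inv_eq_iff_eq_mul.1 (key j (ac i) hε e ((O8.r2_X.2.1 i j hij).symm ▸ yr j) (yt j) (y3 j))
  have h4 : ∀ i j, Commute (y i) (y j) := fun i j => mul_inv_eq_iff_eq_mul.1 (key (ε := 1) j (yr i) rfl
    (by rw [← (yt i).eq, zpow_one, mul_inv_cancel_right]) ((O8.r2_X.2.2 i j).symm ▸ yr j) (yt j) (y3 j))
  refine ⟨fun i => a i * y i, fun i => ?_, fun i => (O8.r2_X.1 i).2.2.2 ▸ (ac i).mul (yr i), fun i => ?_,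
    fun i j h => (aa i j).mul_right (h2 i j h), fun i j => ?_⟩
  · rw [← mul_assoc, ← inv_eq_of_mul_eq_one_right (asq i), inv_eq_of_mul_eq_one_right (asq i)]
    nth_rewrite 2 [← inv_eq_of_mul_eq_one_right (asq i)]
    rw [h1, inv_mul_cancel]
  · rw [← mul_assoc, asq, one_mul, y3]
  · rcases eq_or_ne i j with rfl | h
    · exact Commute.refl _
    · exact ((aa i j).mul_right (h2 i j h)).mul_left ((h2 j i h.symm).symm.mul_right (h4 i j))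

end CL.N9.P
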