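/-
Extraspecial `F*(C(z))` of order `2 ^ 9` (S1763): the Levi complement and the Curtis–Tits relations.
-/
import Cfsg.Agent.N9.PD

set_option autoImplicit false
set_option linter.unusedSectionVars false

namespace CL.N9.P

open Cfsg Subgroup CL.Even CL.Grp CL.WC CL.Cls CL.P8 Equiv

universe u

namespace PR2x

variable {G : Type u} [Group G] [Finite G] {z : G}

theorem conj_eq (M : OM qp z) (h : Hy z) {a b : G} (ha : a ∈ QQ z) (hb : b ∈ QQ z) (hab : ¬ Commute a b) :
    a * b * a⁻¹ = b * z :=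
  ((M.π_eq hb (h.cmem (h.cz ha) hb)).1 (by rw [(Ac.of_Q (M := M) h ha).π hb, O8.act_one])).resolve_left
    fun k => hab (mul_inv_eq_iff_eq_mul.1 k)

variable {M : OM qp z} {b m : G} {a f : Fin 3 → G} (h : Hy z) (R : RA M b m a f)
include h R

theorem bsq : b * b = 1 := (M.q_zero R.bQ).mp (by rw [R.πb]; decide +kernel)

theorem fsq (i : Fin 3) : f i * f i = 1 := (M.q_zero (R.fQ i)).mp (by rw [R.πf]; revert i; decide +kernel)

theorem ff (i j : Fin 3) : Commute (f i) (f j) :=
  (M.b_zero (R.fQ i) (R.fQ j)).mp (by rw [R.πf, R.πf, pol_B0, O8.B0_e]; revert i j; decide +kernel)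

omit [Finite G] h in
theorem minv : m⁻¹ = m := inv_eq_of_mul_eq_one_right R.msq

theorem asq (i : Fin 3) : a i * a i = 1 := by
  calc _ = m * (f i * (m * m) * f i) * m := by rw [R.ha]; group
    _ = 1 := by rw [R.msq, mul_one, fsq h R, mul_one, R.msq]

theorem aa (i j : Fin 3) : Commute (a i) (a j) := by
  have := (CL.TT.commute_conj_iff m _ _).mpr (ff h R i j)
  rwa [minv R, ← R.ha, ← R.ha] at this

theorem aba (i : Fin 3) : a i * b * a i = f i * b := by
  rw [← R.com, mul_assoc _ b b, bsq h R, mul_one]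

theorem nbn {n : Fin 3 → G} (L : LV M a n) (i : Fin 3) : n i * b * n i = f i ∨ n i * b * n i = f i * z := by
  have e := (L.ac i).π R.bQ
  have k := h.cmem (L.ac i).1 R.bQ
  rw [inv_eq_of_mul_eq_one_right (L.nsq i)] at e k
  refine (M.π_eq (R.fQ i) k).mp (Eq.symm ?_)
  rw [e, R.πb, R.πf, funext_iff]
  simp only [O8.act_e]
  clear e k
  revert i
  decide +kernel

theorem nbn_of {n : Fin 3 → G} (L : LV M a n) {i j : Fin 3} (hi : n i * b * n i = f i) : n j * b * n j = f j := by
  by_cases hij : i = j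
  · exact hij ▸ hi
  refine (nbn h R L j).resolve_right fun hj => h.ne_one ?_
  have ni := inv_eq_of_mul_eq_one_right (L.nsq i)
  have nj := inv_eq_of_mul_eq_one_right (L.nsq j)
  have ai := inv_eq_of_mul_eq_one_right (asq h R i)
  have aj := inv_eq_of_mul_eq_one_right (asq h R j)
  have c1 : n j * a i * (n j)⁻¹ = a i := by rw [← (L.an i j hij).eq, mul_inv_cancel_right]
  have c2 : n i * a j * (n i)⁻¹ = a j := by rw [← (L.an j i (Ne.symm hij)).eq, mul_inv_cancel_right]
  have c3 : a j * a i * (a j)⁻¹ = a i := by rw [(aa h R j i).eq, mul_inv_cancel_right]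
  have hi' : n i * b * (n i)⁻¹ = f i := by rwa [ni]
  have hj' : n j * b * (n j)⁻¹ = f j * z := by rwa [nj]
  set g := n j * f i * (n j)⁻¹ with hg
  have e0 : n i * f j * (n i)⁻¹ * z = g := by
    calc _ = n i * (f j * z) * (n i)⁻¹ := by rw [mul_assoc, ((L.ac i).1).inv_left.eq]; group
      _ = n i * n j * b * (n i * n j)⁻¹ := by rw [← hj']; group
      _ = _ := by rw [(L.nn i j).eq, hg, ← hi']; group
  have e1 : a i * (f j * z) * a i = g * (f j * z) := by
    calc _ = n j * (a i * b * a i) * (n j)⁻¹ := by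
          conv_lhs => rw [← c1, ← hj']
          group
      _ = _ := by rw [aba h R, hg, ← hj']; group
  have e2 : a j * f i * a j = n i * f j * (n i)⁻¹ * f i := by
    calc _ = n i * (a j * b * a j) * (n i)⁻¹ := by
          conv_lhs => rw [← c2, ← hi']
          group
      _ = _ := by rw [aba h R, ← hi']; group
  have e3 : a i * (f j * b) * a i = a j * f i * a j * (f j * b) := by
    calc _ = a j * (a i * b * a i) * (a j)⁻¹ := by
          conv_lhs => rw [← c3, ← aba h R]
          conv_lhs => enter [1, 2, 2]; rw [← aj]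
          group
      _ = a j * f i * (a j)⁻¹ * (a j * b * (a j)⁻¹) := by rw [aba h R]; group
      _ = _ := by rw [aj, aba h R]
  have e4 : a i * f j * a i = g * f j := by
    rw [← mul_assoc, mul_assoc _ z, ← (R.ac i).1.eq, ← mul_assoc, ← mul_assoc g] at e1
    exact mul_right_cancel e1
  have e5 : a i * (f j * b) * a i = g * f j * (f i * b) := by
    rw [← e4, ← aba h R i]
    calc _ = a i * f j * (a i * a i) * b * a i := by rw [asq h R]; group
      _ = _ := by group
  rw [e5, e2, ← e0, mul_assoc _ z, mul_assoc _ (z * _), mul_assoc _ (f i), mul_right_inj, ← mul_assoc,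
    ← mul_assoc, mul_left_inj, mul_assoc, (ff h R j i).eq, mul_eq_right] at e3
  exact e3

theorem exists_LV (r2 : RR2.{u}) {x₀ : G} (S : St z x₀ M) : ∃ n, LV M a n ∧ ∀ i, n i * b * n i = f i := by
  obtain ⟨n, L⟩ := r2 G z x₀ M S a (asq h R) R.ac (aa h R)
  rcases nbn h R L 0 with e | e
  · exact ⟨n, L, fun i => nbn_of h R L e⟩
  set x := m * z * m with hx
  have xx : x * x = 1 := (M.q_zero R.xQ).mp (by rw [R.πx]; decide +kernel)
  have xi := inv_eq_of_mul_eq_one_right xx
  have xz : Commute x z := h.cz R.xQ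
  have xa : ∀ i, x * a i * x⁻¹ = a i := fun i => by
    have := (CL.TT.commute_conj_iff m _ _).mpr (show Commute z (f i) from (h.cz (R.fQ i)).symm)
    rw [minv R, ← R.ha] at this
    rw [this.eq, mul_inv_cancel_right]
  have L' : LV M a fun i => x * n i * x⁻¹ := by
    refine ⟨fun i => ?_, fun i => ?_, fun i => ?_,
      fun i j hij => ?_, fun i j => (CL.TT.commute_conj_iff x _ _).mpr (L.nn i j)⟩
    · rw [conj_mul, L.nsq, mul_one, mul_inv_cancel]
    · simpa only [one_mul, inv_one, mul_one] using (Ac.of_Q (M := M) h R.xQ).conj (L.ac i)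
    · rw [← xa i, conj_mul, conj_pow, L.ord, mul_one, mul_inv_cancel]
    · rw [← xa i]; exact (CL.TT.commute_conj_iff x _ _).mpr (L.an i j hij)
  refine ⟨_, L', fun i => nbn_of h R L' (i := 0) ?_⟩
  have e1 : x * b * x⁻¹ = b * z := conj_eq M h R.xQ R.bQ fun c => by
    have := (M.b_zero R.xQ R.bQ).mpr c
    rw [R.πx, R.πb, pol_B0, O8.B0_e] at this
    exact absurd this (by decide +kernel)
  have e2 : Commute x (f 0) := (M.b_zero R.xQ (R.fQ 0)).mp (by rw [R.πx, R.πf, pol_B0, O8.B0_e]; decide +kernel)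
  calc _ = x * (n 0 * (x⁻¹ * b * x) * n 0) * x⁻¹ := by group
    _ = x * (n 0 * b * n 0 * z) * x⁻¹ := by
        conv_lhs => enter [1, 2, 1, 2]; rw [xi, ← xi, xi]; enter [2]; rw [← xi]
        rw [e1, ← mul_assoc (n 0), mul_assoc _ z, ← (L.ac 0).1.eq, ← mul_assoc (n 0 * b)]
    _ = _ := by rw [e, mul_assoc (f 0), h.zz, mul_one, e2.eq, mul_inv_cancel_right]

end PR2x

open PR2x in
theorem rr2x (h : RR2.{u}) : RR2x.{u} := by
  intro G _ _ z x M S b m a f R
  obtain ⟨n, L, hn⟩ := exists_LV S.hy R h S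
  refine ⟨n, L, hn, fun k => ⟨bsq S.hy R, R.msq, asq S.hy R, L.nsq, R.ord, L.ord, PR2x.aa S.hy R, L.an, L.nn,
    fun i => by rw [hn, R.com], fun i => ?_, k⟩⟩
  rw [R.com, R.ha, ← mul_assoc, ← mul_assoc, R.msq, one_mul, mul_assoc, R.msq, mul_one]

end CL.N9.P
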