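/-
Extraspecial `F*(C(z))` of order `2 ^ 9` (S1763): the braid relation (port of `Spor/O8R3`).
-/
import Cfsg.Agent.N9.PD
import Cfsg.Agent.Spor.O8R3

set_option autoImplicit false
set_option linter.unusedSectionVars false

namespace CL.N9.P

open Cfsg Subgroup CL.Even CL.Grp CL.WC CL.Cls

universe u

namespace PR3

open CL.O8

theorem v1 : ∀ i j k, i ≠ j → i ≠ k → j ≠ k → ∀ w : N9.V8, w (7 : Fin 8).rev = e 0 (7 : Fin 8).rev →
    w (r3d j k).rev = e 0 (r3d j k).rev → w (sg j).rev = e 0 (sg j).rev → w (r3d i j).rev = e 0 (r3d i j).rev →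
    w (sg k).rev = e 0 (sg k).rev → w (r3d i k).rev = e 0 (r3d i k).rev → q0 w = 0 →
    w = e 0 ∨ w = e 0 + e (r3d j k) := by decide +kernel

set_option synthInstance.maxSize 2000 in
set_option synthInstance.maxHeartbeats 200000 in
theorem v2 : ∀ i j k, i ≠ j → i ≠ k → j ≠ k → ∀ w : N9.V8, w (7 : Fin 8).rev = e (sg i) (7 : Fin 8).rev →
    w (r3d j k).rev = e (sg i) (r3d j k).rev → w (sg j).rev = e (sg i) (sg j).rev →
    w (r3d i j).rev = e (sg i) (r3d i j).rev → w (sg k).rev = e (sg i) (sg k).rev →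
    w (r3d i k).rev = e (sg i) (r3d i k).rev → w (0 : Fin 8).rev = e (sg i) (0 : Fin 8).rev → q0 w = 0 →
    w = e (sg i) := by decide +kernel

theorem v3 : ∀ i j k, i ≠ j → i ≠ k → j ≠ k → (r3d j k = 3 ∨ r3d j k = 5 ∨ r3d j k = 6) ∧ ∀ l : Fin 8,
    l = 7 ∨ l = r3d j k ∨ l = sg j ∨ l = r3d i j ∨ l = sg k ∨ l = r3d i k ∨ l = 0 ∨ l = sg i := by decide +kernel

theorem one_of {g : OG qp} {O : Set N9.V8} (hO : g.1 (e 0) ∈ O) (hn : ∀ k : Fin 8, k = 3 ∨ k = 5 ∨ k = 6 → e 0 + e k ∉ O)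
    {i j k : Fin 3} (hij : i ≠ j) (hik : i ≠ k) (hjk : j ≠ k) (h1 : g.1 (e 7) = e 7)
    (h2 : g.1 (e (r3d j k)) = e (r3d j k)) (h3 : g.1 (e (sg j)) = e (sg j)) (h4 : g.1 (e (r3d i j)) = e (r3d i j))
    (h5 : g.1 (e (sg k)) = e (sg k)) (h6 : g.1 (e (r3d i k)) = e (r3d i k)) : g = 1 := by
  have p : ∀ {l : Fin 8}, g.1 (e l) = e l → ∀ v, g.1 v l.rev = v l.rev := fun {l} h v => by
    rw [← B0_e (g.1 v), ← B0_e v, ← pol_B0, ← pol_B0, ← OG.polar_app g v, h]
  have q : ∀ l, q0 (g.1 (e l)) = 0 := fun l => (OG.map_app g _).trans (r3_dec.1 l)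
  have h7 := (v1 i j k hij hik hjk _ (p h1 _) (p h2 _) (p h3 _) (p h4 _) (p h5 _) (p h6 _) (q 0)).resolve_right
    fun h => hn _ (v3 i j k hij hik hjk).1 (h ▸ hO)
  have h8 := v2 i j k hij hik hjk _ (p h1 _) (p h2 _) (p h3 _) (p h4 _) (p h5 _) (p h6 _) (p h7 _) (q _)
  refine OG.ext' fun v => funext fun l => ?_
  have h9 : g.1 (e l.rev) = e l.rev := by
    rcases (v3 i j k hij hik hjk).2 l.rev with h | h | h | h | h | h | h | h <;> rw [h] <;> assumption
  have := p h9 v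
  rwa [Fin.rev_rev] at this

variable {G : Type u} [Group G] [Finite G] {z x0 : G} {M : OM qp z}

theorem main (S : St z x0 M) {b m : G} {a f n : Fin 3 → G} (R : RA M b m a f) (L : LV M a n)
    (nb : ∀ i, n i * b * n i = f i) (i j k : Fin 3) (hij : i ≠ j) (hik : i ≠ k) (hjk : j ≠ k) :
    n i * (n j * f k * n j) * n i = m * z * m ∧ n i * m * n i = m * n i * m := by
  have T := S.hy.xe
  have nn := L.nsq
  have ni := fun l => inv_eq_of_mul_eq_one_right (nn l)
  have can : ∀ {g : G}, g * g = 1 → ∀ h, g * (g * h) = h := fun e h => by rw [← mul_assoc, e, one_mul]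
  have sq : ∀ {p : G} {k : Fin 8}, p ∈ QQ z → M.π p = e k → p * p = 1 := fun {p k} hp h =>
    (M.q_zero hp).1 (by rw [h]; exact r3_dec.1 k)
  have cm : ∀ {p p' : G} {k k' : Fin 8}, p ∈ QQ z → p' ∈ QQ z → M.π p = e k → M.π p' = e k' →
      (Commute p p' ↔ k'.rev ≠ k) :=
    fun {p p' k k'} hp hp' h h' => by rw [← M.b_zero hp hp', h, h', pol_B0, B0_e, e]; simp
  have nQ : ∀ l {p}, p ∈ QQ z → n l * p * n l ∈ QQ z ∧ M.π (n l * p * n l) = act (ν l) (M.π p) := fun l p hp => by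
    have h1 := S.hy.cmem (L.ac l).1 hp
    have h2 := (L.ac l).π hp
    rw [ni] at h1 h2
    exact ⟨h1, h2⟩
  have bb := sq R.bQ R.πb
  have ff := fun l => sq (R.fQ l) (R.πf l)
  have mam : ∀ l, m * a l * m = f l := fun l => by rw [R.ha]; simp only [mul_assoc, can R.msq, R.msq, mul_one]
  have aa : ∀ l, a l * a l = 1 := fun l => by
    rw [R.ha]; simp only [mul_assoc, can R.msq, can (ff l), R.msq]
  have gs : ∀ l l', n l * f l' * n l = n l' * f l * n l' := fun l l' => by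
    rw [← nb, ← nb, r3_sw (L.nn l l')]
  have gQ : ∀ l l', l ≠ l' → n l * f l' * n l ∈ QQ z ∧ M.π (n l * f l' * n l) = e (r3d l l') := fun l l' h =>
    ⟨(nQ l (R.fQ l')).1, by rw [(nQ l (R.fQ l')).2, R.πf, r3_nu l l' h]⟩
  have ag : ∀ l l', l ≠ l' → a l * f l' * a l = n l * f l' * n l * f l' := fun l l' h => by
    rw [gs, ← nb l', r3_sw (L.an l l' h), ← R.com l]
    simp only [mul_assoc, can (nn l'), can bb]
  have mg : ∀ l l', l ≠ l' → m * (n l * f l' * n l) * m = n l * f l' * n l := fun l l' h => by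
    have h1 := ((cm (R.fQ l) (gQ l' l h.symm).1 (R.πf l) (gQ l' l h.symm).2).2 (r3_dec.2.1 l l' h)).eq
    calc _ = m * (a l * f l' * a l * f l') * m := by rw [ag l l' h, mul_assoc _ (f l') (f l'), ff, mul_one]
      _ = f l * (a l' * f l * a l') := by rw [← mam l, R.ha l']; simp only [mul_assoc, can R.msq]
      _ = _ := by rw [ag l' l h.symm, ← mul_assoc, h1, mul_assoc, ff, mul_one, gs]
  obtain ⟨uQ, uπ⟩ := gQ j k hjk
  have mu := mg j k hjk
  set u := n j * f k * n j with hu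
  have uu := sq uQ uπ
  have au : a i * u * a i = n i * u * n i * u := by
    rw [hu, r3_sw (L.an i j hij), ag i k hik, r3_sw (L.nn i j)]
    simp only [mul_assoc, can (nn j)]
  have nu : n i * u * n i = m * z * m := by
    have h1 : f i * u * (f i)⁻¹ = u * z := by
      have := (T.mem_Z.mp (T.comm_mem (R.fQ i) uQ)).resolve_left (mt commutatorElement_eq_one_iff_commute.mp fun h =>
        (cm (R.fQ i) uQ (R.πf i) uπ).1 h (r3_dec.2.2.2.2.2 i j k hij hik hjk).1)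
      rw [T.comm uQ, ← this, commutatorElement_def, inv_mul_cancel_right]
    rw [inv_eq_of_mul_eq_one_right (ff i)] at h1
    have h2 : m * (n i * u * n i) * m = z := by
      calc _ = m * (a i * u * a i * u) * m := by rw [au, mul_assoc _ u u, uu, mul_one]
        _ = m * a i * m * (m * u * m) * (m * a i * m) * (m * u * m) := by simp only [mul_assoc, can R.msq]
        _ = _ := by rw [mam, mu, h1, T.comm uQ, mul_assoc, uu, mul_one]
    rw [← h2]; simp only [mul_assoc, can R.msq, R.msq, mul_one]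
  refine ⟨nu, ?_⟩
  obtain ⟨x, hx⟩ : ∃ x, x = m * z * m := ⟨_, rfl⟩
  have xQ : x ∈ QQ z := hx ▸ R.xQ
  have πx : M.π x = e 7 := hx ▸ R.πx
  rw [← hx] at nu
  have nx : n i * x * n i = u := by rw [← nu]; simp only [mul_assoc, can (nn i), nn, mul_one]
  have nz : n i * z * n i = z := by rw [(L.ac i).1.eq, mul_assoc, nn, mul_one]
  have na : ∀ l, i ≠ l → n i * a l * n i = a l := fun l h => by rw [← (L.an l i h.symm).eq, mul_assoc, nn, mul_one]
  obtain ⟨c1, c2, c3⟩ := r3_tri (nn i) R.msq nz nx hx.symm mu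
  obtain ⟨-, c4, c5⟩ := r3_tri (nn i) R.msq (na j hij) rfl (R.ha j ▸ mam j) (mg i j hij)
  obtain ⟨-, c6, c7⟩ := r3_tri (nn i) R.msq (na k hik) rfl (R.ha k ▸ mam k) (mg i k hik)
  set c := (n i * m) ^ 3 with hc
  have fx : ∀ {p : G} {l : Fin 8}, p ∈ QQ z → M.π p = e l → Commute c p → (M.ρ c).1 (e l) = e l := fun hp h h' => by
    rw [← h, ← M.π_conj c1 hp, h'.eq, mul_inv_cancel_right]
  have cQ' : c ∈ QQ z := (M.ker c1).1 (one_of ((M.ld S.hy).aO _ (M.ρ_mem c1) _ S.O0) S.On hij hik hjk (fx xQ πx c2)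
    (fx uQ uπ c3) (fx (R.fQ j) (R.πf j) c4) (fx (gQ i j hij).1 (gQ i j hij).2 c5) (fx (R.fQ k) (R.πf k) c6)
    (fx (gQ i k hik).1 (gQ i k hik).2 c7))
  have b0 : ∀ {p : G} {l : Fin 8}, p ∈ QQ z → M.π p = e l → Commute c p → M.π c l.rev = 0 := fun {p l} hp h h' => by
    rw [← B0_e (M.π c) l, ← h, ← pol_B0]; exact (M.b_zero cQ' hp).2 h'
  have ci : c⁻¹ = (m * n i) ^ 3 := by rw [hc, ← inv_pow, mul_inv_rev, ni, inv_eq_of_mul_eq_one_right R.msq]
  have nc : n i * c * n i = c⁻¹ := by rw [ci, hc]; simp only [pow_succ, pow_zero, one_mul, mul_assoc, can (nn i)]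
  have mc : m * c * m = c⁻¹ := by
    rw [ci, hc]; simp only [pow_succ, pow_zero, one_mul, mul_assoc, R.msq, mul_one]
  have hw : n i * m * n i = c * (m * n i * m) := by
    rw [hc]; simp only [pow_succ, pow_zero, one_mul, mul_assoc, can (nn i), can R.msq, R.msq, mul_one]
  have xz : x ≠ z := fun h => by
    rw [h, (M.π_zero T.mem).2 (Or.inr rfl)] at πx
    exact r3_dec.2.2.2.2.1 _ πx
  have zz := T.mul_self
  rcases r3_vec i j k hij hik hjk (M.π c) (b0 (R.fQ j) (R.πf j) c4) (b0 (R.fQ k) (R.πf k) c6)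
    (b0 (gQ i j hij).1 (gQ i j hij).2 c5) (b0 (gQ i k hik).1 (gQ i k hik).2 c7) (b0 xQ πx c2) (b0 uQ uπ c3)
    (by rw [← (nQ i cQ').2, nc, M.π_inv cQ']) with h | h
  · rcases (M.π_zero cQ').1 h with h | h
    · rw [hw, h, one_mul]
    · rw [h, T.inv_eq] at mc
      exact (xz (hx.trans mc)).elim
  have xx := sq xQ πx
  have ux := (cm uQ xQ uπ πx).2 (r3_dec.2.2.2.1 j k hjk).1
  have mx : m * x * m = z := by rw [hx]; simp only [mul_assoc, can R.msq, R.msq, mul_one]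
  rw [← uπ, ← πx, ← M.π_mul uQ xQ, eq_comm, M.π_eq (mul_mem uQ xQ) cQ'] at h
  exfalso
  rcases h with h | h
  · rw [h, mul_inv_rev, inv_eq_of_mul_eq_one_right uu, inv_eq_of_mul_eq_one_right xx, ← ux.eq] at mc
    refine xz (mul_left_cancel (a := u) (mc.symm.trans ?_))
    calc _ = m * u * m * (m * x * m) := by simp only [mul_assoc, can R.msq]
      _ = _ := by rw [mu, mx]
  have cc : c * c = 1 := by
    rw [h, mul_assoc, ← mul_assoc z, ← T.comm (mul_mem uQ xQ), mul_assoc _ z z, zz, mul_one, mul_assoc, ← mul_assoc x,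
      ← ux.eq, mul_assoc u x x, xx, mul_one, uu]
  rw [inv_eq_of_mul_eq_one_right cc] at nc mc
  have xa : Commute x (a i) := by
    rw [hx, R.ha, Commute, SemiconjBy]
    simp only [mul_assoc, can R.msq]
    rw [← mul_assoc z, ← T.comm (R.fQ i), mul_assoc]
  have := r3_last bb (ff i) R.msq (nn i) uu cc (nb i) (R.ha i) (R.com i) (L.ord i)
    ((cm (R.fQ i) R.bQ (R.πf i) R.πb).2 (r3_dec.2.2.1 i)) hw nc mc (by
      calc _ = a i * u * a i * (a i * (x * z) * a i) := by rw [h]; simp only [mul_assoc, can (aa i)]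
        _ = _ := by
          rw [au, nu, ← (xa.mul_left (R.ac i).1.symm).eq, mul_assoc _ (a i), aa, mul_one, h, ← ux.eq, mul_assoc _ z x,
            ← T.comm xQ]) nx mu ((cm uQ R.bQ uπ R.πb).2 (r3_dec.2.2.2.1 j k hjk).2) xa
  rw [this, M.π_one] at uπ
  exact r3_dec.2.2.2.2.1 _ uπ

end PR3

theorem rr3 : RR3.{u} := by
  intro G _ _ z x M S b m a f n R L nb
  refine ⟨fun i => ?_, nb 2 ▸ (PR3.main S R L nb 0 1 2 (by decide) (by decide) (by decide)).1⟩
  obtain ⟨j, k, hij, hik, hjk⟩ : ∃ j k, i ≠ j ∧ i ≠ k ∧ j ≠ k := by revert i; decide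
  exact (PR3.main S R L nb i j k hij hik hjk).2

end CL.N9.P
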