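/-
Extraspecial `F*(C(z))` of order `2 ^ 9` (S1763): change of the monomial coordinates.
-/
import Cfsg.Agent.N9.PD

set_option autoImplicit false
set_option linter.unusedSectionVars false

namespace CL.N9.P

open Cfsg Subgroup CL.Even CL.Grp CL.WC CL.Cls CL.P8 Equiv

universe u

namespace PREx

/-- the correction term in one block -/
def cr (s : ZMod 2) (t : ZMod 3) (p : P2) : ZMod 2 :=
  c2 (R2^[t.val] (Sw^[s.val] (1, 0))) (R2^[t.val] (Sw^[s.val] (0, 1))) * (p.1 * p.2)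

theorem cr_add : ∀ (s : ZMod 2) (t : ZMod 3) (p q : P2),
    c2 p q + cr s t (p + q) = cr s t p + cr s t q + c2 (R2^[t.val] (Sw^[s.val] p)) (R2^[t.val] (Sw^[s.val] q)) := by
  decide +kernel

theorem coc_sum (v w : V) : coc v w = ∑ k, c2 (v k) (w k) := by rw [Fin.sum_univ_four]; rfl

variable (σ : Perm (Fin 4)) (s : Fin 4 → ZMod 2) (t : Fin 4 → ZMod 3)

/-- the automorphism over a monomial map -/
def al : QM →* QM := MonoidHom.mk' (fun q => ⟨mon σ s t q.v, q.e + ∑ k, cr (s k) (t k) (q.v (σ⁻¹ k))⟩) fun p q =>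
  QM.ext (mon_add σ s t p.v q.v) (by
    have e : ∑ k, (c2 (p.v (σ⁻¹ k)) (q.v (σ⁻¹ k)) + cr (s k) (t k) ((p.v + q.v) (σ⁻¹ k))) =
        ∑ k, (cr (s k) (t k) (p.v (σ⁻¹ k)) + cr (s k) (t k) (q.v (σ⁻¹ k)) + c2 (mon σ s t p.v k) (mon σ s t q.v k)) :=
      Finset.sum_congr rfl fun k _ => cr_add _ _ _ _
    rw [Finset.sum_add_distrib, Finset.sum_add_distrib, Finset.sum_add_distrib,
      Equiv.sum_comp σ⁻¹ fun k => c2 (p.v k) (q.v k), ← coc_sum, ← coc_sum] at e
    simp only [QM.mul_e, QM.mul_v]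
    linear_combination e)

theorem al_v (q : QM) : (al σ s t q).v = mon σ s t q.v := rfl

theorem al_z : al σ s t zq = zq :=
  QM.ext (funext fun k => (mon_zero_iff σ s t 0 k).2 rfl) (by simp [al, zq, cr])

theorem al_inj : Function.Injective (al σ s t) := QM.injective (by rw [al_z]; exact zq_ne)

theorem al_surj : Function.Surjective (al σ s t) := Finite.surjective_of_injective (al_inj σ s t)

theorem mon_left (v : V) :
    mon σ⁻¹ (fun k => s (σ k)) (fun k => -((if s (σ k) = 0 then 1 else -1) * t (σ k))) (mon σ s t v) = v := by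
  rw [mon_mul, inv_mul_cancel]
  simp only [inv_inv, z2_add_self, neg_add_cancel]
  exact mon_one v

theorem mon_injective : Function.Injective (mon σ s t) := Function.LeftInverse.injective (mon_left σ s t)

theorem sup_mon (v : V) : P8.sup (mon σ s t v) = P8.sup v := by
  have e : ∀ w : V, P8.sup w = ∑ k, if w k = 0 then 0 else 1 := fun w => by rw [Fin.sum_univ_four]; rfl
  rw [e, e, ← Equiv.sum_comp σ⁻¹ fun k => if v k = 0 then 0 else 1]
  exact Finset.sum_congr rfl fun k _ => by simp only [mon_zero_iff]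

theorem rot_mon (r : Fin 4 → ZMod 3) (v : V) :
    rot (fun k => (if s k = 0 then 1 else -1) * r (σ⁻¹ k)) (mon σ s t v) = mon σ s t (rot r v) := funext fun k =>
  (by decide +kernel : ∀ (s : ZMod 2) (t r : ZMod 3) (p : P2),
    R2^[((if s = 0 then 1 else -1) * r).val] (R2^[t.val] (Sw^[s.val] p)) = R2^[t.val] (Sw^[s.val] (R2^[r.val] p))) _ _ _ _

theorem neg_mon (v : V) : rot (fun k => t k + t k) (mon 1 1 0 (mon σ s t v)) = mon σ s t (mon 1 1 0 v) := funext fun k =>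
  (by decide +kernel : ∀ (s : ZMod 2) (t : ZMod 3) (p : P2),
    R2^[(t + t).val] (Sw (R2^[t.val] (Sw^[s.val] p))) = R2^[t.val] (Sw^[s.val] (Sw p))) _ _ _

end PREx

open PREx in
theorem re : RE.{u} := by
  intro G _ _ z ψ w σ s t
  obtain rfl := w.hz
  have ez : (ψ.comp (al σ s t)) zq = ψ zq := congrArg ψ (al_z σ s t)
  have inj : Function.Injective (ψ.comp (al σ s t)) := w.xq.inj.comp (al_inj σ s t)
  have nq : ∀ x, Commute x (ψ zq) → Nq (ψ.comp (al σ s t)) x := fun x hx q => by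
    obtain ⟨p, e⟩ := w.xq.nq x hx (al σ s t q)
    obtain ⟨p, rfl⟩ := al_surj σ s t p
    exact ⟨p, e⟩
  have key : ∀ x, Commute x (ψ zq) → ∀ v, act ψ x (mon σ s t v) = mon σ s t (act (ψ.comp (al σ s t)) x v) :=
    fun x hx v => by
      obtain ⟨p, e⟩ := nq x hx ⟨v, 0⟩
      rw [show act (ψ.comp (al σ s t)) x v = p.v from act_eq inj (ez ▸ hx) e]
      exact act_eq w.xq.inj hx e
  have rg : (ψ.comp (al σ s t)).range = ψ.range := Subgroup.ext fun x => ⟨fun ⟨q, e⟩ => ⟨_, e⟩, fun ⟨q, e⟩ => by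
    obtain ⟨q, rfl⟩ := al_surj σ s t q
    exact ⟨q, e⟩⟩
  refine ⟨ψ.comp (al σ s t), ⟨w.hy, ⟨inj, fun x hx => nq x (ez ▸ hx), fun x hx h => ?_⟩, ez, rg.trans w.hQ,
    fun x hx => ?_, fun r => ?_, ?_, fun q => ?_⟩, key⟩
  · rw [ez] at hx
    rw [rg]
    refine w.xq.cq x hx fun v => ?_
    obtain ⟨q, e⟩ := al_surj σ s t ⟨v, 0⟩
    rw [show v = mon σ s t q.v from (congrArg QM.v e).symm, key x hx, h]
  · obtain ⟨σ1, s1, t1, h1, h2⟩ := w.mono x hx
    refine ⟨_, _, _, ?_, funext fun v => by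
      rw [← mon_left σ s t (act _ x v), ← key x hx, h2, mon_mul σ1, mon_mul]⟩
    rw [← Fin.sum_univ_four] at h1
    rw [← Fin.sum_univ_four fun k => s (σ k) + (s1 (σ⁻¹⁻¹ k) + s (σ1⁻¹ (σ⁻¹⁻¹ k))), Finset.sum_add_distrib,
      Finset.sum_add_distrib, Equiv.sum_comp σ s, Equiv.sum_comp σ⁻¹⁻¹ s1,
      Equiv.sum_comp σ⁻¹⁻¹ fun k => s (σ1⁻¹ k), Equiv.sum_comp σ1⁻¹ s, h1, zero_add, z2_add_self]
  · obtain ⟨x, hx, e⟩ := w.hrot fun k => (if s k = 0 then 1 else -1) * r (σ⁻¹ k)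
    exact ⟨x, hx, funext fun v => mon_injective σ s t (by rw [← key x hx, e, rot_mon])⟩
  · obtain ⟨x, hx, e⟩ := w.hrot fun k => t k + t k
    obtain ⟨y, hy, e'⟩ := w.hneg
    exact ⟨x * y, hx.mul_left hy, funext fun v => mon_injective σ s t (by
      rw [← key _ (hx.mul_left hy), w.xq.act_mul hx hy, e, e', neg_mon])⟩
  · refine (w.hsup (al σ s t q)).trans (or_congr ⟨fun e => al_inj σ s t (e.trans (al_z σ s t).symm), ?_⟩ ?_)
    · rintro rfl; exact al_z σ s t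
    · rw [al_v, sup_mon]

end CL.N9.P
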