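/-
S1763: monomial coordinates for the configuration with 81 points.
-/
import Cfsg.Agent.N9.PD

set_option autoImplicit false
set_option linter.unusedSectionVars false

namespace CL.N9.P

open Cfsg Subgroup CL.Even CL.Grp CL.WC CL.Cls CL.P8 Equiv

universe u

namespace PS81

/-- `g` is the monomial map in the coordinates `κ` -/
def Mo (g : OG qp) (σ : Perm (Fin 4)) (s : Fin 4 → ZMod 2) (t : Fin 4 → ZMod 3) : Prop :=
  ∀ v, g.1 (κ v) = κ (mon σ s t v)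

theorem mo_of {c : ℕ} {σ : Perm (Fin 4)} {s : Fin 4 → ZMod 2} {t : Fin 4 → ZMod 3} (h : okc c = true ∧
    ∀ k, dec (ap c (enc (κ (ea k)))) = κ (mon σ s t (ea k)) ∧ dec (ap c (enc (κ (eb k)))) = κ (mon σ s t (eb k))) :
    Mo (cO c) σ s t := fun v => by
  have : AddMonoidHom.mk' (fun v => (cO c).1 (κ v)) (fun v w => by rw [κ_add, map_add]) =
      AddMonoidHom.mk' (fun v => κ (mon σ s t v)) fun v w => by rw [mon_add, κ_add] := by
    refine AddMonoidHom.ext fun v => ?_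
    have e : ∀ v, (cO c).1 (κ v) = dec (ap c (enc (κ v))) := fun v => by rw [← cO_dec h.1, dec_enc]
    rw [V_eq_sum v]
    simp only [map_add, map_nsmul, AddMonoidHom.mk'_apply, e, (h.2 _).1, (h.2 _).2]
  exact DFunLike.congr_fun this v

instance : Finite (OG qp) := have : Finite (V8 ≃ₗ[ZMod 2] V8) := DFunLike.finite _; inferInstance

/-- the monomial maps of a given type -/
def MS (P : Perm (Fin 4) → (Fin 4 → ZMod 2) → Prop) (h1 : P 1 0)
    (hm : ∀ σ s σ' s', P σ s → P σ' s' → P (σ * σ') fun k => s k + s' (σ⁻¹ k)) : Subgroup (OG qp) :=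
  let S : Submonoid (OG qp) :=
    { carrier := {g | ∃ σ s t, P σ s ∧ Mo g σ s t}
      one_mem' := ⟨1, 0, 0, h1, fun _ => rfl⟩
      mul_mem' := fun ⟨σ, s, _, p, m⟩ ⟨σ', s', _, p', m'⟩ =>
        ⟨_, _, _, hm σ s σ' s' p p', fun v => by rw [OG.mul_app, m', m, mon_mul]⟩ }
  { S with inv_mem' := fun {g} hg =>
      (Submonoid.powers_le (P := S)).2 hg (mem_powers_iff_mem_zpowers.2 (inv_mem (mem_zpowers g))) }

def M1 : Subgroup (OG qp) := MS (fun _ s => s 0 + s 1 + s 2 + s 3 = 0) rfl fun σ s _ s' p p' => by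
  have := Equiv.sum_comp σ⁻¹ s'
  rw [Fin.sum_univ_four, Fin.sum_univ_four] at this
  linear_combination p + p' + this

def M2 : Subgroup (OG qp) := MS (fun σ s => InV4 σ ∧ ∃ c, s = fun _ => c) ⟨.inl rfl, 0, rfl⟩ <| by
  rintro σ _ σ' _ ⟨p, c, rfl⟩ ⟨p', c', rfl⟩
  refine ⟨?_, c + c', rfl⟩
  rcases p with rfl | rfl | rfl | rfl <;> rcases p' with rfl | rfl | rfl | rfl <;> decide

abbrev t0 : Fin 4 → ZMod 3 := ![1, 0, 2, 0]
abbrev σ1 : Perm (Fin 4) := swap 0 2 * swap 1 3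
abbrev σ2 : Perm (Fin 4) := swap 0 1 * swap 2 3
abbrev σ3 : Perm (Fin 4) := swap 0 3 * swap 1 2

theorem m0 : Mo (cO 0x80c02030080c0203) σ1 (fun _ => 0) 0 := mo_of (by decide +kernel)
theorem m1 : Mo (cO 0x8040a05008040a05) σ2 (fun _ => 0) 0 := mo_of (by decide +kernel)
theorem m2 : Mo (cO 0x8040201088442211) σ3 (fun _ => 1) 0 := mo_of (by decide +kernel)
theorem m3 : Mo (cO 0xc04030100c040301) σ1 0 ![2, 2, 1, 1] := mo_of (by decide +kernel)
theorem m4 : Mo (cO 0xa05020100a050201) σ2 0 ![2, 1, 2, 1] := mo_of (by decide +kernel)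
theorem m5 : Mo (cO 0x8844221108040201) σ3 1 2 := mo_of (by decide +kernel)
theorem m6 : Mo (cO 0x7c94e371cb4d3d16) σ1 0 t0 := mo_of (by decide +kernel)
theorem m7 : Mo (cO 0xcc4433110c040301) σ2 1 ![1, 1, 0, 0] := mo_of (by decide +kernel)
theorem m8 : Mo (cO 0xf05030100f050301) σ3 0 ![1, 0, 0, 2] := mo_of (by decide +kernel)
theorem m9 : Mo (cO 0x8008200240041001) (swap 2 3) ![0, 0, 1, 1] 0 := mo_of (by decide +kernel)
theorem m10 : Mo (cO 0x8020401008020401) (swap 1 2) 0 0 := mo_of (by decide +kernel)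
theorem m11 : Mo (cO 0x80402010e8949271) (swap 0 3) ![1, 0, 0, 1] 0 := mo_of (by decide +kernel)

theorem le1 : closure {g | g ∈ d81.gN} ≤ M1 := (closure_le _).2 fun g hg => by
  simp only [d81, DC.dat, c81, List.cons_append, List.nil_append, List.map_cons, List.map_nil, List.mem_cons,
    List.not_mem_nil, or_false, Set.mem_ofPred_eq] at hg
  rcases hg with h | h | h | h | h | h | h | h | h | h | h | h <;> rw [h]
  exacts [⟨_, _, _, by decide, m0⟩, ⟨_, _, _, by decide, m1⟩, ⟨_, _, _, by decide, m2⟩, ⟨_, _, _, by decide, m3⟩,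
    ⟨_, _, _, by decide, m4⟩, ⟨_, _, _, by decide, m5⟩, ⟨_, _, _, by decide, m6⟩, ⟨_, _, _, by decide, m7⟩,
    ⟨_, _, _, by decide, m8⟩, ⟨_, _, _, by decide, m9⟩, ⟨_, _, _, by decide, m10⟩, ⟨_, _, _, by decide, m11⟩]

theorem le2 : closure {g | g ∈ d81.l} ≤ M2 := (closure_le _).2 fun g hg => by
  simp only [d81, DC.dat, c81, List.take_succ_cons, List.take_zero, List.map_cons, List.map_nil, List.mem_cons,
    List.not_mem_nil, or_false, Set.mem_ofPred_eq] at hg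
  rcases hg with h | h | h <;> rw [h]
  exacts [⟨_, _, _, ⟨by decide, _, rfl⟩, m0⟩, ⟨_, _, _, ⟨by decide, _, rfl⟩, m1⟩, ⟨_, _, _, ⟨by decide, _, rfl⟩, m2⟩]

theorem pts (v : V) : κ v ∈ d81.P ↔ P8.sup v = 4 := by
  rw [← (by decide +kernel : ∀ v, enc (κ v) ∈ c81.P ↔ P8.sup v = 4)]
  refine ⟨fun h => ?_, fun h => List.mem_map.2 ⟨_, h, dec_enc _⟩⟩
  obtain ⟨x, hx, e⟩ := List.mem_map.1 h
  rwa [← e, enc_dec x ((by decide +kernel : ∀ x ∈ c81.P, x < 256) x hx)]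

end PS81

open PS81

theorem s81c : S81C.{u} := by
  intro G _ _ z M H cf ι io
  obtain rfl := io.hz
  have st := io.st
  have ac : ∀ {x σ s t}, Commute x (ι P8.z) → Mo (M.ρ x) σ s t → act (ι.comp φ) x = mon σ s t := fun hx m =>
    funext fun v => κ_inj ((io.hact _ hx v).trans (m v))
  have mq : ∀ q, (ι.comp φ) q ∈ QQ (ι P8.z) := fun q => io.hQ.le ⟨q, rfl⟩
  have hs : ∀ q, IsConj (ι P8.z) ((ι.comp φ) q) ↔ q = zq ∨ P8.sup q.v = 4 := fun q => by
    refine ⟨fun h => or_iff_not_imp_left.2 fun n => (pts _).1 ((cf.O_iff _).1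
      ⟨_, ⟨h, mq q, fun e => n (st.xq.inj (e.trans (psi_z ι).symm))⟩, io.hπ q⟩), ?_⟩
    rintro (rfl | h)
    · rw [psi_z]
    · obtain ⟨t, n, e⟩ := (cf.O_iff _).2 ((pts _).2 h)
      rcases (M.π_eq n.mem (mq q)).1 (e.trans (io.hπ q).symm) with k | k <;> rw [k]
      · exact n.ic
      · rw [← (H.zt n).eq]; exact (H.third n).ic
  have c0 : ∀ i < 14, Commute (ι (g i)) (ι P8.z) := fun i hi => (C0_z (mem_gen (List.mem_range.2 hi))).map ι
  refine ⟨st, ⟨H, st.xq, psi_z ι, io.hQ, fun x hx => ?_, fun t => ?_, ⟨ι s3, c0 13 (by decide), act_s3 st.inj⟩, hs⟩,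
    fun r hr hc => ?_⟩
  · obtain ⟨σ, s, t, p, m⟩ := le1 (cf.le_N (M.ρ_mem hx))
    exact ⟨σ, s, t, p, ac hx m⟩
  · obtain ⟨x, hx, e⟩ := M.mem_X.1 (cf.H_le (cO 0x7c94e371cb4d3d16) (List.mem_map_of_mem (by decide)))
    have c1 : Commute (ι s1) (ι P8.z) := c0 11 (by decide)
    have hy : act (ι.comp φ) (x * ι s1) = rot t0 := by
      rw [st.act_mul hx c1, ac hx (e ▸ m6), act_s1 st.inj]
      funext v k
      fin_cases k <;> rfl
    obtain ⟨n, hn⟩ := (by decide +kernel : ∀ t : Fin 4 → ZMod 3, ∃ n : Fin 3,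
      (t - (n : ℕ) • t0) 0 - (t - (n : ℕ) • t0) 1 - (t - (n : ℕ) • t0) 2 + (t - (n : ℕ) • t0) 3 = 0) t
    obtain ⟨d, hd, e⟩ := st.exists_d hn
    have cd : Commute (ι d) (ι P8.z) := (C0_z (DD_le hd)).map ι
    refine ⟨ι d * (x * ι s1) ^ (n : ℕ), cd.mul_left ((hx.mul_left c1).pow_left _), ?_⟩
    rw [st.act_mul cd ((hx.mul_left c1).pow_left _), e, st.act_pow (hx.mul_left c1) hy]
    exact funext fun v => by rw [rot_rot, sub_add_cancel]
  · have e : (ι.comp φ) qzp = ι zp := congrArg ι φ_zp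
    have n : Nb (ι P8.z) (ι zp) := ⟨e ▸ (hs qzp).2 (.inr (by decide)), e ▸ mq qzp, fun k =>
      absurd (st.xq.inj ((e.trans k).trans (psi_z ι).symm)) (by decide)⟩
    have e2 : M.π (ι zp) = d81.v0 := by
      rw [← φ_zp, io.hπ]; exact (by decide +kernel : κ qzp.v = dec 128)
    obtain ⟨σ, _, t, ⟨p, c, rfl⟩, m⟩ := le2 (cf.L_eq.le (e2 ▸ (M.mem_L H n).2 ⟨r, hr, hc, rfl⟩))
    exact ⟨σ, c, t, p, ac hc m⟩

end CL.N9.P
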