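/-
Extraspecial `F*(C(z))` of order `2 ^ 9`: the centraliser of `z E` in `C(E) / E` is solvable.
-/
import Cfsg.Agent.N9.PD

set_option autoImplicit false
set_option linter.unusedSectionVars false

namespace CL.N9.P

open Cfsg Subgroup CL.Even CL.Grp CL.WC CL.Cls CL.P8 Equiv

universe u

namespace PSOL

variable {G : Type u} [Group G] {ι : Γ0 →* G}

theorem div (h : St0 ι) {a b : G} (ha : Commute a (ι P8.z)) (hb : Commute b (ι P8.z)) {σ σ' s s' t t' r}
    (ea : act (ι.comp φ) a = mon σ s t) (eb : act (ι.comp φ) b = mon σ s t')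
    (ei : act (ι.comp φ) b⁻¹ = mon σ' s' r) : ∃ t, act (ι.comp φ) (a * b⁻¹) = rot t := by
  have h1 := h.act_mul hb hb.inv_left
  rw [mul_inv_cancel, eb, ei, funext (mon_mul σ σ' s s' t' r),
    show act (ι.comp φ) 1 = mon 1 0 0 from funext h.xq.act_one] at h1
  obtain ⟨h2, h3, -⟩ := mon_inj h1
  rw [h.act_mul ha hb.inv_left, ea, ei, funext (mon_mul σ σ' s s' t r), ← h2, ← h3]
  exact ⟨_, mon_rot _⟩

theorem solv [Finite G] (h : St0 ι) (l : NL ι) : IsSolvable (NN ι ⊓ centralizer {ι P8.z} : Subgroup G) := by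
  set Y : Subgroup G := NN ι ⊓ centralizer {ι P8.z}
  have cz : ∀ x : Y, Commute (x : G) (ι P8.z) := fun x => mem_centralizer_singleton_iff.1 x.2.2
  let K : Subgroup Y :=
    { carrier := {x | ∃ t, act (ι.comp φ) (x : G) = rot t}
      one_mem' := ⟨0, funext h.xq.act_one⟩
      mul_mem' := fun {x y} ⟨s, hx⟩ ⟨t, hy⟩ => ⟨s + t, by
        rw [coe_mul, h.act_mul (cz x) (cz y), hx, hy]; exact funext fun v => rot_rot _ _ _⟩
      inv_mem' := fun {x} ⟨t, hx⟩ => ⟨-t, h.act_inv (cz x) hx⟩ }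
  have ty : ∀ x : Y, ∃ σ s t, act (ι.comp φ) (x : G) = mon σ s t := fun x => by
    obtain ⟨c, t2, t3, e | e⟩ := l.ty x x.2.1 (cz x) <;> exact ⟨_, _, _, e⟩
  have h1 : derivedSeries Y 1 ≤ K := by
    rw [derivedSeries_one, commutator_def, commutator_le]
    intro x _ y _
    have k : ∀ σ s t σ' s' t', act (ι.comp φ) (x : G) = mon σ s t → act (ι.comp φ) (y : G) = mon σ' s' t' →
        σ * σ' = σ' * σ → (fun k => s k + s' (σ⁻¹ k)) = (fun k => s' k + s (σ'⁻¹ k)) → x * y * x⁻¹ * y⁻¹ ∈ K := by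
      intro σ s t σ' s' t' hx hy e1 e2
      have a1 := h.act_mul (cz x) (cz y)
      have a2 := h.act_mul (cz y) (cz x)
      rw [hx, hy, funext (mon_mul _ _ _ _ _ _)] at a1 a2
      rw [e1, e2] at a1
      obtain ⟨σ'', s'', r, ei⟩ := ty (y * x)⁻¹
      rw [show x * y * x⁻¹ * y⁻¹ = x * y * (y * x)⁻¹ by group]
      exact div h (cz (x * y)) (cz (y * x)) a1 a2 ei
    obtain ⟨c, t2, t3, hx | hx⟩ := l.ty x x.2.1 (cz x) <;> obtain ⟨c', t2', t3', hy | hy⟩ := l.ty y y.2.1 (cz y) <;>
      exact k _ _ _ _ _ _ hx hy (by decide +kernel) (by clear hx hy; revert c c'; decide +kernel)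
  have h2 : derivedSeries Y 2 ≤ ((ι.comp φ).range).subgroupOf Y := by
    rw [derivedSeries_succ, commutator_le]
    intro x hx y hy
    obtain ⟨s, es⟩ := h1 hx
    obtain ⟨t, et⟩ := h1 hy
    rw [mem_subgroupOf, psi_range]
    refine h.mem_Q (cz _) ?_
    change act _ ((x : G) * y * (x : G)⁻¹ * (y : G)⁻¹) = _
    rw [h.act_mul (((cz x).mul_left (cz y)).mul_left (cz x).inv_left) (cz y).inv_left,
      h.act_mul ((cz x).mul_left (cz y)) (cz x).inv_left, h.act_mul (cz x) (cz y),
      h.act_inv (cz x) es, h.act_inv (cz y) et, es, et]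
    exact funext fun v => by simp only [rot_rot]; congr 1; abel
  have hQ : IsPGroup 2 (derivedSeries Y 2) :=
    (((IsPGroup.of_card (n := 9) card_QM).of_surjective _ (ι.comp φ).rangeRestrict_surjective).comap_subtype).to_le h2
  generalize hD : derivedSeries Y 2 = D at hQ
  have := hQ.isNilpotent
  obtain ⟨n, hn⟩ := (IsNilpotent.to_isSolvable : IsSolvable D).solvable
  have k : ∀ m, derivedSeries Y (2 + m) = (derivedSeries D m).map D.subtype := fun m => by
    induction m with
    | zero => rw [derivedSeries_zero, ← MonoidHom.range_eq_map, range_subtype, ← hD]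
    | succ m ih => rw [← add_assoc, derivedSeries_succ, derivedSeries_succ, map_commutator, ih]
  exact ⟨2 + n, by rw [k, hn, Subgroup.map_bot]⟩

end PSOL

theorem sol : SOL.{u} := by
  intro G _ _ ι s l
  have : Group.IsSolvable _ := PSOL.solv s.st l
  let p : (NN ι ⊓ centralizer {ι P8.z} : Subgroup G) →* NB ι := (QuotientGroup.mk' (EE ι)).comp (inclusion inf_le_left)
  have : Group.IsSolvable p.range := solvable_of_surjective p.rangeRestrict_surjective
  refine solvable_of_solvable_injective (f := inclusion (show _ ≤ p.range from fun t ht => ?_)) (inclusion_injective _)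
  obtain ⟨x, rfl⟩ := QuotientGroup.mk_surjective t
  exact ⟨⟨x, x.2, mem_centralizer_singleton_iff.2 (l.cmk x (mem_centralizer_singleton_iff.1 ht))⟩, rfl⟩

end CL.N9.P
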