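/-
Extraspecial `F*(C(z))` of order `2 ^ 9` (S1763): the facts common to the configurations with 27 and 81 points.
-/
import Cfsg.Agent.N9.PD

set_option autoImplicit false
set_option linter.unusedSectionVars false

namespace CL.N9.P

open Cfsg Subgroup CL.Even CL.Grp CL.WC CL.Cls CL.P8 Equiv

universe u

namespace PSTC

def cs : Fin 3 → ℕ := ![0x80c02030080c0203, 0x8040a05008040a05, 0x8040201088442211]
def ct : Fin 3 → ℕ := ![0xc04030100c040301, 0xa05020100a050201, 0x8844221108040201]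

theorem cs_ok : ∀ i, okc (cs i) = true ∧ cm (cs i) = O8.mat (O8.s i) := by decide +kernel
theorem ct_ok : ∀ i, okc (ct i) = true ∧ cm (ct i) = O8.mat (O8.ν i * O8.s i * O8.ν i) := by decide +kernel
theorem ν_eq : ∀ i, O8.ν i = O8.s i * (O8.ν i * O8.s i * O8.ν i) * O8.s i := by decide +kernel
theorem inA_s : ∀ i, O8.InA (O8.s i) := by decide +kernel
theorem d128 : dec 128 = O8.e 7 := by decide +kernel
theorem d1 : dec 1 = O8.e 0 := by decide +kernel
theorem dk : ∀ k : Fin 8, k = 3 ∨ k = 5 ∨ k = 6 → dec (1 + 2 ^ k.val) = O8.e 0 + O8.e k := by decide +kernel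

theorem app {c : ℕ} {w : O8.X} (h : okc c = true ∧ cm c = O8.mat w) (v : V8) : (cO c).1 v = O8.act w v := by
  rw [cO_app h.1, h.2, O8.act, Matrix.toLin'_apply]

theorem main {G : Type u} [Group G] [Finite G] {z : G} (M : OM qp z) (h : Hy z) (c : DC)
    (k : Cfg c.dat M.X M.O M.E M.L) (h1 : c.gH.take 3 = [cs 0, cs 1, cs 2]) (h2 : ∀ i, cs i ∈ c.gH ∧ ct i ∈ c.gH)
    (h3 : 1 ∈ c.P) (h4 : ∀ k : Fin 8, k = 3 ∨ k = 5 ∨ k = 6 → ∀ x ∈ c.P, dec x ≠ dec (1 + 2 ^ k.val)) :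
    ∃ x, St z x M := by
  obtain ⟨x, n, e⟩ := (k.O_iff _).2 k.v0
  have ex : ∀ a ∈ c.gH, ∀ w, okc a = true ∧ cm a = O8.mat w → ∃ y, Ac M y w := fun a ha w hw => by
    obtain ⟨y, hy, e1⟩ := M.mem_X.1 (k.H_le _ (List.mem_map_of_mem ha))
    exact ⟨y, hy, fun v => by rw [e1, app hw]⟩
  have hL : M.L (M.π x) = closure {g | g ∈ [cO (cs 0), cO (cs 1), cO (cs 2)]} := by
    rw [e, k.L_eq]
    change closure {g | g ∈ (c.gH.take 3).map cO} = _
    rw [h1]; rfl
  refine ⟨x, h, n, e.trans d128, fun w => ?_, fun {y} hy cy => ?_, fun i => ?_, ?_, fun j hj m => ?_⟩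
  · have hw : w ∈ closure (Set.range O8.s ∪ Set.range O8.ν) := O8.closure_sν ▸ mem_top w
    induction hw using closure_induction with
    | mem w hw =>
      rcases hw with ⟨i, rfl⟩ | ⟨i, rfl⟩
      · exact ex _ (h2 i).1 _ (cs_ok i)
      · obtain ⟨a, ha⟩ := ex _ (h2 i).1 _ (cs_ok i)
        obtain ⟨b, hb⟩ := ex _ (h2 i).2 _ (ct_ok i)
        exact ⟨_, by rw [ν_eq]; exact (ha.mul hb).mul ha⟩
    | one => exact ⟨1, Ac.one⟩
    | mul _ _ _ _ ha hb => exact let ⟨_, ha⟩ := ha; let ⟨_, hb⟩ := hb; ⟨_, ha.mul hb⟩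
    | inv _ _ ha => exact let ⟨_, ha⟩ := ha; ⟨_, ha.inv⟩
  · have key : ∀ g ∈ closure {g | g ∈ [cO (cs 0), cO (cs 1), cO (cs 2)]}, ∃ w ∈ O8.A0, ∀ v, g.1 v = O8.act w v := by
      intro g hg
      induction hg using closure_induction with
      | mem g hg =>
        simp only [List.mem_cons, List.not_mem_nil, or_false, Set.mem_setOf_eq] at hg
        obtain ⟨i, hi⟩ : ∃ i, g = cO (cs i) := hg.elim (⟨0, ·⟩) fun hg => hg.elim (⟨1, ·⟩) (⟨2, ·⟩)
        exact ⟨_, inA_s i, fun v => by rw [hi, app (cs_ok i)]⟩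
      | one => exact ⟨1, one_mem _, fun v => by rw [O8.act_one]; rfl⟩
      | mul a b _ _ ha hb =>
        obtain ⟨v, hv, ha⟩ := ha
        obtain ⟨w, hw, hb⟩ := hb
        exact ⟨v * w, mul_mem hv hw, fun t => by rw [O8.act_mul, Module.End.mul_apply, ← hb, ← ha]; rfl⟩
      | inv a _ ha =>
        obtain ⟨v, hv, ha⟩ := ha
        refine ⟨v⁻¹, inv_mem hv, fun t => a.1.injective ?_⟩
        rw [ha (O8.act _ _), ← Module.End.mul_apply, ← O8.act_mul, mul_inv_cancel, O8.act_one]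
        exact a.1.apply_symm_apply t
    obtain ⟨w, hw, e1⟩ := key _ (hL ▸ (M.mem_L h n).2 ⟨y, hy, cy, rfl⟩)
    exact ⟨w, hw, cy, e1⟩
  · have : cO (cs i) ∈ M.L (M.π x) := hL ▸ subset_closure (by fin_cases i <;> simp)
    obtain ⟨y, hy, cy, e1⟩ := (M.mem_L h n).1 this
    exact ⟨y, hy, cy, fun v => by rw [e1, app (cs_ok i)]⟩
  · exact (k.O_iff _).2 (d1 ▸ List.mem_map_of_mem h3)
  · obtain ⟨a, ha, e1⟩ := List.mem_map.1 ((k.O_iff _).1 m)
    exact h4 j hj a ha (e1.trans (dk j hj).symm)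

end PSTC

theorem stc : STC.{u} := fun _ _ _ _ M h k => k.elim
  (fun k => PSTC.main M h c27 k rfl (by decide +kernel) (by decide +kernel) (by decide +kernel))
  fun k => PSTC.main M h c81 k rfl (by decide +kernel) (by decide +kernel) (by decide +kernel)

end CL.N9.P
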