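/-
Extraspecial `F*(C(z))` of order `2 ^ 9` (S1763): a Sylow 2-subgroup of `C(E) / E` in the configuration with 81 points.
-/
import Cfsg.Agent.N9.PD
import Cfsg.Agent.P8.NA

set_option autoImplicit false
set_option linter.unusedSectionVars false

namespace CL.N9.P

open Cfsg Subgroup CL.Even CL.Grp CL.WC CL.Cls CL.P8 Equiv

universe u

variable {G : Type u} [Group G] {ι : Γ0 →* G}

namespace PTR1

open CL.P8.NA

theorem in_of {x : G} {σ : Perm (Fin 4)} {s : Fin 4 → ZMod 2} {t : Fin 4 → ZMod 3} (e : act (ι.comp φ) x = mon σ s t)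
    (h1 : InV4 σ) (h2 : ∀ k, s k = s 0) : In ι x := ⟨σ, s 0, t, h1, by rw [e, show s = fun _ => s 0 from funext h2]⟩

theorem mul_mon (h : St0 ι) {x y : G} (hx : Commute x (ι P8.z)) (hy : Commute y (ι P8.z)) {σ σ' : Perm (Fin 4)}
    {s s' : Fin 4 → ZMod 2} {t t' : Fin 4 → ZMod 3} (e : act (ι.comp φ) x = mon σ s t)
    (e' : act (ι.comp φ) y = mon σ' s' t') :
    ∃ t'', act (ι.comp φ) (x * y) = mon (σ * σ') (fun k => s k + s' (σ⁻¹ k)) t'' :=
  ⟨_, by rw [h.act_mul hx hy, e, e']; exact funext fun v => mon_mul _ _ _ _ _ _ v⟩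

theorem act_w (h : St0 ι) : act (ι.comp φ) (ι w1) = mon τ0 1 2 := by
  rw [act_w1 h.inj]
  exact funext fun v => funext fun k => by
    have e : (τ0⁻¹ : Perm (Fin 4)) k = ![1, 0, 3, 2] k := by revert k; decide
    simp only [mon, e]
    generalize v _ = p
    revert p k
    decide +kernel

theorem T_le' : TT.map ι ≤ NN ι := fun _ ⟨_, hx, e⟩ => e ▸ CE_NN ι (TT_le hx)
theorem T_z : ∀ s ∈ TT.map ι, Commute s (ι P8.z) := fun _ ⟨_, hs, e⟩ => e ▸ (TT_z hs).map ι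

theorem inT (h : St0 ι) (n : NL ι) {P : Subgroup G} (hP : IsPGroup 2 P) (hT : TT.map ι ≤ P) (hN : P ≤ NN ι) {x : G}
    (hx : x ∈ P) (hz : Commute x (ι P8.z)) (hi : In ι x) : x ∈ TT.map ι := by
  have k : ∀ x ∈ P, Commute x (ι P8.z) → ∀ t, act (ι.comp φ) x = rot t → x ∈ TT.map ι := fun x hx hz t e => by
    obtain ⟨n, hn⟩ := hP ⟨x, hx⟩
    have h1 := h.act_pow hz e (2 ^ n)
    rw [show x ^ 2 ^ n = 1 from congrArg Subtype.val hn] at h1
    have h2 := rot_eq_id fun v => (congrFun h1 v).symm.trans (h.xq.act_one v)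
    obtain rfl : t = 0 := funext fun k => by
      have := congrFun h2 k
      simp only [Pi.smul_apply, nsmul_eq_mul, Pi.zero_apply, Nat.cast_pow, mul_eq_zero] at this
      exact this.resolve_left (pow_ne_zero _ (by decide))
    obtain ⟨q, rfl⟩ := psi_range ι ▸ h.mem_Q hz e
    exact ⟨φ q, mem_TT (comm_B h (EE_comm (psi_E (q := qe1) (by simp)) (hN hx)).symm)
      (comm_B h (EE_comm (psi_E (q := qe2) (by simp)) (hN hx)).symm), rfl⟩
  obtain ⟨σ, c, t, -, e⟩ := hi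
  obtain ⟨c', t2, t3, e' | e'⟩ := n.ty x (hN hx) hz
  · obtain ⟨rfl, h2, -⟩ := mon_inj (e.symm.trans e')
    obtain rfl : c = 0 := congrFun h2 0
    exact k x hx hz t e
  · obtain ⟨rfl, h2, -⟩ := mon_inj (e.symm.trans e')
    obtain rfl : c = 1 := congrFun h2 0
    have w : ι w1 ∈ TT.map ι := ⟨_, w1_TT, rfl⟩
    obtain ⟨t', e2⟩ := mul_mon h hz (T_z _ w) e (act_w h)
    refine (mul_mem_cancel_right w).1 (k _ (mul_mem hx (hT w)) (hz.mul_left (T_z _ w)) t' ?_)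
    rw [e2, ← mon_rot]
    congr 1 <;> decide

theorem nin (n : NL ι) {x : G} (hx : x ∈ NN ι) (hz : Commute x (ι P8.z)) (hi : ¬ In ι x) :
    ∃ t, act (ι.comp φ) x = mon 1 ![0, 0, 1, 1] t ∨ act (ι.comp φ) x = mon τ0 ![1, 1, 0, 0] t := by
  obtain ⟨c, t2, t3, e | e⟩ := n.ty x hx hz
  · rcases (by decide : ∀ c : ZMod 2, c = 0 ∨ c = 1) c with rfl | rfl
    · exact absurd (in_of e (by decide) (by decide)) hi
    · exact ⟨_, .inl e⟩
  · rcases (by decide : ∀ c : ZMod 2, c = 0 ∨ c = 1) c with rfl | rfl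
    · exact ⟨_, .inr e⟩
    · exact absurd (in_of e (by decide) (by decide)) hi

theorem mul_in (h : St0 ι) (n : NL ι) {x y : G} (hx : x ∈ NN ι) (hz : Commute x (ι P8.z)) (hi : ¬ In ι x)
    (hy : y ∈ NN ι) (hz' : Commute y (ι P8.z)) (hi' : ¬ In ι y) : In ι (x * y) := by
  obtain ⟨t, e | e⟩ := nin n hx hz hi <;> obtain ⟨t', e' | e'⟩ := nin n hy hz' hi' <;>
    obtain ⟨t'', k⟩ := mul_mon h hz hz' e e' <;> exact in_of k (by decide) (by decide)

theorem maxN' [Finite G] (n : NL ι) {P1 : Subgroup G} (h1 : IsSylowIn 2 P1 (NN ι ⊓ centralizer {ι P8.z}))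
    (hT : TT.map ι ≤ P1) {P : Subgroup G} (hP : IsPGroup 2 P) (le : P1 ≤ P) (hN : P ≤ NN ι) : P = P1 := by
  have : Fact (Nat.Prime 2) := ⟨Nat.prime_two⟩
  by_contra hne
  obtain ⟨x, hx, hn, hx'⟩ := CL.Fus.exists_mem_normalizer_not_mem hP (lt_of_le_of_ne le (Ne.symm hne))
  have cT : ∀ s ∈ P1, Commute s (ι P8.z) := fun s hs => mem_centralizer_singleton_iff.1 (h1.1 hs).2
  have m : x * ι P8.z * x⁻¹ ∈ P1 := (mem_normalizer_iff.1 hn _).1 (hT ⟨_, T1_le z_T1, rfl⟩)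
  have cjz : IsConj (ι P8.z) (x * ι P8.z * x⁻¹) := isConj_iff.2 ⟨x, rfl⟩
  rcases n.u _ (h1.1 m).1 (cT _ m) (fun p hp => by
    have h1 : ι p ∈ P1 := hT ⟨p, T1_le (by
      simp only [List.mem_cons, List.not_mem_nil, or_false] at hp
      rcases hp with rfl | rfl | rfl | rfl <;> exact m1 _ (by simp)), rfl⟩
    have h2 := (cT _ ((mem_normalizer_iff.1 (inv_mem hn) _).1 h1)).eq
    have h3 : x * ι P8.z * x⁻¹ * ι p = ι p * (x * ι P8.z * x⁻¹) := by
      calc _ = x * (ι P8.z * (x⁻¹ * ι p * x⁻¹⁻¹)) * x⁻¹ := by group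
        _ = _ := by rw [← h2]; group
    rw [h3, mul_inv_cancel_right, mul_inv_cancel]
    exact one_mem _) with e | e
  · exact n.nE _ cjz e
  · have zz : ι P8.z * ι P8.z = 1 := by rw [← map_mul, q8s.zz, map_one]
    have h2 := n.nz _ e (by rwa [← mul_assoc, ← (cT _ m).eq, mul_assoc, zz, mul_one])
    rw [mul_eq_one_iff_eq_inv, inv_eq_of_mul_eq_one_right zz, mul_inv_eq_iff_eq_mul] at h2
    have h3 := h1.eq_of_le (U := P ⊓ centralizer {ι P8.z}) (hP.to_le inf_le_left)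
      (le_inf le (h1.1.trans inf_le_right)) (inf_le_inf_right _ hN)
    exact hx' (h3.le ⟨hx, mem_centralizer_singleton_iff.2 h2⟩)

theorem mem_Tb {x : NN ι} (hx : (x : G) ∈ TT.map ι) : (x : NB ι) ∈ Tb ι := by
  obtain ⟨y, hy, e⟩ := hx
  exact ⟨⟨y, TT_le hy⟩, hy, congrArg (QuotientGroup.mk' (EE ι))
    (show (⟨ι y, CE_NN ι (TT_le hy)⟩ : NN ι) = x from Subtype.ext e)⟩

end PTR1

open PTR1 in
theorem tr1 : TR1.{u} := by
  intro G _ _ ι s n
  have : Fact (Nat.Prime 2) := ⟨Nat.prime_two⟩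
  have h := s.st
  have cT : Nat.card (TT.map ι) = 256 := by rw [card_map_of_injective h.inj, card_TT]
  obtain ⟨P1, h1, hT⟩ := exists_isSylowIn_ge (IsPGroup.of_card (p := 2) (n := 8) cT) (H := NN ι ⊓ centralizer {ι P8.z})
    (le_inf T_le' fun x hx => mem_centralizer_singleton_iff.2 (T_z x hx))
  have hN : P1 ≤ NN ι := h1.1.trans inf_le_left
  have cz : ∀ x ∈ P1, Commute x (ι P8.z) := fun x hx => mem_centralizer_singleton_iff.1 (h1.1 hx).2
  let S' : Sylow 2 (NN ι) := ⟨P1.subgroupOf _, h1.2.1.comap_subtype, fun {P} hP le => by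
    have := maxN' n h1 hT (hP.map (NN ι).subtype) (by
      rw [← map_subgroupOf_eq_of_le hN]; exact map_mono le) (map_subtype_le _)
    rw [← this, ← comap_subtype, comap_map_eq_self_of_injective (subtype_injective _)]⟩
  have ni : ∀ x : NN ι, (x : G) ∈ P1 → (x : NB ι) ∉ Tb ι → ¬ In ι x := fun x hx k hi =>
    k (mem_Tb (inT h n h1.2.1 hT hN hx (cz _ hx) hi))
  have le : Tb ι ≤ S'.mapSurjective (QuotientGroup.mk'_surjective (EE ι)) := by
    rintro _ ⟨x, hx, rfl⟩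
    exact ⟨⟨ι x, CE_NN ι x.2⟩, hT ⟨x, hx, rfl⟩, rfl⟩
  refine ⟨S'.mapSurjective (QuotientGroup.mk'_surjective (EE ι)), le, ?_, ?_, fun ne => ?_⟩
  · rintro _ ⟨x, hx, rfl⟩
    rw [zb, ν_apply, QuotientGroup.mk'_apply, ← QuotientGroup.mk_mul, ← QuotientGroup.mk_mul]
    exact congrArg _ (Subtype.ext (cz _ hx))
  · rintro _ ⟨x, hx, rfl⟩ _ ⟨y, hy, rfl⟩ k1 k2
    rw [← map_mul]
    exact mem_Tb (x := x * y) (inT h n h1.2.1 hT hN (mul_mem hx hy) ((cz _ hx).mul_left (cz _ hy))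
      (mul_in h n x.2 (cz _ hx) (ni x hx k1) y.2 (cz _ hy) (ni y hy k2)))
  · obtain ⟨_, ⟨x, hx, rfl⟩, k⟩ := SetLike.exists_of_lt (lt_of_le_of_ne le (Ne.symm ne))
    exact ⟨x, x.2, cz _ hx, ni x hx k⟩

end CL.N9.P
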