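/-
Extraspecial `F*(C(z))` of order `2 ^ 9` (S1763): an outer element of `C(E) ∩ C(z)` gives a subgroup of index two
in `C(E) / E`.
-/
import Cfsg.Agent.N9.PD
import Cfsg.Agent.P8.NA

set_option autoImplicit false
set_option linter.unusedSectionVars false

namespace CL.N9.P

open Cfsg Subgroup CL.Even CL.Grp CL.WC CL.Cls CL.P8 Equiv

universe u

namespace PTR2

def σb (b : ZMod 2) : Perm (Fin 4) := if b = 0 then 1 else τ0
def εb (b : ZMod 2) : ZMod 3 := if b = 0 then 0 else 2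
def tm (b c : ZMod 2) (t2 t3 : ZMod 3) : V → V := mon (σb b) ![b, b, c, c] ![εb b, εb b, t2, t3]

theorem tm_mul (b c b' c' : ZMod 2) (t2 t3 t2' t3' : ZMod 3) :
    ∃ u2 u3, ∀ v, tm b c t2 t3 (tm b' c' t2' t3' v) = tm (b + b') (c + c') u2 u3 v := by
  obtain ⟨u2, u3, h1, h2, h3⟩ : ∃ u2 u3, σb b * σb b' = σb (b + b') ∧
      (fun k => ![b, b, c, c] k + ![b', b', c', c'] ((σb b)⁻¹ k)) = ![b + b', b + b', c + c', c + c'] ∧
      (fun k => ![εb b, εb b, t2, t3] k + (if ![b, b, c, c] k = 0 then 1 else -1) *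
        ![εb b', εb b', t2', t3'] ((σb b)⁻¹ k)) = ![εb (b + b'), εb (b + b'), u2, u3] := by
    revert b c b' c' t2 t3 t2' t3'; decide +kernel
  exact ⟨u2, u3, fun v => by rw [tm, tm, mon_mul, h1, h2, h3]; rfl⟩

theorem tm_sq (t2 t3 : ZMod 3) (v : V) : tm 0 1 t2 t3 (tm 0 1 t2 t3 v) = v := by
  revert t2 t3 v; decide +kernel

theorem tm_rot (t2 t3 : ZMod 3) : tm 0 0 t2 t3 = rot ![0, 0, t2, t3] :=
  funext fun v => funext fun k => by fin_cases k <;> rfl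

theorem tm_fix (t2 t3 u2 u3 : ZMod 3) (h1 : tm 1 1 u2 u3 (ea 2 + tm 1 0 t2 t3 (ea 2)) = ea 2 + tm 1 0 t2 t3 (ea 2))
    (h2 : tm 1 1 u2 u3 (eb 2 + tm 1 0 t2 t3 (eb 2)) = eb 2 + tm 1 0 t2 t3 (eb 2)) : False := by
  revert t2 t3 u2 u3; decide +kernel

theorem tm_red (t2 t3 : ZMod 3) (v : V) (h : tm 0 1 t2 t3 v = v) (h1 : B v qe1.v = 0) (h2 : B v qe2.v = 0) :
    ∃ r2 r3 : P2, B ![0, 0, r2, r3] qe1.v = 0 ∧ B ![0, 0, r2, r3] qe2.v = 0 ∧
      tm 0 1 t2 t3 ![0, 0, r2, r3] + v + ![0, 0, r2, r3] ∈ [0, qe1.v, qe2.v, qe1.v + qe2.v] := by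
  revert t2 t3 v; decide +kernel

theorem q_red (p : QM) (h : p.v ∈ [0, qe1.v, qe2.v, qe1.v + qe2.v]) :
    p ∈ [1, qe1, qe2, qe1 * qe2] ∨ p * zq ∈ [1, qe1, qe2, qe1 * qe2] := by
  revert p; decide +kernel

variable {G : Type u} [Group G] {ι : Γ0 →* G}

/-- the type of an element of `C(E) ∩ C(z)` -/
def Tp (ι : Γ0 →* G) (x : G) (b c : ZMod 2) : Prop := ∃ t2 t3, act (ι.comp φ) x = tm b c t2 t3

variable {x y : G} {b c b' c' : ZMod 2}

theorem Tp.uniq (h1 : Tp ι x b c) (h2 : Tp ι x b' c') : b = b' ∧ c = c' := by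
  obtain ⟨_, _, e⟩ := h1
  obtain ⟨_, _, e'⟩ := h2
  have := (mon_inj (e.symm.trans e')).2.1
  exact ⟨congrFun this 0, congrFun this 2⟩

theorem Tp.mul (h : St0 ι) (hx : Commute x (ι P8.z)) (hy : Commute y (ι P8.z)) (h1 : Tp ι x b c) (h2 : Tp ι y b' c') :
    Tp ι (x * y) (b + b') (c + c') := by
  obtain ⟨t2, t3, e⟩ := h1
  obtain ⟨t2', t3', e'⟩ := h2
  obtain ⟨u2, u3, k⟩ := tm_mul b c b' c' t2 t3 t2' t3'
  exact ⟨u2, u3, by rw [h.act_mul hx hy, e, e']; exact funext k⟩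

theorem tp_psi (h : St0 ι) (q : QM) : Tp ι ((ι.comp φ) q) 0 0 :=
  ⟨0, 0, funext fun v => (h.xq.act_psi q v).trans (funext fun k => by fin_cases k <;> rfl)⟩

theorem Tp.in_iff (h : Tp ι x b c) : In ι x ↔ b = c := by
  obtain ⟨t2, t3, e⟩ := h
  constructor
  · rintro ⟨σ, d, t, -, e'⟩
    have := (mon_inj (e.symm.trans e')).2.1
    exact (congrFun this 0).trans (congrFun this 2).symm
  · rintro rfl
    refine ⟨σb b, b, ![εb b, εb b, t2, t3], by clear e; revert b; decide +kernel, e.trans ?_⟩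
    rw [tm, show ![b, b, b, b] = fun _ => b from funext fun k => by fin_cases k <;> rfl]

theorem tp_ex (nl : NL ι) (hx : x ∈ NN ι) (hz : Commute x (ι P8.z)) : ∃ b c, Tp ι x b c := by
  obtain ⟨c, t2, t3, e | e⟩ := nl.ty x hx hz
  exacts [⟨0, c, t2, t3, e⟩, ⟨1, c, t2, t3, e⟩]

theorem E_Q (hx : x ∈ closure {ι e1, ι e2}) : x ∈ (ι.comp φ).range :=
  let ⟨q, _, e⟩ := NA.mem_E' hx; ⟨q, e.symm⟩

theorem mkE {m n : NN ι} (e : (m : NB ι) = n) : (m : G)⁻¹ * n ∈ closure {ι e1, ι e2} :=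
  (QuotientGroup.eq (s := EE ι)).1 e

theorem cψ (q : QM) : Commute ((ι.comp φ) q) (ι P8.z) := psi_z ι ▸ comm_z _ q

theorem ψB {p q : QM} (e : B p.v q.v = 0) : Commute ((ι.comp φ) p) ((ι.comp φ) q) := by
  rw [Commute, SemiconjBy, ← map_mul, ← map_mul, (QM.comm_iff p q).2 e]

theorem ψN {q : QM} (h1 : B q.v qe1.v = 0) (h2 : B q.v qe2.v = 0) : (ι.comp φ) q ∈ NN ι :=
  mem_NN.2 ⟨φ_e1 ▸ ψB h1, φ_e2 ▸ ψB h2⟩

theorem toQ (h : St0 ι) (hz : Commute x (ι P8.z)) (t : Tp ι x 0 0) (s : x * x ∈ (ι.comp φ).range) :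
    x ∈ (ι.comp φ).range := by
  obtain ⟨t2, t3, e⟩ := t
  rw [tm_rot] at e
  obtain ⟨q, hq⟩ := s
  have h1 := h.act_pow hz e 2
  rw [sq, ← hq] at h1
  have h2 := rot_eq_id fun v => (congrFun h1 v).symm.trans (h.xq.act_psi q v)
  have h3 : (![0, 0, t2, t3] : Fin 4 → ZMod 3) = 0 := by clear e h1; revert t2 t3; decide +kernel
  rw [psi_range]
  exact h.mem_Q hz (h3 ▸ e)

/-- `z` as an element of `N` -/
noncomputable def zN (ι : Γ0 →* G) : NN ι := ⟨ι P8.z, CE_NN ι z_CE⟩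

theorem zb_eq : zb ι = (zN ι : NB ι) := rfl

theorem zz : ι P8.z * ι P8.z = 1 := by rw [← map_mul, q8s.zz, map_one]

theorem zbb : zb ι * zb ι = 1 := by
  rw [zb_eq, ← QuotientGroup.mk_mul, show zN ι * zN ι = 1 from Subtype.ext zz, QuotientGroup.mk_one]

theorem cbar {m n : NN ι} (e : Commute (m : G) n) : Commute (m : NB ι) n :=
  (show Commute m n from Subtype.ext e.eq).map (QuotientGroup.mk' (EE ι))

theorem cconj {H : Type*} [Group H] {m g w : H} : Commute m (g * w * g⁻¹) ↔ Commute (g⁻¹ * m * g) w :=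
  ⟨fun e => by
    have := e.map (MulAut.conj g⁻¹)
    simpa [mul_assoc] using this, fun e => by
    have := e.map (MulAut.conj g)
    simpa [mul_assoc] using this⟩

theorem lift (nl : NL ι) {m g : NN ι} (e : Commute (m : NB ι) (g * zb ι * (g : NB ι)⁻¹)) :
    Commute (m : G) (g * ι P8.z * (g : G)⁻¹) :=
  cconj.2 (nl.cmk (g⁻¹ * m * g) (cconj.1 e).eq)

/-- the image of the inner elements -/
def Kb (h : St0 ι) (nl : NL ι) : Subgroup (NB ι) where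
  carrier := {w | ∃ x : NN ι, (x : NB ι) = w ∧ Commute (x : G) (ι P8.z) ∧ ∃ b, Tp ι x b b}
  one_mem' := ⟨1, rfl, .one_left _, 0, by simpa using tp_psi h 1⟩
  mul_mem' := by
    rintro _ _ ⟨x, rfl, hx, b, tx⟩ ⟨y, rfl, hy, c, ty⟩
    exact ⟨x * y, rfl, hx.mul_left hy, _, tx.mul h hx hy ty⟩
  inv_mem' := by
    rintro _ ⟨x, rfl, hx, b, tx⟩
    obtain ⟨b', c', t⟩ := tp_ex nl (x⁻¹).2 hx.inv_left
    have h1 := tx.mul h hx hx.inv_left t
    rw [mul_inv_cancel] at h1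
    obtain ⟨h2, h3⟩ := h1.uniq (by simpa using tp_psi h 1)
    obtain rfl : b' = c' := add_left_cancel (h2.trans h3.symm)
    exact ⟨x⁻¹, rfl, hx.inv_left, _, t⟩

theorem mem_Kb (h : St0 ι) (nl : NL ι) {x : NN ι} (hx : Commute (x : G) (ι P8.z)) (t : Tp ι x b c) :
    (x : NB ι) ∈ Kb h nl ↔ b = c := by
  refine ⟨fun ⟨y, e, _, d, ty⟩ => ?_, fun e => ⟨x, rfl, hx, b, e ▸ t⟩⟩
  obtain ⟨q, hq⟩ := E_Q (mkE e.symm)
  have h1 := t.mul h hx (cψ q) (tp_psi h q)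
  rw [hq, mul_inv_cancel_left, add_zero, add_zero] at h1
  obtain ⟨rfl, rfl⟩ := h1.uniq ty
  rfl

theorem it (h : St0 ι) (nl : NL ι) : IT (zb ι) (Kb h nl) := by
  refine ⟨?_, fun v hv w hw => ?_⟩
  · rintro _ ⟨x, rfl, hx, -⟩
    exact mem_centralizer_singleton_iff.2 (cbar (n := zN ι) hx).eq
  obtain ⟨x, rfl⟩ := QuotientGroup.mk_surjective v
  obtain ⟨y, rfl⟩ := QuotientGroup.mk_surjective w
  have hx := nl.cmk x (mem_centralizer_singleton_iff.1 hv)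
  have hy := nl.cmk y (mem_centralizer_singleton_iff.1 hw)
  obtain ⟨b, c, tx⟩ := tp_ex nl x.2 hx
  obtain ⟨b', c', ty⟩ := tp_ex nl y.2 hy
  rw [← QuotientGroup.mk_mul, mem_Kb h nl hx tx, mem_Kb h nl hy ty,
    mem_Kb h nl (x := x * y) (hx.mul_left hy) (tx.mul h hx hy ty)]
  clear tx ty
  revert b c b' c'; decide

variable [Finite G] (h : St0 ι) (nl : NL ι) (ty : Ty ι) (hres : pResidual 2 (NB ι) = ⊤)
include h nl ty hres

/-- a second conjugate of `z` -/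
theorem fx2 {t : G} (ht : t ∈ NN ι) (hz : Commute t (ι P8.z)) (h2 : t * t ∈ closure {ι e1, ι e2}) (tt : Tp ι t b c)
    (n : b ≠ c) : ∃ y ∈ NN ι, Tp ι y 1 1 ∧ y * y = 1 ∧ Commute y (ι P8.z) ∧ Commute t y ∧
      ∀ q, (ι.comp φ) q ∈ NN ι → Commute ((ι.comp φ) q) t → Commute y ((ι.comp φ) q) := by
  let T : NN ι := ⟨t, ht⟩
  let R : Subgroup (NB ι) := (((ι.comp φ).range.subgroupOf (NN ι)).map (QuotientGroup.mk' (EE ι))) ⊓
    centralizer {(T : NB ι)}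
  have hR : IsPGroup 2 R := ((((IsPGroup.of_card (n := 9) card_QM).of_surjective _
    (ι.comp φ).rangeRestrict_surjective).comap_subtype).map _).to_inf_left
  obtain ⟨g, g1, g2, g3, -⟩ := exists_fixed2 hres (it h nl) (s := (T : NB ι)) hR
    (by
      rintro _ ⟨⟨m, ⟨q, hq⟩, rfl⟩, -⟩
      exact cbar (n := zN ι) (show Commute (m : G) _ from (show (ι.comp φ) q = m from hq) ▸ cψ q))
    (fun r hr => mem_centralizer_singleton_iff.1 hr.2) (cbar (n := zN ι) hz)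
    (fun k => n ((mem_Kb h nl (x := T) hz tt).1 k))
    (by rw [← QuotientGroup.mk_mul]; exact (QuotientGroup.eq_one_iff _).2 h2)
  obtain ⟨g, rfl⟩ := QuotientGroup.mk_surjective g
  have k : ∀ q, (ι.comp φ) q ∈ NN ι → Commute ((ι.comp φ) q) t →
      Commute ((g : G) * ι P8.z * (g : G)⁻¹) ((ι.comp φ) q) := fun q m e =>
    (lift nl (m := ⟨_, m⟩) (g2 _ ⟨⟨⟨_, m⟩, ⟨q, rfl⟩, rfl⟩,
      mem_centralizer_singleton_iff.2 (cbar (m := ⟨_, m⟩) (n := T) e).eq⟩)).symm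
  have yz : Commute ((g : G) * ι P8.z * (g : G)⁻¹) (ι P8.z) :=
    psi_z ι ▸ k zq (psi_z ι ▸ (zN ι).2) (psi_z ι ▸ hz.symm)
  have yN : (g : G) * ι P8.z * (g : G)⁻¹ ∈ NN ι := (g * zN ι * g⁻¹).2
  have yy : (g : G) * ι P8.z * (g : G)⁻¹ * ((g : G) * ι P8.z * (g : G)⁻¹) = 1 := by
    rw [show (g : G) * ι P8.z * (g : G)⁻¹ * ((g : G) * ι P8.z * (g : G)⁻¹) = g * (ι P8.z * ι P8.z) * (g : G)⁻¹ by group,
      zz, mul_one, mul_inv_cancel]
  obtain ⟨d, d', td⟩ := tp_ex nl yN yz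
  obtain rfl : d = d' := td.in_iff.1 (ty _ (isConj_iff.2 ⟨g, rfl⟩) yz)
  refine ⟨_, yN, ?_, yy, yz, lift nl (m := T) g3, k⟩
  rcases z2_cases d with rfl | rfl
  · refine absurd ?_ g1
    have := nl.wc g g.2 (toQ h yz td (yy ▸ one_mem _))
    exact congrArg (QuotientGroup.mk' (EE ι)) (show g * zN ι * g⁻¹ = zN ι from Subtype.ext this)
  · exact td

theorem step1 {t : G} (ht : t ∈ NN ι) (hz : Commute t (ι P8.z)) (h2 : t * t ∈ closure {ι e1, ι e2}) : ¬ Tp ι t 1 0 := by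
  intro tt
  obtain ⟨y, -, ⟨u2, u3, ey⟩, -, yz, -, k⟩ := fx2 h nl ty hres ht hz h2 tt (by decide)
  obtain ⟨t2, t3, et⟩ := tt
  have key : ∀ p : QM, B p.v qe1.v = 0 → B p.v qe2.v = 0 → B p.v (tm 1 0 t2 t3 p.v) = 0 →
      tm 1 1 u2 u3 (p.v + tm 1 0 t2 t3 p.v) = p.v + tm 1 0 t2 t3 p.v := fun p b1 b2 b3 => by
    obtain ⟨e, he⟩ := h.xq.spec (cz' hz) p
    rw [et] at he
    have m := ψN (ι := ι) b1 b2
    have c1 := ψB (ι := ι) (p := p) (q := ⟨tm 1 0 t2 t3 p.v, e⟩) b3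
    have c2 := (EE_comm h2 m).eq
    have := NA.fixv h yz (k (p * ⟨tm 1 0 t2 t3 p.v, e⟩) (by
      rw [map_mul, ← he]; exact mul_mem m (mul_mem (mul_mem ht m) (inv_mem ht))) (by
      rw [map_mul]
      rw [← he] at c1 ⊢
      generalize (ι.comp φ) p = w at c1 c2
      calc w * (t * w * t⁻¹) * t = t * w * t⁻¹ * w * t := by rw [c1.eq]
        _ = t * w * t⁻¹ * (w * (t * t)) * t⁻¹ := by group
        _ = t * (w * (t * w * t⁻¹)) := by rw [c2]; group))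
    rwa [ey] at this
  exact tm_fix t2 t3 u2 u3 (key (aq 2) (by decide +kernel) (by decide +kernel) (by
    clear key et; revert t2 t3; decide +kernel)) (key (bq 2) (by decide +kernel) (by decide +kernel) (by
    clear key et; revert t2 t3; decide +kernel))

theorem step2 {t : G} (ht : t ∈ NN ι) (hz : Commute t (ι P8.z)) (h2 : t * t ∈ closure {ι e1, ι e2}) (tt : Tp ι t b c) :
    b = c := by
  by_contra n
  obtain ⟨rfl, rfl⟩ | ⟨rfl, rfl⟩ : (b = 1 ∧ c = 0) ∨ (b = 0 ∧ c = 1) := by clear tt; revert b c; decide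
  · exact step1 h nl ty hres ht hz h2 tt
  obtain ⟨y, hy, t1, yy, yz, k, -⟩ := fx2 h nl ty hres ht hz h2 tt n
  refine step1 h nl ty hres (mul_mem ht hy) (hz.mul_left yz) ?_ (tt.mul h hz yz t1)
  rwa [k.symm.mul_mul_mul_comm, yy, mul_one]

theorem small (w : NB ι) (hw : Commute w (zb ι)) (o : orderOf w < 4) : w ∈ Kb h nl := by
  have hp := orderOf_pos w
  have h0 := pow_orderOf_eq_one w
  by_cases h3 : orderOf w = 3
  · have m : w * w ∈ centralizer {zb ι} := mem_centralizer_singleton_iff.2 (hw.mul_left hw).eq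
    have := ((it h nl).mul_iff _ m _ m).2 Iff.rfl
    rwa [show w * w * (w * w) = w ^ 3 * w by simp only [pow_succ, pow_zero, one_mul, mul_assoc], ← h3, h0,
      one_mul] at this
  have h2 : w * w = 1 := by
    rw [← sq]
    exact orderOf_dvd_iff_pow_eq_one.1 (by
      obtain e | e : orderOf w = 1 ∨ orderOf w = 2 := by omega
      all_goals simp [e])
  obtain ⟨x, rfl⟩ := QuotientGroup.mk_surjective w
  have hx := nl.cmk x hw.eq
  obtain ⟨b, c, tx⟩ := tp_ex nl x.2 hx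
  exact (mem_Kb h nl hx tx).2 (step2 h nl ty hres x.2 hx ((QuotientGroup.eq_one_iff (x * x)).1 h2) tx)

theorem step3 (hx : x ∈ NN ι) (hz : Commute x (ι P8.z)) : ¬ Tp ι x 0 1 := by
  intro tx
  obtain ⟨t2, t3, e⟩ := id tx
  obtain ⟨p, hp⟩ := h.xq.cq (x * x) (cz' (hz.mul_left hz)) fun v => by rw [h.act_mul hz hz, e]; exact tm_sq t2 t3 v
  have pN : (ι.comp φ) p ∈ NN ι := hp ▸ mul_mem hx hx
  obtain ⟨r2, r3, b1, b2, hr⟩ := tm_red t2 t3 p.v
    (e ▸ NA.fixv h hz (hp ▸ (Commute.refl x).mul_right (.refl x)))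
    (NA.comm_B h (EE_comm (NA.psi_E (q := qe1) (by simp)) pN)) (NA.comm_B h (EE_comm (NA.psi_E (q := qe2) (by simp)) pN))
  let r : QM := ⟨![0, 0, r2, r3], 0⟩
  obtain ⟨f, hf⟩ := h.xq.spec (cz' hz) r
  let X : NN ι := ⟨x * (ι.comp φ) r, mul_mem hx (ψN b1 b2)⟩
  have Xz : Commute (X : G) (ι P8.z) := hz.mul_left (cψ r)
  have tX : Tp ι X 0 1 := tx.mul h hz (cψ r) (tp_psi h r)
  have XX : (X : G) * X = (ι.comp φ) (⟨act (ι.comp φ) x r.v, f⟩ * p * r) := by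
    rw [map_mul, map_mul, ← hf, hp]
    simp only [X]
    group
  rcases q_red (⟨act (ι.comp φ) x r.v, f⟩ * p * r) (by rw [e]; exact hr) with m | m
  · exact absurd (step2 h nl ty hres X.2 Xz (XX ▸ NA.psi_E m) tX) (by decide)
  have m1 : (X : NB ι) * X * zb ι = 1 := by
    have := NA.psi_E (ι := ι) m
    rw [map_mul, ← XX, psi_z] at this
    exact (QuotientGroup.eq_one_iff (X * X * zN ι)).2 this
  have m2 : (X : NB ι) * X = zb ι := mul_right_cancel (m1.trans zbb.symm)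
  have m4 : orderOf (X : NB ι) ∣ 2 ^ 2 := orderOf_dvd_iff_pow_eq_one.2 (by
    rw [sq 2, pow_mul, sq, sq, m2, zbb])
  obtain ⟨g, g1, -, g3, -⟩ := exists_fixed hres (it h nl) (s := (X : NB ι)) (R := ⊥) IsPGroup.of_bot
    (fun r hr => mem_bot.1 hr ▸ .one_left _) (fun r hr => mem_bot.1 hr ▸ .one_left _) (cbar (n := zN ι) Xz)
    (fun k => absurd ((mem_Kb h nl Xz tX).1 k) (by decide))
    (let ⟨k, _, hk⟩ := (Nat.dvd_prime_pow Nat.prime_two).1 m4; ⟨k, hk⟩)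
    fun t ht o => small h nl ty hres t ht (o.trans_le (Nat.le_of_dvd (by norm_num) m4))
  obtain ⟨g, rfl⟩ := QuotientGroup.mk_surjective g
  let s : NN ι := g⁻¹ * X * g
  have sz : Commute (s : G) (ι P8.z) := nl.cmk s (cconj.1 g3).eq
  obtain ⟨d, d', ts⟩ := tp_ex nl s.2 sz
  have t0 := ts.mul h sz sz ts
  rw [z2_add_self, z2_add_self] at t0
  have s2 : ((s * s : NN ι) : NB ι) = (g⁻¹ * zN ι * g⁻¹⁻¹ : NN ι) := by
    simp only [s, QuotientGroup.mk_mul, QuotientGroup.mk_inv, ← zb_eq, ← m2]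
    group
  have s4 : ((s * s * (s * s) : NN ι) : NB ι) = 1 := by
    rw [QuotientGroup.mk_mul, s2]
    simp only [QuotientGroup.mk_mul, QuotientGroup.mk_inv, ← zb_eq]
    calc _ = (g : NB ι)⁻¹ * (zb ι * zb ι) * g := by group
      _ = 1 := by rw [zbb]; group
  have q1 : ((s * s : NN ι) : G) ∈ (ι.comp φ).range :=
    toQ h (sz.mul_left sz) t0 (E_Q ((QuotientGroup.eq_one_iff (N := EE ι) _).1 s4))
  have q2 := mul_mem q1 (E_Q (mkE s2))
  rw [mul_inv_cancel_left] at q2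
  have q3 : g⁻¹ * zN ι * g⁻¹⁻¹ = zN ι := Subtype.ext (nl.wc _ (g⁻¹).2 q2)
  have q4 : g * zN ι * g⁻¹ = zN ι := by
    conv_lhs => rw [← q3]
    group
  exact g1 (congrArg (QuotientGroup.mk' (EE ι)) q4)

end PTR2

open PTR2 in
theorem tr2 : TR2.{u} := by
  intro G _ _ ι hs nl ty x hx hz hn hres
  obtain ⟨b, c, tx⟩ := tp_ex nl hx hz
  rw [tx.in_iff] at hn
  obtain ⟨rfl, rfl⟩ | ⟨rfl, rfl⟩ : (b = 1 ∧ c = 0) ∨ (b = 0 ∧ c = 1) := by clear tx; revert b c; decide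
  · have wz := (NA.TT_z NA.w1_TT).map ι
    have tw : Tp ι (ι w1) 1 1 := ⟨2, 2, (act_w1 hs.st.inj).trans (by
      funext v; revert v; decide +kernel)⟩
    exact step3 hs.st nl ty hres (mul_mem hx (CE_NN ι (TT_le NA.w1_TT))) (hz.mul_left wz) (tx.mul hs.st hz wz tw)
  · exact step3 hs.st nl ty hres hx hz tx

end CL.N9.P
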