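/-
S1763, the configuration with 81 points: the Sylow 2-subgroup of `O²(N / E)`.
-/
import Cfsg.Agent.N9.PD
import Cfsg.Agent.P8.NB
import Cfsg.Agent.Grp.SylowIn

set_option autoImplicit false
set_option linter.unusedSectionVars false

namespace CL.N9.P

open Cfsg Subgroup CL.Grp CL.P8 CL.P8.NBa

universe u

namespace PTR3

theorem le {G : Type u} [Group G] [Finite G] {ι : Γ0 →* G} {k : G} (hk : Kap ι k) : Tb ι ≤ MB ι := by
  have hd : d3 ∈ ov ι (pResidual 2 _) := (mem_ov mc).2 (mem_pResidual_of_coprime (cop d_cube))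
  have r1 : d3 * (b 2 * d3⁻¹ * (b 2)⁻¹) = a 2 :=
    rel (X.d3 * (X.b 2 * X.d3⁻¹ * (X.b 2)⁻¹)) (X.a 2) (by decide +kernel)
  have r2 : d3 * (b 3 * d3⁻¹ * (b 3)⁻¹) = a 3 :=
    rel (X.d3 * (X.b 3 * X.d3⁻¹ * (X.b 3)⁻¹)) (X.a 3) (by decide +kernel)
  have r3 : d3 * a 2 * d3⁻¹ = b 2 := rel (X.d3 * X.a 2 * X.d3⁻¹) (X.b 2) (by decide +kernel)
  have r4 : d3 * a 3 * d3⁻¹ = b 3 := rel (X.d3 * X.a 3 * X.d3⁻¹) (X.b 3) (by decide +kernel)
  have a2 : a 2 ∈ ov ι (pResidual 2 _) := by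
    rw [← r1]; exact mul_mem hd (conj_ov (x := b 2) (mc (i := 6)) (inv_mem hd))
  have a3 : a 3 ∈ ov ι (pResidual 2 _) := by
    rw [← r2]; exact mul_mem hd (conj_ov (x := b 3) (mc (i := 7)) (inv_mem hd))
  have b2 : b 2 ∈ ov ι (pResidual 2 _) := by rw [← r3]; exact conj_ov (x := d3) mc a2
  have b3 : b 3 ∈ ov ι (pResidual 2 _) := by rw [← r4]; exact conj_ov (x := d3) mc a3
  have hz : P8.z ∈ ov ι (pResidual 2 _) := q8s.aa 2 ▸ mul_mem a2 a2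
  have he : ∀ {e : Γ0} (h : e ∈ CE), ι e ∈ ({ι e1, ι e2} : Set G) → e ∈ ov ι (pResidual 2 _) := fun {e} h m =>
    (mem_ov h).2 (by
      rw [ν_apply, (QuotientGroup.eq_one_iff (N := EE ι) ⟨ι e, CE_NN ι h⟩).2 (subset_closure m)]; exact one_mem _)
  have hT : TT ≤ ov ι (pResidual 2 _) := gen_le (by
    simp only [List.forall_mem_cons]
    exact ⟨he mc (by simp), he mc (by simp), a2, b2, a3, b3, w_ov hk ((mem_ov z_CE).1 hz), by simp⟩)
  rintro _ ⟨x, hx, rfl⟩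
  exact (mem_ov x.2).1 (hT hx)

end PTR3

theorem tr3 (h1 : TR1.{u}) (h2 : TR2.{u}) : TR3.{u} := by
  intro G _ _ ι hS hN hT k hk
  obtain ⟨P, hP, hc, hm, hx⟩ := h1 G ι hS hN
  have hle := PTR3.le hk
  have e : (P : Subgroup (NB ι)) ⊓ MB ι = Tb ι := by
    refine le_antisymm (fun r hr => by_contra fun hr' => ?_) (le_inf hP hle)
    obtain ⟨x, x1, x2, x3⟩ := hx fun e => hr' (e ▸ hr.1)
    refine h2 G ι hS hN hT x x1 x2 x3 ?_
    rw [← pResidual_sup_sylow P, left_eq_sup]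
    intro s hs
    by_cases k : s ∈ Tb ι
    · exact hle k
    · exact ((MB ι).mul_mem_cancel_left hr.2).1 (hle (hm r hr.1 s hs hr' k))
  refine ⟨hle, e ▸ (isSylowIn_inf_normal P (MB ι)).2.2, fun a ha => ?_⟩
  obtain ⟨c, rfl⟩ := isConj_iff.1 ha
  obtain ⟨m, hm, s, hs, rfl⟩ := exists_pResidual_mul_sylow P c
  refine ⟨m, hm, ?_⟩
  rw [mul_assoc m s, hc s hs]; group

end CL.N9.P
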