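/-
Extraspecial `F*(C(z))` of order `2 ^ 9`, 81 points (helper90, job of helper14): the conjugates of `z` in `C(z)` are inner.
-/
import Cfsg.Agent.N9.PD

set_option autoImplicit false
set_option linter.unusedSectionVars false

namespace CL.N9.P

open Cfsg Subgroup CL.Even CL.Grp CL.WC CL.Cls CL.P8 Equiv

universe u

namespace PTYx

theorem mon_injective (σ : Perm (Fin 4)) (s : Fin 4 → ZMod 2) (t : Fin 4 → ZMod 3) {v w : V}
    (h : mon σ s t v = mon σ s t w) : v = w := funext fun k => by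
  have := (by decide +kernel : ∀ (s : ZMod 2) (t : ZMod 3) (p q : P2),
    R2^[t.val] (Sw^[s.val] p) = R2^[t.val] (Sw^[s.val] q) → p = q) _ _ _ _ (congrFun h (σ k))
  simpa using this

theorem dd_eq (v : V) : dd v = mon 1 ![0, 0, 1, 1] 0 v := by
  funext k; fin_cases k <;> rfl

theorem tt_eq (v : V) : tt v = mon τ0 0 0 v := by
  funext k; fin_cases k <;> rfl

theorem invol : ∀ σ : Perm (Fin 4), σ * σ = 1 → InV4 σ ∨ ((∃ x y, x ≠ y ∧ σ = swap x y) ∧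
    ∀ s : Fin 4 → ZMod 2, (∀ k, s k + s (σ⁻¹ k) = 0) → s 0 + s 1 + s 2 + s 3 = 0 →
      ∃ k l, k ≠ l ∧ σ k = k ∧ σ l = l ∧ s k = s l) := by decide +kernel

theorem diag : ∀ s : Fin 4 → ZMod 2, s 0 + s 1 + s 2 + s 3 = 0 → (∃ c, s = fun _ => c) ∨
    ∃ π : Perm (Fin 4), ∀ k, s k = ![0, 0, 1, 1] (π⁻¹ k) := by decide +kernel

theorem dbl : ∀ σ : Perm (Fin 4), InV4 σ → σ ≠ 1 → (∃ π : Perm (Fin 4), σ * π = π * τ0) ∧
    ∀ k, (σ⁻¹ k < k ∧ ¬ σ⁻¹ (σ⁻¹ k) < σ⁻¹ k) ∨ (¬ σ⁻¹ k < k ∧ σ⁻¹ (σ⁻¹ k) < σ⁻¹ k) := by decide +kernel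

theorem sup4 : ∀ v : V, P8.sup v = 4 → ∃ u, rot u qzp.v = v := by decide +kernel

theorem fixe : ∀ e : ZMod 2, ∃ p : QM, p * qzp * p⁻¹ = ⟨qzp.v, e⟩ := fun e => by
  rcases z2_cases e with rfl | rfl
  exacts [⟨1, by decide +kernel⟩, ⟨aq 0, by decide +kernel⟩]

theorem conj_dd {s : Fin 4 → ZMod 2} {t : Fin 4 → ZMod 3} {π : Perm (Fin 4)} (hs : ∀ k, s k = ![0, 0, 1, 1] (π⁻¹ k))
    (ht : ∀ k, t k + (if s k = 0 then 1 else -1) * t k = 0) (v : V) :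
    mon 1 s t (mon π 0 (-t) v) = mon π 0 (-t) (dd v) := by
  rw [dd_eq, mon_mul, mon_mul, one_mul, mul_one]
  congr 1
  · funext k; rw [hs k, Pi.zero_apply, Pi.zero_apply, add_zero, zero_add]
  · funext k
    exact (by decide +kernel : ∀ (a : ZMod 2) (b : ZMod 3), b + (if a = 0 then 1 else -1) * b = 0 →
      b + (if a = 0 then 1 else -1) * -b = -b + (if (0 : ZMod 2) = 0 then 1 else -1) * 0) _ _ (ht k)

theorem conj_tt {σ : Perm (Fin 4)} {s : Fin 4 → ZMod 2} {t : Fin 4 → ZMod 3} (h : InV4 σ) (h1 : σ ≠ 1)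
    (hs : ∀ k, s k + s (σ⁻¹ k) = 0) (ht : ∀ k, t k + (if s k = 0 then 1 else -1) * t (σ⁻¹ k) = 0) :
    ∃ π s' t', ∀ v, mon σ s t (mon π s' t' v) = mon π s' t' (tt v) := by
  obtain ⟨⟨π, hπ⟩, hk⟩ := dbl σ h h1
  refine ⟨π, fun k => if σ⁻¹ k < k then s k else 0, fun k => if σ⁻¹ k < k then t k else 0, fun v => ?_⟩
  rw [tt_eq, mon_mul, mon_mul, hπ]
  congr 1
  · funext k
    rcases hk k with ⟨a, b⟩ | ⟨a, b⟩
    · simp only [if_pos a, if_neg b, Pi.zero_apply]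
    · simp only [if_neg a, if_pos b, Pi.zero_apply, hs k, add_zero]
  · funext k
    rcases hk k with ⟨a, b⟩ | ⟨a, b⟩
    · simp only [if_pos a, if_neg b, Pi.zero_apply, mul_zero]
    · simp only [if_neg a, if_pos b, Pi.zero_apply, ht k, mul_zero, add_zero]

variable {G : Type u} [Group G] [Finite G]

theorem back {ι : Γ0 →* G} (S : S81 ι) {y t0 : G} (hy : Commute y (ι P8.z)) (n : Nb (ι P8.z) t0) (h : y ∈ QQ t0) :
    In ι y := by
  have w := S.w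
  have cz : ∀ {x : G}, Commute x (ι P8.z) → Commute x ((ι.comp φ) zq) := fun h => w.hz.symm ▸ h
  obtain ⟨q, rfl⟩ : t0 ∈ (ι.comp φ).range := w.hQ.symm ▸ n.mem
  obtain ⟨u, hu⟩ := sup4 _ (((w.hsup q).1 n.ic).resolve_left fun e => n.ne (by rw [e, w.hz]))
  obtain ⟨c0, c0z, hc0⟩ := w.hrot u
  obtain ⟨e, he⟩ := w.xq.spec (cz c0z.inv_left) q
  obtain ⟨p, hp⟩ := fixe e
  rw [← hu, ← hc0, w.xq.act_inv (cz c0z), ← hp, map_mul, map_mul, map_inv] at he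
  have pz : Commute ((ι.comp φ) p) (ι P8.z) := w.hz ▸ comm_z _ p
  have cz1 := c0z.mul_left pz
  have e1 : (ι.comp φ) q = c0 * (ι.comp φ) p * ι zp * (c0 * (ι.comp φ) p)⁻¹ := by
    rw [← φ_zp, ← MonoidHom.comp_apply ι φ qzp]
    calc _ = c0 * (c0⁻¹ * (ι.comp φ) q * c0⁻¹⁻¹) * c0⁻¹ := by group
      _ = _ := by rw [he]; group
  have ac : ∀ v, act (ι.comp φ) (c0 * (ι.comp φ) p) v = mon 1 0 u v := fun v => by
    rw [w.xq.act_mul (cz c0z) (cz pz), w.xq.act_psi, hc0, mon_rot]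
  generalize c0 * (ι.comp φ) p = c at cz1 e1 ac
  have hz2 : Commute (c⁻¹ * y * c) (ι P8.z) := (cz1.inv_left.mul_left hy).mul_left cz1
  obtain ⟨σ', b, t', h4, ha⟩ := S.Lz (c⁻¹ * y * c) ((conj_mem_QQ (g := c)).1 (by
    rw [← e1, show c * (c⁻¹ * y * c) * c⁻¹ = y by group]; exact h)) hz2
  obtain ⟨σ, s, t, -, hm⟩ := w.mono y hy
  have k : ∀ v, mon σ s t (mon 1 0 u v) = mon 1 0 u (mon σ' (fun _ => b) t' v) := fun v => by
    rw [← hm, ← ha, ← ac, ← ac, ← w.xq.act_mul (cz hy) (cz cz1), ← w.xq.act_mul (cz cz1) (cz hz2)]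
    congr 1; group
  simp only [mon_mul] at k
  obtain ⟨k1, k2, -⟩ := mon_inj (funext k)
  rw [mul_one, one_mul] at k1
  refine ⟨σ, b, t, k1 ▸ h4, hm.trans ?_⟩
  congr 1
  funext i
  simpa using congrFun k2 i

end PTYx

open PTYx in
theorem ty (r : RE.{u}) (n : NRW.{u}) (c : C2.{u}) (a : A4.{u}) : TY.{u} := by
  intro G _ _ ι S y ic hy
  have w := S.w
  have cz : Commute y ((ι.comp φ) zq) := w.hz.symm ▸ hy
  obtain ⟨σ, s, t, h0, hm⟩ := w.mono y hy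
  have k : ∀ v, mon σ s t (mon σ s t v) = mon 1 0 0 v := fun v => by
    rw [← hm, ← w.xq.act_mul cz cz, (w.hy.of ic).zz, w.xq.act_one, mon_one]
  simp only [mon_mul] at k
  obtain ⟨k1, k2, k3⟩ := mon_inj (funext k)
  rcases invol σ k1 with h4 | ⟨h1, h2⟩
  · by_cases e : σ = 1
    · subst e
      rcases diag s h0 with ⟨b, rfl⟩ | ⟨π, hπ⟩
      · exact ⟨1, b, t, h4, hm⟩
      · obtain ⟨ψ', w', h'⟩ := r G _ _ w π 0 (-t)
        refine absurd (funext fun v => mon_injective π 0 (-t) ?_) (c G _ ψ' w' y ic hy)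
        rw [← h' y hy, hm, conj_dd hπ (congrFun k3)]
    · obtain ⟨π, s', t', hc⟩ := conj_tt h4 e (congrFun k2) (congrFun k3)
      obtain ⟨ψ', w', h'⟩ := r G _ _ w π s' t'
      obtain ⟨t0, n0, m0⟩ := a G _ ψ' w' y ic hy (funext fun v => mon_injective π s' t' (by rw [← h' y hy, hm, hc]))
      exact back S hy n0 m0
  · obtain ⟨i, j, h3, h4, h5, h6⟩ := h2 s (congrFun k2) h0
    exact absurd h6 (n G _ _ w y hy σ s t hm h1 i j h3 h4 h5)

end CL.N9.P
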